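import Mathlib
import Cfsg.Prelude.Def_RootSubgroups

set_option autoImplicit false

namespace Cfsg.Agent.Lib.Helper1.A6Inv

open Equiv Cfsg

/-- the reference involution -/
def a0 : Perm (Fin 6) := swap 0 1 * swap 2 3

set_option maxRecDepth 100000 in
theorem pow_le : ∀ σ : Perm (Fin 6),
    (σ ^ 2 = 1 ∨ σ ^ 3 = 1 ∨ σ ^ 4 = 1 ∨ σ ^ 5 = 1) ∨ Perm.sign σ ≠ 1 := by
  decide +kernel

set_option maxRecDepth 100000 in
theorem conj0 : ∀ σ : Perm (Fin 6), σ ≠ 1 → σ ^ 2 = 1 → Perm.sign σ = 1 →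
    ∃ τ : Perm (Fin 6), σ = τ * a0 * τ⁻¹ ∧ Perm.sign τ = 1 := by
  decide +kernel

theorem a0_props : a0 ≠ 1 ∧ a0 ^ 2 = 1 ∧ Perm.sign a0 = 1 := by decide +kernel

/-- the group -/
abbrev G : Type := ↥(alternatingGroup (Fin 6))

/-- the involutions -/
def D : Set G := {g : G | orderOf g = 2}

theorem pow_eq (g : G) (k : ℕ) (h : g.1 ^ k = 1) : g ^ k = 1 := by
  apply Subtype.ext
  rw [Subgroup.coe_pow, h]
  rfl

theorem order_cases (g : G) :
    orderOf g = 1 ∨ orderOf g = 2 ∨ orderOf g = 3 ∨ orderOf g = 4 ∨ orderOf g = 5 := by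
  have hs : Perm.sign g.1 = 1 := Perm.mem_alternatingGroup.mp g.2
  have h := pow_le g.1
  have hk : ∃ k, 1 ≤ k ∧ k ≤ 5 ∧ g ^ k = 1 := by
    rcases h with (h | h | h | h) | h
    · exact ⟨2, by norm_num, by norm_num, pow_eq g 2 h⟩
    · exact ⟨3, by norm_num, by norm_num, pow_eq g 3 h⟩
    · exact ⟨4, by norm_num, by norm_num, pow_eq g 4 h⟩
    · exact ⟨5, by norm_num, by norm_num, pow_eq g 5 h⟩
    · exact absurd hs h
  obtain ⟨k, hk1, hk5, hk⟩ := hk
  have hd := orderOf_dvd_of_pow_eq_one hk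
  have hle := Nat.le_of_dvd (by omega) hd
  have hpos := orderOf_pos g
  omega

theorem sq_of_mem (g : G) (hg : g ∈ D) : g ^ 2 = 1 := by
  have h : orderOf g = 2 := hg
  rw [← h]
  exact pow_orderOf_eq_one g

theorem ne_of_mem (g : G) (hg : g ∈ D) : g ≠ 1 := by
  have h : orderOf g = 2 := hg
  intro h1
  rw [h1, orderOf_one] at h
  omega

theorem conj_mem (d : G) (hd : d ∈ D) (g : G) : g * d * g⁻¹ ∈ D := by
  have h : orderOf d = 2 := hd
  show orderOf (MulAut.conj g d) = 2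
  rw [MulEquiv.orderOf_eq]
  exact h

/-- the reference involution in the group -/
def a0G : G := ⟨a0, Perm.mem_alternatingGroup.mpr a0_props.2.2⟩

theorem a0G_mem : a0G ∈ D := by
  show orderOf a0G = 2
  apply orderOf_eq_prime
  · exact pow_eq a0G 2 a0_props.2.1
  · intro h
    exact a0_props.1 (congrArg Subtype.val h)

theorem gen : Subgroup.closure D = ⊤ := by
  haveI : IsSimpleGroup G := alternatingGroup.isSimpleGroup (by simp)
  have hconj : Group.conjugatesOfSet D = D := by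
    apply Set.Subset.antisymm
    · intro x hx
      rw [Group.mem_conjugatesOfSet_iff] at hx
      obtain ⟨d, hd, hc⟩ := hx
      obtain ⟨g, rfl⟩ := isConj_iff.mp hc
      exact conj_mem d hd g
    · exact Group.subset_conjugatesOfSet
  have hn : (Subgroup.closure D).Normal := by
    have h := Subgroup.normalClosure_normal (s := D)
    unfold Subgroup.normalClosure at h
    rw [hconj] at h
    exact h
  rcases hn.eq_bot_or_eq_top with h | h
  · exfalso
    have hmem : a0G ∈ Subgroup.closure D := Subgroup.subset_closure a0G_mem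
    rw [h, Subgroup.mem_bot] at hmem
    exact ne_of_mem a0G a0G_mem hmem
  · exact h

theorem pair (a b : G) (ha : a ∈ D) (hb : b ∈ D) :
    a * b = b * a ∨ Odd (orderOf (a * b)) ∨ (orderOf (a * b) = 4 ∧ (a * b) ^ 2 ∈ D) := by
  rcases order_cases (a * b) with h | h | h | h | h
  · right; left
    rw [h]
    exact ⟨0, rfl⟩
  · left
    have h1 : (a * b) ^ 2 = 1 := by
      rw [← h]
      exact pow_orderOf_eq_one _
    have ha2 := sq_of_mem a ha
    have hb2 := sq_of_mem b hb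
    rw [sq] at h1 ha2 hb2
    have h3 : a * b = (a * b)⁻¹ := eq_inv_of_mul_eq_one_left h1
    have ha' : a⁻¹ = a := inv_eq_of_mul_eq_one_left ha2
    have hb' : b⁻¹ = b := inv_eq_of_mul_eq_one_left hb2
    rw [h3, mul_inv_rev, ha', hb']
  · right; left
    rw [h]
    exact ⟨1, rfl⟩
  · right; right
    refine ⟨h, ?_⟩
    show orderOf ((a * b) ^ 2) = 2
    rw [orderOf_pow' _ (by norm_num), h]
    rfl
  · right; left
    rw [h]
    exact ⟨2, rfl⟩

theorem conj_all (a b : G) (ha : a ∈ D) (hb : b ∈ D) : ∃ g : G, b = g * a * g⁻¹ := by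
  have key : ∀ x : G, x ∈ D → ∃ τ : Perm (Fin 6), x.1 = τ * a0 * τ⁻¹ ∧ Perm.sign τ = 1 := by
    intro x hx
    apply conj0 x.1
    · intro h
      exact ne_of_mem x hx (Subtype.ext h)
    · have h := congrArg Subtype.val (sq_of_mem x hx)
      rw [Subgroup.coe_pow] at h
      exact h
    · exact Perm.mem_alternatingGroup.mp x.2
  obtain ⟨τ1, h1, s1⟩ := key a ha
  obtain ⟨τ2, h2, s2⟩ := key b hb
  refine ⟨⟨τ2 * τ1⁻¹, ?_⟩, ?_⟩
  · rw [Perm.mem_alternatingGroup, map_mul, map_inv, s1, s2]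
    rfl
  · apply Subtype.ext
    show b.1 = τ2 * τ1⁻¹ * a.1 * (τ2 * τ1⁻¹)⁻¹
    rw [h1, h2]
    group

theorem main : Cfsg.IsRootInvolutionClass D ∧ ∀ d ∈ D, ∀ e ∈ D, orderOf (d * e) ≤ 5 := by
  refine ⟨⟨⟨fun d hd => hd, gen, conj_mem, fun a ha b hb => pair a b ha hb⟩, ⟨a0G, a0G_mem⟩,
    fun a ha b hb => conj_all a b ha hb⟩, ?_⟩
  intro d _ e _
  rcases order_cases (d * e) with h | h | h | h | h <;> omega

end Cfsg.Agent.Lib.Helper1.A6Inv
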