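import Mathlib
import Cfsg.Prelude.Def_Classical

namespace Cfsg.Agent.Lib.Helper1.Orth

variable {F : Type*} [Field F]

section general

variable {V V' : Type*} [AddCommGroup V] [Module F V] [AddCommGroup V'] [Module F V']

def OQ (Q : V → F) : Subgroup (V ≃ₗ[F] V) where
  carrier := {g | ∀ v, Q (g v) = Q v}
  mul_mem' := by
    intro a b ha hb v
    rw [LinearEquiv.mul_apply, ha, hb]
  one_mem' := fun v => rfl
  inv_mem' := by
    intro a ha v
    have h1 := ha (a⁻¹ v)
    rw [← h1]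
    congr 1
    exact LinearEquiv.apply_symm_apply a v

theorem mem_OQ {Q : V → F} {g : V ≃ₗ[F] V} : g ∈ OQ Q ↔ ∀ v, Q (g v) = Q v := Iff.rfl

def conjIso (φ : V ≃ₗ[F] V') : (V ≃ₗ[F] V) ≃* (V' ≃ₗ[F] V') where
  toFun g := (φ.symm.trans g).trans φ
  invFun g := (φ.trans g).trans φ.symm
  left_inv g := by ext v; simp
  right_inv g := by ext v; simp
  map_mul' g h := by ext v; simp [LinearEquiv.mul_apply]

theorem conjIso_apply (φ : V ≃ₗ[F] V') (g : V ≃ₗ[F] V) (v : V') :
    conjIso φ g v = φ (g (φ.symm v)) := rfl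

theorem conjIso_symm_apply (φ : V ≃ₗ[F] V') (g : V' ≃ₗ[F] V') (v : V) :
    (conjIso φ).symm g v = φ.symm (g (φ v)) := rfl

def congrOQ (φ : V ≃ₗ[F] V') {Q : V → F} {Q' : V' → F} (h : ∀ v, Q' (φ v) = Q v) :
    OQ Q ≃* OQ Q' where
  toFun g := ⟨conjIso φ g.1, fun v => by
    rw [conjIso_apply, h, mem_OQ.1 g.2, ← h, φ.apply_symm_apply]⟩
  invFun g := ⟨(conjIso φ).symm g.1, fun v => by
    rw [conjIso_symm_apply, ← h, φ.apply_symm_apply, mem_OQ.1 g.2, h]⟩
  left_inv g := Subtype.ext ((conjIso φ).symm_apply_apply g.1)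
  right_inv g := Subtype.ext ((conjIso φ).apply_symm_apply g.1)
  map_mul' g k := Subtype.ext (map_mul (conjIso φ) g.1 k.1)

theorem congrOQ_apply (φ : V ≃ₗ[F] V') {Q : V → F} {Q' : V' → F} (h : ∀ v, Q' (φ v) = Q v)
    (g : OQ Q) (v : V') : ((congrOQ φ h g : OQ Q') : V' ≃ₗ[F] V') v = φ (g.1 (φ.symm v)) := rfl

end general

section matrix

variable {ι : Type} [Fintype ι] [DecidableEq ι]

def matIso (F : Type*) [Field F] (ι : Type) [Fintype ι] [DecidableEq ι] :
    Matrix.GeneralLinearGroup ι F ≃* ((ι → F) ≃ₗ[F] (ι → F)) :=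
  Matrix.GeneralLinearGroup.toLin.trans
    (LinearMap.GeneralLinearGroup.generalLinearEquiv F (ι → F))

theorem matIso_apply (g : Matrix.GeneralLinearGroup ι F) (v : ι → F) :
    matIso F ι g v = (g : Matrix ι ι F).mulVec v := by
  simp [matIso, Matrix.GeneralLinearGroup.toLin]

theorem mem_isometryGroup {Q : (ι → F) → F} {g : Matrix.GeneralLinearGroup ι F} :
    g ∈ Cfsg.isometryGroup F Q ↔ ∀ u, Q ((g : Matrix ι ι F).mulVec u) = Q u := by
  constructor
  · intro h u
    exact h u u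
  · intro h u _
    exact h u

def isoOQ (Q : (ι → F) → F) : Cfsg.isometryGroup F Q ≃* OQ Q where
  toFun g := ⟨matIso F ι g.1, fun v => by
    rw [matIso_apply]; exact mem_isometryGroup.1 g.2 v⟩
  invFun g := ⟨(matIso F ι).symm g.1, by
    rw [mem_isometryGroup]
    intro u
    rw [← matIso_apply, MulEquiv.apply_symm_apply]
    exact mem_OQ.1 g.2 u⟩
  left_inv g := Subtype.ext ((matIso F ι).symm_apply_apply g.1)
  right_inv g := Subtype.ext ((matIso F ι).apply_symm_apply g.1)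
  map_mul' g k := Subtype.ext (map_mul (matIso F ι) g.1 k.1)

end matrix

end Cfsg.Agent.Lib.Helper1.Orth
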