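import Mathlib
import Cfsg.Agent.Lib.Helper1.Orth1

namespace Cfsg.Agent.Lib.Helper1.Orth

open QuadraticMap

variable {F : Type*} [Field F] {V : Type*} [AddCommGroup V] [Module F V]

variable (Qb : QuadraticMap F V F)

theorem polar_isom {g : V ≃ₗ[F] V} (hg : g ∈ OQ Qb) (x y : V) :
    polar Qb (g x) (g y) = polar Qb x y := by
  unfold polar
  rw [← map_add, mem_OQ.1 hg, mem_OQ.1 hg, mem_OQ.1 hg]

theorem qadd (x y : V) : Qb (x + y) = Qb x + Qb y + polar Qb x y :=
  QuadraticMap.map_add _ x y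

theorem polar_self' (x : V) : polar Qb x x = 2 * Qb x := by
  rw [polar_self]; simp

theorem exists_refl (v : V) (hv : Qb v ≠ 0) :
    ∃ g ∈ OQ Qb, ∀ x, g x = x - (polar Qb x v / Qb v) • v := by
  let f : V →ₗ[F] V :=
    LinearMap.id - ((Qb v)⁻¹ • (polarBilin Qb).flip v).smulRight v
  have hf : ∀ x, f x = x - (polar Qb x v / Qb v) • v := by
    intro x; simp [f, div_eq_inv_mul]
  have hff : ∀ x, f (f x) = x := by
    intro x
    rw [hf, hf, polar_sub_left, polar_smul_left, polar_self']
    simp only [smul_eq_mul]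
    have h1 : (polar Qb x v - polar Qb x v / Qb v * (2 * Qb v)) / Qb v
        = - (polar Qb x v / Qb v) := by field_simp; ring
    rw [h1]; module
  refine ⟨LinearEquiv.ofLinearMap f f (LinearMap.ext hff) (LinearMap.ext hff), ?_, hf⟩
  intro x
  show Qb (f x) = Qb x
  rw [hf, sub_eq_add_neg, ← neg_smul, qadd, QuadraticMap.map_smul,
    polar_smul_right]
  simp only [smul_eq_mul]
  field_simp
  ring

theorem exists_siegel (e u : V) (he : Qb e = 0) (heu : polar Qb e u = 0) :
    ∃ g ∈ OQ Qb, ∀ x, g x = x + (- polar Qb x u - Qb u * polar Qb x e) • e + polar Qb x e • u := by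
  let f : V → V →ₗ[F] V := fun u =>
    LinearMap.id + (- ((polarBilin Qb).flip u) - Qb u • (polarBilin Qb).flip e).smulRight e
      + ((polarBilin Qb).flip e).smulRight u
  have hf : ∀ u x, f u x = x + (- polar Qb x u - Qb u * polar Qb x e) • e + polar Qb x e • u := by
    intro u x; simp [f]
  have hee : polar Qb e e = 0 := by rw [polar_self', he, mul_zero]
  have hff : ∀ u, polar Qb e u = 0 → ∀ x, f (-u) (f u x) = x := by
    intro u hu x
    have hue : polar Qb u e = 0 := by rw [polar_comm, hu]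
    rw [hf, hf]
    simp only [polar_add_left, polar_smul_left, polar_neg_right, hee, hue, hu, smul_eq_mul,
      mul_zero, add_zero, polar_self', QuadraticMap.map_neg]
    module
  have hneg : polar Qb e (-u) = 0 := by rw [polar_neg_right, heu, neg_zero]
  refine ⟨LinearEquiv.ofLinearMap (f u) (f (-u)) (LinearMap.ext ?_) (LinearMap.ext (hff u heu)),
    ?_, hf u⟩
  · intro x
    have := hff (-u) hneg x
    rw [neg_neg] at this
    exact this
  · intro x
    show Qb (f u x) = Qb x
    rw [hf, add_assoc, qadd, qadd, QuadraticMap.map_smul,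
      QuadraticMap.map_smul, he, polar_add_right, polar_smul_right, polar_smul_right,
      polar_smul_left, polar_smul_right, heu]
    simp only [smul_eq_mul]
    ring

def IsHP (e f : V) : Prop := Qb e = 0 ∧ Qb f = 0 ∧ polar Qb e f = 1

theorem isHP_map {g : V ≃ₗ[F] V} (hg : g ∈ OQ Qb) {e f : V} (h : IsHP Qb e f) :
    IsHP Qb (g e) (g f) := by
  refine ⟨?_, ?_, ?_⟩
  · rw [mem_OQ.1 hg]; exact h.1
  · rw [mem_OQ.1 hg]; exact h.2.1
  · rw [polar_isom Qb hg]; exact h.2.2

theorem exists_map_sing {e e' : V} (he : Qb e = 0) (he' : Qb e' = 0) (h : polar Qb e e' ≠ 0) :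
    ∃ g ∈ OQ Qb, g e = e' := by
  have hQ : Qb (e - e') = - polar Qb e e' := by
    rw [sub_eq_add_neg, qadd, QuadraticMap.map_neg, he, he', polar_neg_right]
    ring
  have hv : Qb (e - e') ≠ 0 := by rw [hQ]; exact neg_ne_zero.mpr h
  obtain ⟨g, hg, hgx⟩ := exists_refl Qb (e - e') hv
  refine ⟨g, hg, ?_⟩
  rw [hgx, hQ, polar_sub_right, polar_self', he]
  have : (2 * 0 - polar Qb e e') / - polar Qb e e' = 1 := by field_simp; ring
  rw [this]; module

theorem exists_map_fst {e f e' f' : V} (h : IsHP Qb e f) (h' : IsHP Qb e' f') :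
    ∃ g ∈ OQ Qb, g e = e' := by
  by_cases h0 : polar Qb e e' ≠ 0
  · exact exists_map_sing Qb h.1 h'.1 h0
  · rw [not_not] at h0
    have key : ∀ e'' : V, Qb e'' = 0 → polar Qb e e'' ≠ 0 → polar Qb e' e'' ≠ 0 →
        ∃ g ∈ OQ Qb, g e = e' := by
      intro e'' h1 h2 h3
      obtain ⟨g1, hg1, hge1⟩ := exists_map_sing Qb h.1 h1 h2
      obtain ⟨g2, hg2, hge2⟩ := exists_map_sing Qb h1 h'.1 (by rw [polar_comm]; exact h3)
      exact ⟨g2 * g1, mul_mem hg2 hg1, by rw [LinearEquiv.mul_apply, hge1, hge2]⟩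
    by_cases h1 : polar Qb e' f ≠ 0
    · exact key f h.2.1 (by rw [h.2.2]; exact one_ne_zero) h1
    · rw [not_not] at h1
      by_cases h2 : polar Qb e f' ≠ 0
      · exact key f' h'.2.1 h2 (by rw [h'.2.2]; exact one_ne_zero)
      · rw [not_not] at h2
        have hfe : polar Qb f e = 1 := by rw [polar_comm, h.2.2]
        have hee : polar Qb e e = 0 := by rw [polar_self', h.1, mul_zero]
        have he'e : polar Qb e' e = 0 := by rw [polar_comm, h0]
        have hf'e : polar Qb f' e = 0 := by rw [polar_comm, h2]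
        refine key (f + f' + (- polar Qb f f') • e) ?_ ?_ ?_
        · rw [qadd, qadd, QuadraticMap.map_smul, h.2.1, h'.2.1,
            h.1, polar_smul_right, polar_add_left, hfe, hf'e]
          simp only [smul_eq_mul]
          ring
        · rw [polar_add_right, polar_add_right, polar_smul_right, hee, h.2.2, h2]
          simp
        · rw [polar_add_right, polar_add_right, polar_smul_right, he'e, h1, h'.2.2]
          simp

theorem exists_map_snd {e f f' : V} (h : IsHP Qb e f) (h' : IsHP Qb e f') :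
    ∃ g ∈ OQ Qb, g e = e ∧ g f = f' := by
  have heu : polar Qb e (f' - f) = 0 := by
    rw [polar_sub_right, h.2.2, h'.2.2, sub_self]
  have hee : polar Qb e e = 0 := by rw [polar_self', h.1, mul_zero]
  have hfe : polar Qb f e = 1 := by rw [polar_comm, h.2.2]
  obtain ⟨g, hg, hgx⟩ := exists_siegel Qb e (f' - f) h.1 heu
  refine ⟨g, hg, ?_, ?_⟩
  · rw [hgx, heu, hee]; simp
  · rw [hgx, hfe]
    have h1 : Qb f' = Qb f + Qb (f' - f) + polar Qb f (f' - f) := by
      rw [← qadd]; congr 1; abel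
    rw [h'.2.1, h.2.1] at h1
    have h2 : - polar Qb f (f' - f) - Qb (f' - f) * 1 = 0 := by linear_combination h1
    rw [h2]; module

theorem hp_trans {e f e' f' : V} (h : IsHP Qb e f) (h' : IsHP Qb e' f') :
    ∃ g ∈ OQ Qb, g e = e' ∧ g f = f' := by
  obtain ⟨g1, hg1, hge1⟩ := exists_map_fst Qb h h'
  have h1 : IsHP Qb e' (g1 f) := by
    have := isHP_map Qb hg1 h
    rwa [hge1] at this
  obtain ⟨g2, hg2, hge2, hgf2⟩ := exists_map_snd Qb h1 h'
  exact ⟨g2 * g1, mul_mem hg2 hg1, by rw [LinearEquiv.mul_apply, hge1, hge2],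
    by rw [LinearEquiv.mul_apply, hgf2]⟩

end Cfsg.Agent.Lib.Helper1.Orth
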