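import Mathlib
import Cfsg.Agent.Lib.Helper1.Orth2

namespace Cfsg.Agent.Lib.Helper1.Orth

open QuadraticMap

variable {F : Type*} [Field F] {W : Type*} [AddCommGroup W] [Module F W]

def hypQ (Q' : QuadraticMap F W F) : QuadraticMap F (F × F × W) F :=
  LinearMap.BilinMap.toQuadraticMap ((LinearMap.mul F F).compl₁₂ (LinearMap.fst F F (F × W))
      ((LinearMap.fst F F W).comp (LinearMap.snd F F (F × W))))
    + Q'.comp ((LinearMap.snd F F W).comp (LinearMap.snd F F (F × W)))

theorem hypQ_apply (Q' : QuadraticMap F W F) (p : F × F × W) :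
    hypQ Q' p = p.1 * p.2.1 + Q' p.2.2 := by
  simp [hypQ]

theorem hyp_polar (Q' : QuadraticMap F W F) (p p' : F × F × W) :
    polar (hypQ Q') p p' = p.1 * p'.2.1 + p'.1 * p.2.1 + polar Q' p.2.2 p'.2.2 := by
  unfold polar
  simp only [hypQ_apply, Prod.fst_add, Prod.snd_add]
  ring

def ND {V : Type*} [AddCommGroup V] (Q : V → F) : Prop :=
  ∀ e : V, e ≠ 0 → Q e = 0 → ∃ f : V, polar Q e f ≠ 0

theorem nd_hyp {Q' : QuadraticMap F W F} (h : ND (⇑Q')) : ND (⇑(hypQ Q')) := by
  intro e he hQ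
  by_cases h1 : e.1 ≠ 0
  · refine ⟨(0, 1, 0), ?_⟩
    rw [hyp_polar]; simpa using h1
  · rw [not_not] at h1
    by_cases h2 : e.2.1 ≠ 0
    · refine ⟨(1, 0, 0), ?_⟩
      rw [hyp_polar]; simpa using h2
    · rw [not_not] at h2
      have h3 : e.2.2 ≠ 0 := by
        intro h3; apply he
        refine Prod.ext h1 (Prod.ext h2 h3)
      have h4 : Q' e.2.2 = 0 := by
        rw [hypQ_apply, h1, zero_mul, zero_add] at hQ; exact hQ
      obtain ⟨f, hf⟩ := h e.2.2 h3 h4
      refine ⟨(0, 0, f), ?_⟩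
      rw [hyp_polar]; simpa using hf

theorem exists_partner {V : Type*} [AddCommGroup V] [Module F V] (Qb : QuadraticMap F V F)
    (h : ND (V := V) (F := F) (fun v => Qb v)) {e : V} (he : e ≠ 0) (hQ : Qb e = 0) : ∃ f, IsHP Qb e f := by
  obtain ⟨f1, hf1⟩ := h e he hQ
  refine ⟨(polar Qb e f1)⁻¹ • f1 + (- Qb ((polar Qb e f1)⁻¹ • f1)) • e, hQ, ?_, ?_⟩
  · rw [qadd, QuadraticMap.map_smul Qb (- _) e, hQ, polar_smul_right, polar_smul_left,
      polar_comm Qb f1 e]
    simp only [smul_eq_mul]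
    rw [inv_mul_cancel₀ hf1]; ring
  · rw [polar_add_right, polar_smul_right, polar_smul_right, polar_self', hQ]
    simp only [smul_eq_mul]
    rw [inv_mul_cancel₀ hf1]; ring

theorem hp0 (Q' : QuadraticMap F W F) :
    IsHP (hypQ Q') ((1 : F), (0 : F), (0 : W)) ((0 : F), (1 : F), (0 : W)) := by
  refine ⟨?_, ?_, ?_⟩
  · rw [hypQ_apply]; simp
  · rw [hypQ_apply]; simp
  · rw [hyp_polar]; simp

def embO (Q' : QuadraticMap F W F) : OQ (⇑Q') →* OQ (⇑(hypQ Q')) where
  toFun h := ⟨(LinearEquiv.refl F F).prodCongr ((LinearEquiv.refl F F).prodCongr h.1), by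
    intro p
    rw [hypQ_apply, hypQ_apply]
    simp only [LinearEquiv.prodCongr_apply, LinearEquiv.refl_apply]
    rw [mem_OQ.1 h.2]⟩
  map_one' := rfl
  map_mul' a b := rfl

theorem embO_apply (Q' : QuadraticMap F W F) (h : OQ (⇑Q')) (p : F × F × W) :
    (embO Q' h).1 p = (p.1, p.2.1, h.1 p.2.2) := rfl

theorem embO_injective (Q' : QuadraticMap F W F) : Function.Injective (embO Q') := by
  intro a b hab
  apply Subtype.ext
  apply LinearEquiv.ext
  intro w
  have := congrArg (fun g : OQ (⇑(hypQ Q')) => (g.1 ((0 : F), (0 : F), w)).2.2) hab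
  exact this

theorem orbit_hp (Q' : QuadraticMap F W F) :
    MulAction.orbit (OQ (⇑(hypQ Q')))
      ((((1 : F), (0 : F), (0 : W)), ((0 : F), (1 : F), (0 : W))) : (F × F × W) × (F × F × W))
      = {p | IsHP (hypQ Q') p.1 p.2} := by
  ext p
  constructor
  · rintro ⟨g, rfl⟩
    exact isHP_map (hypQ Q') g.2 (hp0 Q')
  · intro hp
    obtain ⟨g, hg, h1, h2⟩ := hp_trans (hypQ Q') (hp0 Q') hp
    exact ⟨⟨g, hg⟩, Prod.ext h1 h2⟩

theorem stab_apply (Q' : QuadraticMap F W F) {g : (F × F × W) ≃ₗ[F] (F × F × W)}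
    (hg : g ∈ OQ (⇑(hypQ Q'))) (h1 : g ((1 : F), (0 : F), (0 : W)) = ((1 : F), (0 : F), (0 : W)))
    (h2 : g ((0 : F), (1 : F), (0 : W)) = ((0 : F), (1 : F), (0 : W))) (p : F × F × W) :
    g p = (p.1, p.2.1, (g ((0 : F), (0 : F), p.2.2)).2.2) := by
  have hw : ∀ w : W, (g ((0 : F), (0 : F), w)).1 = 0 ∧ (g ((0 : F), (0 : F), w)).2.1 = 0 := by
    intro w
    have e1 := polar_isom (hypQ Q') hg ((0 : F), (0 : F), w) ((1 : F), (0 : F), (0 : W))
    have e2 := polar_isom (hypQ Q') hg ((0 : F), (0 : F), w) ((0 : F), (1 : F), (0 : W))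
    rw [h1, hyp_polar, hyp_polar] at e1
    rw [h2, hyp_polar, hyp_polar] at e2
    simp at e1 e2
    exact ⟨e2, e1⟩
  have hp : p = p.1 • ((1 : F), (0 : F), (0 : W)) + p.2.1 • ((0 : F), (1 : F), (0 : W))
      + ((0 : F), (0 : F), p.2.2) := by
    refine Prod.ext ?_ (Prod.ext ?_ ?_) <;> simp
  conv_lhs => rw [hp]
  rw [map_add, map_add, map_smul, map_smul, h1, h2]
  refine Prod.ext ?_ (Prod.ext ?_ ?_)
  · simp [(hw p.2.2).1]
  · simp [(hw p.2.2).2]
  · simp

def resW (g : (F × F × W) ≃ₗ[F] (F × F × W)) : W →ₗ[F] W :=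
  ((LinearMap.snd F F W).comp (LinearMap.snd F F (F × W))).comp
    (g.toLinearMap.comp ((LinearMap.inr F F (F × W)).comp (LinearMap.inr F F W)))

theorem resW_apply (g : (F × F × W) ≃ₗ[F] (F × F × W)) (w : W) :
    resW g w = (g ((0 : F), (0 : F), w)).2.2 := rfl

theorem stab_eq (Q' : QuadraticMap F W F) :
    MulAction.stabilizer (OQ (⇑(hypQ Q')))
      ((((1 : F), (0 : F), (0 : W)), ((0 : F), (1 : F), (0 : W))) : (F × F × W) × (F × F × W))
      = (embO Q').range := by
  ext g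
  rw [MulAction.mem_stabilizer_iff, MonoidHom.mem_range]
  constructor
  · intro hg
    have hg1 : g.1 ((1 : F), (0 : F), (0 : W)) = ((1 : F), (0 : F), (0 : W)) :=
      congrArg Prod.fst hg
    have hg2 : g.1 ((0 : F), (1 : F), (0 : W)) = ((0 : F), (1 : F), (0 : W)) :=
      congrArg Prod.snd hg
    have hs : g.1.symm ∈ OQ (⇑(hypQ Q')) := inv_mem g.2
    have hs1 : g.1.symm ((1 : F), (0 : F), (0 : W)) = ((1 : F), (0 : F), (0 : W)) := by
      rw [LinearEquiv.symm_apply_eq, hg1]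
    have hs2 : g.1.symm ((0 : F), (1 : F), (0 : W)) = ((0 : F), (1 : F), (0 : W)) := by
      rw [LinearEquiv.symm_apply_eq, hg2]
    have k1 : ∀ w, resW g.1 (resW g.1.symm w) = w := by
      intro w
      rw [resW_apply, resW_apply]
      have := stab_apply Q' hs hs1 hs2 ((0 : F), (0 : F), w)
      rw [← this, LinearEquiv.apply_symm_apply]
    have k2 : ∀ w, resW g.1.symm (resW g.1 w) = w := by
      intro w
      rw [resW_apply, resW_apply]
      have := stab_apply Q' g.2 hg1 hg2 ((0 : F), (0 : F), w)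
      rw [← this, LinearEquiv.symm_apply_apply]
    refine ⟨⟨LinearEquiv.ofLinearMap (resW g.1) (resW g.1.symm) (LinearMap.ext k1)
      (LinearMap.ext k2), ?_⟩, ?_⟩
    · intro w
      show Q' (resW g.1 w) = Q' w
      have := stab_apply Q' g.2 hg1 hg2 ((0 : F), (0 : F), w)
      have h3 := mem_OQ.1 g.2 ((0 : F), (0 : F), w)
      rw [this, hypQ_apply, hypQ_apply] at h3
      simpa [resW_apply] using h3
    · apply Subtype.ext
      apply LinearEquiv.ext
      intro p
      rw [embO_apply, stab_apply Q' g.2 hg1 hg2 p]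
      rfl
  · rintro ⟨h, rfl⟩
    refine Prod.ext ?_ ?_
    · show (embO Q' h).1 _ = _
      rw [embO_apply]; simp
    · show (embO Q' h).1 _ = _
      rw [embO_apply]; simp

theorem card_fiber_hp (Q' : QuadraticMap F W F) :
    Nat.card {f : F × F × W // IsHP (hypQ Q') ((1 : F), (0 : F), (0 : W)) f} = Nat.card W := by
  refine Nat.card_congr ⟨fun f => f.1.2.2, fun w => ⟨(- Q' w, 1, w), ?_⟩, ?_, ?_⟩
  · refine ⟨?_, ?_, ?_⟩
    · rw [hypQ_apply]; simp
    · rw [hypQ_apply]; simp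
    · rw [hyp_polar]; simp
  · rintro ⟨⟨x, y, w⟩, h1, h2, h3⟩
    rw [hyp_polar] at h3
    rw [hypQ_apply] at h2
    simp at h3 h2
    subst h3
    apply Subtype.ext
    refine Prod.ext ?_ (Prod.ext rfl rfl)
    show - Q' w = x
    linear_combination - h2
  · intro w; rfl

theorem card_hp [Fintype F] [Finite W] (Q' : QuadraticMap F W F) (hnd : ND (⇑Q')) :
    Nat.card {p : (F × F × W) × (F × F × W) // IsHP (hypQ Q') p.1 p.2}
      = Nat.card {e : F × F × W // e ≠ 0 ∧ hypQ Q' e = 0} * Nat.card W := by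
  classical
  have hfib : ∀ e : {e : F × F × W // e ≠ 0 ∧ hypQ Q' e = 0},
      Nat.card {f : F × F × W // IsHP (hypQ Q') e.1 f} = Nat.card W := by
    intro e
    obtain ⟨f1, hf1⟩ := exists_partner (hypQ Q') (nd_hyp hnd) e.2.1 e.2.2
    obtain ⟨g, hg, hge, -⟩ := hp_trans (hypQ Q') (hp0 Q') hf1
    rw [← card_fiber_hp Q']
    symm
    refine Nat.card_congr (Equiv.subtypeEquiv g.toEquiv ?_)
    intro f
    show IsHP _ _ f ↔ IsHP _ e.1 (g f)
    rw [← hge]
    constructor
    · exact isHP_map _ hg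
    · intro h
      refine ⟨(hp0 Q').1, ?_, ?_⟩
      · rw [← mem_OQ.1 hg f]; exact h.2.1
      · rw [← polar_isom _ hg]; exact h.2.2
  have e1 : {p : (F × F × W) × (F × F × W) // IsHP (hypQ Q') p.1 p.2} ≃
      Σ e : {e : F × F × W // e ≠ 0 ∧ hypQ Q' e = 0},
        {f : F × F × W // IsHP (hypQ Q') e.1 f} :=
    { toFun := fun p => ⟨⟨p.1.1, fun h0 => by
          have := p.2.2.2
          rw [h0, polar_zero_left] at this
          exact zero_ne_one this, p.2.1⟩, ⟨p.1.2, p.2⟩⟩
      invFun := fun s => ⟨(s.1.1, s.2.1), s.2.2⟩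
      left_inv := fun p => rfl
      right_inv := fun s => rfl }
  haveI : Fintype {e : F × F × W // e ≠ 0 ∧ hypQ Q' e = 0} := Fintype.ofFinite _
  rw [Nat.card_congr e1, Nat.card_sigma, Finset.sum_congr rfl (fun e _ => hfib e),
    Finset.sum_const, Finset.card_univ, smul_eq_mul, Fintype.card_eq_nat_card]

theorem card_OQ_hyp [Fintype F] [Finite W] (Q' : QuadraticMap F W F) (hnd : ND (⇑Q')) :
    Nat.card (OQ (⇑(hypQ Q'))) =
      Nat.card {e : F × F × W // e ≠ 0 ∧ hypQ Q' e = 0} * Nat.card W * Nat.card (OQ (⇑Q')) := by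
  have h1 := Subgroup.card_mul_index (MulAction.stabilizer (OQ (⇑(hypQ Q')))
    ((((1 : F), (0 : F), (0 : W)), ((0 : F), (1 : F), (0 : W))) : (F × F × W) × (F × F × W)))
  rw [MulAction.index_stabilizer, orbit_hp, ← Nat.card_coe_set_eq, stab_eq] at h1
  have h2 : Nat.card (embO Q').range = Nat.card (OQ (⇑Q')) :=
    (Nat.card_congr (MonoidHom.ofInjective (embO_injective Q')).toEquiv).symm
  have h3 := card_hp Q' hnd
  rw [← h1, h2]
  rw [show Nat.card ↥{p : (F × F × W) × (F × F × W) | IsHP (hypQ Q') p.1 p.2}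
    = Nat.card {p : (F × F × W) × (F × F × W) // IsHP (hypQ Q') p.1 p.2} from rfl, h3]
  ring

noncomputable def zc {V : Type*} (Q : V → F) : ℕ := Nat.card {v : V // Q v = 0}

theorem card_sing {V : Type*} [AddCommGroup V] [Finite V] (Q : V → F) (h0 : Q 0 = 0) :
    Nat.card {e : V // e ≠ 0 ∧ Q e = 0} = zc Q - 1 := by
  classical
  have e : {e : V // e ≠ 0 ∧ Q e = 0} ≃ {x : {v : V // Q v = 0} // x ≠ ⟨0, h0⟩} :=
    { toFun := fun e => ⟨⟨e.1, e.2.2⟩, fun h => e.2.1 (congrArg Subtype.val h)⟩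
      invFun := fun x => ⟨x.1.1, fun h => x.2 (Subtype.ext h), x.1.2⟩
      left_inv := fun e => rfl
      right_inv := fun x => rfl }
  rw [Nat.card_congr e]
  haveI : Fintype {v : V // Q v = 0} := Fintype.ofFinite _
  rw [Nat.card_eq_fintype_card, Fintype.card_subtype_compl, Fintype.card_subtype_eq, zc,
    Nat.card_eq_fintype_card]

theorem card_mul_zero [Fintype F] :
    Nat.card {xy : F × F // xy.1 * xy.2 = 0} = Fintype.card F + (Fintype.card F - 1) := by
  classical
  have e : {xy : F × F // xy.1 * xy.2 = 0} ≃ F ⊕ {x : F // x ≠ 0} :=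
    { toFun := fun p => if h : p.1.1 = 0 then Sum.inl p.1.2 else Sum.inr ⟨p.1.1, h⟩
      invFun := fun s => match s with
        | Sum.inl y => ⟨(0, y), by simp⟩
        | Sum.inr x => ⟨(x.1, 0), by simp⟩
      left_inv := by
        rintro ⟨⟨x, y⟩, h⟩
        by_cases hx : x = 0
        · subst hx; simp
        · have hy : y = 0 := by
            rcases mul_eq_zero.1 h with h | h
            · exact absurd h hx
            · exact h
          subst hy; simp [hx]
      right_inv := by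
        rintro (y | ⟨x, hx⟩)
        · simp
        · simp [hx] }
  rw [Nat.card_congr e, Nat.card_sum, Nat.card_eq_fintype_card, Nat.card_eq_fintype_card,
    Fintype.card_subtype_compl, Fintype.card_subtype_eq]

theorem card_mul_ne [Fintype F] {c : F} (hc : c ≠ 0) :
    Nat.card {xy : F × F // xy.1 * xy.2 = c} = Fintype.card F - 1 := by
  classical
  have e : {xy : F × F // xy.1 * xy.2 = c} ≃ {x : F // x ≠ 0} :=
    { toFun := fun p => ⟨p.1.1, fun h => hc (by rw [← p.2, h, zero_mul])⟩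
      invFun := fun x => ⟨(x.1, x.1⁻¹ * c), mul_inv_cancel_left₀ x.2 c⟩
      left_inv := by
        rintro ⟨⟨x, y⟩, h⟩
        have hx : x ≠ 0 := fun h0 => hc (by rw [← h]; simp [h0])
        apply Subtype.ext
        refine Prod.ext rfl ?_
        show x⁻¹ * c = y
        rw [← h]; simp [hx]
      right_inv := fun x => rfl }
  rw [Nat.card_congr e, Nat.card_eq_fintype_card, Fintype.card_subtype_compl,
    Fintype.card_subtype_eq]

theorem zc_hyp [Fintype F] [Finite W] (Q' : QuadraticMap F W F) :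
    zc (⇑(hypQ Q')) = Fintype.card F * zc (⇑Q') + (Fintype.card F - 1) * Nat.card W := by
  classical
  haveI : Fintype W := Fintype.ofFinite W
  have e : {p : F × F × W // hypQ Q' p = 0} ≃
      Σ w : W, {xy : F × F // xy.1 * xy.2 = - Q' w} :=
    { toFun := fun p => ⟨p.1.2.2, ⟨(p.1.1, p.1.2.1), by
          have := p.2; rw [hypQ_apply] at this; linear_combination this⟩⟩
      invFun := fun s => ⟨(s.2.1.1, s.2.1.2, s.1), by
          rw [hypQ_apply]; have := s.2.2; simp only; linear_combination this⟩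
      left_inv := fun p => rfl
      right_inv := fun s => rfl }
  rw [zc, Nat.card_congr e, Nat.card_sigma]
  have h1 : ∀ w : W, Nat.card {xy : F × F // xy.1 * xy.2 = - Q' w}
      = (if Q' w = 0 then Fintype.card F else 0) + (Fintype.card F - 1) := by
    intro w
    by_cases hw : Q' w = 0
    · rw [hw, neg_zero, card_mul_zero]; simp
    · rw [card_mul_ne (neg_ne_zero.2 hw)]; simp [hw]
  rw [Finset.sum_congr rfl (fun w _ => h1 w), Finset.sum_add_distrib, Finset.sum_const,
    Finset.card_univ, ← Finset.sum_filter, Finset.sum_const, smul_eq_mul, smul_eq_mul, zc,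
    Nat.card_eq_fintype_card, Fintype.card_subtype, Nat.card_eq_fintype_card]
  ring

end Cfsg.Agent.Lib.Helper1.Orth
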