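import Mathlib
import Cfsg.Agent.Lib.Helper1.Orth3

namespace Cfsg.Agent.Lib.Helper1.Orth

open QuadraticMap

variable {F : Type*} [Field F]

section transfer

variable {V V' : Type*} [AddCommGroup V] [Module F V] [AddCommGroup V'] [Module F V']

theorem nd_congr (φ : V ≃ₗ[F] V') {Q : V → F} {Q' : V' → F} (h : ∀ v, Q' (φ v) = Q v)
    (hnd : ND Q') : ND Q := by
  intro e he hQ
  have he' : φ e ≠ 0 := by
    intro h0; apply he
    exact (LinearEquiv.map_eq_zero_iff φ).1 h0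
  obtain ⟨f', hf'⟩ := hnd (φ e) he' (by rw [h, hQ])
  refine ⟨φ.symm f', ?_⟩
  have : polar Q e (φ.symm f') = polar Q' (φ e) f' := by
    unfold polar
    rw [← h, ← h, ← h, map_add, φ.apply_symm_apply]
  rw [this]; exact hf'

theorem zc_congr (φ : V ≃ₗ[F] V') {Q : V → F} {Q' : V' → F} (h : ∀ v, Q' (φ v) = Q v) :
    zc Q = zc Q' := by
  unfold zc
  refine Nat.card_congr (Equiv.subtypeEquiv φ.toEquiv ?_)
  intro v
  show Q v = 0 ↔ Q' (φ v) = 0
  rw [h]

theorem card_OQ_congr (φ : V ≃ₗ[F] V') {Q : V → F} {Q' : V' → F} (h : ∀ v, Q' (φ v) = Q v) :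
    Nat.card (OQ Q) = Nat.card (OQ Q') :=
  Nat.card_congr (congrOQ φ h).toEquiv

end transfer

variable {κ : Type} [Fintype κ] [DecidableEq κ]

def gq (m : ℕ) (Q0 : (κ → F) → F) (v : (Fin m ⊕ Fin m) ⊕ κ → F) : F :=
  ∑ i : Fin m, v (.inl (.inl i)) * v (.inl (.inr i)) + Q0 (fun k => v (.inr k))

def gqB (m : ℕ) (Q0 : QuadraticMap F (κ → F) F) :
    QuadraticMap F ((Fin m ⊕ Fin m) ⊕ κ → F) F :=
  ∑ i : Fin m, QuadraticMap.proj (Sum.inl (Sum.inl i)) (Sum.inl (Sum.inr i))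
    + Q0.comp (LinearMap.funLeft F F Sum.inr)

theorem gqB_apply (m : ℕ) (Q0 : QuadraticMap F (κ → F) F) (v : (Fin m ⊕ Fin m) ⊕ κ → F) :
    gqB m Q0 v = gq m Q0 v := by
  simp only [gqB, gq, add_apply, sum_apply, proj_apply, comp_apply]
  rfl

def splitE (m : ℕ) (κ : Type) (F : Type*) [Field F] :
    ((Fin (m+1) ⊕ Fin (m+1)) ⊕ κ → F) ≃ₗ[F] F × F × ((Fin m ⊕ Fin m) ⊕ κ → F) where
  toFun v := (v (.inl (.inl 0)), v (.inl (.inr 0)),
    fun j => v (Sum.map (Sum.map Fin.succ Fin.succ) id j))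
  invFun p := fun j => match j with
    | .inl (.inl i) => Fin.cases p.1 (fun i' => p.2.2 (.inl (.inl i'))) i
    | .inl (.inr i) => Fin.cases p.2.1 (fun i' => p.2.2 (.inl (.inr i'))) i
    | .inr k => p.2.2 (.inr k)
  map_add' u v := rfl
  map_smul' c v := rfl
  left_inv v := by
    funext j
    rcases j with (i | i) | k
    · refine Fin.cases ?_ ?_ i
      · rfl
      · intro i'; rfl
    · refine Fin.cases ?_ ?_ i
      · rfl
      · intro i'; rfl
    · rfl
  right_inv p := by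
    refine Prod.ext rfl (Prod.ext rfl ?_)
    funext j
    rcases j with (i | i) | k <;> rfl

theorem gq_split (m : ℕ) (Q0 : QuadraticMap F (κ → F) F)
    (v : (Fin (m+1) ⊕ Fin (m+1)) ⊕ κ → F) :
    hypQ (gqB m Q0) (splitE m κ F v) = gq (m+1) Q0 v := by
  rw [hypQ_apply, gqB_apply]
  unfold gq
  rw [Fin.sum_univ_succ]
  simp only [splitE, LinearEquiv.coe_mk, LinearMap.coe_mk, AddHom.coe_mk]
  rw [add_assoc]
  rfl

theorem nd_gq (Q0 : QuadraticMap F (κ → F) F) (haniso : ∀ z, Q0 z = 0 → z = 0) :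
    ∀ m : ℕ, ND (gq m Q0) := by
  intro m
  induction m with
  | zero =>
    intro e he hQ
    exfalso
    apply he
    have h1 : Q0 (fun k => e (.inr k)) = 0 := by
      have : gq 0 Q0 e = Q0 (fun k => e (.inr k)) := by
        unfold gq; simp
      rw [← this]; exact hQ
    have h2 := haniso _ h1
    funext j
    rcases j with (i | i) | k
    · exact i.elim0
    · exact i.elim0
    · exact congrFun h2 k
  | succ m ih =>
    have h1 : ND (⇑(gqB m Q0)) := by
      have : (⇑(gqB m Q0) : ((Fin m ⊕ Fin m) ⊕ κ → F) → F) = gq m Q0 := by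
        funext v; exact gqB_apply m Q0 v
      rw [this]; exact ih
    exact nd_congr (splitE m κ F) (gq_split m Q0) (nd_hyp h1)

theorem card_fun_gq [Fintype F] (m : ℕ) :
    Nat.card ((Fin m ⊕ Fin m) ⊕ κ → F) = Fintype.card F ^ (m + m + Fintype.card κ) := by
  rw [Nat.card_eq_fintype_card, Fintype.card_fun, Fintype.card_sum, Fintype.card_sum,
    Fintype.card_fin]

theorem zc_gq_succ [Fintype F] (Q0 : QuadraticMap F (κ → F) F) (m : ℕ) :
    zc (gq (m+1) Q0) = Fintype.card F * zc (gq m Q0)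
      + (Fintype.card F - 1) * Fintype.card F ^ (m + m + Fintype.card κ) := by
  rw [zc_congr (splitE m κ F) (gq_split m Q0), zc_hyp, card_fun_gq]
  have : (⇑(gqB m Q0) : ((Fin m ⊕ Fin m) ⊕ κ → F) → F) = gq m Q0 := by
    funext v; exact gqB_apply m Q0 v
  rw [this]

theorem card_OQ_gq_succ [Fintype F] (Q0 : QuadraticMap F (κ → F) F)
    (haniso : ∀ z, Q0 z = 0 → z = 0) (m : ℕ) :
    Nat.card (OQ (gq (m+1) Q0)) = (zc (gq (m+1) Q0) - 1)
      * Fintype.card F ^ (m + m + Fintype.card κ) * Nat.card (OQ (gq m Q0)) := by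
  have hfun : (⇑(gqB m Q0) : ((Fin m ⊕ Fin m) ⊕ κ → F) → F) = gq m Q0 := by
    funext v; exact gqB_apply m Q0 v
  have hnd : ND (⇑(gqB m Q0)) := by rw [hfun]; exact nd_gq Q0 haniso m
  rw [card_OQ_congr (splitE m κ F) (gq_split m Q0), card_OQ_hyp (gqB m Q0) hnd, card_fun_gq,
    hfun, zc_congr (splitE m κ F) (gq_split m Q0)]
  congr 2
  have h0 : (hypQ (gqB m Q0)) 0 = 0 := QuadraticMap.map_zero _
  exact card_sing (⇑(hypQ (gqB m Q0))) h0

theorem zc_gq_zero (Q0 : QuadraticMap F (κ → F) F) (haniso : ∀ z, Q0 z = 0 → z = 0) :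
    zc (gq 0 Q0) = 1 := by
  unfold zc
  rw [Nat.card_eq_one_iff_unique]
  have hz : ∀ e : (Fin 0 ⊕ Fin 0) ⊕ κ → F, gq 0 Q0 e = 0 → e = 0 := by
    intro e hQ
    have h1 : Q0 (fun k => e (.inr k)) = 0 := by
      have : gq 0 Q0 e = Q0 (fun k => e (.inr k)) := by
        unfold gq; simp
      rw [← this]; exact hQ
    have h2 := haniso _ h1
    funext j
    rcases j with (i | i) | k
    · exact i.elim0
    · exact i.elim0
    · exact congrFun h2 k
  refine ⟨⟨fun a b => Subtype.ext ((hz a.1 a.2).trans (hz b.1 b.2).symm)⟩, ⟨⟨0, ?_⟩⟩⟩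
  unfold gq
  simp
  exact QuadraticMap.map_zero Q0

theorem card_OQ_gq_zero (Q0 : (κ → F) → F) :
    Nat.card (OQ (gq 0 Q0)) = Nat.card (OQ Q0) := by
  symm
  refine card_OQ_congr (LinearEquiv.funCongrLeft F F (Equiv.emptySum (Fin 0 ⊕ Fin 0) κ)) ?_
  intro z
  unfold gq
  simp

end Cfsg.Agent.Lib.Helper1.Orth
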