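import Mathlib
import Cfsg.Agent.Lib.Helper1.Orth4

namespace Cfsg.Agent.Lib.Helper1.Orth

open QuadraticMap

theorem sub_one_mul_add_one (a : ℕ) : (a + 1) ^ 2 - 1 = (a + 2) * a := by
  have : (a + 1) ^ 2 = (a + 2) * a + 1 := by ring
  rw [this, Nat.add_sub_cancel]

theorem arith_plus (q : ℕ) (hq : 1 ≤ q) (z o : ℕ → ℕ) (hz0 : z 0 = 1)
    (hz : ∀ m, z (m+1) = q * z m + (q - 1) * q ^ (m + m + 0)) (ho0 : o 0 = 1)
    (ho : ∀ m, o (m+1) = (z (m+1) - 1) * q ^ (m + m + 0) * o m) (n : ℕ) :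
    o (n+1) = 2 * q ^ ((n+1) * n) * (q ^ (n+1) - 1)
      * ∏ i ∈ Finset.range n, (q ^ (2 * (i+1)) - 1) := by
  obtain ⟨t, rfl⟩ : ∃ t, q = t + 1 := ⟨q - 1, by omega⟩
  simp only [Nat.add_sub_cancel] at hz
  have hz' : ∀ m, z (m+1) + (t+1) ^ m = (t+1) ^ (2*m+1) + (t+1) ^ (m+1) := by
    intro m
    induction m with
    | zero => rw [hz, hz0]; ring
    | succ m ih =>
      rw [hz (m+1)]
      have e1 : (t+1) ^ (m + 1 + (m + 1) + 0) = (t+1) ^ (2*m+1) * (t+1) := by ring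
      have e2 : (t+1) ^ (2 * (m+1) + 1) = (t+1) ^ (2*m+1) * (t+1) * (t+1) := by ring
      have e5 : (t+1) ^ (m+1) = (t+1) * (t+1) ^ m := by ring
      have e7 : (t+1) ^ (m+1+1) = (t+1) * (t+1) * (t+1) ^ m := by ring
      rw [e5] at ih
      rw [e1, e2, e5, e7]
      generalize (t+1) ^ m = X at *
      generalize (t+1) ^ (2*m+1) = Y at *
      have ih' : (t+1) * (z (m+1) + X) = (t+1) * (Y + (t+1) * X) := by rw [ih]
      nlinarith [ih']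
  have hz1 : ∀ m, z (m+1) - 1 = ((t+1) ^ (m+1) - 1) * ((t+1) ^ m + 1) := by
    intro m
    have h1 := hz' m
    obtain ⟨a, ha⟩ : ∃ a, (t+1) ^ (m+1) = a + 1 :=
      ⟨(t+1) ^ (m+1) - 1, by have : 1 ≤ (t+1) ^ (m+1) := Nat.one_le_pow _ _ (by omega); omega⟩
    have h2 : (t+1) ^ (2*m+1) = (a + 1) * (t+1) ^ m := by
      rw [← ha]; ring
    rw [h2, ha] at h1
    rw [ha, Nat.add_sub_cancel]
    have h3 : z (m+1) = a * ((t+1) ^ m + 1) + 1 := by nlinarith [h1]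
    rw [h3, Nat.add_sub_cancel]
  induction n with
  | zero =>
    rw [ho, hz1, ho0]
    simp
    ring
  | succ n ih =>
    rw [ho (n+1), hz1 (n+1), ih, Finset.prod_range_succ]
    have h4 : (t+1) ^ (2 * (n+1)) - 1 = ((t+1) ^ (n+1) + 1) * ((t+1) ^ (n+1) - 1) := by
      obtain ⟨a, ha⟩ : ∃ a, (t+1) ^ (n+1) = a + 1 :=
        ⟨(t+1) ^ (n+1) - 1, by have : 1 ≤ (t+1) ^ (n+1) := Nat.one_le_pow _ _ (by omega); omega⟩
      rw [pow_mul', ha, sub_one_mul_add_one, Nat.add_sub_cancel]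
    rw [h4]
    have h5 : (t+1) ^ (n + 1 + (n + 1) + 0) * (t+1) ^ ((n+1) * n) = (t+1) ^ ((n + 1 + 1) * (n + 1)) := by
      rw [← pow_add]; congr 1; ring
    rw [← h5]
    ring

theorem arith_odd (q : ℕ) (hq : 1 ≤ q) (z o : ℕ → ℕ) (hz0 : z 0 = 1)
    (hz : ∀ m, z (m+1) = q * z m + (q - 1) * q ^ (m + m + 1)) (ho0 : o 0 = 2)
    (ho : ∀ m, o (m+1) = (z (m+1) - 1) * q ^ (m + m + 1) * o m) (m : ℕ) :
    o m = 2 * q ^ (m ^ 2) * ∏ i ∈ Finset.range m, (q ^ (2 * (i+1)) - 1) := by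
  obtain ⟨t, rfl⟩ : ∃ t, q = t + 1 := ⟨q - 1, by omega⟩
  simp only [Nat.add_sub_cancel] at hz
  have hz' : ∀ m, z m = (t+1) ^ (2*m) := by
    intro m
    induction m with
    | zero => rw [hz0]; simp
    | succ m ih => rw [hz, ih]; ring
  induction m with
  | zero => rw [ho0]; simp
  | succ m ih =>
    rw [ho, hz', ih, Finset.prod_range_succ]
    have h5 : (t+1) ^ (m + m + 1) * (t+1) ^ (m ^ 2) = (t+1) ^ ((m + 1) ^ 2) := by
      rw [← pow_add]; congr 1; ring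
    rw [← h5]
    ring

theorem arith_minus (q : ℕ) (hq : 1 ≤ q) (z o : ℕ → ℕ) (hz0 : z 0 = 1)
    (hz : ∀ m, z (m+1) = q * z m + (q - 1) * q ^ (m + m + 2)) (ho0 : o 0 = 2 * (q + 1))
    (ho : ∀ m, o (m+1) = (z (m+1) - 1) * q ^ (m + m + 2) * o m) (n : ℕ) :
    o n = 2 * q ^ ((n+1) * n) * (q ^ (n+1) + 1)
      * ∏ i ∈ Finset.range n, (q ^ (2 * (i+1)) - 1) := by
  obtain ⟨t, rfl⟩ : ∃ t, q = t + 1 := ⟨q - 1, by omega⟩
  simp only [Nat.add_sub_cancel] at hz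
  have hz' : ∀ m, z m + (t+1) ^ (m+1) = (t+1) ^ (2*m+1) + (t+1) ^ m := by
    intro m
    induction m with
    | zero => rw [hz0]; ring
    | succ m ih =>
      rw [hz m]
      have e1 : (t+1) ^ (m + m + 2) = (t+1) ^ (2*m+1) * (t+1) := by ring
      have e2 : (t+1) ^ (2 * (m+1) + 1) = (t+1) ^ (2*m+1) * (t+1) * (t+1) := by ring
      have e5 : (t+1) ^ (m+1+1) = (t+1) * (t+1) ^ (m+1) := by ring
      have e6 : (t+1) ^ (m+1) = (t+1) * (t+1) ^ m := by ring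
      rw [e1, e2, e5]
      nlinarith [ih]
  have hz1 : ∀ m, z (m+1) - 1 = ((t+1) ^ (m+2) + 1) * ((t+1) ^ (m+1) - 1) := by
    intro m
    have h1 := hz' (m+1)
    obtain ⟨a, ha⟩ : ∃ a, (t+1) ^ (m+1) = a + 1 :=
      ⟨(t+1) ^ (m+1) - 1, by have : 1 ≤ (t+1) ^ (m+1) := Nat.one_le_pow _ _ (by omega); omega⟩
    have h2 : (t+1) ^ (2*(m+1)+1) = (a + 1) * (t+1) ^ (m+2) := by
      rw [← ha]; ring
    rw [h2, ha] at h1
    rw [ha, Nat.add_sub_cancel]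
    have h3 : z (m+1) = ((t+1) ^ (m+2) + 1) * a + 1 := by nlinarith [h1]
    rw [h3, Nat.add_sub_cancel]
  induction n with
  | zero => rw [ho0]; simp
  | succ n ih =>
    rw [ho n, hz1 n, ih, Finset.prod_range_succ]
    have h4 : (t+1) ^ (2 * (n+1)) - 1 = ((t+1) ^ (n+1) + 1) * ((t+1) ^ (n+1) - 1) := by
      obtain ⟨a, ha⟩ : ∃ a, (t+1) ^ (n+1) = a + 1 :=
        ⟨(t+1) ^ (n+1) - 1, by have : 1 ≤ (t+1) ^ (n+1) := Nat.one_le_pow _ _ (by omega); omega⟩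
      rw [pow_mul', ha, sub_one_mul_add_one, Nat.add_sub_cancel]
    rw [h4]
    have h5 : (t+1) ^ (n + n + 2) * (t+1) ^ ((n+1) * n) = (t+1) ^ ((n + 1 + 1) * (n + 1)) := by
      rw [← pow_add]; congr 1; ring
    rw [← h5]
    ring

end Cfsg.Agent.Lib.Helper1.Orth
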