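import Mathlib
import Cfsg.Agent.Lib.Helper1.Orth5

namespace Cfsg.Agent.Lib.Helper1.Orth

open QuadraticMap

variable {F : Type*} [Field F]

theorem card_iso_eq {ι : Type} [Fintype ι] [DecidableEq ι] (Q : (ι → F) → F) :
    Nat.card (Cfsg.isometryGroup F Q) = Nat.card (OQ Q) :=
  Nat.card_congr (isoOQ Q).toEquiv

theorem card_OQ_subsingleton {V : Type*} [AddCommGroup V] [Module F V] [Subsingleton V]
    (Q : V → F) : Nat.card (OQ Q) = 1 := by
  rw [Nat.card_eq_one_iff_unique]
  refine ⟨⟨fun a b => Subtype.ext (LinearEquiv.ext fun v => Subsingleton.elim _ _)⟩, ⟨1⟩⟩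

theorem plus_transfer (m : ℕ) (v : Fin m ⊕ Fin m → F) :
    gq m (⇑(0 : QuadraticMap F (Empty → F) F))
      (LinearEquiv.funCongrLeft F F (Equiv.sumEmpty (Fin m ⊕ Fin m) Empty) v)
      = Cfsg.quadFormPlus m F v := by
  unfold gq Cfsg.quadFormPlus
  simp

theorem card_plus [Fintype F] (n : ℕ) :
    Nat.card (Cfsg.isometryGroup F (Cfsg.quadFormPlus (n+1) F)) =
      2 * Fintype.card F ^ ((n+1) * n) * (Fintype.card F ^ (n+1) - 1)
        * ∏ i ∈ Finset.range n, (Fintype.card F ^ (2 * (i+1)) - 1) := by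
  have haniso : ∀ z : Empty → F, (0 : QuadraticMap F (Empty → F) F) z = 0 → z = 0 :=
    fun z _ => Subsingleton.elim _ _
  rw [card_iso_eq, card_OQ_congr _ (plus_transfer (n+1))]
  refine arith_plus (Fintype.card F) Fintype.card_pos
    (fun m => zc (gq m (⇑(0 : QuadraticMap F (Empty → F) F))))
    (fun m => Nat.card (OQ (gq m (⇑(0 : QuadraticMap F (Empty → F) F)))))
    (zc_gq_zero _ haniso) ?_ ?_ ?_ n
  · intro m
    have := zc_gq_succ (0 : QuadraticMap F (Empty → F) F) m
    rwa [Fintype.card_empty] at this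
  · show Nat.card (OQ (gq 0 (⇑(0 : QuadraticMap F (Empty → F) F)))) = 1
    rw [card_OQ_gq_zero]
    exact card_OQ_subsingleton _
  · intro m
    have := card_OQ_gq_succ (0 : QuadraticMap F (Empty → F) F) haniso m
    rwa [Fintype.card_empty] at this

def sqQ (F : Type*) [Field F] : QuadraticMap F (Unit → F) F :=
  QuadraticMap.proj (R := F) (n := Unit) (A := F) () ()

theorem sqQ_apply (z : Unit → F) : sqQ F z = z () * z () := rfl

theorem card_OQ_sq (h2 : (1 : F) ≠ -1) : Nat.card (OQ (⇑(sqQ F))) = 2 := by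
  classical
  have e : OQ (⇑(sqQ F)) ≃ {c : F // c * c = 1} :=
    { toFun := fun g => ⟨g.1 (fun _ => 1) (), by
          have := mem_OQ.1 g.2 (fun _ => 1)
          rw [sqQ_apply, sqQ_apply] at this
          simpa using this⟩
      invFun := fun c => ⟨LinearEquiv.smulOfNeZero F (Unit → F) c.1 (by
            rintro h; have := c.2; rw [h] at this; simp at this), by
          intro z
          rw [sqQ_apply, sqQ_apply]
          simp only [LinearEquiv.smulOfNeZero_apply, Pi.smul_apply, smul_eq_mul]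
          linear_combination (z () * z ()) * c.2⟩
      left_inv := by
        intro g
        apply Subtype.ext; apply LinearEquiv.ext; intro z
        have hz : z = z () • (fun _ : Unit => (1 : F)) := by funext u; simp
        conv_rhs => rw [hz, map_smul]
        funext u
        simp [LinearEquiv.smulOfNeZero_apply, mul_comm]
      right_inv := by
        intro c; apply Subtype.ext
        simp [LinearEquiv.smulOfNeZero_apply] }
  rw [Nat.card_congr e]
  have h3 : {c : F | c * c = 1} = {1, -1} := by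
    ext c; simp [mul_self_eq_one_iff]
  rw [show Nat.card {c : F // c * c = 1} = Nat.card ↥{c : F | c * c = 1} from rfl, h3,
    Nat.card_coe_set_eq, Set.ncard_pair h2]

theorem odd_transfer (m : ℕ) (v : Unit ⊕ (Fin m ⊕ Fin m) → F) :
    gq m (⇑(sqQ F))
      (LinearEquiv.funCongrLeft F F (Equiv.sumComm (Fin m ⊕ Fin m) Unit) v)
      = Cfsg.quadFormOdd m F v := by
  unfold gq Cfsg.quadFormOdd
  rw [sqQ_apply, add_comm, pow_two]
  simp

theorem card_odd [Fintype F] (h2 : (1 : F) ≠ -1) (m : ℕ) :
    Nat.card (Cfsg.isometryGroup F (Cfsg.quadFormOdd m F)) =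
      2 * Fintype.card F ^ (m ^ 2)
        * ∏ i ∈ Finset.range m, (Fintype.card F ^ (2 * (i+1)) - 1) := by
  have haniso : ∀ z : Unit → F, sqQ F z = 0 → z = 0 := by
    intro z hz
    rw [sqQ_apply] at hz
    funext u
    exact mul_self_eq_zero.1 hz
  rw [card_iso_eq, card_OQ_congr _ (odd_transfer m)]
  refine arith_odd (Fintype.card F) Fintype.card_pos
    (fun m => zc (gq m (⇑(sqQ F))))
    (fun m => Nat.card (OQ (gq m (⇑(sqQ F)))))
    (zc_gq_zero _ haniso) ?_ ?_ ?_ m
  · intro m
    have := zc_gq_succ (sqQ F) m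
    rwa [Fintype.card_unit] at this
  · show Nat.card (OQ (gq 0 (⇑(sqQ F)))) = 2
    rw [card_OQ_gq_zero]
    exact card_OQ_sq h2
  · intro m
    have := card_OQ_gq_succ (sqQ F) haniso m
    rwa [Fintype.card_unit] at this

theorem one_ne_neg_one_of_odd [Fintype F] (h : Odd (Fintype.card F)) : (1 : F) ≠ -1 := by
  intro h1
  have h2 : (2 : F) = 0 := by
    have : (1 : F) + 1 = 0 := by nth_rewrite 2 [h1]; ring
    rw [← this]; norm_num
  haveI : CharP F 2 := CharTwo.of_one_ne_zero_of_two_eq_zero one_ne_zero h2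
  have h3 := FiniteField.even_card_of_char_two (ringChar.eq F 2)
  rw [Nat.odd_iff] at h
  omega

end Cfsg.Agent.Lib.Helper1.Orth
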