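import Mathlib
import Cfsg.Agent.Lib.Helper1.Orth6

set_option autoImplicit false

namespace Cfsg.Agent.Lib.Helper1.O3

open Matrix

variable {F : Type*} [Field F]

abbrev W (F : Type*) := Unit ⊕ (Fin 1 ⊕ Fin 1) → F

def iota (w : W F) : Matrix (Fin 2) (Fin 2) F :=
  !![w (.inl ()), w (.inr (.inl 0)); w (.inr (.inr 0)), - w (.inl ())]

def pi (X : Matrix (Fin 2) (Fin 2) F) : W F :=
  Sum.elim (fun _ => X 0 0) (Sum.elim (fun _ => X 0 1) (fun _ => X 1 0))

theorem pi_iota (w : W F) : pi (iota w) = w := by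
  funext i
  rcases i with ⟨⟩ | i | i
  · rfl
  · have : i = 0 := Subsingleton.elim _ _
    subst this; rfl
  · have : i = 0 := Subsingleton.elim _ _
    subst this; rfl

theorem trace_iota (w : W F) : (iota w).trace = 0 := by
  rw [Matrix.trace_fin_two]; simp [iota]

theorem iota_pi (X : Matrix (Fin 2) (Fin 2) F) (h : X.trace = 0) : iota (pi X) = X := by
  rw [Matrix.trace_fin_two] at h
  have h11 : X 1 1 = - X 0 0 := eq_neg_of_add_eq_zero_right h
  ext i j; fin_cases i <;> fin_cases j <;> simp [iota, pi, h11]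

theorem iota_add (w w' : W F) : iota (w + w') = iota w + iota w' := by
  ext i j; fin_cases i <;> fin_cases j <;> simp [iota] <;> ring

theorem iota_smul (c : F) (w : W F) : iota (c • w) = c • iota w := by
  ext i j; fin_cases i <;> fin_cases j <;> simp [iota]

theorem iota_neg (w : W F) : iota (-w) = - iota w := by
  ext i j; fin_cases i <;> fin_cases j <;> simp [iota]

theorem pi_add (X Y : Matrix (Fin 2) (Fin 2) F) : pi (X + Y) = pi X + pi Y := by
  funext i
  rcases i with ⟨⟩ | i | i <;> rfl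

theorem pi_smul (c : F) (X : Matrix (Fin 2) (Fin 2) F) : pi (c • X) = c • pi X := by
  funext i
  rcases i with ⟨⟩ | i | i <;> rfl

theorem Q_pi (X : Matrix (Fin 2) (Fin 2) F) (h : X.trace = 0) :
    Cfsg.quadFormOdd 1 F (pi X) = - X.det := by
  rw [Matrix.trace_fin_two] at h
  have h11 : X 1 1 = - X 0 0 := eq_neg_of_add_eq_zero_right h
  rw [Matrix.det_fin_two, h11]
  unfold Cfsg.quadFormOdd
  simp [pi]
  ring

theorem mul2 (X Y : Matrix (Fin 2) (Fin 2) F) (i j : Fin 2) :
    (X * Y) i j = X i 0 * Y 0 j + X i 1 * Y 1 j := by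
  rw [Matrix.mul_apply, Fin.sum_univ_two]

def conjW (g : GL (Fin 2) F) (w : W F) : W F :=
  pi ((g : Matrix (Fin 2) (Fin 2) F) * iota w * ((g⁻¹ : GL (Fin 2) F) : Matrix (Fin 2) (Fin 2) F))

theorem iota_conjW (g : GL (Fin 2) F) (w : W F) :
    iota (conjW g w) = (g : Matrix (Fin 2) (Fin 2) F) * iota w
      * ((g⁻¹ : GL (Fin 2) F) : Matrix (Fin 2) (Fin 2) F) :=
  iota_pi _ (by rw [Matrix.trace_units_conj, trace_iota])

theorem conjW_mul (g h : GL (Fin 2) F) (w : W F) : conjW (g * h) w = conjW g (conjW h w) := by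
  unfold conjW
  rw [show iota (pi ((h : Matrix (Fin 2) (Fin 2) F) * iota w
    * ((h⁻¹ : GL (Fin 2) F) : Matrix (Fin 2) (Fin 2) F))) = (h : Matrix (Fin 2) (Fin 2) F) * iota w
    * ((h⁻¹ : GL (Fin 2) F) : Matrix (Fin 2) (Fin 2) F) from iota_conjW h w]
  congr 1
  rw [_root_.mul_inv_rev, Units.val_mul, Units.val_mul]
  simp only [mul_assoc]

theorem conjW_one (w : W F) : conjW 1 w = w := by
  unfold conjW
  rw [inv_one, Units.val_one, one_mul, mul_one, pi_iota]

def rhoL (g : GL (Fin 2) F) : W F ≃ₗ[F] W F :=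
  { toFun := conjW g
    map_add' := by
      intro w w'
      unfold conjW
      rw [iota_add, mul_add, add_mul, pi_add]
    map_smul' := by
      intro c w
      unfold conjW
      rw [iota_smul, Matrix.mul_smul, Matrix.smul_mul, pi_smul]
      rfl
    invFun := conjW g⁻¹
    left_inv := fun w => by rw [← conjW_mul, inv_mul_cancel, conjW_one]
    right_inv := fun w => by rw [← conjW_mul, mul_inv_cancel, conjW_one] }

theorem rhoL_apply (g : GL (Fin 2) F) (w : W F) : rhoL g w = conjW g w := rfl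

theorem rhoL_mem (g : GL (Fin 2) F) : rhoL g ∈ Orth.OQ (Cfsg.quadFormOdd 1 F) := by
  intro w
  show Cfsg.quadFormOdd 1 F (conjW g w) = Cfsg.quadFormOdd 1 F w
  unfold conjW
  rw [Q_pi _ (by rw [Matrix.trace_units_conj, trace_iota]), Matrix.det_units_conj,
    ← Q_pi _ (trace_iota w), pi_iota]

def rho : GL (Fin 2) F →* Orth.OQ (Cfsg.quadFormOdd 1 F) where
  toFun g := ⟨rhoL g, rhoL_mem g⟩
  map_one' := Subtype.ext (LinearEquiv.ext fun w => conjW_one w)
  map_mul' g h := Subtype.ext (LinearEquiv.ext fun w => conjW_mul g h w)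

theorem rho_apply (g : GL (Fin 2) F) (w : W F) :
    ((rho g : Orth.OQ (Cfsg.quadFormOdd 1 F)) : W F ≃ₗ[F] W F) w = conjW g w := rfl

def wa : W F := Sum.elim (fun _ => 1) (fun _ => 0)
def wb : W F := Sum.elim (fun _ => 0) (Sum.elim (fun _ => 1) (fun _ => 0))
def wc : W F := Sum.elim (fun _ => 0) (Sum.elim (fun _ => 0) (fun _ => 1))

theorem iota_wa : iota (wa : W F) = !![1, 0; 0, -1] := rfl
theorem iota_wb : iota (wb : W F) = !![0, 1; 0, 0] := by
  ext i j; fin_cases i <;> fin_cases j <;> simp [iota, wb]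
theorem iota_wc : iota (wc : W F) = !![0, 0; 1, 0] := by
  ext i j; fin_cases i <;> fin_cases j <;> simp [iota, wc]

theorem rho_ker : (rho : GL (Fin 2) F →* Orth.OQ (Cfsg.quadFormOdd 1 F)).ker
    = Subgroup.center (GL (Fin 2) F) := by
  ext g
  rw [MonoidHom.mem_ker]
  constructor
  · intro h
    have hc : ∀ w : W F, (g : Matrix (Fin 2) (Fin 2) F) * iota w = iota w * g := by
      intro w
      have h1 : conjW g w = w := by
        have := congrArg (fun x : Orth.OQ (Cfsg.quadFormOdd 1 F) => (x : W F ≃ₗ[F] W F) w) h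
        exact this
      have h2 := iota_conjW g w
      rw [h1] at h2
      calc (g : Matrix (Fin 2) (Fin 2) F) * iota w
          = ((g : Matrix (Fin 2) (Fin 2) F) * iota w
            * ((g⁻¹ : GL (Fin 2) F) : Matrix (Fin 2) (Fin 2) F)) * g := by
            rw [mul_assoc _ _ (g : Matrix (Fin 2) (Fin 2) F), Units.inv_mul, mul_one]
        _ = iota w * g := by rw [← h2]
    rw [Matrix.GeneralLinearGroup.mem_center_iff_val_mem_range_scalar]
    have hb := hc wb
    have hcc := hc wc
    rw [iota_wb] at hb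
    rw [iota_wc] at hcc
    have e1 := congrFun (congrFun hb 0) 0
    have e2 := congrFun (congrFun hb 0) 1
    have e3 := congrFun (congrFun hcc 0) 0
    simp only [mul2, Matrix.neg_apply] at e1 e2 e3
    simp at e1 e2 e3
    refine ⟨g.1 0 0, ?_⟩
    ext i j
    fin_cases i <;> fin_cases j <;> simp [← e1, e2, e3]
  · intro h
    rw [Matrix.GeneralLinearGroup.mem_center_iff_val_mem_range_scalar] at h
    obtain ⟨c, hc⟩ := h
    apply Subtype.ext
    apply LinearEquiv.ext
    intro w
    show conjW g w = w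
    unfold conjW
    have hcomm : (g : Matrix (Fin 2) (Fin 2) F) * iota w = iota w * g := by
      rw [← hc]
      exact (Matrix.scalar_commute c (fun r => Commute.all _ _) (iota w)).eq
    rw [hcomm, mul_assoc, Units.mul_inv, mul_one, pi_iota]

theorem neg_one_not_range (h2 : (1 : F) ≠ -1) (g : GL (Fin 2) F) :
    ¬ (∀ w : W F, conjW g w = -w) := by
  intro h
  have hc : ∀ w : W F, (g : Matrix (Fin 2) (Fin 2) F) * iota w = - (iota w * g) := by
    intro w
    have h3 := iota_conjW g w
    rw [h w, iota_neg] at h3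
    calc (g : Matrix (Fin 2) (Fin 2) F) * iota w
        = ((g : Matrix (Fin 2) (Fin 2) F) * iota w
          * ((g⁻¹ : GL (Fin 2) F) : Matrix (Fin 2) (Fin 2) F)) * g := by
          rw [mul_assoc _ _ (g : Matrix (Fin 2) (Fin 2) F), Units.inv_mul, mul_one]
      _ = - (iota w * g) := by rw [← h3, neg_mul]
  have ha := hc wa
  have hb := hc wb
  have hcc := hc wc
  rw [iota_wa] at ha
  rw [iota_wb] at hb
  rw [iota_wc] at hcc
  have e0 := congrFun (congrFun ha 0) 0
  have e1 := congrFun (congrFun hb 0) 0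
  have e2 := congrFun (congrFun hb 0) 1
  have e3 := congrFun (congrFun hcc 0) 0
  simp only [mul2, Matrix.neg_apply] at e0 e1 e2 e3
  simp at e0 e1 e2 e3
  have htwo : (2 : F) ≠ 0 := by
    intro h'
    apply h2
    have : (1 : F) + 1 = 0 := by rw [← h']; norm_num
    exact eq_neg_of_add_eq_zero_left this
  have g00 : g.1 0 0 = 0 := by
    have : (2 : F) * g.1 0 0 = 0 := by linear_combination e0
    exact (mul_eq_zero.mp this).resolve_left htwo
  have g11 : g.1 1 1 = 0 := by
    rw [g00] at e2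
    have := e2
    simpa using this.symm
  have hz : g.1 = 0 := by
    ext i j
    fin_cases i <;> fin_cases j <;> simp [g00, g11, e1, e3]
  have hone : (g : Matrix (Fin 2) (Fin 2) F) * ((g⁻¹ : GL (Fin 2) F) : Matrix (Fin 2) (Fin 2) F) = 1 :=
    Units.mul_inv g
  rw [hz, zero_mul] at hone
  exact zero_ne_one hone

end Cfsg.Agent.Lib.Helper1.O3
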