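import Mathlib
import Cfsg.Agent.Lib.Helper1.O3a
import Cfsg.Agent.Lib.Helper1.GLn
import Cfsg.Agent.Lib.Helper1.SLn

set_option autoImplicit false

namespace Cfsg.Agent.Lib.Helper1.O3

open Matrix
open scoped commutatorElement

theorem comm_central {G : Type*} [Group G] (z z' x y : G) (hz : z ∈ Subgroup.center G)
    (hz' : z' ∈ Subgroup.center G) : ⁅z * x, z' * y⁆ = ⁅x, y⁆ := by
  have h1 : ∀ g, g * z = z * g := Subgroup.mem_center_iff.mp hz
  have h1' : ∀ g, g * z' = z' * g := Subgroup.mem_center_iff.mp hz'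
  have e1 : ∀ b : G, ⁅z * x, b⁆ = ⁅x, b⁆ := by
    intro b
    rw [commutatorElement_def, commutatorElement_def]
    calc z * x * b * (z * x)⁻¹ * b⁻¹ = z * (x * b * x⁻¹) * z⁻¹ * b⁻¹ := by group
      _ = (x * b * x⁻¹) * z * z⁻¹ * b⁻¹ := by rw [← h1 (x * b * x⁻¹)]
      _ = x * b * x⁻¹ * b⁻¹ := by group
  have e2 : ∀ a : G, ⁅a, z' * y⁆ = ⁅a, y⁆ := by
    intro a
    rw [commutatorElement_def, commutatorElement_def]
    calc a * (z' * y) * a⁻¹ * (z' * y)⁻¹ = (a * z') * (y * a⁻¹ * y⁻¹) * z'⁻¹ := by group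
      _ = (z' * a) * (y * a⁻¹ * y⁻¹) * z'⁻¹ := by rw [h1' a]
      _ = z' * (a * y * a⁻¹ * y⁻¹) * z'⁻¹ := by group
      _ = (a * y * a⁻¹ * y⁻¹) * z' * z'⁻¹ := by rw [← h1' (a * y * a⁻¹ * y⁻¹)]
      _ = a * y * a⁻¹ * y⁻¹ := by group
  rw [e1, e2]

noncomputable def commEquiv {G H : Type*} [Group G] [Group H] (e : G ≃* H) :
    commutator G ≃* commutator H :=
  (e.subgroupMap (commutator G)).trans (MulEquiv.subgroupCongr (by
    rw [_root_.commutator_def, _root_.commutator_def]
    show Subgroup.map e.toMonoidHom ⁅(⊤ : Subgroup G), ⊤⁆ = _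
    rw [Subgroup.map_commutator, ← MonoidHom.range_eq_map,
      MonoidHom.range_eq_top.mpr e.surjective]))

theorem center_eq_bot_of_equiv {A B : Type*} [Group A] [Group B] (e : A ≃* B)
    (h : Subgroup.center B = ⊥) : Subgroup.center A = ⊥ := by
  rw [eq_bot_iff]
  intro z hz
  rw [Subgroup.mem_bot]
  have : e z ∈ Subgroup.center B := by
    rw [Subgroup.mem_center_iff]
    intro b
    obtain ⟨a, rfl⟩ := e.surjective b
    rw [← map_mul, ← map_mul, Subgroup.mem_center_iff.mp hz a]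
  rw [h, Subgroup.mem_bot] at this
  exact e.injective (this.trans (map_one e).symm)

variable {F : Type*} [Field F]

def negOne : Orth.OQ (Cfsg.quadFormOdd 1 F) :=
  ⟨LinearEquiv.neg F, fun v => by
    show Cfsg.quadFormOdd 1 F (-v) = Cfsg.quadFormOdd 1 F v
    unfold Cfsg.quadFormOdd
    simp⟩

theorem negOne_apply (v : W F) :
    ((negOne : Orth.OQ (Cfsg.quadFormOdd 1 F)) : W F ≃ₗ[F] W F) v = -v := rfl

theorem negOne_central : (negOne : Orth.OQ (Cfsg.quadFormOdd 1 F)) ∈
    Subgroup.center (Orth.OQ (Cfsg.quadFormOdd 1 F)) := by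
  rw [Subgroup.mem_center_iff]
  intro a
  apply Subtype.ext
  apply LinearEquiv.ext
  intro v
  show a.1 (-v) = -(a.1 v)
  exact map_neg _ _

theorem negOne_not_range (h2 : (1 : F) ≠ -1) :
    (negOne : Orth.OQ (Cfsg.quadFormOdd 1 F)) ∉ (rho : GL (Fin 2) F →* _).range := by
  rintro ⟨g, hg⟩
  apply neg_one_not_range h2 g
  intro w
  have := congrArg (fun x : Orth.OQ (Cfsg.quadFormOdd 1 F) => (x : W F ≃ₗ[F] W F) w) hg
  exact this

theorem card_SL2 [Fintype F] : Nat.card (SpecialLinearGroup (Fin 2) F)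
    = Fintype.card F * (Fintype.card F ^ 2 - 1) := by
  have h := GLn.card_SL_formula (F := F) 2 (by norm_num)
  have hq : 2 ≤ Fintype.card F := Fintype.one_lt_card
  rw [Fin.prod_univ_two] at h
  simp only [Fin.val_zero, Fin.val_one, pow_zero, pow_one] at h
  obtain ⟨t, ht⟩ : ∃ t, Fintype.card F = t + 2 := ⟨Fintype.card F - 2, by omega⟩
  rw [ht] at h ⊢
  have e1 : (t + 2) ^ 2 - 1 = (t + 1) * (t + 3) := by
    have : (t + 2) ^ 2 = (t + 1) * (t + 3) + 1 := by ring
    omega
  have e2 : (t + 2) ^ 2 - (t + 2) = (t + 1) * (t + 2) := by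
    have : (t + 2) ^ 2 = (t + 1) * (t + 2) + (t + 2) := by ring
    omega
  have e3 : t + 2 - 1 = t + 1 := by omega
  rw [e1, e2, e3] at h
  rw [e1]
  have : (t + 1) * Nat.card (SpecialLinearGroup (Fin 2) F)
      = (t + 1) * ((t + 2) * ((t + 1) * (t + 3))) := by rw [h]; ring
  exact Nat.eq_of_mul_eq_mul_left (by omega) this

theorem index_range [Fintype F] (h2 : (1 : F) ≠ -1) :
    (rho : GL (Fin 2) F →* Orth.OQ (Cfsg.quadFormOdd 1 F)).range.index = 2 := by
  have hq : 2 ≤ Fintype.card F := Fintype.one_lt_card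
  have c1 : Nat.card (rho : GL (Fin 2) F →* Orth.OQ (Cfsg.quadFormOdd 1 F)).range
      = Fintype.card F * (Fintype.card F ^ 2 - 1) := by
    rw [← Nat.card_congr (QuotientGroup.quotientKerEquivRange
      (rho : GL (Fin 2) F →* Orth.OQ (Cfsg.quadFormOdd 1 F))).toEquiv, rho_ker, ← card_SL2,
      ← GLn.card_PGL_eq_card_SL]
    rfl
  have c2 : Nat.card (Orth.OQ (Cfsg.quadFormOdd 1 F))
      = 2 * (Fintype.card F * (Fintype.card F ^ 2 - 1)) := by
    rw [← Orth.card_iso_eq, Orth.card_odd h2 1]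
    simp [Finset.prod_range_one]
    ring
  have h := Subgroup.index_mul_card (rho : GL (Fin 2) F →* Orth.OQ (Cfsg.quadFormOdd 1 F)).range
  rw [c1, c2] at h
  have hpos : 0 < Fintype.card F * (Fintype.card F ^ 2 - 1) := by
    apply Nat.mul_pos (by omega)
    have : 2 ^ 2 ≤ Fintype.card F ^ 2 := Nat.pow_le_pow_left hq 2
    omega
  exact Nat.eq_of_mul_eq_mul_right hpos h

theorem decomp [Fintype F] (h2 : (1 : F) ≠ -1) (a : Orth.OQ (Cfsg.quadFormOdd 1 F)) :
    ∃ z ∈ Subgroup.center (Orth.OQ (Cfsg.quadFormOdd 1 F)), ∃ g : GL (Fin 2) F,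
      a = z * rho g := by
  by_cases ha : a ∈ (rho : GL (Fin 2) F →* Orth.OQ (Cfsg.quadFormOdd 1 F)).range
  · obtain ⟨g, rfl⟩ := ha
    exact ⟨1, Subgroup.one_mem _, g, (one_mul _).symm⟩
  · have h := (Subgroup.mul_mem_iff_of_index_two (index_range h2) (a := negOne) (b := a)).mpr
      ⟨fun h => absurd h (negOne_not_range h2), fun h => absurd h ha⟩
    obtain ⟨g, hg⟩ := h
    refine ⟨negOne, negOne_central, g, ?_⟩
    rw [hg, ← mul_assoc]
    have : (negOne : Orth.OQ (Cfsg.quadFormOdd 1 F)) * negOne = 1 := by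
      apply Subtype.ext
      apply LinearEquiv.ext
      intro v
      show -(-v) = v
      exact neg_neg v
    rw [this, one_mul]

theorem commutator_OQ [Fintype F] (h2 : (1 : F) ≠ -1) :
    commutator (Orth.OQ (Cfsg.quadFormOdd 1 F))
      = (commutator (GL (Fin 2) F)).map rho := by
  apply le_antisymm
  · rw [_root_.commutator_def, Subgroup.commutator_le]
    intro a _ b _
    obtain ⟨z, hz, g, rfl⟩ := decomp h2 a
    obtain ⟨z', hz', g', rfl⟩ := decomp h2 b
    rw [comm_central z z' _ _ hz hz', ← map_commutatorElement]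
    exact Subgroup.mem_map_of_mem _
      (Subgroup.commutator_mem_commutator (Subgroup.mem_top _) (Subgroup.mem_top _))
  · rw [_root_.commutator_def, _root_.commutator_def, Subgroup.map_commutator]
    exact Subgroup.commutator_mono le_top le_top

def fSL : SpecialLinearGroup (Fin 2) F →* Orth.OQ (Cfsg.quadFormOdd 1 F) :=
  rho.comp SpecialLinearGroup.toGL

theorem fSL_ker : (fSL : SpecialLinearGroup (Fin 2) F →* _).ker
    = Subgroup.center (SpecialLinearGroup (Fin 2) F) := by
  ext s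
  rw [MonoidHom.mem_ker]
  show rho (SpecialLinearGroup.toGL s) = 1 ↔ _
  rw [← MonoidHom.mem_ker, rho_ker, SpecialLinearGroup.toGL_mem_center_iff]

theorem fSL_range [Fintype F] (h2 : (1 : F) ≠ -1) :
    (fSL : SpecialLinearGroup (Fin 2) F →* _).range
      = commutator (Orth.OQ (Cfsg.quadFormOdd 1 F)) := by
  have hne : ∃ a : F, a ≠ 0 ∧ a ≠ 1 := ⟨-1, neg_ne_zero.mpr one_ne_zero, fun h => h2 h.symm⟩
  rw [commutator_OQ h2, SLn.commutator_GL_eq_ker_det (fun _ => hne)]
  have hr : (Matrix.GeneralLinearGroup.det : GL (Fin 2) F →* Fˣ).ker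
      = (SpecialLinearGroup.toGL : SpecialLinearGroup (Fin 2) F →* GL (Fin 2) F).range := by
    ext g
    constructor
    · intro hg
      have hdet : (g : Matrix (Fin 2) (Fin 2) F).det = 1 := by
        have h1 := congrArg Units.val (MonoidHom.mem_ker.1 hg)
        simpa using h1
      exact ⟨⟨g.val, hdet⟩, Units.ext rfl⟩
    · rintro ⟨s, rfl⟩
      rw [MonoidHom.mem_ker]
      ext
      simp
  rw [hr, ← MonoidHom.range_comp]
  rfl

theorem center_PSL2 (h2 : (1 : F) ≠ -1) :
    Subgroup.center (ProjectiveSpecialLinearGroup (Fin 2) F) = ⊥ := by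
  rw [eq_bot_iff]
  intro z hz
  induction z using QuotientGroup.induction_on with | H s =>
  rw [Subgroup.mem_bot, QuotientGroup.eq_one_iff]
  rw [Subgroup.mem_center_iff] at hz
  have key : ∀ x : SpecialLinearGroup (Fin 2) F, ∃ r : F, r ^ 2 = 1 ∧
      (x * s).1 = (s * x).1 * Matrix.scalar (Fin 2) r := by
    intro x
    have h := hz (QuotientGroup.mk x)
    rw [← QuotientGroup.mk_mul, ← QuotientGroup.mk_mul] at h
    have h' := QuotientGroup.eq.mp h.symm
    rw [Matrix.SpecialLinearGroup.mem_center_iff] at h'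
    obtain ⟨r, hr, hr'⟩ := h'
    refine ⟨r, by simpa using hr, ?_⟩
    rw [hr']
    have : (s * x) * ((s * x)⁻¹ * (x * s)) = x * s := by group
    exact (congrArg Subtype.val this).symm
  have htwo : (2 : F) ≠ 0 := by
    intro h'
    apply h2
    have : (1 : F) + 1 = 0 := by rw [← h']; norm_num
    exact eq_neg_of_add_eq_zero_left this
  have hdet : s.1 0 0 * s.1 1 1 - s.1 0 1 * s.1 1 0 = 1 := by
    rw [← Matrix.det_fin_two]; exact s.2
  let T1 : SpecialLinearGroup (Fin 2) F := ⟨!![1, 1; 0, 1], by simp [Matrix.det_fin_two]⟩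
  let T2 : SpecialLinearGroup (Fin 2) F := ⟨!![1, 0; 1, 1], by simp [Matrix.det_fin_two]⟩
  obtain ⟨r1, hr1, e1⟩ := key T1
  obtain ⟨r2, hr2, e2⟩ := key T2
  have e1' : (!![1, 1; 0, 1] : Matrix (Fin 2) (Fin 2) F) * s.1
      = s.1 * !![1, 1; 0, 1] * Matrix.scalar (Fin 2) r1 := e1
  have e2' : (!![1, 0; 1, 1] : Matrix (Fin 2) (Fin 2) F) * s.1
      = s.1 * !![1, 0; 1, 1] * Matrix.scalar (Fin 2) r2 := e2
  have a00 := congrFun (congrFun e1' 0) 0
  have a01 := congrFun (congrFun e1' 0) 1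
  have a10 := congrFun (congrFun e1' 1) 0
  have b00 := congrFun (congrFun e2' 0) 0
  have b01 := congrFun (congrFun e2' 0) 1
  have b11 := congrFun (congrFun e2' 1) 1
  simp only [mul2] at a00 a01 a10 b00 b01 b11
  simp at a00 a01 a10 b00 b01 b11
  have hr1' : (r1 - 1) * (r1 + 1) = 0 := by linear_combination hr1
  have hr2' : (r2 - 1) * (r2 + 1) = 0 := by linear_combination hr2
  have r1one : r1 = 1 := by
    rcases mul_eq_zero.mp hr1' with h | h
    · exact sub_eq_zero.mp h
    · exfalso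
      have hr : r1 = -1 := eq_neg_of_add_eq_zero_left h
      rw [hr] at a00 a10
      have t0 : s.1 1 0 = 0 := by
        have : (2 : F) * s.1 1 0 = 0 := by linear_combination a10
        exact (mul_eq_zero.mp this).resolve_left htwo
      have p0 : s.1 0 0 = 0 := by
        have : (2 : F) * s.1 0 0 = 0 := by linear_combination a00 - t0
        exact (mul_eq_zero.mp this).resolve_left htwo
      rw [t0, p0] at hdet
      simp at hdet
  have r2one : r2 = 1 := by
    rcases mul_eq_zero.mp hr2' with h | h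
    · exact sub_eq_zero.mp h
    · exfalso
      have hr : r2 = -1 := eq_neg_of_add_eq_zero_left h
      rw [hr] at b00 b01
      have q0 : s.1 0 1 = 0 := by
        have : (2 : F) * s.1 0 1 = 0 := by linear_combination b01
        exact (mul_eq_zero.mp this).resolve_left htwo
      have p0 : s.1 0 0 = 0 := by
        have : (2 : F) * s.1 0 0 = 0 := by linear_combination b00 - q0
        exact (mul_eq_zero.mp this).resolve_left htwo
      rw [q0, p0] at hdet
      simp at hdet
  rw [r1one] at a00 a01 a10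
  rw [r2one] at b00 b01 b11
  have t0 : s.1 1 0 = 0 := by linear_combination a00
  have q0 : s.1 0 1 = 0 := by linear_combination -b00
  have up : s.1 1 1 = s.1 0 0 := by linear_combination a01
  rw [Matrix.SpecialLinearGroup.mem_center_iff]
  refine ⟨s.1 0 0, ?_, ?_⟩
  · rw [Fintype.card_fin]
    rw [t0, q0, up] at hdet
    linear_combination hdet
  · ext i j
    fin_cases i <;> fin_cases j <;> simp [t0, q0, up]

end Cfsg.Agent.Lib.Helper1.O3
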