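import Mathlib
import Cfsg.Agent.Lib.Helper1.Orth6
import Cfsg.Agent.Lib.Helper1.GLn
import Cfsg.Agent.Lib.Helper1.SLn
import Cfsg.Agent.Lib.Helper1.O3b

set_option autoImplicit false

namespace Cfsg.Agent.Lib.Helper1.O4

open Matrix

variable {F : Type*} [Field F]

abbrev V (F : Type*) := Matrix (Fin 2) (Fin 2) F

def detQ (X : V F) : F := X.det

def phi : (Fin 2 ⊕ Fin 2 → F) ≃ₗ[F] V F where
  toFun v := !![v (.inl 0), - v (.inl 1); v (.inr 1), v (.inr 0)]
  map_add' v w := by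
    ext i j; fin_cases i <;> fin_cases j <;> simp <;> ring
  map_smul' c v := by
    ext i j; fin_cases i <;> fin_cases j <;> simp
  invFun X := Sum.elim ![X 0 0, - X 0 1] ![X 1 1, X 1 0]
  left_inv v := by
    funext i; rcases i with i | i <;> fin_cases i <;> simp
  right_inv X := by
    ext i j; fin_cases i <;> fin_cases j <;> simp

theorem phi_Q (v : Fin 2 ⊕ Fin 2 → F) : detQ (phi v) = Cfsg.quadFormPlus 2 F v := by
  unfold detQ Cfsg.quadFormPlus
  rw [Matrix.det_fin_two, Fin.sum_univ_two]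
  simp [phi]

def lr (g h : GL (Fin 2) F) : V F ≃ₗ[F] V F where
  toFun X := g.1 * X * h.1ᵀ
  map_add' X Y := by rw [mul_add, add_mul]
  map_smul' c X := by rw [Matrix.mul_smul, Matrix.smul_mul]; rfl
  invFun X := g⁻¹.1 * X * h⁻¹.1ᵀ
  left_inv X := by
    show g⁻¹.1 * (g.1 * X * h.1ᵀ) * h⁻¹.1ᵀ = X
    rw [← mul_assoc, ← mul_assoc, Units.inv_mul, one_mul, mul_assoc, ← Matrix.transpose_mul,
      Units.inv_mul, Matrix.transpose_one, mul_one]
  right_inv X := by
    show g.1 * (g⁻¹.1 * X * h⁻¹.1ᵀ) * h.1ᵀ = X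
    rw [← mul_assoc, ← mul_assoc, Units.mul_inv, one_mul, mul_assoc, ← Matrix.transpose_mul,
      Units.mul_inv, Matrix.transpose_one, mul_one]

theorem lr_apply (g h : GL (Fin 2) F) (X : V F) : lr g h X = g.1 * X * h.1ᵀ := rfl

theorem lr_mul (g g' h h' : GL (Fin 2) F) : lr (g * g') (h * h') = lr g h * lr g' h' := by
  apply LinearEquiv.ext
  intro X
  show (g * g').1 * X * (h * h').1ᵀ = g.1 * (g'.1 * X * h'.1ᵀ) * h.1ᵀ
  rw [Units.val_mul, Units.val_mul, Matrix.transpose_mul]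
  simp only [mul_assoc]

theorem det_lr (g h : GL (Fin 2) F) (X : V F) :
    detQ (lr g h X) = g.1.det * h.1.det * detQ X := by
  unfold detQ
  rw [lr_apply, Matrix.det_mul, Matrix.det_mul, Matrix.det_transpose]
  ring

def D : GL (Fin 2) F × GL (Fin 2) F →* Fˣ :=
  MonoidHom.coprod Matrix.GeneralLinearGroup.det Matrix.GeneralLinearGroup.det

theorem D_apply (p : GL (Fin 2) F × GL (Fin 2) F) :
    D p = Matrix.GeneralLinearGroup.det p.1 * Matrix.GeneralLinearGroup.det p.2 := rfl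

theorem mem_kerD {p : GL (Fin 2) F × GL (Fin 2) F} :
    p ∈ (D : GL (Fin 2) F × GL (Fin 2) F →* Fˣ).ker ↔ p.1.1.det * p.2.1.det = 1 := by
  rw [MonoidHom.mem_ker, D_apply, Units.ext_iff]
  simp

def rho0 : (D : GL (Fin 2) F × GL (Fin 2) F →* Fˣ).ker →* Orth.OQ (detQ (F := F)) where
  toFun p := ⟨lr p.1.1 p.1.2, fun X => by rw [det_lr, mem_kerD.1 p.2, one_mul]⟩
  map_one' := by
    apply Subtype.ext
    apply LinearEquiv.ext
    intro X
    show (1 : GL (Fin 2) F).1 * X * (1 : GL (Fin 2) F).1ᵀ = X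
    rw [Units.val_one, one_mul, Matrix.transpose_one, mul_one]
  map_mul' p p' := Subtype.ext (lr_mul p.1.1 p'.1.1 p.1.2 p'.1.2)

theorem rho0_apply (p : (D : GL (Fin 2) F × GL (Fin 2) F →* Fˣ).ker) (X : V F) :
    ((rho0 p : Orth.OQ (detQ (F := F))) : V F ≃ₗ[F] V F) X = p.1.1.1 * X * p.1.2.1ᵀ := rfl

def tau : Orth.OQ (detQ (F := F)) :=
  ⟨Matrix.transposeLinearEquiv (Fin 2) (Fin 2) F F, fun X => Matrix.det_transpose X⟩

theorem tau_apply (X : V F) : ((tau : Orth.OQ (detQ (F := F))) : V F ≃ₗ[F] V F) X = Xᵀ := rfl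

theorem tau_not_range : (tau : Orth.OQ (detQ (F := F))) ∉ (rho0 (F := F)).range := by
  rintro ⟨p, hp⟩
  have h : ∀ X : V F, p.1.1.1 * X * p.1.2.1ᵀ = Xᵀ := fun X =>
    congrArg (fun a : Orth.OQ (detQ (F := F)) => (a : V F ≃ₗ[F] V F) X) hp
  have h1 : p.1.1.1 * p.1.2.1ᵀ = 1 := by
    have := h 1
    rwa [mul_one, Matrix.transpose_one] at this
  have h1' : p.1.2.1ᵀ * p.1.1.1 = 1 := _root_.mul_eq_one_comm.mp h1
  have h2 : ∀ X : V F, p.1.1.1 * X = Xᵀ * p.1.1.1 := by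
    intro X
    rw [← h X, mul_assoc, h1', mul_one]
  have e0 := h2 !![1, 0; 0, 0]
  have e1 := h2 !![0, 1; 0, 0]
  have a10 := congrFun (congrFun e0 1) 0
  have b01 := congrFun (congrFun e1 0) 1
  simp only [O3.mul2] at a10 b01
  simp at a10 b01
  have hdet : p.1.1.1.det = 0 := by
    rw [Matrix.det_fin_two, a10, b01]
    ring
  have := congrArg Matrix.det (Units.mul_inv p.1.1)
  rw [Matrix.det_mul, Matrix.det_one, hdet, zero_mul] at this
  exact zero_ne_one this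

theorem ker_rho0_center (p : (D : GL (Fin 2) F × GL (Fin 2) F →* Fˣ).ker)
    (hp : p ∈ (rho0 (F := F)).ker) :
    p.1.1 ∈ Subgroup.center (GL (Fin 2) F) ∧ p.1.1.1 * p.1.2.1ᵀ = 1 := by
  have h : ∀ X : V F, p.1.1.1 * X * p.1.2.1ᵀ = X := fun X =>
    congrArg (fun a : Orth.OQ (detQ (F := F)) => (a : V F ≃ₗ[F] V F) X) (MonoidHom.mem_ker.mp hp)
  have h1 : p.1.1.1 * p.1.2.1ᵀ = 1 := by
    have := h 1
    rwa [mul_one] at this
  have h1' : p.1.2.1ᵀ * p.1.1.1 = 1 := _root_.mul_eq_one_comm.mp h1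
  have h2 : ∀ X : V F, p.1.1.1 * X = X * p.1.1.1 := by
    intro X
    nth_rewrite 2 [← h X]
    rw [mul_assoc, h1', mul_one]
  refine ⟨?_, h1⟩
  rw [Subgroup.mem_center_iff]
  intro k
  apply Units.ext
  rw [Units.val_mul, Units.val_mul]
  exact (h2 k.1).symm

theorem card_center_GL2 [Fintype F] :
    Nat.card (Subgroup.center (GL (Fin 2) F)) = Fintype.card F - 1 := by
  have h1 := Subgroup.card_eq_card_quotient_mul_card_subgroup (Subgroup.center (GL (Fin 2) F))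
  have h3 : Nat.card (GL (Fin 2) F ⧸ Subgroup.center (GL (Fin 2) F))
      = Nat.card (Matrix.SpecialLinearGroup (Fin 2) F) := GLn.card_PGL_eq_card_SL (F := F) 2
  rw [h3, GLn.card_GL_eq_mul_card_SL, mul_comm] at h1
  have hpos : 0 < Nat.card (Matrix.SpecialLinearGroup (Fin 2) F) := Nat.card_pos
  exact (Nat.eq_of_mul_eq_mul_left hpos h1).symm

theorem card_ker_rho0_le [Fintype F] :
    Nat.card (rho0 (F := F)).ker ≤ Fintype.card F - 1 := by
  rw [← card_center_GL2]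
  apply Nat.card_le_card_of_injective
    (fun p : (rho0 (F := F)).ker => (⟨p.1.1.1, (ker_rho0_center p.1 p.2).1⟩ :
      Subgroup.center (GL (Fin 2) F)))
  intro p p' hpp
  have e1 : p.1.1.1 = p'.1.1.1 := congrArg Subtype.val hpp
  have h1 := (ker_rho0_center p.1 p.2).2
  have h2 := (ker_rho0_center p'.1 p'.2).2
  rw [← e1] at h2
  have e2 : p.1.1.2.1ᵀ = p'.1.1.2.1ᵀ := by
    have : p.1.1.1⁻¹.1 * (p.1.1.1.1 * p.1.1.2.1ᵀ) = p.1.1.1⁻¹.1 * (p.1.1.1.1 * p'.1.1.2.1ᵀ) := by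
      rw [h1, h2]
    rwa [← mul_assoc, ← mul_assoc, Units.inv_mul, one_mul, one_mul] at this
  have e3 : p.1.1.2 = p'.1.1.2 := Units.ext (Matrix.transpose_injective e2)
  exact Subtype.ext (Subtype.ext (Prod.ext e1 e3))

theorem card_kerD [Fintype F] :
    (Fintype.card F - 1) * Nat.card (D : GL (Fin 2) F × GL (Fin 2) F →* Fˣ).ker
      = Nat.card (GL (Fin 2) F) * Nat.card (GL (Fin 2) F) := by
  have hsurj : Function.Surjective (D : GL (Fin 2) F × GL (Fin 2) F →* Fˣ) := by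
    intro u
    obtain ⟨g, hg⟩ := Matrix.GeneralLinearGroup.det_surjective (n := Fin 2) (R := F) u
    exact ⟨(g, 1), by rw [D_apply, hg, map_one, mul_one]⟩
  have h1 := Subgroup.card_eq_card_quotient_mul_card_subgroup
    (D : GL (Fin 2) F × GL (Fin 2) F →* Fˣ).ker
  have h2 : Nat.card ((GL (Fin 2) F × GL (Fin 2) F) ⧸ (D : GL (Fin 2) F × GL (Fin 2) F →* Fˣ).ker)
      = Nat.card Fˣ := Nat.card_congr (QuotientGroup.quotientKerEquivOfSurjective _ hsurj).toEquiv
  rw [h2, Nat.card_units, Nat.card_eq_fintype_card (α := F), Nat.card_prod] at h1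
  exact h1.symm

theorem card_O [Fintype F] : Nat.card (Orth.OQ (detQ (F := F)))
    = 2 * (Fintype.card F * (Fintype.card F ^ 2 - 1)) ^ 2 := by
  rw [← Nat.card_congr (Orth.congrOQ phi (phi_Q (F := F))).toEquiv, ← Orth.card_iso_eq,
    Orth.card_plus 1]
  simp
  ring

theorem index_R [Fintype F] : (rho0 (F := F)).range.index = 2 := by
  have hq : 2 ≤ Fintype.card F := Fintype.one_lt_card
  have hM : 0 < Fintype.card F * (Fintype.card F ^ 2 - 1) := by
    apply Nat.mul_pos (by omega)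
    have : 2 ^ 2 ≤ Fintype.card F ^ 2 := Nat.pow_le_pow_left hq 2
    omega
  have c1 := Subgroup.card_eq_card_quotient_mul_card_subgroup (rho0 (F := F)).ker
  rw [Nat.card_congr (QuotientGroup.quotientKerEquivRange (rho0 (F := F))).toEquiv] at c1
  have c2 := card_kerD (F := F)
  rw [GLn.card_GL_eq_mul_card_SL, O3.card_SL2] at c2
  have c3 := card_ker_rho0_le (F := F)
  have c4 := Subgroup.index_mul_card (rho0 (F := F)).range
  rw [card_O] at c4
  have hne : (rho0 (F := F)).range.index ≠ 1 := by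
    intro h
    rw [Subgroup.index_eq_one] at h
    exact tau_not_range (h ▸ Subgroup.mem_top _)
  obtain ⟨M, hMdef⟩ : ∃ M, M = Fintype.card F * (Fintype.card F ^ 2 - 1) := ⟨_, rfl⟩
  obtain ⟨R, hRdef⟩ : ∃ R, R = Nat.card (rho0 (F := F)).range := ⟨_, rfl⟩
  obtain ⟨K, hKdef⟩ : ∃ K, K = Nat.card (rho0 (F := F)).ker := ⟨_, rfl⟩
  obtain ⟨G, hGdef⟩ : ∃ G, G = Nat.card (D : GL (Fin 2) F × GL (Fin 2) F →* Fˣ).ker := ⟨_, rfl⟩
  obtain ⟨i, hidef⟩ : ∃ i, i = (rho0 (F := F)).range.index := ⟨_, rfl⟩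
  obtain ⟨t, htdef⟩ : ∃ t, Fintype.card F - 1 = t + 1 := ⟨Fintype.card F - 2, by omega⟩
  rw [← hMdef, ← hGdef, htdef] at c2
  rw [← hKdef, htdef] at c3
  rw [← hGdef, ← hRdef, ← hKdef] at c1
  rw [← hidef, ← hRdef, ← hMdef] at c4
  rw [← hMdef] at hM
  rw [← hidef] at hne ⊢
  have hG : G = (t + 1) * M * M := by
    have : (t + 1) * G = (t + 1) * ((t + 1) * M * M) := by rw [c2]; ring
    exact Nat.eq_of_mul_eq_mul_left (by omega) this
  have hR : M * M ≤ R := by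
    by_contra hlt
    rw [not_le] at hlt
    have h5 : R * K < (t + 1) * M * M := by
      calc R * K ≤ R * (t + 1) := Nat.mul_le_mul_left _ c3
        _ < M * M * (t + 1) := Nat.mul_lt_mul_of_pos_right hlt (by omega)
        _ = (t + 1) * M * M := by ring
    rw [← hG, c1] at h5
    exact lt_irrefl _ h5
  have hi : i ≤ 2 := by
    by_contra hlt
    rw [not_le] at hlt
    have h6 : 3 * (M * M) ≤ i * R := Nat.mul_le_mul hlt hR
    have h7 : 0 < M * M := Nat.mul_pos hM hM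
    rw [c4] at h6
    nlinarith
  have hpos : i ≠ 0 := by
    rintro rfl
    have h7 : 0 < M * M := Nat.mul_pos hM hM
    rw [zero_mul] at c4
    nlinarith
  omega

end Cfsg.Agent.Lib.Helper1.O4
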