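import Mathlib
import Cfsg.Agent.Lib.Helper1.O4a

set_option autoImplicit false

namespace Cfsg.Agent.Lib.Helper1.O4

open Matrix
open scoped commutatorElement

variable {F : Type*} [Field F]

def incl : SpecialLinearGroup (Fin 2) F × SpecialLinearGroup (Fin 2) F →*
    (D : GL (Fin 2) F × GL (Fin 2) F →* Fˣ).ker where
  toFun p := ⟨(SpecialLinearGroup.toGL p.1, SpecialLinearGroup.toGL p.2), by
    rw [mem_kerD]
    show p.1.1.det * p.2.1.det = 1
    rw [p.1.2, p.2.2, one_mul]⟩
  map_one' := Subtype.ext (Prod.ext (map_one _) (map_one _))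
  map_mul' p q := Subtype.ext (Prod.ext (map_mul _ _ _) (map_mul _ _ _))

def rho1 : SpecialLinearGroup (Fin 2) F × SpecialLinearGroup (Fin 2) F →*
    Orth.OQ (detQ (F := F)) := rho0.comp incl

theorem rho1_apply (p : SpecialLinearGroup (Fin 2) F × SpecialLinearGroup (Fin 2) F) (X : V F) :
    ((rho1 p : Orth.OQ (detQ (F := F))) : V F ≃ₗ[F] V F) X = p.1.1 * X * p.2.1ᵀ := rfl

def cj (g : GL (Fin 2) F) (x : SpecialLinearGroup (Fin 2) F) : SpecialLinearGroup (Fin 2) F :=
  ⟨g.1 * x.1 * g⁻¹.1, by rw [Matrix.det_units_conj]; exact x.2⟩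

theorem conj_R (p : (D : GL (Fin 2) F × GL (Fin 2) F →* Fˣ).ker)
    (q0 : SpecialLinearGroup (Fin 2) F × SpecialLinearGroup (Fin 2) F) :
    ∃ q, rho0 p * rho1 q0 * (rho0 p)⁻¹ = rho1 q := by
  refine ⟨(cj p.1.1 q0.1, cj p.1.2 q0.2), ?_⟩
  show rho0 p * rho0 (incl q0) * (rho0 p)⁻¹ = rho0 (incl (cj p.1.1 q0.1, cj p.1.2 q0.2))
  rw [← map_inv, ← map_mul, ← map_mul]
  congr 1
  apply Subtype.ext
  apply Prod.ext
  · apply Units.ext
    rfl
  · apply Units.ext
    rfl

theorem tau_swap (q : SpecialLinearGroup (Fin 2) F × SpecialLinearGroup (Fin 2) F) :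
    tau * rho1 q = rho1 q.swap * tau := by
  apply Subtype.ext
  apply LinearEquiv.ext
  intro X
  show (q.1.1 * X * q.2.1ᵀ)ᵀ = q.2.1 * Xᵀ * q.1.1ᵀ
  rw [Matrix.transpose_mul, Matrix.transpose_mul, Matrix.transpose_transpose, mul_assoc]

theorem N_normal [Fintype F] : (rho1 (F := F)).range.Normal := by
  constructor
  rintro n ⟨q0, rfl⟩ a
  by_cases ha : a ∈ (rho0 (F := F)).range
  · obtain ⟨p, rfl⟩ := ha
    obtain ⟨q, hq⟩ := conj_R p q0
    rw [hq]
    exact ⟨q, rfl⟩
  · have h : tau⁻¹ * a ∈ (rho0 (F := F)).range :=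
      (Subgroup.mul_mem_iff_of_index_two index_R).mpr
        ⟨fun h => absurd (inv_mem_iff.mp h) tau_not_range, fun h => absurd h ha⟩
    obtain ⟨p, hp⟩ := h
    have ha' : a = tau * rho0 p := by rw [hp]; group
    rw [ha']
    obtain ⟨q, hq⟩ := conj_R p q0
    have e : tau * rho0 p * rho1 q0 * (tau * rho0 p)⁻¹
        = tau * (rho0 p * rho1 q0 * (rho0 p)⁻¹) * tau⁻¹ := by group
    rw [e, hq, tau_swap, mul_inv_cancel_right]
    exact ⟨_, rfl⟩

theorem ker_rho1 (q : SpecialLinearGroup (Fin 2) F × SpecialLinearGroup (Fin 2) F)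
    (hq : q ∈ (rho1 (F := F)).ker) :
    q.1 ∈ Subgroup.center (SpecialLinearGroup (Fin 2) F) ∧
    q.2 ∈ Subgroup.center (SpecialLinearGroup (Fin 2) F) ∧ q.1.1 * q.2.1ᵀ = 1 := by
  have key : ∀ q : SpecialLinearGroup (Fin 2) F × SpecialLinearGroup (Fin 2) F,
      q ∈ (rho1 (F := F)).ker → q.1 ∈ Subgroup.center (SpecialLinearGroup (Fin 2) F) ∧
        q.1.1 * q.2.1ᵀ = 1 := by
    intro q hq
    have h0 : incl q ∈ (rho0 (F := F)).ker := hq
    obtain ⟨h1, h2⟩ := ker_rho0_center (incl q) h0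
    exact ⟨(SpecialLinearGroup.toGL_mem_center_iff q.1).mp h1, h2⟩
  have hswap : q.swap ∈ (rho1 (F := F)).ker := by
    rw [MonoidHom.mem_ker] at hq ⊢
    have := tau_swap q
    rw [hq, mul_one] at this
    calc rho1 q.swap = rho1 q.swap * tau * tau⁻¹ := by group
      _ = 1 := by rw [← this, mul_inv_cancel]
  exact ⟨(key q hq).1, (key q.swap hswap).1, (key q hq).2⟩

theorem card_ker_rho1_le [Fintype F] : Nat.card (rho1 (F := F)).ker ≤ 2 := by
  have h1 := GLn.card_center_SL (F := F) 2 (by norm_num)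
  have h2 : Nat.gcd 2 (Fintype.card F - 1) ≤ 2 := Nat.gcd_le_left _ (by norm_num)
  rw [← h1] at h2
  refine le_trans ?_ h2
  apply Nat.card_le_card_of_injective
    (fun q : (rho1 (F := F)).ker => (⟨q.1.1, (ker_rho1 q.1 q.2).1⟩ :
      Subgroup.center (SpecialLinearGroup (Fin 2) F)))
  intro q q' hqq
  have e1 : q.1.1 = q'.1.1 := congrArg Subtype.val hqq
  have h1 := (ker_rho1 q.1 q.2).2.2
  have h2 := (ker_rho1 q'.1 q'.2).2.2
  rw [← e1] at h2
  have e2 : q.1.2.1ᵀ = q'.1.2.1ᵀ := by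
    have hx : ((q.1.1⁻¹ : SpecialLinearGroup (Fin 2) F) : Matrix (Fin 2) (Fin 2) F)
        * (q.1.1 : Matrix (Fin 2) (Fin 2) F) = 1 := congrArg Subtype.val (inv_mul_cancel q.1.1)
    have : ((q.1.1⁻¹ : SpecialLinearGroup (Fin 2) F) : Matrix (Fin 2) (Fin 2) F)
        * (q.1.1.1 * q.1.2.1ᵀ) = ((q.1.1⁻¹ : SpecialLinearGroup (Fin 2) F) : Matrix (Fin 2) (Fin 2) F)
        * (q.1.1.1 * q'.1.2.1ᵀ) := by
      rw [h1, h2]
    rwa [← mul_assoc, ← mul_assoc, hx, one_mul, one_mul] at this
  have e3 : q.1.2 = q'.1.2 := Subtype.ext (Matrix.transpose_injective e2)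
  exact Subtype.ext (Prod.ext e1 e3)

theorem comm_of_card {G : Type*} [Group G] (h : Nat.card G = 2 ∨ Nat.card G = 4) :
    ∀ a b : G, a * b = b * a := by
  rcases h with h | h
  · haveI : Fact (Nat.Prime 2) := ⟨Nat.prime_two⟩
    haveI := isCyclic_of_prime_card h
    intro a b
    exact (IsCyclic.commGroup (α := G)).mul_comm a b
  · haveI : Fact (Nat.Prime 2) := ⟨Nat.prime_two⟩
    exact IsPGroup.commutative_of_card_eq_prime_sq (p := 2) (by rw [h]; norm_num)

theorem commutator_le_N [Fintype F] :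
    commutator (Orth.OQ (detQ (F := F))) ≤ (rho1 (F := F)).range := by
  haveI := N_normal (F := F)
  have hq : 2 ≤ Fintype.card F := Fintype.one_lt_card
  have hM : 0 < Fintype.card F * (Fintype.card F ^ 2 - 1) := by
    apply Nat.mul_pos (by omega)
    have : 2 ^ 2 ≤ Fintype.card F ^ 2 := Nat.pow_le_pow_left hq 2
    omega
  have c1 := Subgroup.card_eq_card_quotient_mul_card_subgroup (rho1 (F := F)).ker
  rw [Nat.card_congr (QuotientGroup.quotientKerEquivRange (rho1 (F := F))).toEquiv, Nat.card_prod,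
    O3.card_SL2] at c1
  have c2 := Subgroup.card_eq_card_quotient_mul_card_subgroup (rho1 (F := F)).range
  rw [card_O] at c2
  have c3 := card_ker_rho1_le (F := F)
  have c4 : 0 < Nat.card (rho1 (F := F)).ker := Nat.card_pos
  have hN : 0 < Nat.card (rho1 (F := F)).range := by
    rcases Nat.eq_zero_or_pos (Nat.card (rho1 (F := F)).range) with h | h
    · rw [h, zero_mul] at c1
      have := Nat.mul_pos hM hM
      omega
    · exact h
  have hcard : Nat.card (Orth.OQ (detQ (F := F)) ⧸ (rho1 (F := F)).range)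
      = 2 * Nat.card (rho1 (F := F)).ker := by
    have : Nat.card (Orth.OQ (detQ (F := F)) ⧸ (rho1 (F := F)).range)
        * Nat.card (rho1 (F := F)).range
        = 2 * Nat.card (rho1 (F := F)).ker * Nat.card (rho1 (F := F)).range := by
      rw [← c2, mul_assoc, mul_comm (Nat.card (rho1 (F := F)).ker), ← c1]
      ring
    exact Nat.eq_of_mul_eq_mul_right hN this
  have hcomm := comm_of_card (G := Orth.OQ (detQ (F := F)) ⧸ (rho1 (F := F)).range) (by
    rw [hcard]; omega)
  rw [_root_.commutator_def, Subgroup.commutator_le]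
  intro a _ b _
  rw [← QuotientGroup.eq_one_iff, commutatorElement_def]
  simp only [QuotientGroup.mk_mul, QuotientGroup.mk_inv]
  rw [hcomm (↑a) (↑b)]
  group

noncomputable def dg : Fˣ →* GL (Fin 2) F :=
  Units.map ((Matrix.diagonalRingHom (Fin 2) F).toMonoidHom.comp
    (MonoidHom.mulSingle (fun _ : Fin 2 => F) 0))

theorem det_dg (u : Fˣ) : Matrix.GeneralLinearGroup.det (dg u) = u := by
  apply Units.ext
  show (Matrix.diagonal (Pi.mulSingle (0 : Fin 2) (u : F))).det = u
  rw [Matrix.det_diagonal, Fin.prod_univ_two]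
  simp

noncomputable def theta1 : GL (Fin 2) F →* (D : GL (Fin 2) F × GL (Fin 2) F →* Fˣ).ker :=
  (MonoidHom.prod (MonoidHom.id (GL (Fin 2) F))
    (dg.comp (invMonoidHom.comp Matrix.GeneralLinearGroup.det))).codRestrict _ (fun g => by
      rw [MonoidHom.mem_ker, D_apply]
      show Matrix.GeneralLinearGroup.det g
        * Matrix.GeneralLinearGroup.det (dg (Matrix.GeneralLinearGroup.det g)⁻¹) = 1
      rw [det_dg, mul_inv_cancel])

noncomputable def theta2 : GL (Fin 2) F →* (D : GL (Fin 2) F × GL (Fin 2) F →* Fˣ).ker :=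
  (MonoidHom.prod (dg.comp (invMonoidHom.comp Matrix.GeneralLinearGroup.det))
    (MonoidHom.id (GL (Fin 2) F))).codRestrict _ (fun g => by
      rw [MonoidHom.mem_ker, D_apply]
      show Matrix.GeneralLinearGroup.det (dg (Matrix.GeneralLinearGroup.det g)⁻¹)
        * Matrix.GeneralLinearGroup.det g = 1
      rw [det_dg, inv_mul_cancel])

theorem det_toGL (x : SpecialLinearGroup (Fin 2) F) :
    Matrix.GeneralLinearGroup.det (SpecialLinearGroup.toGL x) = 1 := by
  ext
  simp

theorem theta1_toGL (x : SpecialLinearGroup (Fin 2) F) :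
    theta1 (SpecialLinearGroup.toGL x) = incl (x, 1) := by
  apply Subtype.ext
  apply Prod.ext
  · rfl
  · show dg (Matrix.GeneralLinearGroup.det (SpecialLinearGroup.toGL x))⁻¹
      = SpecialLinearGroup.toGL 1
    rw [det_toGL, inv_one, map_one, map_one]

theorem theta2_toGL (x : SpecialLinearGroup (Fin 2) F) :
    theta2 (SpecialLinearGroup.toGL x) = incl (1, x) := by
  apply Subtype.ext
  apply Prod.ext
  · show dg (Matrix.GeneralLinearGroup.det (SpecialLinearGroup.toGL x))⁻¹
      = SpecialLinearGroup.toGL 1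
    rw [det_toGL, inv_one, map_one, map_one]
  · rfl

theorem map_commutator_le' {G H : Type*} [Group G] [Group H] (f : G →* H) :
    (commutator G).map f ≤ commutator H := by
  rw [_root_.commutator_def, _root_.commutator_def, Subgroup.map_commutator]
  exact Subgroup.commutator_mono le_top le_top

theorem exists_ne_zero_one [Fintype F] (hF : 3 ≤ Fintype.card F) : ∃ a : F, a ≠ 0 ∧ a ≠ 1 := by
  classical
  by_contra h
  push Not at h
  have hsub : (Finset.univ : Finset F) ⊆ {0, 1} := by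
    intro a _
    by_cases ha : a = 0
    · simp [ha]
    · simp [h a ha]
  have := Finset.card_le_card hsub
  rw [Finset.card_univ] at this
  have h2 := Finset.card_le_two (a := (0 : F)) (b := 1)
  omega

theorem N_le_commutator [Fintype F] (hF : 3 ≤ Fintype.card F) :
    (rho1 (F := F)).range ≤ commutator (Orth.OQ (detQ (F := F))) := by
  have hne := exists_ne_zero_one hF
  have hGL := SLn.commutator_GL_eq_ker_det (F := F) (ι := Fin 2) (fun _ => hne)
  have hx : ∀ x : SpecialLinearGroup (Fin 2) F,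
      SpecialLinearGroup.toGL x ∈ commutator (GL (Fin 2) F) := by
    intro x
    rw [hGL, MonoidHom.mem_ker, det_toGL]
  rintro n ⟨q, rfl⟩
  have e : q = (q.1, 1) * (1, q.2) := by
    apply Prod.ext
    · show q.1 = q.1 * 1
      rw [mul_one]
    · show q.2 = 1 * q.2
      rw [one_mul]
  rw [e, map_mul]
  apply mul_mem
  · have : rho1 (q.1, 1) = (rho0.comp theta1) (SpecialLinearGroup.toGL q.1) := by
      show rho0 (incl (q.1, 1)) = rho0 (theta1 (SpecialLinearGroup.toGL q.1))
      rw [theta1_toGL]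
    rw [this]
    exact map_commutator_le' _ (Subgroup.mem_map_of_mem _ (hx q.1))
  · have : rho1 (1, q.2) = (rho0.comp theta2) (SpecialLinearGroup.toGL q.2) := by
      show rho0 (incl (1, q.2)) = rho0 (theta2 (SpecialLinearGroup.toGL q.2))
      rw [theta2_toGL]
    rw [this]
    exact map_commutator_le' _ (Subgroup.mem_map_of_mem _ (hx q.2))

theorem commutator_O [Fintype F] (hF : 3 ≤ Fintype.card F) :
    commutator (Orth.OQ (detQ (F := F))) = (rho1 (F := F)).range :=
  le_antisymm commutator_le_N (N_le_commutator hF)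

end Cfsg.Agent.Lib.Helper1.O4
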