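import Mathlib
import Cfsg.Agent.Lib.Helper1.O4b

set_option autoImplicit false

namespace Cfsg.Agent.Lib.Helper1.O4

open Matrix
open scoped commutatorElement

variable {F : Type*} [Field F]

theorem center_PSL2_all :
    Subgroup.center (ProjectiveSpecialLinearGroup (Fin 2) F) = ⊥ := by
  by_cases h2 : (1 : F) = -1
  swap
  · exact O3.center_PSL2 h2
  rw [eq_bot_iff]
  intro z hz
  induction z using QuotientGroup.induction_on with | H s =>
  rw [Subgroup.mem_bot, QuotientGroup.eq_one_iff]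
  rw [Subgroup.mem_center_iff] at hz
  have key : ∀ x : SpecialLinearGroup (Fin 2) F, (x * s).1 = (s * x).1 := by
    intro x
    have h := hz (QuotientGroup.mk x)
    rw [← QuotientGroup.mk_mul, ← QuotientGroup.mk_mul] at h
    have h' := QuotientGroup.eq.mp h.symm
    rw [Matrix.SpecialLinearGroup.mem_center_iff] at h'
    obtain ⟨r, hr, hr'⟩ := h'
    have hr2 : (r - 1) * (r + 1) = 0 := by
      have : r ^ 2 = 1 := by simpa using hr
      linear_combination this
    have hr1 : r = 1 := by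
      rcases mul_eq_zero.mp hr2 with h | h
      · exact sub_eq_zero.mp h
      · rw [eq_neg_of_add_eq_zero_left h]; exact h2.symm
    rw [hr1, map_one] at hr'
    have e : (s * x) * ((s * x)⁻¹ * (x * s)) = x * s := by group
    have e2 : (s * x)⁻¹ * (x * s) = 1 := Subtype.ext hr'.symm
    rw [e2, mul_one] at e
    exact (congrArg Subtype.val e).symm
  have hdet : s.1 0 0 * s.1 1 1 - s.1 0 1 * s.1 1 0 = 1 := by
    rw [← Matrix.det_fin_two]; exact s.2
  let T1 : SpecialLinearGroup (Fin 2) F := ⟨!![1, 1; 0, 1], by simp [Matrix.det_fin_two]⟩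
  let T2 : SpecialLinearGroup (Fin 2) F := ⟨!![1, 0; 1, 1], by simp [Matrix.det_fin_two]⟩
  have e1' : (!![1, 1; 0, 1] : Matrix (Fin 2) (Fin 2) F) * s.1 = s.1 * !![1, 1; 0, 1] := key T1
  have e2' : (!![1, 0; 1, 1] : Matrix (Fin 2) (Fin 2) F) * s.1 = s.1 * !![1, 0; 1, 1] := key T2
  have a00 := congrFun (congrFun e1' 0) 0
  have a01 := congrFun (congrFun e1' 0) 1
  have b00 := congrFun (congrFun e2' 0) 0
  simp only [O3.mul2] at a00 a01 b00
  simp at a00 a01 b00
  have t0 : s.1 1 0 = 0 := a00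
  have q0 : s.1 0 1 = 0 := b00
  have up : s.1 1 1 = s.1 0 0 := by linear_combination a01
  rw [Matrix.SpecialLinearGroup.mem_center_iff]
  refine ⟨s.1 0 0, ?_, ?_⟩
  · rw [Fintype.card_fin]
    rw [t0, q0, up] at hdet
    linear_combination hdet
  · ext i j
    fin_cases i <;> fin_cases j <;> simp [t0, q0, up]

theorem center_prod_bot {A B : Type*} [Group A] [Group B] (hA : Subgroup.center A = ⊥)
    (hB : Subgroup.center B = ⊥) : Subgroup.center (A × B) = ⊥ := by
  rw [eq_bot_iff]
  rintro ⟨a, b⟩ hz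
  rw [Subgroup.mem_center_iff] at hz
  have ha : a ∈ Subgroup.center A := by
    rw [Subgroup.mem_center_iff]
    intro x
    exact congrArg Prod.fst (hz (x, 1))
  have hb : b ∈ Subgroup.center B := by
    rw [Subgroup.mem_center_iff]
    intro y
    exact congrArg Prod.snd (hz (1, y))
  rw [hA, Subgroup.mem_bot] at ha
  rw [hB, Subgroup.mem_bot] at hb
  rw [Subgroup.mem_bot, ha, hb]
  rfl

theorem quotCenterEquiv {A P : Type*} [Group A] [Group P] (ψ : A →* P)
    (hs : Function.Surjective ψ) (hP : Subgroup.center P = ⊥)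
    (hk : ψ.ker ≤ Subgroup.center A) : Nonempty (A ⧸ Subgroup.center A ≃* P) := by
  have h : Subgroup.center A = ψ.ker := by
    apply le_antisymm _ hk
    intro z hz
    rw [MonoidHom.mem_ker]
    have : ψ z ∈ Subgroup.center P := by
      rw [Subgroup.mem_center_iff]
      intro b
      obtain ⟨a, rfl⟩ := hs b
      rw [← map_mul, ← map_mul, Subgroup.mem_center_iff.mp hz a]
    rwa [hP, Subgroup.mem_bot] at this
  exact ⟨(QuotientGroup.quotientMulEquivOfEq h).trans
    (QuotientGroup.quotientKerEquivOfSurjective ψ hs)⟩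

def piHom : SpecialLinearGroup (Fin 2) F × SpecialLinearGroup (Fin 2) F →*
    ProjectiveSpecialLinearGroup (Fin 2) F × ProjectiveSpecialLinearGroup (Fin 2) F :=
  MonoidHom.prodMap (QuotientGroup.mk' _) (QuotientGroup.mk' _)

theorem piHom_surj : Function.Surjective (piHom (F := F)) := by
  rintro ⟨a, b⟩
  obtain ⟨x, rfl⟩ := QuotientGroup.mk'_surjective _ a
  obtain ⟨y, rfl⟩ := QuotientGroup.mk'_surjective _ b
  exact ⟨(x, y), rfl⟩

theorem piHom_ker (q : SpecialLinearGroup (Fin 2) F × SpecialLinearGroup (Fin 2) F) :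
    piHom q = 1 ↔ q.1 ∈ Subgroup.center (SpecialLinearGroup (Fin 2) F) ∧
      q.2 ∈ Subgroup.center (SpecialLinearGroup (Fin 2) F) := by
  rw [Prod.ext_iff]
  show (QuotientGroup.mk' _ q.1 = 1 ∧ QuotientGroup.mk' _ q.2 = 1) ↔ _
  rw [QuotientGroup.mk'_apply, QuotientGroup.mk'_apply, QuotientGroup.eq_one_iff,
    QuotientGroup.eq_one_iff]

theorem main [Fintype F] (hF : 3 ≤ Fintype.card F) :
    Nonempty (Cfsg.POmega F (Cfsg.quadFormPlus 2 F) ≃*
      ProjectiveSpecialLinearGroup (Fin 2) F × ProjectiveSpecialLinearGroup (Fin 2) F) := by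
  let E0 := O3.commEquiv ((Orth.isoOQ (Cfsg.quadFormPlus 2 F)).trans
    (Orth.congrOQ phi (phi_Q (F := F))))
  let E1 := MulEquiv.subgroupCongr (commutator_O (F := F) hF)
  let E2 := (QuotientGroup.quotientKerEquivRange (rho1 (F := F))).symm
  let E : Cfsg.Omega F (Cfsg.quadFormPlus 2 F) ≃*
      (SpecialLinearGroup (Fin 2) F × SpecialLinearGroup (Fin 2) F) ⧸ (rho1 (F := F)).ker :=
    (E0.trans E1).trans E2
  have hle : (rho1 (F := F)).ker ≤ (piHom (F := F)).ker := by
    intro q hq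
    rw [MonoidHom.mem_ker, piHom_ker]
    exact ⟨(ker_rho1 q hq).1, (ker_rho1 q hq).2.1⟩
  let L := QuotientGroup.lift (rho1 (F := F)).ker piHom hle
  have hL : Function.Surjective L := by
    intro y
    obtain ⟨q, rfl⟩ := piHom_surj y
    exact ⟨QuotientGroup.mk q, rfl⟩
  let ψ : Cfsg.Omega F (Cfsg.quadFormPlus 2 F) →*
      ProjectiveSpecialLinearGroup (Fin 2) F × ProjectiveSpecialLinearGroup (Fin 2) F :=
    L.comp E.toMonoidHom
  have hψ : Function.Surjective ψ := hL.comp E.surjective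
  refine quotCenterEquiv ψ hψ (center_prod_bot center_PSL2_all center_PSL2_all) ?_
  intro a ha
  rw [MonoidHom.mem_ker] at ha
  have ha' : L (E a) = 1 := ha
  rw [Subgroup.mem_center_iff]
  intro b
  apply E.injective
  rw [map_mul, map_mul]
  obtain ⟨q, hq⟩ := QuotientGroup.mk_surjective (E a)
  obtain ⟨q', hq'⟩ := QuotientGroup.mk_surjective (E b)
  rw [← hq] at ha'
  have hq1 : piHom q = 1 := ha'
  rw [piHom_ker] at hq1
  rw [← hq, ← hq', ← QuotientGroup.mk_mul, ← QuotientGroup.mk_mul]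
  congr 1
  apply Prod.ext
  · exact Subgroup.mem_center_iff.mp hq1.1 q'.1
  · exact Subgroup.mem_center_iff.mp hq1.2 q'.2

end Cfsg.Agent.Lib.Helper1.O4
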