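import Mathlib
import Cfsg.Agent.Lib.Helper1.Orth6
import Cfsg.Agent.Lib.Helper1.GLn
import Cfsg.Agent.Lib.Helper1.SLn
import Cfsg.Agent.Lib.Helper1.O4c

set_option autoImplicit false

namespace Cfsg.Agent.Lib.Helper1.O6

open Matrix

variable {F : Type*} [Field F]

abbrev M4 (F : Type*) := Matrix (Fin 4) (Fin 4) F
abbrev V6 (F : Type*) := Fin 3 ⊕ Fin 3 → F

theorem det4 (g : M4 F) : g.det =
      g 0 0 * g 1 1 * g 2 2 * g 3 3 - g 0 0 * g 1 1 * g 2 3 * g 3 2 - g 0 0 * g 1 2 * g 2 1 * g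
      3 3 + g 0 0 * g 1 2 * g 2 3 * g 3 1 + g 0 0 * g 1 3 * g 2 1 * g 3 2 - g 0 0 * g 1 3 * g 2
      2 * g 3 1 - g 0 1 * g 1 0 * g 2 2 * g 3 3 + g 0 1 * g 1 0 * g 2 3 * g 3 2 + g 0 1 * g 1 2
      * g 2 0 * g 3 3 - g 0 1 * g 1 2 * g 2 3 * g 3 0 - g 0 1 * g 1 3 * g 2 0 * g 3 2 + g 0 1 *
      g 1 3 * g 2 2 * g 3 0 + g 0 2 * g 1 0 * g 2 1 * g 3 3 - g 0 2 * g 1 0 * g 2 3 * g 3 1 - g
      0 2 * g 1 1 * g 2 0 * g 3 3 + g 0 2 * g 1 1 * g 2 3 * g 3 0 + g 0 2 * g 1 3 * g 2 0 * g 3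
      1 - g 0 2 * g 1 3 * g 2 1 * g 3 0 - g 0 3 * g 1 0 * g 2 1 * g 3 2 + g 0 3 * g 1 0 * g 2 2
      * g 3 1 + g 0 3 * g 1 1 * g 2 0 * g 3 2 - g 0 3 * g 1 1 * g 2 2 * g 3 0 - g 0 3 * g 1 2 *
      g 2 0 * g 3 1 + g 0 3 * g 1 2 * g 2 1 * g 3 0 := by
  rw [Matrix.det_succ_row_zero]
  simp [Fin.sum_univ_succ, Matrix.det_fin_three, Fin.succAbove]
  ring

def altM (a b c d e f : F) : M4 F :=
  !![0, a, b, c; -a, 0, d, e; -b, -d, 0, f; -c, -e, -f, 0]

def pf (M : M4 F) : F := M 0 1 * M 2 3 - M 0 2 * M 1 3 + M 0 3 * M 1 2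

set_option maxRecDepth 100000 in
set_option maxHeartbeats 1600000 in
theorem pf_conj (g : M4 F) (a b c d e f : F) :
    pf (g * altM a b c d e f * gᵀ) = g.det * (a * f - b * e + c * d) := by
  rw [det4]
  simp [pf, altM, Matrix.mul_apply, Fin.sum_univ_four]
  ring

theorem pf_smul (c : F) (M : M4 F) : pf (c • M) = c ^ 2 * pf M := by
  simp [pf]
  ring

def sk : V6 F →ₗ[F] M4 F where
  toFun v := altM (v (.inl 0)) (v (.inl 1)) (v (.inl 2)) (v (.inr 2)) (-v (.inr 1)) (v (.inr 0))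
  map_add' := by
    intro v w; ext i j; fin_cases i <;> fin_cases j <;> simp [altM] <;> ring
  map_smul' := by
    intro c v; ext i j; fin_cases i <;> fin_cases j <;> simp [altM]

def ex : M4 F →ₗ[F] V6 F where
  toFun M := Sum.elim ![M 0 1, M 0 2, M 0 3] ![M 2 3, -M 1 3, M 1 2]
  map_add' := by
    intro M N; funext i; rcases i with i | i <;> fin_cases i <;> simp <;> ring
  map_smul' := by
    intro c M; funext i; rcases i with i | i <;> fin_cases i <;> simp

theorem sk_apply (v : V6 F) : sk v =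
    altM (v (.inl 0)) (v (.inl 1)) (v (.inl 2)) (v (.inr 2)) (-v (.inr 1)) (v (.inr 0)) := rfl

theorem ex_apply (M : M4 F) :
    ex M = Sum.elim ![M 0 1, M 0 2, M 0 3] ![M 2 3, -M 1 3, M 1 2] := rfl

theorem ex_sk (v : V6 F) : ex (sk v) = v := by
  funext i; rcases i with i | i <;> fin_cases i <;> simp [ex_apply, sk_apply, altM]

theorem sk_injective : Function.Injective (sk : V6 F →ₗ[F] M4 F) :=
  Function.LeftInverse.injective ex_sk

theorem sk_transpose (v : V6 F) : (sk v)ᵀ = -sk v := by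
  ext i j
  fin_cases i <;> fin_cases j <;> simp [sk_apply, altM]

theorem pf_sk (v : V6 F) : pf (sk v) = Cfsg.quadFormPlus 3 F v := by
  unfold Cfsg.quadFormPlus
  simp [pf, sk_apply, altM, Fin.sum_univ_three]

theorem sk_ex_of_alt (M : M4 F) (hT : ∀ i j, M j i = -M i j) (hd : ∀ i, M i i = 0) :
    sk (ex M) = M := by
  ext i j
  fin_cases i <;> fin_cases j <;> simp [sk_apply, ex_apply, altM, hd] <;>
    exact (hT _ _).symm

set_option maxRecDepth 100000 in
theorem conj_diag (g : M4 F) (v : V6 F) (i : Fin 4) : (g * sk v * gᵀ) i i = 0 := by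
  simp [sk_apply, altM, Matrix.mul_apply, Fin.sum_univ_four]
  ring

theorem sk_ex_conj (g : M4 F) (v : V6 F) : sk (ex (g * sk v * gᵀ)) = g * sk v * gᵀ := by
  apply sk_ex_of_alt
  · intro i j
    have h : (g * sk v * gᵀ)ᵀ = -(g * sk v * gᵀ) := by
      rw [Matrix.transpose_mul, Matrix.transpose_mul, Matrix.transpose_transpose, sk_transpose,
        Matrix.neg_mul, Matrix.mul_neg, mul_assoc]
    exact congrFun (congrFun h i) j
  · exact conj_diag g v

theorem pf_conj_sk (g : M4 F) (v : V6 F) : pf (g * sk v * gᵀ) = g.det * pf (sk v) := by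
  rw [sk_apply, pf_conj]
  rfl

theorem conj_single (g : M4 F) (i j r s : Fin 4) :
    (g * Matrix.single i j (1 : F) * gᵀ) r s = g r i * g s j := by
  have h1 : ∀ k, (g * Matrix.single i j (1 : F)) r k = if j = k then g r i else 0 := by
    intro k
    rw [Matrix.mul_apply]
    simp [Matrix.single_apply, ite_and]
  rw [Matrix.mul_apply]
  simp [h1]

def act (g : M4 F) (c : F) : V6 F →ₗ[F] V6 F where
  toFun v := c • ex (g * sk v * gᵀ)
  map_add' v w := by rw [map_add, mul_add, add_mul, map_add, smul_add]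
  map_smul' r v := by
    rw [map_smul, Matrix.mul_smul, Matrix.smul_mul, map_smul, smul_comm]
    rfl

theorem act_apply (g : M4 F) (c : F) (v : V6 F) : act g c v = c • ex (g * sk v * gᵀ) := rfl

theorem sk_act (g : M4 F) (c : F) (v : V6 F) : sk (act g c v) = c • (g * sk v * gᵀ) := by
  rw [act_apply, map_smul, sk_ex_conj]

theorem act_act (g g' : M4 F) (c c' : F) (v : V6 F) :
    act g c (act g' c' v) = act (g * g') (c * c') v := by
  rw [act_apply, sk_act, act_apply, Matrix.mul_smul, Matrix.smul_mul, map_smul, smul_smul,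
    Matrix.transpose_mul]
  simp only [mul_assoc]

theorem act_one (v : V6 F) : act (1 : M4 F) 1 v = v := by
  rw [act_apply, one_smul, one_mul, Matrix.transpose_one, mul_one, ex_sk]

theorem Q_act (g : M4 F) (c : F) (v : V6 F) :
    Cfsg.quadFormPlus 3 F (act g c v) = c ^ 2 * g.det * Cfsg.quadFormPlus 3 F v := by
  rw [← pf_sk, sk_act, pf_smul, pf_conj_sk, pf_sk]
  ring

def lr (g : GL (Fin 4) F) (c : Fˣ) : V6 F ≃ₗ[F] V6 F :=
  LinearEquiv.ofLinear (act g.1 c.1) (act g⁻¹.1 c⁻¹.1)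
    (by
      apply LinearMap.ext
      intro v
      show act g.1 c.1 (act g⁻¹.1 c⁻¹.1 v) = v
      rw [act_act, Units.mul_inv, Units.mul_inv, act_one])
    (by
      apply LinearMap.ext
      intro v
      show act g⁻¹.1 c⁻¹.1 (act g.1 c.1 v) = v
      rw [act_act, Units.inv_mul, Units.inv_mul, act_one])

theorem lr_apply (g : GL (Fin 4) F) (c : Fˣ) (v : V6 F) : lr g c v = act g.1 c.1 v := rfl

theorem lr_mul (g g' : GL (Fin 4) F) (c c' : Fˣ) : lr (g * g') (c * c') = lr g c * lr g' c' := by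
  apply LinearEquiv.ext
  intro v
  show act (g * g').1 (c * c').1 v = act g.1 c.1 (act g'.1 c'.1 v)
  rw [act_act, Units.val_mul, Units.val_mul]

def D : GL (Fin 4) F × Fˣ →* Fˣ :=
  MonoidHom.coprod Matrix.GeneralLinearGroup.det (powMonoidHom 2)

theorem D_apply (p : GL (Fin 4) F × Fˣ) :
    D p = Matrix.GeneralLinearGroup.det p.1 * p.2 ^ 2 := rfl

theorem mem_kerD {p : GL (Fin 4) F × Fˣ} :
    p ∈ (D : GL (Fin 4) F × Fˣ →* Fˣ).ker ↔ p.2.1 ^ 2 * p.1.1.det = 1 := by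
  rw [MonoidHom.mem_ker, D_apply, Units.ext_iff, mul_comm]
  simp

def rho0 : (D : GL (Fin 4) F × Fˣ →* Fˣ).ker →* Orth.OQ (Cfsg.quadFormPlus 3 F) where
  toFun p := ⟨lr p.1.1 p.1.2, fun v => by
    rw [lr_apply, Q_act, mem_kerD.1 p.2, one_mul]⟩
  map_one' := by
    apply Subtype.ext
    apply LinearEquiv.ext
    intro v
    exact act_one v
  map_mul' p p' := Subtype.ext (lr_mul p.1.1 p'.1.1 p.1.2 p'.1.2)

theorem rho0_apply (p : (D : GL (Fin 4) F × Fˣ →* Fˣ).ker) (v : V6 F) :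
    ((rho0 p : Orth.OQ (Cfsg.quadFormPlus 3 F)) : V6 F ≃ₗ[F] V6 F) v =
      act p.1.1.1 p.1.2.1 v := rfl

theorem two_others : ∀ a b : Fin 4, ∃ k l : Fin 4, k ≠ l ∧ k ≠ a ∧ k ≠ b ∧ l ≠ a ∧ l ≠ b := by
  decide

theorem minor_rel (g : M4 F) (c : F) (h : ∀ v : V6 F, c • (g * sk v * gᵀ) = sk v)
    (i j r s : Fin 4) :
    c * (g r i * g s j - g r j * g s i) =
      (if r = i ∧ s = j then 1 else 0) - (if r = j ∧ s = i then 1 else 0) := by
  have hM : sk (ex (Matrix.single i j (1 : F) - Matrix.single j i (1 : F))) =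
      Matrix.single i j (1 : F) - Matrix.single j i (1 : F) := by
    apply sk_ex_of_alt
    · intro a b
      simp only [Matrix.sub_apply, Matrix.single_apply]
      have e1 : (j = b ∧ i = a) ↔ (i = a ∧ j = b) := and_comm
      have e2 : (j = a ∧ i = b) ↔ (i = b ∧ j = a) := and_comm
      simp only [e1, e2]
      ring
    · intro a
      simp only [Matrix.sub_apply, Matrix.single_apply]
      by_cases h1 : i = a ∧ j = a
      · have h2 : j = a ∧ i = a := ⟨h1.2, h1.1⟩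
        simp [h1, h2]
      · have h2 : ¬ (j = a ∧ i = a) := fun h2 => h1 ⟨h2.2, h2.1⟩
        simp [h1, h2]
  have h1 := h (ex (Matrix.single i j (1 : F) - Matrix.single j i (1 : F)))
  rw [hM] at h1
  have h2 := congrFun (congrFun h1 r) s
  rw [Matrix.smul_apply, Matrix.mul_sub, Matrix.sub_mul, Matrix.sub_apply, conj_single,
    conj_single, smul_eq_mul, Matrix.sub_apply, Matrix.single_apply, Matrix.single_apply] at h2
  rw [h2]
  congr 1
  · by_cases h3 : i = r ∧ j = s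
    · rw [if_pos h3, if_pos ⟨h3.1.symm, h3.2.symm⟩]
    · rw [if_neg h3, if_neg (fun h4 => h3 ⟨h4.1.symm, h4.2.symm⟩)]
  · by_cases h3 : j = r ∧ i = s
    · rw [if_pos h3, if_pos ⟨h3.1.symm, h3.2.symm⟩]
    · rw [if_neg h3, if_neg (fun h4 => h3 ⟨h4.1.symm, h4.2.symm⟩)]

theorem scalar_of_fix (g : M4 F) (c : F) (hc : c ≠ 0)
    (h : ∀ v : V6 F, c • (g * sk v * gᵀ) = sk v) :
    (∀ i j, i ≠ j → g i j = 0) ∧ (∀ i, g i i = g 0 0) ∧ c * g 0 0 ^ 2 = 1 := by
  have MR := minor_rel g c h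
  have MR0 : ∀ i j r s : Fin 4, ¬ (r = i ∧ s = j) → ¬ (r = j ∧ s = i) →
      g r i * g s j = g r j * g s i := by
    intro i j r s h1 h2
    have h3 := MR i j r s
    rw [if_neg h1, if_neg h2, sub_zero] at h3
    rcases mul_eq_zero.mp h3 with h4 | h4
    · exact absurd h4 hc
    · exact sub_eq_zero.mp h4
  have hoff : ∀ a b, a ≠ b → g a b = 0 := by
    intro a b hab
    obtain ⟨k, l, hkl, hka, hkb, hla, hlb⟩ := two_others a b
    have e1 : g a b * g k k = g a k * g k b :=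
      MR0 b k a k (fun h => hab h.1) (fun h => hka h.1.symm)
    have e2 : g a b * g k l = g a l * g k b :=
      MR0 b l a k (fun h => hab h.1) (fun h => hla h.1.symm)
    have e3 : g a b * g l k = g a k * g l b :=
      MR0 b k a l (fun h => hab h.1) (fun h => hka h.1.symm)
    have e4 : g a b * g l l = g a l * g l b :=
      MR0 b l a l (fun h => hab h.1) (fun h => hla h.1.symm)
    have e5 : c * (g k k * g l l - g k l * g l k) = 1 := by
      have h3 := MR k l k l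
      rw [if_pos ⟨rfl, rfl⟩, if_neg (fun h => hkl h.1), sub_zero] at h3
      exact h3
    have h6 : g a b ^ 2 = 0 := by
      linear_combination (-(g a b ^ 2)) * e5 + c * (g a b * g l l) * e1
        + c * (g a k * g k b) * e4 - c * (g a b * g l k) * e2 - c * (g a l * g k b) * e3
    exact pow_eq_zero_iff (two_ne_zero) |>.mp h6
  have hdiag2 : ∀ i k : Fin 4, i ≠ k → c * (g i i * g k k) = 1 := by
    intro i k hik
    have h3 := MR i k i k
    rw [if_pos ⟨rfl, rfl⟩, if_neg (fun h => hik h.1), sub_zero, hoff i k hik, zero_mul,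
      sub_zero] at h3
    exact h3
  have hdiag : ∀ i, g i i = g 0 0 := by
    intro i
    by_cases hi : i = 0
    · rw [hi]
    · obtain ⟨k, hk0, hki⟩ : ∃ k : Fin 4, k ≠ 0 ∧ k ≠ i := by
        revert i
        decide
      have h1 := hdiag2 i k (Ne.symm hki)
      have h2 := hdiag2 0 k (Ne.symm hk0)
      have h3 : c * g k k ≠ 0 := by
        intro h0
        have : c * (g 0 0 * g k k) = 0 := by
          rw [mul_left_comm, h0, mul_zero]
        rw [h2] at this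
        exact one_ne_zero this
      have h4 : (c * g k k) * (g i i - g 0 0) = 0 := by linear_combination h1 - h2
      rcases mul_eq_zero.mp h4 with h5 | h5
      · exact absurd h5 h3
      · exact sub_eq_zero.mp h5
  refine ⟨hoff, hdiag, ?_⟩
  have h1 := hdiag2 0 1 (by decide)
  rw [hdiag 1] at h1
  linear_combination h1

theorem ker_rho0_scalar (p : (D : GL (Fin 4) F × Fˣ →* Fˣ).ker)
    (hp : p ∈ (rho0 (F := F)).ker) :
    (∀ i j, i ≠ j → p.1.1.1 i j = 0) ∧ (∀ i, p.1.1.1 i i = p.1.1.1 0 0) ∧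
      p.1.2.1 * p.1.1.1 0 0 ^ 2 = 1 := by
  have h : ∀ v : V6 F, act p.1.1.1 p.1.2.1 v = v := fun v =>
    congrArg (fun a : Orth.OQ (Cfsg.quadFormPlus 3 F) => (a : V6 F ≃ₗ[F] V6 F) v)
      (MonoidHom.mem_ker.mp hp)
  apply scalar_of_fix _ _ p.1.2.ne_zero
  intro v
  rw [← sk_act, h v]

theorem card_ker_rho0_le [Fintype F] :
    Nat.card (rho0 (F := F)).ker ≤ Fintype.card F - 1 := by
  have hc : Nat.card Fˣ = Fintype.card F - 1 := by
    rw [Nat.card_units, Nat.card_eq_fintype_card]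
  rw [← hc]
  have hne : ∀ p : (rho0 (F := F)).ker, p.1.1.1.1 0 0 ≠ 0 := by
    intro p h0
    have h1 := (ker_rho0_scalar p.1 p.2).2.2
    rw [h0] at h1
    simp at h1
  apply Nat.card_le_card_of_injective
    (fun p : (rho0 (F := F)).ker => Units.mk0 (p.1.1.1.1 0 0) (hne p))
  intro p p' hpp
  have e0 : p.1.1.1.1 0 0 = p'.1.1.1.1 0 0 := congrArg Units.val hpp
  obtain ⟨a1, a2, a3⟩ := ker_rho0_scalar p.1 p.2
  obtain ⟨b1, b2, b3⟩ := ker_rho0_scalar p'.1 p'.2
  have e1 : p.1.1.1 = p'.1.1.1 := by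
    apply Units.ext
    ext i j
    by_cases hij : i = j
    · subst hij
      rw [a2 i, b2 i, e0]
    · rw [a1 i j hij, b1 i j hij]
  have e2 : p.1.1.2 = p'.1.1.2 := by
    apply Units.ext
    rw [← e0] at b3
    have h5 : p.1.1.1.1 0 0 ^ 2 ≠ 0 := pow_ne_zero 2 (hne p)
    have h6 : (p.1.1.2.1 - p'.1.1.2.1) * p.1.1.1.1 0 0 ^ 2 = 0 := by linear_combination a3 - b3
    rcases mul_eq_zero.mp h6 with h7 | h7
    · exact sub_eq_zero.mp h7
    · exact absurd h7 h5
  exact Subtype.ext (Subtype.ext (Prod.ext e1 e2))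

theorem card_kerD [Fintype F] :
    Nat.card (D : GL (Fin 4) F × Fˣ →* Fˣ).ker = Nat.card (GL (Fin 4) F) := by
  have hsurj : Function.Surjective (D : GL (Fin 4) F × Fˣ →* Fˣ) := by
    intro u
    obtain ⟨g, hg⟩ := Matrix.GeneralLinearGroup.det_surjective (n := Fin 4) (R := F) u
    exact ⟨(g, 1), by rw [D_apply, hg, one_pow, mul_one]⟩
  have h1 := Subgroup.card_eq_card_quotient_mul_card_subgroup
    (D : GL (Fin 4) F × Fˣ →* Fˣ).ker
  have h2 : Nat.card ((GL (Fin 4) F × Fˣ) ⧸ (D : GL (Fin 4) F × Fˣ →* Fˣ).ker)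
      = Nat.card Fˣ := Nat.card_congr (QuotientGroup.quotientKerEquivOfSurjective _ hsurj).toEquiv
  rw [h2, Nat.card_prod, mul_comm] at h1
  have hpos : 0 < Nat.card Fˣ := Nat.card_pos
  exact (Nat.eq_of_mul_eq_mul_left hpos h1).symm

/-- the common order `q^6 (q^2-1)(q^3-1)(q^4-1)` -/
def ordS (q : ℕ) : ℕ := q ^ 6 * ((q ^ 2 - 1) * (q ^ 3 - 1) * (q ^ 4 - 1))

theorem ordS_pos (q : ℕ) (hq : 2 ≤ q) : 0 < ordS q := by
  unfold ordS
  have h2 : 2 ^ 2 ≤ q ^ 2 := Nat.pow_le_pow_left hq 2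
  have h3 : 2 ^ 3 ≤ q ^ 3 := Nat.pow_le_pow_left hq 3
  have h4 : 2 ^ 4 ≤ q ^ 4 := Nat.pow_le_pow_left hq 4
  have h6 : 0 < q ^ 6 := Nat.pow_pos (by omega)
  apply Nat.mul_pos h6
  apply Nat.mul_pos (Nat.mul_pos _ _) _ <;> omega

theorem prod4 (q : ℕ) :
    ∏ i : Fin 4, (q ^ 4 - q ^ (i : ℕ)) = (q - 1) * ordS q := by
  have f1 : q ^ 4 - q ^ 1 = q * (q ^ 3 - 1) := by
    rw [Nat.mul_sub, mul_one, pow_one]; congr 1 <;> ring
  have f2 : q ^ 4 - q ^ 2 = q ^ 2 * (q ^ 2 - 1) := by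
    rw [Nat.mul_sub, mul_one]; congr 1 <;> ring
  have f3 : q ^ 4 - q ^ 3 = q ^ 3 * (q - 1) := by
    rw [Nat.mul_sub, mul_one]; congr 1 <;> ring
  rw [Fin.prod_univ_four]
  show (q ^ 4 - q ^ 0) * (q ^ 4 - q ^ 1) * (q ^ 4 - q ^ 2) * (q ^ 4 - q ^ 3) = _
  rw [f1, f2, f3, pow_zero]
  unfold ordS
  ring

theorem card_GL4 [Fintype F] :
    Nat.card (GL (Fin 4) F) = (Fintype.card F - 1) * ordS (Fintype.card F) := by
  rw [Matrix.card_GL_field, prod4]

theorem card_SL4 [Fintype F] :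
    Nat.card (SpecialLinearGroup (Fin 4) F) = ordS (Fintype.card F) := by
  have h1 := GLn.card_SL_formula (F := F) 4 (by norm_num)
  rw [prod4] at h1
  have hq : 2 ≤ Fintype.card F := Fintype.one_lt_card
  exact Nat.eq_of_mul_eq_mul_left (by omega) h1

theorem card_O [Fintype F] : Nat.card (Orth.OQ (Cfsg.quadFormPlus 3 F))
    = 2 * ordS (Fintype.card F) := by
  rw [← Orth.card_iso_eq, Orth.card_plus 2]
  unfold ordS
  simp [Finset.prod_range_succ]
  ring

theorem index_R [Fintype F] :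
    (rho0 (F := F)).range.index = 1 ∨ (rho0 (F := F)).range.index = 2 := by
  have hq : 2 ≤ Fintype.card F := Fintype.one_lt_card
  have hS := ordS_pos (Fintype.card F) hq
  have c1 := Subgroup.card_eq_card_quotient_mul_card_subgroup (rho0 (F := F)).ker
  rw [Nat.card_congr (QuotientGroup.quotientKerEquivRange (rho0 (F := F))).toEquiv, card_kerD,
    card_GL4] at c1
  have c3 := card_ker_rho0_le (F := F)
  have c4 := Subgroup.index_mul_card (rho0 (F := F)).range
  rw [card_O] at c4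
  obtain ⟨S, hSdef⟩ : ∃ S, S = ordS (Fintype.card F) := ⟨_, rfl⟩
  obtain ⟨R, hRdef⟩ : ∃ R, R = Nat.card (rho0 (F := F)).range := ⟨_, rfl⟩
  obtain ⟨K, hKdef⟩ : ∃ K, K = Nat.card (rho0 (F := F)).ker := ⟨_, rfl⟩
  obtain ⟨i, hidef⟩ : ∃ i, i = (rho0 (F := F)).range.index := ⟨_, rfl⟩
  obtain ⟨t, htdef⟩ : ∃ t, Fintype.card F - 1 = t + 1 := ⟨Fintype.card F - 2, by omega⟩
  rw [← hSdef, ← hRdef, ← hKdef, htdef] at c1
  rw [← hKdef, htdef] at c3
  rw [← hidef, ← hRdef, ← hSdef] at c4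
  rw [← hSdef] at hS
  rw [← hidef]
  have hR : S ≤ R := by
    by_contra hlt
    rw [not_le] at hlt
    have h5 : R * K < (t + 1) * S := by
      calc R * K ≤ R * (t + 1) := Nat.mul_le_mul_left _ c3
        _ < S * (t + 1) := Nat.mul_lt_mul_of_pos_right hlt (by omega)
        _ = (t + 1) * S := by ring
    rw [c1] at h5
    exact lt_irrefl _ h5
  have hi : i ≤ 2 := by
    by_contra hlt
    rw [not_le] at hlt
    have h6 : 3 * S ≤ i * R := Nat.mul_le_mul hlt hR
    rw [c4] at h6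
    omega
  have hpos : i ≠ 0 := by
    rintro rfl
    rw [zero_mul] at c4
    omega
  omega

theorem R_normal [Fintype F] : (rho0 (F := F)).range.Normal := by
  rcases index_R (F := F) with h2 | h2
  · rw [Subgroup.index_eq_one] at h2
    rw [h2]
    infer_instance
  · exact Subgroup.normal_of_index_eq_two h2

end Cfsg.Agent.Lib.Helper1.O6
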