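import Mathlib
import Cfsg.Agent.Lib.Helper1.O6a

set_option autoImplicit false

namespace Cfsg.Agent.Lib.Helper1.O6

open Matrix
open scoped commutatorElement

variable {F : Type*} [Field F]

def incl : SpecialLinearGroup (Fin 4) F →* (D : GL (Fin 4) F × Fˣ →* Fˣ).ker where
  toFun x := ⟨(SpecialLinearGroup.toGL x, 1), by
    rw [mem_kerD]
    show (1 : Fˣ).1 ^ 2 * x.1.det = 1
    rw [x.2, Units.val_one, one_pow, one_mul]⟩
  map_one' := Subtype.ext (Prod.ext (map_one _) rfl)
  map_mul' x y := Subtype.ext (Prod.ext (map_mul _ _ _) (one_mul 1).symm)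

def rho1 : SpecialLinearGroup (Fin 4) F →* Orth.OQ (Cfsg.quadFormPlus 3 F) := rho0.comp incl

theorem N_le_R : (rho1 (F := F)).range ≤ (rho0 (F := F)).range := by
  rintro _ ⟨x, rfl⟩
  exact ⟨incl x, rfl⟩

theorem commR_le_N :
    ⁅(rho0 (F := F)).range, (rho0 (F := F)).range⁆ ≤ (rho1 (F := F)).range := by
  rw [Subgroup.commutator_le]
  rintro _ ⟨p, rfl⟩ _ ⟨p', rfl⟩
  rw [← map_commutatorElement]
  have hdet : (⁅p.1.1, p'.1.1⁆ : GL (Fin 4) F).1.det = 1 := by
    have ha : p.1.1.1.det * (p.1.1⁻¹).1.det = 1 := by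
      rw [← Matrix.det_mul, Units.mul_inv, Matrix.det_one]
    have hb : p'.1.1.1.det * (p'.1.1⁻¹).1.det = 1 := by
      rw [← Matrix.det_mul, Units.mul_inv, Matrix.det_one]
    rw [commutatorElement_def, Units.val_mul, Units.val_mul, Units.val_mul, Matrix.det_mul,
      Matrix.det_mul, Matrix.det_mul]
    linear_combination (p'.1.1.1.det * (p'.1.1⁻¹).1.det) * ha + hb
  refine ⟨⟨(⁅p.1.1, p'.1.1⁆ : GL (Fin 4) F).1, hdet⟩, ?_⟩
  show rho0 (incl _) = rho0 ⁅p, p'⁆
  congr 1
  apply Subtype.ext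
  apply Prod.ext
  · apply Units.ext
    rfl
  · show (1 : Fˣ) = ⁅p.1.2, p'.1.2⁆
    exact (commutatorElement_eq_one_iff_commute.mpr (Commute.all _ _)).symm

theorem N_le_commR :
    (rho1 (F := F)).range ≤ ⁅(rho0 (F := F)).range, (rho0 (F := F)).range⁆ := by
  have hperf : commutator (SpecialLinearGroup (Fin 4) F) = ⊤ :=
    SLn.commutator_SL_eq_top (F := F) (ι := Fin 4) (by simp)
  rintro _ ⟨x, rfl⟩
  have hx : x ∈ ⁅(⊤ : Subgroup (SpecialLinearGroup (Fin 4) F)),
      (⊤ : Subgroup (SpecialLinearGroup (Fin 4) F))⁆ := by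
    rw [← _root_.commutator_def, hperf]
    exact Subgroup.mem_top x
  have h1 : rho1 x ∈ Subgroup.map rho1 ⁅(⊤ : Subgroup (SpecialLinearGroup (Fin 4) F)),
      (⊤ : Subgroup (SpecialLinearGroup (Fin 4) F))⁆ :=
    Subgroup.mem_map_of_mem _ hx
  rw [Subgroup.map_commutator, ← MonoidHom.range_eq_map] at h1
  exact Subgroup.commutator_mono N_le_R N_le_R h1

theorem N_eq :
    (rho1 (F := F)).range = ⁅(rho0 (F := F)).range, (rho0 (F := F)).range⁆ :=
  le_antisymm N_le_commR commR_le_N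

theorem N_normal [Fintype F] : (rho1 (F := F)).range.Normal := by
  haveI := R_normal (F := F)
  rw [N_eq]
  infer_instance

theorem ker_rho1 (x : SpecialLinearGroup (Fin 4) F) (hx : x ∈ (rho1 (F := F)).ker) :
    (∀ i j, i ≠ j → x.1 i j = 0) ∧ (∀ i, x.1 i i = x.1 0 0) ∧ x.1 0 0 ^ 2 = 1 := by
  have h0 : incl x ∈ (rho0 (F := F)).ker := hx
  obtain ⟨h1, h2, h3⟩ := ker_rho0_scalar (incl x) h0
  refine ⟨h1, h2, ?_⟩
  have h4 : (1 : F) * x.1 0 0 ^ 2 = 1 := h3
  rwa [one_mul] at h4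

theorem ker_rho1_le_center :
    (rho1 (F := F)).ker ≤ Subgroup.center (SpecialLinearGroup (Fin 4) F) := by
  intro x hx
  obtain ⟨h1, h2, h3⟩ := ker_rho1 x hx
  rw [Matrix.SpecialLinearGroup.mem_center_iff]
  refine ⟨x.1 0 0, ?_, ?_⟩
  · rw [Fintype.card_fin]
    have h4 : x.1 0 0 ^ 4 = (x.1 0 0 ^ 2) ^ 2 := by ring
    rw [h4, h3, one_pow]
  · ext i j
    rw [Matrix.scalar_apply, Matrix.diagonal_apply]
    split_ifs with hij
    · subst hij
      exact (h2 i).symm
    · exact (h1 i j hij).symm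

theorem card_ker_rho1_le : Nat.card (rho1 (F := F)).ker ≤ 2 := by
  classical
  have hb : Nat.card Bool = 2 := by simp
  rw [← hb]
  have hpm : ∀ x : (rho1 (F := F)).ker, x.1.1 0 0 = 1 ∨ x.1.1 0 0 = -1 := by
    intro x
    obtain ⟨a1, a2, a3⟩ := ker_rho1 x.1 x.2
    have h4 : (x.1.1 0 0 - 1) * (x.1.1 0 0 + 1) = 0 := by linear_combination a3
    rcases mul_eq_zero.mp h4 with h | h
    · left; exact sub_eq_zero.mp h
    · right; exact eq_neg_of_add_eq_zero_left h
  apply Nat.card_le_card_of_injective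
    (fun x : (rho1 (F := F)).ker => decide (x.1.1 0 0 = 1))
  intro x y hxy
  obtain ⟨a1, a2, a3⟩ := ker_rho1 x.1 x.2
  obtain ⟨b1, b2, b3⟩ := ker_rho1 y.1 y.2
  have hxy' : (x.1.1 0 0 = 1) ↔ (y.1.1 0 0 = 1) := by simpa using hxy
  have e0 : x.1.1 0 0 = y.1.1 0 0 := by
    rcases hpm x with h | h
    · rw [h, hxy'.mp h]
    · rcases hpm y with h' | h'
      · rw [hxy'.mpr h', h']
      · rw [h, h']
  apply Subtype.ext
  apply Subtype.ext
  ext i j
  by_cases hij : i = j
  · subst hij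
    rw [a2 i, b2 i, e0]
  · rw [a1 i j hij, b1 i j hij]

theorem commutator_le_N [Fintype F] :
    commutator (Orth.OQ (Cfsg.quadFormPlus 3 F)) ≤ (rho1 (F := F)).range := by
  haveI := N_normal (F := F)
  have hq : 2 ≤ Fintype.card F := Fintype.one_lt_card
  have hS := ordS_pos (Fintype.card F) hq
  have c1 := Subgroup.card_eq_card_quotient_mul_card_subgroup (rho1 (F := F)).ker
  rw [Nat.card_congr (QuotientGroup.quotientKerEquivRange (rho1 (F := F))).toEquiv,
    card_SL4] at c1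
  have c2 := Subgroup.card_eq_card_quotient_mul_card_subgroup (rho1 (F := F)).range
  rw [card_O] at c2
  have c3 := card_ker_rho1_le (F := F)
  have c4 : 0 < Nat.card (rho1 (F := F)).ker := Nat.card_pos
  have hN : 0 < Nat.card (rho1 (F := F)).range := by
    rcases Nat.eq_zero_or_pos (Nat.card (rho1 (F := F)).range) with h | h
    · rw [h, zero_mul] at c1
      omega
    · exact h
  have hcard : Nat.card (Orth.OQ (Cfsg.quadFormPlus 3 F) ⧸ (rho1 (F := F)).range)
      = 2 * Nat.card (rho1 (F := F)).ker := by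
    have h5 : Nat.card (Orth.OQ (Cfsg.quadFormPlus 3 F) ⧸ (rho1 (F := F)).range)
        * Nat.card (rho1 (F := F)).range
        = 2 * Nat.card (rho1 (F := F)).ker * Nat.card (rho1 (F := F)).range := by
      rw [← c2, c1]
      ring
    exact Nat.eq_of_mul_eq_mul_right hN h5
  have hcomm := O4.comm_of_card
    (G := Orth.OQ (Cfsg.quadFormPlus 3 F) ⧸ (rho1 (F := F)).range) (by
    rw [hcard]; omega)
  rw [_root_.commutator_def, Subgroup.commutator_le]
  intro a _ b _
  rw [← QuotientGroup.eq_one_iff, commutatorElement_def]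
  simp only [QuotientGroup.mk_mul, QuotientGroup.mk_inv]
  rw [hcomm (↑a) (↑b)]
  group

theorem N_le_commutator :
    (rho1 (F := F)).range ≤ commutator (Orth.OQ (Cfsg.quadFormPlus 3 F)) := by
  have hperf : commutator (SpecialLinearGroup (Fin 4) F) = ⊤ :=
    SLn.commutator_SL_eq_top (F := F) (ι := Fin 4) (by simp)
  rintro _ ⟨x, rfl⟩
  have hx : x ∈ commutator (SpecialLinearGroup (Fin 4) F) := by
    rw [hperf]
    exact Subgroup.mem_top x
  exact O4.map_commutator_le' _ (Subgroup.mem_map_of_mem _ hx)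

theorem commutator_O [Fintype F] :
    commutator (Orth.OQ (Cfsg.quadFormPlus 3 F)) = (rho1 (F := F)).range :=
  le_antisymm commutator_le_N N_le_commutator

theorem center_PSL_bot {ι : Type*} [Fintype ι] [DecidableEq ι] (h : 3 ≤ Fintype.card ι) :
    Subgroup.center (ProjectiveSpecialLinearGroup ι F) = ⊥ := by
  haveI := SLn.isSimpleGroup_PSL (F := F) (ι := ι) h
  rcases (inferInstance : (Subgroup.center
    (ProjectiveSpecialLinearGroup ι F)).Normal).eq_bot_or_eq_top with h1 | h1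
  · exact h1
  · exfalso
    have h2 := (_root_.commutator_eq_bot_iff_center_eq_top
      (G := ProjectiveSpecialLinearGroup ι F)).mpr h1
    rw [SLn.commutator_PSL_eq_top h] at h2
    exact top_ne_bot h2

theorem main [Fintype F] :
    Nonempty (Cfsg.POmega F (Cfsg.quadFormPlus 3 F) ≃*
      ProjectiveSpecialLinearGroup (Fin 4) F) := by
  let E0 := O3.commEquiv (Orth.isoOQ (Cfsg.quadFormPlus 3 F))
  let E1 := MulEquiv.subgroupCongr (commutator_O (F := F))
  let E2 := (QuotientGroup.quotientKerEquivRange (rho1 (F := F))).symm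
  let E : Cfsg.Omega F (Cfsg.quadFormPlus 3 F) ≃*
      SpecialLinearGroup (Fin 4) F ⧸ (rho1 (F := F)).ker := (E0.trans E1).trans E2
  let L := QuotientGroup.lift (rho1 (F := F)).ker
    (QuotientGroup.mk' (Subgroup.center (SpecialLinearGroup (Fin 4) F))) (by
      intro x hx
      rw [MonoidHom.mem_ker, QuotientGroup.mk'_apply, QuotientGroup.eq_one_iff]
      exact ker_rho1_le_center hx)
  have hL : Function.Surjective L := by
    intro y
    obtain ⟨x, rfl⟩ := QuotientGroup.mk'_surjective _ y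
    exact ⟨QuotientGroup.mk x, rfl⟩
  let ψ : Cfsg.Omega F (Cfsg.quadFormPlus 3 F) →* ProjectiveSpecialLinearGroup (Fin 4) F :=
    L.comp E.toMonoidHom
  have hψ : Function.Surjective ψ := hL.comp E.surjective
  refine O4.quotCenterEquiv ψ hψ (center_PSL_bot (by simp)) ?_
  intro a ha
  rw [MonoidHom.mem_ker] at ha
  have ha' : L (E a) = 1 := ha
  rw [Subgroup.mem_center_iff]
  intro b
  apply E.injective
  rw [map_mul, map_mul]
  obtain ⟨x, hx⟩ := QuotientGroup.mk_surjective (E a)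
  obtain ⟨y, hy⟩ := QuotientGroup.mk_surjective (E b)
  rw [← hx] at ha'
  have hx1 : x ∈ Subgroup.center (SpecialLinearGroup (Fin 4) F) := by
    have h5 : (QuotientGroup.mk' (Subgroup.center (SpecialLinearGroup (Fin 4) F))) x = 1 := ha'
    rwa [QuotientGroup.mk'_apply, QuotientGroup.eq_one_iff] at h5
  rw [← hx, ← hy, ← QuotientGroup.mk_mul, ← QuotientGroup.mk_mul]
  congr 1
  exact Subgroup.mem_center_iff.mp hx1 y

end Cfsg.Agent.Lib.Helper1.O6
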