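import Mathlib
import Cfsg.Agent.Lib.Helper1.MaxCl

namespace Cfsg.Agent.Lib.Helper1.Dih2

open Subgroup

theorem qp_mem {G : Type*} [Group G] (m : ℕ) (α : G) (h : α ^ m = 1) (i : ZMod m) :
    Quat.qp m α h i ∈ zpowers α := by
  obtain ⟨k, hk⟩ := Quat.qp_eq_zpow m α h i
  rw [hk]; exact zpow_mem_zpowers α k

theorem qp_eq_one {G : Type*} [Group G] (m : ℕ) [NeZero m] (α : G) (h : α ^ m = 1)
    (ho : orderOf α = m) (i : ZMod m) (hi : Quat.qp m α h i = 1) : i = 0 := by
  have h1 : i = ((i.val : ℕ) : ZMod m) := (ZMod.natCast_zmod_val i).symm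
  rw [h1, Quat.qp_natCast] at hi
  have h2 : orderOf α ∣ i.val := orderOf_dvd_of_pow_eq_one hi
  rw [ho] at h2
  have h3 : i.val < m := ZMod.val_lt i
  have h4 : i.val = 0 := Nat.eq_zero_of_dvd_of_lt h2 h3
  rw [h1, h4]; simp

theorem dih_recognize2 {G : Type*} [Group G] (m : ℕ) [NeZero m] (α β : G)
    (ho : orderOf α = m) (hb : β * β = 1) (hc : β * α * β⁻¹ = α⁻¹) (hβ : β ∉ zpowers α)
    (hgen : ∀ g : G, g ∈ zpowers α ∨ β⁻¹ * g ∈ zpowers α) :
    Nonempty (G ≃* DihedralGroup m) := by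
  have h : α ^ m = 1 := by rw [← ho]; exact pow_orderOf_eq_one α
  have hsurj : Function.Surjective (MaxCl.dihHom m α β h hb hc) := by
    intro g
    rcases hgen g with hg | hg
    · obtain ⟨k, hk⟩ := Subgroup.mem_zpowers_iff.1 hg
      refine ⟨DihedralGroup.r (k : ZMod m), ?_⟩
      show Quat.qp m α h (k : ZMod m) = g
      rw [Quat.qp_intCast, hk]
    · obtain ⟨k, hk⟩ := Subgroup.mem_zpowers_iff.1 hg
      refine ⟨DihedralGroup.sr (k : ZMod m), ?_⟩
      show β * Quat.qp m α h (k : ZMod m) = g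
      rw [Quat.qp_intCast, hk]
      group
  have hinj : Function.Injective (MaxCl.dihHom m α β h hb hc) := by
    rw [injective_iff_map_eq_one]
    rintro (i | i) hx
    · have hx' : Quat.qp m α h i = 1 := hx
      rw [qp_eq_one m α h ho i hx']
      rfl
    · exfalso
      have hx' : β * Quat.qp m α h i = 1 := hx
      apply hβ
      have : β = (Quat.qp m α h i)⁻¹ := eq_inv_of_mul_eq_one_left hx'
      rw [this]
      exact inv_mem (qp_mem m α h i)
  exact ⟨(MulEquiv.ofBijective _ ⟨hinj, hsurj⟩).symm⟩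

end Cfsg.Agent.Lib.Helper1.Dih2
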