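import Mathlib
import Cfsg.Agent.Lib.Helper1.Orth6
import Cfsg.Agent.Lib.Helper1.Dih2

namespace Cfsg.Agent.Lib.Helper1.Orth

open QuadraticAlgebra

variable {F : Type*} [Field F]

theorem fact_of_aniso (a b : F)
    (hab : ∀ z₁ z₂ : F, z₁ ^ 2 + a * z₁ * z₂ + b * z₂ ^ 2 = 0 → z₁ = 0 ∧ z₂ = 0) :
    Fact (∀ r : F, r ^ 2 ≠ -b + a * r) := ⟨fun r hr => by
  have := hab r (-1) (by rw [hr]; ring)
  exact one_ne_zero (neg_eq_zero.1 this.2)⟩

section

variable (a b : F)

def nK (z : QuadraticAlgebra F (-b) a) : F := QuadraticAlgebra.norm z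

theorem nK_def (z : QuadraticAlgebra F (-b) a) :
    nK a b z = z.re * z.re + a * z.re * z.im + b * z.im * z.im := by
  rw [nK, norm_def]; ring

def phi0 : ((Fin 0 ⊕ Fin 0) ⊕ Fin 2 → F) ≃ₗ[F] QuadraticAlgebra F (-b) a where
  toFun v := ⟨v (.inr 0), v (.inr 1)⟩
  invFun z := fun j => match j with
    | .inl (.inl i) => i.elim0
    | .inl (.inr i) => i.elim0
    | .inr k => if k = 0 then z.re else z.im
  map_add' u v := by ext <;> rfl
  map_smul' c v := by ext <;> rfl
  left_inv v := by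
    funext j
    rcases j with (i | i) | k
    · exact i.elim0
    · exact i.elim0
    · fin_cases k <;> rfl
  right_inv z := by ext <;> rfl

theorem phi0_norm (v : (Fin 0 ⊕ Fin 0) ⊕ Fin 2 → F) :
    nK a b (phi0 a b v) = Cfsg.quadFormMinus 0 F a b v := by
  rw [nK_def]; unfold Cfsg.quadFormMinus; simp [phi0]; ring

variable [Fact (∀ r : F, r ^ 2 ≠ -b + a * r)]

def starL : QuadraticAlgebra F (-b) a →ₗ[F] QuadraticAlgebra F (-b) a where
  toFun z := star z
  map_add' := star_add
  map_smul' c z := by ext <;> simp <;> ring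

def sigK : QuadraticAlgebra F (-b) a ≃ₗ[F] QuadraticAlgebra F (-b) a :=
  LinearEquiv.ofLinearMap (starL a b) (starL a b) (LinearMap.ext fun z => star_star z)
    (LinearMap.ext fun z => star_star z)

theorem sigK_apply (z : QuadraticAlgebra F (-b) a) : sigK a b z = star z := rfl

theorem sigK_mem : sigK a b ∈ OQ (nK a b) := fun z => by
  show nK a b (star z) = nK a b z
  unfold nK; exact norm_star z

def mulLHom : (QuadraticAlgebra F (-b) a)ˣ →*
    (QuadraticAlgebra F (-b) a ≃ₗ[F] QuadraticAlgebra F (-b) a) where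
  toFun u := LinearEquiv.ofLinearMap (LinearMap.mulLeft F (u : QuadraticAlgebra F (-b) a))
    (LinearMap.mulLeft F ((u⁻¹ : (QuadraticAlgebra F (-b) a)ˣ) : QuadraticAlgebra F (-b) a))
    (LinearMap.ext fun z => by simp) (LinearMap.ext fun z => by simp)
  map_one' := LinearEquiv.ext fun z => by simp
  map_mul' u v := LinearEquiv.ext fun z => by simp [mul_assoc]

theorem mulLHom_apply (u : (QuadraticAlgebra F (-b) a)ˣ) (z : QuadraticAlgebra F (-b) a) :
    mulLHom a b u z = u * z := rfl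

def UK : Subgroup (QuadraticAlgebra F (-b) a)ˣ :=
  (Units.map (QuadraticAlgebra.norm : QuadraticAlgebra F (-b) a →* F)).ker

theorem mem_UK {u : (QuadraticAlgebra F (-b) a)ˣ} :
    u ∈ UK a b ↔ QuadraticAlgebra.norm (u : QuadraticAlgebra F (-b) a) = 1 := by
  rw [UK, MonoidHom.mem_ker, Units.ext_iff]; rfl

theorem mulL_mem {u : (QuadraticAlgebra F (-b) a)ˣ} (hu : u ∈ UK a b) :
    mulLHom a b u ∈ OQ (nK a b) := fun z => by
  show nK a b (u * z) = nK a b z
  unfold nK; rw [map_mul, (mem_UK a b).1 hu, one_mul]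

def rhoK : UK a b →* OQ (nK a b) where
  toFun u := ⟨mulLHom a b u.1, mulL_mem a b u.2⟩
  map_one' := Subtype.ext (map_one (mulLHom a b))
  map_mul' u v := Subtype.ext (map_mul (mulLHom a b) u.1 v.1)

theorem rhoK_injective : Function.Injective (rhoK a b) := by
  intro u v h
  have h1 := congrArg (fun g : OQ (nK a b) => g.1 1) h
  simp only [rhoK, MonoidHom.coe_mk, OneHom.coe_mk, mulLHom_apply, mul_one] at h1
  exact Subtype.ext (Units.ext h1)

theorem star_eq_inv {u : (QuadraticAlgebra F (-b) a)ˣ} (hu : u ∈ UK a b) :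
    star (u : QuadraticAlgebra F (-b) a)
      = ((u⁻¹ : (QuadraticAlgebra F (-b) a)ˣ) : QuadraticAlgebra F (-b) a) := by
  have h1 := algebraMap_norm_eq_mul_star (u : QuadraticAlgebra F (-b) a)
  rw [(mem_UK a b).1 hu, map_one] at h1
  exact Units.eq_inv_of_mul_eq_one_left h1.symm

theorem OQ_decomp (g : QuadraticAlgebra F (-b) a ≃ₗ[F] QuadraticAlgebra F (-b) a)
    (hg : g ∈ OQ (nK a b)) :
    ∃ u ∈ UK a b, g = mulLHom a b u ∨ g = mulLHom a b u * sigK a b := by
  have hn1 : QuadraticAlgebra.norm (g 1) = 1 := by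
    have := mem_OQ.1 hg 1
    unfold nK at this; rw [this, map_one]
  have hne : g 1 ≠ 0 := by
    intro h0; rw [h0, QuadraticAlgebra.norm_zero] at hn1; exact zero_ne_one hn1
  obtain ⟨u, hu1⟩ : ∃ u : (QuadraticAlgebra F (-b) a)ˣ, (u : QuadraticAlgebra F (-b) a) = g 1 :=
    ⟨Units.mk0 (g 1) hne, rfl⟩
  have hu : u ∈ UK a b := (mem_UK a b).2 (by rw [hu1]; exact hn1)
  refine ⟨u, hu, ?_⟩
  obtain ⟨h, hh⟩ : ∃ h, h = (mulLHom a b u)⁻¹ * g := ⟨_, rfl⟩
  have hmem : h ∈ OQ (nK a b) := by
    rw [hh]; exact mul_mem (inv_mem (mulL_mem a b hu)) hg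
  have h1 : h 1 = 1 := by
    rw [hh, ← map_inv, LinearEquiv.mul_apply, mulLHom_apply, ← hu1]
    exact Units.inv_mul u
  have hg' : g = mulLHom a b u * h := by rw [hh, mul_inv_cancel_left]
  have hw1 : nK a b (h ω) = nK a b ω := mem_OQ.1 hmem ω
  have hw2 : nK a b (h (1 + ω)) = nK a b (1 + ω) := mem_OQ.1 hmem (1 + ω)
  rw [map_add, h1] at hw2
  rw [nK_def, nK_def] at hw1 hw2
  simp only [omega_re, omega_im, re_add, im_add, re_one, im_one] at hw1 hw2
  have E1 : 2 * (h ω).re + a * (h ω).im - a = 0 := by linear_combination hw2 - hw1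
  have E2 : (h ω).re * (h ω).re + a * (h ω).re * (h ω).im + b * (h ω).im * (h ω).im - b = 0 := by
    linear_combination hw1
  have key : (h ω - ω) * (h ω - star ω) = 0 := by
    ext
    · simp only [re_mul, re_sub, im_sub, omega_re, omega_im, re_star, im_star, re_zero]
      linear_combination (-1 : F) * E2 + (h ω).re * E1
    · simp only [im_mul, re_sub, im_sub, omega_re, omega_im, re_star, im_star, im_zero]
      linear_combination (h ω).im * E1
  have hz : ∀ z : QuadraticAlgebra F (-b) a, z = z.re • (1 : QuadraticAlgebra F (-b) a) + z.im • ω := by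
    intro z; ext <;> simp
  rcases mul_eq_zero.1 key with k | k
  · left
    have hω : h ω = ω := sub_eq_zero.1 k
    have hid : h = 1 := by
      apply LinearEquiv.ext; intro z
      conv_lhs => rw [hz z]
      rw [map_add, map_smul, map_smul, h1, hω, ← hz z]; rfl
    rw [hg', hid, mul_one]
  · right
    have hω : h ω = star ω := sub_eq_zero.1 k
    have hid : h = sigK a b := by
      apply LinearEquiv.ext; intro z
      conv_lhs => rw [hz z]
      rw [map_add, map_smul, map_smul, h1, hω, sigK_apply]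
      ext <;> simp <;> ring
    rw [hg', hid]

end

end Cfsg.Agent.Lib.Helper1.Orth
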