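import Mathlib
import Cfsg.Agent.Lib.Helper1.OrthM1

namespace Cfsg.Agent.Lib.Helper1.Orth

open QuadraticAlgebra

variable {F : Type*} [Field F]

section

variable (a b : F) [Fact (∀ r : F, r ^ 2 ≠ -b + a * r)] [Fintype F]

instance finiteK : Finite (QuadraticAlgebra F (-b) a) :=
  Finite.of_equiv (F × F) (QuadraticAlgebra.equivProd (-b) a).symm

theorem card_K : Nat.card (QuadraticAlgebra F (-b) a) = Fintype.card F * Fintype.card F := by
  rw [Nat.card_congr (QuadraticAlgebra.equivProd (-b) a), Nat.card_prod,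
    Nat.card_eq_fintype_card]

theorem norm_eq_algNorm (z : QuadraticAlgebra F (-b) a) :
    Algebra.norm F z = QuadraticAlgebra.norm z := by
  rw [Algebra.norm_apply, ← QuadraticAlgebra.det_toLinearMap_eq_norm]
  congr 1

theorem card_UK : Nat.card (UK a b) = Fintype.card F + 1 := by
  have hs := FiniteField.unitsMap_norm_surjective F (QuadraticAlgebra F (-b) a)
  have heq : Units.map (Algebra.norm F (S := QuadraticAlgebra F (-b) a))
      = Units.map (QuadraticAlgebra.norm : QuadraticAlgebra F (-b) a →* F) := by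
    ext u; simp [norm_eq_algNorm]
  rw [heq] at hs
  have h1 := Subgroup.card_mul_index (UK a b)
  have hidx : (UK a b).index = Fintype.card F - 1 := by
    rw [UK, Subgroup.index_ker, MonoidHom.range_eq_top.2 hs, Subgroup.card_top, Nat.card_units,
      Nat.card_eq_fintype_card]
  rw [hidx, Nat.card_units, card_K] at h1
  have hq : 2 ≤ Fintype.card F := Fintype.one_lt_card
  have h2 : Fintype.card F * Fintype.card F - 1
      = (Fintype.card F + 1) * (Fintype.card F - 1) := by
    obtain ⟨t, ht⟩ : ∃ t, Fintype.card F = t + 1 := ⟨Fintype.card F - 1, by omega⟩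
    rw [ht, Nat.add_sub_cancel]
    have : (t + 1) * (t + 1) = (t + 1 + 1) * t + 1 := by ring
    rw [this, Nat.add_sub_cancel]
  rw [h2] at h1
  exact Nat.eq_of_mul_eq_mul_right (by omega) h1

theorem star_omega_ne : star (ω : QuadraticAlgebra F (-b) a) ≠ ω := by
  intro h
  have hre := congrArg QuadraticAlgebra.re h
  have him := congrArg QuadraticAlgebra.im h
  simp only [re_star, im_star, omega_re, omega_im, zero_add, mul_one] at hre him
  have h2 : (2 : F) = 0 := by linear_combination (-1 : F) * him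
  haveI : CharP F 2 := CharTwo.of_one_ne_zero_of_two_eq_zero one_ne_zero h2
  obtain ⟨c, hc⟩ := FiniteField.isSquare_of_char_two (ringChar.eq F 2) b
  apply (Fact.out : ∀ r : F, r ^ 2 ≠ -b + a * r) c
  rw [hre, zero_mul, add_zero, pow_two, ← hc]
  linear_combination b * h2

theorem OQ_nK_dihedral : Nonempty (OQ (nK a b) ≃* DihedralGroup (Fintype.card F + 1)) := by
  obtain ⟨u0, hu0⟩ := IsCyclic.exists_generator (α := UK a b)
  have ho : orderOf u0 = Fintype.card F + 1 := by
    rw [orderOf_eq_card_of_forall_mem_zpowers hu0, card_UK]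
  obtain ⟨α, hαdef⟩ : ∃ α : OQ (nK a b), α = rhoK a b u0 := ⟨_, rfl⟩
  obtain ⟨β, hβdef⟩ : ∃ β : OQ (nK a b), β = ⟨sigK a b, sigK_mem a b⟩ := ⟨_, rfl⟩
  have hα : orderOf α = Fintype.card F + 1 := by
    rw [hαdef, orderOf_injective (rhoK a b) (rhoK_injective a b), ho]
  have hb : β * β = 1 := by
    rw [hβdef]
    apply Subtype.ext; apply LinearEquiv.ext; intro z
    show star (star z) = z
    exact star_star z
  have hbinv : β⁻¹ = β := inv_eq_of_mul_eq_one_left hb
  have hconj : ∀ u : UK a b, β * rhoK a b u * β⁻¹ = (rhoK a b u)⁻¹ := by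
    intro u
    rw [hbinv, ← map_inv, hβdef]
    apply Subtype.ext; apply LinearEquiv.ext; intro z
    show star ((u.1 : QuadraticAlgebra F (-b) a) * star z)
      = (((u⁻¹ : UK a b).1 : (QuadraticAlgebra F (-b) a)ˣ) : QuadraticAlgebra F (-b) a) * z
    rw [star_mul, star_star, star_eq_inv a b u.2, mul_comm]
    rfl
  have hzp : ∀ u : UK a b, rhoK a b u ∈ Subgroup.zpowers α := by
    intro u
    obtain ⟨k, hk⟩ := Subgroup.mem_zpowers_iff.1 (hu0 u)
    rw [← hk, map_zpow, hαdef]
    exact Subgroup.zpow_mem_zpowers _ k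
  have hβ : β ∉ Subgroup.zpowers α := by
    intro hmem
    obtain ⟨k, hk⟩ := Subgroup.mem_zpowers_iff.1 hmem
    have h1 : β = rhoK a b (u0 ^ k) := by rw [map_zpow, ← hαdef]; exact hk.symm
    rw [hβdef] at h1
    have h2 := congrArg (fun g : OQ (nK a b) => g.1 1) h1
    have h3 := congrArg (fun g : OQ (nK a b) => g.1 ω) h1
    simp only [rhoK, MonoidHom.coe_mk, OneHom.coe_mk, mulLHom_apply, sigK_apply, mul_one,
      star_one] at h2 h3
    rw [← h2, one_mul] at h3
    exact star_omega_ne a b h3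
  have hgen : ∀ g : OQ (nK a b), g ∈ Subgroup.zpowers α ∨ β⁻¹ * g ∈ Subgroup.zpowers α := by
    intro g
    obtain ⟨u, hu, hg | hg⟩ := OQ_decomp a b g.1 g.2
    · left
      have : g = rhoK a b ⟨u, hu⟩ := Subtype.ext hg
      rw [this]; exact hzp _
    · right
      have : g = rhoK a b ⟨u, hu⟩ * β := by rw [hβdef]; exact Subtype.ext hg
      have h5 := hconj ⟨u, hu⟩
      rw [hbinv] at h5 ⊢
      rw [this, ← mul_assoc, h5]
      exact inv_mem (hzp _)
  haveI : NeZero (Fintype.card F + 1) := ⟨by omega⟩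
  have hc := hconj u0
  rw [← hαdef] at hc
  exact Dih2.dih_recognize2 (Fintype.card F + 1) α β hα hb hc hβ hgen

end

theorem minus_zero_dihedral [Fintype F] (a b : F)
    (hab : ∀ z₁ z₂ : F, z₁ ^ 2 + a * z₁ * z₂ + b * z₂ ^ 2 = 0 → z₁ = 0 ∧ z₂ = 0) :
    Nonempty (Cfsg.isometryGroup F (Cfsg.quadFormMinus 0 F a b)
      ≃* DihedralGroup (Fintype.card F + 1)) := by
  haveI := fact_of_aniso a b hab
  obtain ⟨e⟩ := OQ_nK_dihedral a b
  exact ⟨((isoOQ (Cfsg.quadFormMinus 0 F a b)).trans
    (congrOQ (phi0 a b) (phi0_norm a b))).trans e⟩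

def binQ (a b : F) : QuadraticMap F (Fin 2 → F) F :=
  QuadraticMap.proj 0 0 + a • QuadraticMap.proj 0 1 + b • QuadraticMap.proj 1 1

theorem binQ_apply (a b : F) (z : Fin 2 → F) :
    binQ a b z = z 0 * z 0 + a * (z 0 * z 1) + b * (z 1 * z 1) := by
  simp [binQ]

theorem gq_binQ (a b : F) (m : ℕ) :
    gq m (⇑(binQ a b)) = Cfsg.quadFormMinus m F a b := by
  funext v
  unfold gq Cfsg.quadFormMinus
  rw [binQ_apply]
  ring

theorem card_minus [Fintype F] (a b : F)
    (hab : ∀ z₁ z₂ : F, z₁ ^ 2 + a * z₁ * z₂ + b * z₂ ^ 2 = 0 → z₁ = 0 ∧ z₂ = 0) (n : ℕ) :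
    Nat.card (Cfsg.isometryGroup F (Cfsg.quadFormMinus n F a b)) =
      2 * Fintype.card F ^ ((n+1) * n) * (Fintype.card F ^ (n+1) + 1)
        * ∏ i ∈ Finset.range n, (Fintype.card F ^ (2 * (i+1)) - 1) := by
  have haniso : ∀ z : Fin 2 → F, binQ a b z = 0 → z = 0 := by
    intro z hz
    rw [binQ_apply] at hz
    have := hab (z 0) (z 1) (by linear_combination hz)
    funext k
    fin_cases k
    · exact this.1
    · exact this.2
  rw [card_iso_eq, ← gq_binQ]
  refine arith_minus (Fintype.card F) Fintype.card_pos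
    (fun m => zc (gq m (⇑(binQ a b))))
    (fun m => Nat.card (OQ (gq m (⇑(binQ a b)))))
    (zc_gq_zero _ haniso) ?_ ?_ ?_ n
  · intro m
    have := zc_gq_succ (binQ a b) m
    rwa [Fintype.card_fin] at this
  · show Nat.card (OQ (gq 0 (⇑(binQ a b)))) = 2 * (Fintype.card F + 1)
    rw [gq_binQ, ← card_iso_eq]
    obtain ⟨e⟩ := minus_zero_dihedral a b hab
    rw [Nat.card_congr e.toEquiv, DihedralGroup.nat_card]
  · intro m
    have := card_OQ_gq_succ (binQ a b) haniso m
    rwa [Fintype.card_fin] at this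

end Cfsg.Agent.Lib.Helper1.Orth
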