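import Mathlib
import Cfsg.Agent.Lib.Helper1.OrthM2
import Cfsg.Agent.Lib.Helper1.O4c

set_option autoImplicit false

namespace Cfsg.Agent.Lib.Helper1.Om4

open Matrix QuadraticAlgebra

variable {F : Type*} [Field F] (a b : F)

abbrev V4 (F : Type*) := (Fin 1 ⊕ Fin 1) ⊕ Fin 2 → F

def iota (v : V4 F) : Matrix (Fin 2) (Fin 2) (QuadraticAlgebra F (-b) a) :=
  !![algebraMap F _ (v (.inl (.inl 0))), ⟨v (.inr 0), v (.inr 1)⟩;
     star (⟨v (.inr 0), v (.inr 1)⟩ : QuadraticAlgebra F (-b) a),
     - algebraMap F _ (v (.inl (.inr 0)))]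

def pi (X : Matrix (Fin 2) (Fin 2) (QuadraticAlgebra F (-b) a)) : V4 F :=
  Sum.elim (Sum.elim (fun _ => (X 0 0).re) (fun _ => -(X 1 1).re)) ![(X 0 1).re, (X 0 1).im]

theorem pi_iota (v : V4 F) : pi a b (iota a b v) = v := by
  funext i
  rcases i with (i | i) | i
  · have : i = 0 := Subsingleton.elim _ _
    subst this
    simp [pi, iota]
  · have : i = 0 := Subsingleton.elim _ _
    subst this
    simp [pi, iota]
  · fin_cases i <;> simp [pi, iota]

theorem pi_add (X Y : Matrix (Fin 2) (Fin 2) (QuadraticAlgebra F (-b) a)) :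
    pi a b (X + Y) = pi a b X + pi a b Y := by
  funext i
  rcases i with (i | i) | i
  · simp [pi]
  · simp [pi]; ring
  · fin_cases i <;> simp [pi]

theorem pi_smul (c : F) (X : Matrix (Fin 2) (Fin 2) (QuadraticAlgebra F (-b) a)) :
    pi a b (algebraMap F (QuadraticAlgebra F (-b) a) c • X) = c • pi a b X := by
  funext i
  rcases i with (i | i) | i
  · simp [pi]
  · simp [pi]
  · fin_cases i <;> simp [pi]

theorem iota_add (v w : V4 F) : iota a b (v + w) = iota a b v + iota a b w := by
  ext i j <;> fin_cases i <;> fin_cases j <;> simp [iota] <;> ring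

theorem iota_smul (c : F) (v : V4 F) :
    iota a b (c • v) = algebraMap F (QuadraticAlgebra F (-b) a) c • iota a b v := by
  ext i j <;> fin_cases i <;> fin_cases j <;> simp [iota] <;> ring

theorem herm_iota (v : V4 F) : (iota a b v)ᴴ = iota a b v := by
  ext i j <;> fin_cases i <;> fin_cases j <;> simp [iota, Matrix.conjTranspose_apply]

theorem Q_iota (v : V4 F) :
    algebraMap F (QuadraticAlgebra F (-b) a) (Cfsg.quadFormMinus 1 F a b v)
      = - (iota a b v).det := by
  rw [Matrix.det_fin_two]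
  have e : -(iota a b v 0 0 * iota a b v 1 1 - iota a b v 0 1 * iota a b v 1 0)
      = algebraMap F (QuadraticAlgebra F (-b) a) (v (.inl (.inl 0)) * v (.inl (.inr 0)))
        + (⟨v (.inr 0), v (.inr 1)⟩ : QuadraticAlgebra F (-b) a)
          * star (⟨v (.inr 0), v (.inr 1)⟩ : QuadraticAlgebra F (-b) a) := by
    rw [map_mul]
    show -(algebraMap F (QuadraticAlgebra F (-b) a) (v (.inl (.inl 0)))
      * (- algebraMap F (QuadraticAlgebra F (-b) a) (v (.inl (.inr 0))))
      - (⟨v (.inr 0), v (.inr 1)⟩ : QuadraticAlgebra F (-b) a)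
        * star (⟨v (.inr 0), v (.inr 1)⟩ : QuadraticAlgebra F (-b) a)) = _
    ring
  rw [e, ← algebraMap_norm_eq_mul_star, ← map_add, QuadraticAlgebra.norm_def]
  congr 1
  unfold Cfsg.quadFormMinus
  simp
  ring

section fin

variable [Fact (∀ r : F, r ^ 2 ≠ -b + a * r)] [Fintype F]

theorem star_fix (z : QuadraticAlgebra F (-b) a) (h : star z = z) : z.im = 0 := by
  have h1 := QuadraticAlgebra.sub_star z
  rw [h, sub_self] at h1
  rcases smul_eq_zero.mp h1.symm with h2 | h2
  · exact h2
  · exact absurd (sub_eq_zero.mp h2).symm (Orth.star_omega_ne a b)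

theorem iota_pi (X : Matrix (Fin 2) (Fin 2) (QuadraticAlgebra F (-b) a)) (h : Xᴴ = X) :
    iota a b (pi a b X) = X := by
  have h00 : star (X 0 0) = X 0 0 := congrFun (congrFun h 0) 0
  have h11 : star (X 1 1) = X 1 1 := congrFun (congrFun h 1) 1
  have h10 : star (X 0 1) = X 1 0 := congrFun (congrFun h 1) 0
  have i00 := star_fix a b _ h00
  have i11 := star_fix a b _ h11
  have e00 : iota a b (pi a b X) 0 0 = X 0 0 := QuadraticAlgebra.ext rfl i00.symm
  have e01 : iota a b (pi a b X) 0 1 = X 0 1 := rfl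
  have e10 : iota a b (pi a b X) 1 0 = X 1 0 := h10
  have e11 : iota a b (pi a b X) 1 1 = X 1 1 := by
    apply QuadraticAlgebra.ext
    · show -(algebraMap F (QuadraticAlgebra F (-b) a) (-(X 1 1).re)).re = (X 1 1).re
      simp
    · show -(algebraMap F (QuadraticAlgebra F (-b) a) (-(X 1 1).re)).im = (X 1 1).im
      rw [i11]
      simp
  refine Matrix.ext fun i j => ?_
  fin_cases i <;> fin_cases j
  · exact e00
  · exact e01
  · exact e10
  · exact e11

end fin

end Cfsg.Agent.Lib.Helper1.Om4
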