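import Mathlib
import Cfsg.Agent.Lib.Helper1.Om4a

set_option autoImplicit false

namespace Cfsg.Agent.Lib.Helper1.Om4

open Matrix QuadraticAlgebra

variable {F : Type*} [Field F] (a b : F)

def actM (g : GL (Fin 2) (QuadraticAlgebra F (-b) a)) (c : Fˣ)
    (X : Matrix (Fin 2) (Fin 2) (QuadraticAlgebra F (-b) a)) :
    Matrix (Fin 2) (Fin 2) (QuadraticAlgebra F (-b) a) :=
  algebraMap F (QuadraticAlgebra F (-b) a) (c : F) • (g.1 * X * g.1ᴴ)

theorem star_alg (c : F) : star (algebraMap F (QuadraticAlgebra F (-b) a) c)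
    = algebraMap F (QuadraticAlgebra F (-b) a) c := by
  ext <;> simp

theorem herm_actM (g : GL (Fin 2) (QuadraticAlgebra F (-b) a)) (c : Fˣ)
    (X : Matrix (Fin 2) (Fin 2) (QuadraticAlgebra F (-b) a)) (h : Xᴴ = X) :
    (actM a b g c X)ᴴ = actM a b g c X := by
  unfold actM
  rw [Matrix.conjTranspose_smul, Matrix.conjTranspose_mul, Matrix.conjTranspose_mul,
    Matrix.conjTranspose_conjTranspose, h, mul_assoc, star_alg]

theorem actM_mul (g g' : GL (Fin 2) (QuadraticAlgebra F (-b) a)) (c c' : Fˣ)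
    (X : Matrix (Fin 2) (Fin 2) (QuadraticAlgebra F (-b) a)) :
    actM a b (g * g') (c * c') X = actM a b g c (actM a b g' c' X) := by
  unfold actM
  rw [Units.val_mul, Units.val_mul, map_mul, Matrix.conjTranspose_mul, Matrix.mul_smul,
    Matrix.smul_mul, smul_smul]
  congr 1
  simp only [mul_assoc]

theorem actM_one (X : Matrix (Fin 2) (Fin 2) (QuadraticAlgebra F (-b) a)) :
    actM a b 1 1 X = X := by
  unfold actM
  simp

theorem actM_entry (g : GL (Fin 2) (QuadraticAlgebra F (-b) a)) (c : Fˣ)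
    (X : Matrix (Fin 2) (Fin 2) (QuadraticAlgebra F (-b) a)) (i j : Fin 2) :
    actM a b g c X i j = algebraMap F (QuadraticAlgebra F (-b) a) (c : F)
      * ((g.1 i 0 * X 0 0 + g.1 i 1 * X 1 0) * star (g.1 j 0)
        + (g.1 i 0 * X 0 1 + g.1 i 1 * X 1 1) * star (g.1 j 1)) := by
  unfold actM
  rw [Matrix.smul_apply, Matrix.mul_apply, Fin.sum_univ_two, Matrix.mul_apply,
    Matrix.mul_apply, Fin.sum_univ_two, Fin.sum_univ_two, Matrix.conjTranspose_apply,
    Matrix.conjTranspose_apply, smul_eq_mul]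

section fin

variable [Fact (∀ r : F, r ^ 2 ≠ -b + a * r)] [Fintype F]

def act (g : GL (Fin 2) (QuadraticAlgebra F (-b) a)) (c : Fˣ) (v : V4 F) : V4 F :=
  pi a b (actM a b g c (iota a b v))

theorem iota_act (g : GL (Fin 2) (QuadraticAlgebra F (-b) a)) (c : Fˣ) (v : V4 F) :
    iota a b (act a b g c v) = actM a b g c (iota a b v) :=
  iota_pi a b _ (herm_actM a b g c _ (herm_iota a b v))

theorem act_mul (g g' : GL (Fin 2) (QuadraticAlgebra F (-b) a)) (c c' : Fˣ) (v : V4 F) :
    act a b (g * g') (c * c') v = act a b g c (act a b g' c' v) := by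
  unfold act
  rw [show iota a b (pi a b (actM a b g' c' (iota a b v))) = actM a b g' c' (iota a b v) from
    iota_act a b g' c' v, actM_mul]

theorem act_one (v : V4 F) : act a b 1 1 v = v := by
  unfold act
  rw [actM_one, pi_iota]

def actL (g : GL (Fin 2) (QuadraticAlgebra F (-b) a)) (c : Fˣ) : V4 F ≃ₗ[F] V4 F where
  toFun := act a b g c
  map_add' v w := by
    unfold act actM
    rw [iota_add, mul_add, add_mul, smul_add, pi_add]
  map_smul' k v := by
    unfold act actM
    rw [iota_smul, Matrix.mul_smul, Matrix.smul_mul, smul_comm, pi_smul]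
    rfl
  invFun := act a b g⁻¹ c⁻¹
  left_inv v := by rw [← act_mul, inv_mul_cancel, inv_mul_cancel, act_one]
  right_inv v := by rw [← act_mul, mul_inv_cancel, mul_inv_cancel, act_one]

theorem actL_apply (g : GL (Fin 2) (QuadraticAlgebra F (-b) a)) (c : Fˣ) (v : V4 F) :
    actL a b g c v = act a b g c v := rfl

theorem Q_act (g : GL (Fin 2) (QuadraticAlgebra F (-b) a)) (c : Fˣ)
    (h : QuadraticAlgebra.norm (g.1.det) * (c : F) ^ 2 = 1) (v : V4 F) :
    Cfsg.quadFormMinus 1 F a b (act a b g c v) = Cfsg.quadFormMinus 1 F a b v := by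
  apply (algebraMap F (QuadraticAlgebra F (-b) a)).injective
  rw [Q_iota, Q_iota, iota_act]
  unfold actM
  rw [Matrix.det_smul, Matrix.det_mul, Matrix.det_mul, Matrix.det_conjTranspose, Fintype.card_fin]
  have h' : algebraMap F (QuadraticAlgebra F (-b) a) (c : F) ^ 2
      * (g.1.det * star g.1.det) = 1 := by
    rw [← algebraMap_norm_eq_mul_star, ← map_pow, ← map_mul, mul_comm, h, map_one]
  linear_combination (-(iota a b v).det) * h'

def D : GL (Fin 2) (QuadraticAlgebra F (-b) a) × Fˣ →* Fˣ :=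
  MonoidHom.coprod ((Units.map (QuadraticAlgebra.norm :
    QuadraticAlgebra F (-b) a →* F)).comp Matrix.GeneralLinearGroup.det) (powMonoidHom 2)

theorem mem_kerD {p : GL (Fin 2) (QuadraticAlgebra F (-b) a) × Fˣ} :
    p ∈ (D a b).ker ↔ QuadraticAlgebra.norm (p.1.1.det) * (p.2 : F) ^ 2 = 1 := by
  rw [MonoidHom.mem_ker, Units.ext_iff]
  rfl

def rho0 : (D a b).ker →* Orth.OQ (Cfsg.quadFormMinus 1 F a b) where
  toFun p := ⟨actL a b p.1.1 p.1.2, fun v => Q_act a b p.1.1 p.1.2 ((mem_kerD a b).1 p.2) v⟩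
  map_one' := Subtype.ext (LinearEquiv.ext fun v => act_one a b v)
  map_mul' p p' := Subtype.ext (LinearEquiv.ext fun v => act_mul a b p.1.1 p'.1.1 p.1.2 p'.1.2 v)

theorem rho0_apply (p : (D a b).ker) (v : V4 F) :
    ((rho0 a b p : Orth.OQ (Cfsg.quadFormMinus 1 F a b)) : V4 F ≃ₗ[F] V4 F) v
      = act a b p.1.1 p.1.2 v := rfl

theorem herm_transpose (X : Matrix (Fin 2) (Fin 2) (QuadraticAlgebra F (-b) a)) (h : Xᴴ = X) :
    (Xᵀ)ᴴ = Xᵀ := by
  refine Matrix.ext fun i j => ?_
  exact congrFun (congrFun h j) i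

def tauF (v : V4 F) : V4 F := pi a b (iota a b v)ᵀ

theorem iota_tauF (v : V4 F) : iota a b (tauF a b v) = (iota a b v)ᵀ :=
  iota_pi a b _ (herm_transpose a b _ (herm_iota a b v))

theorem tauF_tauF (v : V4 F) : tauF a b (tauF a b v) = v := by
  unfold tauF
  rw [show iota a b (pi a b (iota a b v)ᵀ) = (iota a b v)ᵀ from iota_tauF a b v,
    Matrix.transpose_transpose, pi_iota]

def tauL : V4 F ≃ₗ[F] V4 F where
  toFun := tauF a b
  map_add' v w := by
    unfold tauF
    rw [iota_add, Matrix.transpose_add, pi_add]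
  map_smul' k v := by
    unfold tauF
    rw [iota_smul, Matrix.transpose_smul, pi_smul]
    rfl
  invFun := tauF a b
  left_inv := tauF_tauF a b
  right_inv := tauF_tauF a b

def tau : Orth.OQ (Cfsg.quadFormMinus 1 F a b) :=
  ⟨tauL a b, fun v => by
    apply (algebraMap F (QuadraticAlgebra F (-b) a)).injective
    show algebraMap F (QuadraticAlgebra F (-b) a) (Cfsg.quadFormMinus 1 F a b (tauF a b v)) = _
    rw [Q_iota, Q_iota, iota_tauF, Matrix.det_transpose]⟩

theorem tau_apply (v : V4 F) :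
    ((tau a b : Orth.OQ (Cfsg.quadFormMinus 1 F a b)) : V4 F ≃ₗ[F] V4 F) v = tauF a b v := rfl

def ex : V4 F := Pi.single (.inl (.inl 0)) 1
def ey : V4 F := Pi.single (.inl (.inr 0)) 1
def e1 : V4 F := Pi.single (.inr 0) 1
def e2 : V4 F := Pi.single (.inr 1) 1

theorem iota_ex : iota a b (ex : V4 F) = !![1, 0; 0, 0] := by
  ext i j <;> fin_cases i <;> fin_cases j <;> simp [iota, ex]

theorem iota_ey : iota a b (ey : V4 F) = !![0, 0; 0, -1] := by
  ext i j <;> fin_cases i <;> fin_cases j <;> simp [iota, ey]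

theorem iota_e1 : iota a b (e1 : V4 F) = !![0, 1; 1, 0] := by
  ext i j <;> fin_cases i <;> fin_cases j <;> simp [iota, e1]

theorem iota_e2 : iota a b (e2 : V4 F) = !![0, ω; star ω, 0] := by
  ext i j <;> fin_cases i <;> fin_cases j <;> simp [iota, e2]

theorem norm_zero' (z : QuadraticAlgebra F (-b) a) (h : z * star z = 0) : z = 0 := by
  rcases mul_eq_zero.mp h with h | h
  · exact h
  · exact star_eq_zero.mp h

theorem alg_ne (c : Fˣ) : algebraMap F (QuadraticAlgebra F (-b) a) (c : F) ≠ 0 := by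
  intro h
  have : (c : F) = 0 := (algebraMap F (QuadraticAlgebra F (-b) a)).injective (by rw [h, map_zero])
  exact c.ne_zero this

theorem diag_of (g : GL (Fin 2) (QuadraticAlgebra F (-b) a)) (c : Fˣ)
    (h1 : actM a b g c (iota a b ex) 1 1 = 0) (h2 : actM a b g c (iota a b ey) 0 0 = 0) :
    g.1 1 0 = 0 ∧ g.1 0 1 = 0 := by
  rw [actM_entry, iota_ex] at h1
  rw [actM_entry, iota_ey] at h2
  simp at h1 h2
  exact ⟨h1, h2⟩

theorem tau_not_range : tau a b ∉ (rho0 a b).range := by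
  rintro ⟨p, hp⟩
  have h : ∀ v : V4 F, actM a b p.1.1 p.1.2 (iota a b v) = (iota a b v)ᵀ := by
    intro v
    have := congrArg (fun x : Orth.OQ (Cfsg.quadFormMinus 1 F a b) =>
      iota a b ((x : V4 F ≃ₗ[F] V4 F) v)) hp
    simp only [rho0_apply, tau_apply, iota_act, iota_tauF] at this
    exact this
  have h1 := congrFun (congrFun (h ex) 1) 1
  have h2 := congrFun (congrFun (h ey) 0) 0
  rw [iota_ex] at h1
  rw [iota_ey] at h2
  have hd := diag_of a b p.1.1 p.1.2 (by rw [iota_ex, h1]; simp) (by rw [iota_ey, h2]; simp)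
  have h3 := congrFun (congrFun (h e1) 0) 1
  have h4 := congrFun (congrFun (h e2) 0) 1
  rw [actM_entry, iota_e1, hd.2] at h3
  rw [actM_entry, iota_e2, hd.2] at h4
  simp at h3 h4
  apply Orth.star_omega_ne a b
  have : algebraMap F (QuadraticAlgebra F (-b) a) (p.1.2 : F) * (p.1.1.1 0 0 * ω * star (p.1.1.1 1 1))
      = ω * (algebraMap F (QuadraticAlgebra F (-b) a) (p.1.2 : F)
        * (p.1.1.1 0 0 * star (p.1.1.1 1 1))) := by ring
  rw [← h4, this, h3, mul_one]

end fin

end Cfsg.Agent.Lib.Helper1.Om4
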