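import Mathlib
import Cfsg.Agent.Lib.Helper1.Om4b

set_option autoImplicit false

namespace Cfsg.Agent.Lib.Helper1.Om4

open Matrix QuadraticAlgebra

variable {F : Type*} [Field F] (a b : F) [Fact (∀ r : F, r ^ 2 ≠ -b + a * r)] [Fintype F]

theorem ker_rho0_scalar (p : (D a b).ker) (hp : p ∈ (rho0 a b).ker) :
    p.1.1 ∈ Subgroup.center (GL (Fin 2) (QuadraticAlgebra F (-b) a)) ∧
    algebraMap F (QuadraticAlgebra F (-b) a) (p.1.2 : F)
      * (p.1.1.1 0 0 * star (p.1.1.1 0 0)) = 1 := by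
  have h : ∀ v : V4 F, actM a b p.1.1 p.1.2 (iota a b v) = iota a b v := by
    intro v
    have := congrArg (fun x : Orth.OQ (Cfsg.quadFormMinus 1 F a b) =>
      iota a b ((x : V4 F ≃ₗ[F] V4 F) v)) (MonoidHom.mem_ker.mp hp)
    simp only [rho0_apply, iota_act] at this
    exact this
  have h1 := congrFun (congrFun (h ex) 1) 1
  have h2 := congrFun (congrFun (h ey) 0) 0
  have hd := diag_of a b p.1.1 p.1.2 (by rw [h1, iota_ex]; simp) (by rw [h2, iota_ey]; simp)
  have h3 := congrFun (congrFun (h e1) 0) 1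
  have h5 := congrFun (congrFun (h ex) 0) 0
  rw [actM_entry, iota_e1, hd.2] at h3
  rw [actM_entry, iota_ex, hd.2] at h5
  simp at h3 h5
  have hc := alg_ne a b p.1.2
  have hg00 : p.1.1.1 0 0 ≠ 0 := by
    intro h0
    rw [h0] at h5
    simp at h5
  have h11 : p.1.1.1 1 1 = p.1.1.1 0 0 := by
    have e : algebraMap F (QuadraticAlgebra F (-b) a) (p.1.2 : F) * p.1.1.1 0 0
        * star (p.1.1.1 1 1)
        = algebraMap F (QuadraticAlgebra F (-b) a) (p.1.2 : F) * p.1.1.1 0 0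
        * star (p.1.1.1 0 0) := by
      rw [mul_assoc, mul_assoc, h3, h5]
    exact star_injective (mul_left_cancel₀ (mul_ne_zero hc hg00) e)
  refine ⟨?_, h5⟩
  rw [Matrix.GeneralLinearGroup.mem_center_iff_val_mem_range_scalar]
  refine ⟨p.1.1.1 0 0, ?_⟩
  refine Matrix.ext fun i j => ?_
  fin_cases i <;> fin_cases j <;> simp [hd.1, hd.2, h11]

theorem card_ker_rho0_le : Nat.card (rho0 a b).ker ≤ Fintype.card F * Fintype.card F - 1 := by
  haveI : Fintype (QuadraticAlgebra F (-b) a) := Fintype.ofFinite _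
  have hc : Nat.card (Subgroup.center (GL (Fin 2) (QuadraticAlgebra F (-b) a)))
      = Fintype.card F * Fintype.card F - 1 := by
    rw [O4.card_center_GL2, ← Nat.card_eq_fintype_card, Orth.card_K]
  rw [← hc]
  apply Nat.card_le_card_of_injective
    (fun p : (rho0 a b).ker => (⟨p.1.1.1, (ker_rho0_scalar a b p.1 p.2).1⟩ :
      Subgroup.center (GL (Fin 2) (QuadraticAlgebra F (-b) a))))
  intro p p' hpp
  have e1 : p.1.1.1 = p'.1.1.1 := congrArg Subtype.val hpp
  have h1 := (ker_rho0_scalar a b p.1 p.2).2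
  have h2 := (ker_rho0_scalar a b p'.1 p'.2).2
  rw [← e1] at h2
  have hne : p.1.1.1.1 0 0 * star (p.1.1.1.1 0 0) ≠ 0 := by
    intro h0
    rw [h0, mul_zero] at h1
    exact zero_ne_one h1
  have e2 : algebraMap F (QuadraticAlgebra F (-b) a) (p.1.1.2 : F)
      = algebraMap F (QuadraticAlgebra F (-b) a) (p'.1.1.2 : F) :=
    mul_right_cancel₀ hne (h1.trans h2.symm)
  have e3 : p.1.1.2 = p'.1.1.2 :=
    Units.ext ((algebraMap F (QuadraticAlgebra F (-b) a)).injective e2)
  exact Subtype.ext (Subtype.ext (Prod.ext e1 e3))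

theorem card_kerD_ge :
    Nat.card (GL (Fin 2) (QuadraticAlgebra F (-b) a)) ≤ Nat.card (D a b).ker := by
  have hq : 2 ≤ Fintype.card F := Fintype.one_lt_card
  have h1 := Subgroup.card_eq_card_quotient_mul_card_subgroup (D a b).ker
  rw [Nat.card_congr (QuotientGroup.quotientKerEquivRange (D a b)).toEquiv, Nat.card_prod] at h1
  have h2 : Nat.card (D a b).range ≤ Fintype.card F - 1 := by
    have := Subgroup.card_le_card_group (D a b).range
    rw [Nat.card_units] at this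
    rwa [Nat.card_eq_fintype_card (α := F)] at this
  rw [Nat.card_units, Nat.card_eq_fintype_card (α := F)] at h1
  have h3 : Nat.card (GL (Fin 2) (QuadraticAlgebra F (-b) a)) * (Fintype.card F - 1)
      ≤ (Fintype.card F - 1) * Nat.card (D a b).ker := by
    rw [h1]
    exact Nat.mul_le_mul_right _ h2
  rw [mul_comm] at h3
  exact Nat.le_of_mul_le_mul_left h3 (by omega)

theorem card_SL2L : Nat.card (SpecialLinearGroup (Fin 2) (QuadraticAlgebra F (-b) a))
    = Fintype.card F * Fintype.card F * ((Fintype.card F * Fintype.card F) ^ 2 - 1) := by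
  haveI : Fintype (QuadraticAlgebra F (-b) a) := Fintype.ofFinite _
  rw [O3.card_SL2, ← Nat.card_eq_fintype_card, Orth.card_K]

theorem card_GL2L : Nat.card (GL (Fin 2) (QuadraticAlgebra F (-b) a))
    = (Fintype.card F * Fintype.card F - 1)
      * Nat.card (SpecialLinearGroup (Fin 2) (QuadraticAlgebra F (-b) a)) := by
  haveI : Fintype (QuadraticAlgebra F (-b) a) := Fintype.ofFinite _
  rw [GLn.card_GL_eq_mul_card_SL, ← Nat.card_eq_fintype_card, Orth.card_K]

theorem card_O (hab : ∀ z₁ z₂ : F, z₁ ^ 2 + a * z₁ * z₂ + b * z₂ ^ 2 = 0 → z₁ = 0 ∧ z₂ = 0) :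
    Nat.card (Orth.OQ (Cfsg.quadFormMinus 1 F a b))
      = 2 * Nat.card (SpecialLinearGroup (Fin 2) (QuadraticAlgebra F (-b) a)) := by
  have hq : 2 ≤ Fintype.card F := Fintype.one_lt_card
  rw [← Orth.card_iso_eq, Orth.card_minus a b hab 1, card_SL2L]
  simp
  obtain ⟨n, hn⟩ : ∃ n, Fintype.card F * Fintype.card F = n + 1 :=
    ⟨Fintype.card F * Fintype.card F - 1, by
      have : 0 < Fintype.card F * Fintype.card F := Nat.mul_pos (by omega) (by omega)
      omega⟩
  have e1 : Fintype.card F ^ 2 = n + 1 := by rw [← hn]; ring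
  rw [e1, hn]
  have e2 : (n + 1) ^ 2 - 1 = (n + 1 + 1) * (n + 1 - 1) := by
    have : (n + 1) ^ 2 = (n + 1 + 1) * n + 1 := by ring
    rw [this]
    simp
  rw [e2]
  ring

theorem index_R (hab : ∀ z₁ z₂ : F, z₁ ^ 2 + a * z₁ * z₂ + b * z₂ ^ 2 = 0 → z₁ = 0 ∧ z₂ = 0) :
    (rho0 a b).range.index = 2 := by
  have hq : 2 ≤ Fintype.card F := Fintype.one_lt_card
  have hn : 4 ≤ Fintype.card F * Fintype.card F := Nat.mul_le_mul hq hq
  have c1 := Subgroup.card_eq_card_quotient_mul_card_subgroup (rho0 a b).ker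
  rw [Nat.card_congr (QuotientGroup.quotientKerEquivRange (rho0 a b)).toEquiv] at c1
  have c2 := card_kerD_ge a b
  rw [card_GL2L] at c2
  have c3 := card_ker_rho0_le a b
  have c4 := Subgroup.index_mul_card (rho0 a b).range
  rw [card_O a b hab] at c4
  have hM : 0 < Nat.card (SpecialLinearGroup (Fin 2) (QuadraticAlgebra F (-b) a)) := Nat.card_pos
  have hne : (rho0 a b).range.index ≠ 1 := by
    intro h
    rw [Subgroup.index_eq_one] at h
    exact tau_not_range a b (h ▸ Subgroup.mem_top _)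
  obtain ⟨M, hMdef⟩ : ∃ M, M = Nat.card (SpecialLinearGroup (Fin 2) (QuadraticAlgebra F (-b) a)) :=
    ⟨_, rfl⟩
  obtain ⟨R, hRdef⟩ : ∃ R, R = Nat.card (rho0 a b).range := ⟨_, rfl⟩
  obtain ⟨K, hKdef⟩ : ∃ K, K = Nat.card (rho0 a b).ker := ⟨_, rfl⟩
  obtain ⟨G, hGdef⟩ : ∃ G, G = Nat.card (D a b).ker := ⟨_, rfl⟩
  obtain ⟨i, hidef⟩ : ∃ i, i = (rho0 a b).range.index := ⟨_, rfl⟩
  obtain ⟨t, htdef⟩ : ∃ t, Fintype.card F * Fintype.card F - 1 = t + 1 :=
    ⟨Fintype.card F * Fintype.card F - 2, by omega⟩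
  rw [← hMdef, ← hGdef, htdef] at c2
  rw [← hKdef, htdef] at c3
  rw [← hGdef, ← hRdef, ← hKdef] at c1
  rw [← hidef, ← hRdef, ← hMdef] at c4
  rw [← hMdef] at hM
  rw [← hidef] at hne ⊢
  have hR : M ≤ R := by
    by_contra hlt
    rw [not_le] at hlt
    have h5 : R * K < (t + 1) * M := by
      calc R * K ≤ R * (t + 1) := Nat.mul_le_mul_left _ c3
        _ < M * (t + 1) := Nat.mul_lt_mul_of_pos_right hlt (by omega)
        _ = (t + 1) * M := by ring
    rw [← c1] at h5
    omega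
  have hi : i ≤ 2 := by
    by_contra hlt
    rw [not_le] at hlt
    have h6 : 3 * M ≤ i * R := Nat.mul_le_mul hlt hR
    rw [c4] at h6
    omega
  have hpos : i ≠ 0 := by
    rintro rfl
    rw [zero_mul] at c4
    omega
  omega

end Cfsg.Agent.Lib.Helper1.Om4
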