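import Mathlib
import Cfsg.Agent.Lib.Helper1.Om4c

set_option autoImplicit false

namespace Cfsg.Agent.Lib.Helper1.Om4

open Matrix QuadraticAlgebra
open scoped commutatorElement

theorem mem_center_equiv {A B : Type*} [Group A] [Group B] (E : A ≃* B) (s : A) :
    E s ∈ Subgroup.center B ↔ s ∈ Subgroup.center A := by
  rw [Subgroup.mem_center_iff, Subgroup.mem_center_iff]
  constructor
  · intro h x
    apply E.injective
    rw [map_mul, map_mul, h (E x)]
  · intro h y
    obtain ⟨x, rfl⟩ := E.surjective y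
    rw [← map_mul, ← map_mul, h x]

theorem psl_congr {L K : Type*} [Field L] [Field K] (e : L ≃+* K) :
    Nonempty (ProjectiveSpecialLinearGroup (Fin 2) L ≃* ProjectiveSpecialLinearGroup (Fin 2) K) := by
  let f : SpecialLinearGroup (Fin 2) L →* SpecialLinearGroup (Fin 2) K :=
    SpecialLinearGroup.map e.toRingHom
  let f' : SpecialLinearGroup (Fin 2) K →* SpecialLinearGroup (Fin 2) L :=
    SpecialLinearGroup.map e.symm.toRingHom
  have h1 : ∀ s, f' (f s) = s := by
    intro s
    apply Subtype.ext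
    refine Matrix.ext fun i j => ?_
    show e.symm (e (s.1 i j)) = s.1 i j
    simp
  have h2 : ∀ t, f (f' t) = t := by
    intro t
    apply Subtype.ext
    refine Matrix.ext fun i j => ?_
    show e (e.symm (t.1 i j)) = t.1 i j
    simp
  let E : SpecialLinearGroup (Fin 2) L ≃* SpecialLinearGroup (Fin 2) K :=
    { toFun := f, invFun := f', left_inv := h1, right_inv := h2, map_mul' := f.map_mul }
  let ψ : SpecialLinearGroup (Fin 2) L →* ProjectiveSpecialLinearGroup (Fin 2) K :=
    (QuotientGroup.mk' _).comp f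
  have hs : Function.Surjective ψ := by
    intro y
    obtain ⟨t, rfl⟩ := QuotientGroup.mk'_surjective _ y
    exact ⟨f' t, by show QuotientGroup.mk' _ (f (f' t)) = _; rw [h2]⟩
  have hk : ψ.ker = Subgroup.center (SpecialLinearGroup (Fin 2) L) := by
    ext s
    rw [MonoidHom.mem_ker]
    show QuotientGroup.mk' _ (f s) = 1 ↔ _
    rw [QuotientGroup.mk'_apply, QuotientGroup.eq_one_iff]
    exact mem_center_equiv E s
  exact ⟨(QuotientGroup.quotientMulEquivOfEq hk.symm).trans
    (QuotientGroup.quotientKerEquivOfSurjective ψ hs)⟩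

section

variable {F : Type*} [Field F] (a b : F) [Fact (∀ r : F, r ^ 2 ≠ -b + a * r)] [Fintype F]

def incl : SpecialLinearGroup (Fin 2) (QuadraticAlgebra F (-b) a) →* (D a b).ker where
  toFun s := ⟨(SpecialLinearGroup.toGL s, 1), by
    rw [mem_kerD]
    show QuadraticAlgebra.norm (s.1.det) * ((1 : Fˣ) : F) ^ 2 = 1
    rw [s.2, map_one, Units.val_one, one_pow, mul_one]⟩
  map_one' := Subtype.ext (Prod.ext (map_one _) rfl)
  map_mul' s t := Subtype.ext (Prod.ext (map_mul _ _ _) (one_mul 1).symm)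

def rho1 : SpecialLinearGroup (Fin 2) (QuadraticAlgebra F (-b) a) →*
    Orth.OQ (Cfsg.quadFormMinus 1 F a b) := (rho0 a b).comp (incl a b)

theorem rho1_apply (s : SpecialLinearGroup (Fin 2) (QuadraticAlgebra F (-b) a)) (v : V4 F) :
    ((rho1 a b s : Orth.OQ (Cfsg.quadFormMinus 1 F a b)) : V4 F ≃ₗ[F] V4 F) v
      = act a b (SpecialLinearGroup.toGL s) 1 v := rfl

theorem conj_R (p : (D a b).ker) (s : SpecialLinearGroup (Fin 2) (QuadraticAlgebra F (-b) a)) :
    ∃ s', rho0 a b p * rho1 a b s * (rho0 a b p)⁻¹ = rho1 a b s' := by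
  refine ⟨O4.cj p.1.1 s, ?_⟩
  show rho0 a b p * rho0 a b (incl a b s) * (rho0 a b p)⁻¹ = rho0 a b (incl a b (O4.cj p.1.1 s))
  rw [← map_inv, ← map_mul, ← map_mul]
  congr 1
  apply Subtype.ext
  apply Prod.ext
  · apply Units.ext
    rfl
  · show p.1.2 * 1 * p.1.2⁻¹ = 1
    rw [mul_one, mul_inv_cancel]

def sbar (s : SpecialLinearGroup (Fin 2) (QuadraticAlgebra F (-b) a)) :
    SpecialLinearGroup (Fin 2) (QuadraticAlgebra F (-b) a) :=
  SpecialLinearGroup.map (starRingEnd (QuadraticAlgebra F (-b) a)) s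

theorem tr_actM (s : SpecialLinearGroup (Fin 2) (QuadraticAlgebra F (-b) a))
    (X : Matrix (Fin 2) (Fin 2) (QuadraticAlgebra F (-b) a)) :
    (actM a b (SpecialLinearGroup.toGL s) 1 X)ᵀ
      = actM a b (SpecialLinearGroup.toGL (sbar a b s)) 1 Xᵀ := by
  unfold actM
  rw [Matrix.transpose_smul, Matrix.transpose_mul, Matrix.transpose_mul]
  have h1 : ((SpecialLinearGroup.toGL s).1ᴴ)ᵀ = (SpecialLinearGroup.toGL (sbar a b s)).1 :=
    Matrix.ext fun i j => rfl
  have h2 : (SpecialLinearGroup.toGL s).1ᵀ = (SpecialLinearGroup.toGL (sbar a b s)).1ᴴ :=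
    Matrix.ext fun i j => (star_star _).symm
  rw [h1, h2, mul_assoc]

theorem tau_swap (s : SpecialLinearGroup (Fin 2) (QuadraticAlgebra F (-b) a)) :
    tau a b * rho1 a b s = rho1 a b (sbar a b s) * tau a b := by
  apply Subtype.ext
  apply LinearEquiv.ext
  intro v
  show tauF a b (act a b (SpecialLinearGroup.toGL s) 1 v)
    = act a b (SpecialLinearGroup.toGL (sbar a b s)) 1 (tauF a b v)
  unfold tauF act
  rw [show iota a b (pi a b (actM a b (SpecialLinearGroup.toGL s) 1 (iota a b v)))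
      = actM a b (SpecialLinearGroup.toGL s) 1 (iota a b v) from iota_act a b _ 1 v,
    show iota a b (pi a b (iota a b v)ᵀ) = (iota a b v)ᵀ from iota_tauF a b v, tr_actM]

theorem N_normal
    (hab : ∀ z₁ z₂ : F, z₁ ^ 2 + a * z₁ * z₂ + b * z₂ ^ 2 = 0 → z₁ = 0 ∧ z₂ = 0) :
    (rho1 a b).range.Normal := by
  constructor
  rintro n ⟨q0, rfl⟩ x
  by_cases hx : x ∈ (rho0 a b).range
  · obtain ⟨p, rfl⟩ := hx
    obtain ⟨q, hq⟩ := conj_R a b p q0
    rw [hq]
    exact ⟨q, rfl⟩
  · have h : (tau a b)⁻¹ * x ∈ (rho0 a b).range :=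
      (Subgroup.mul_mem_iff_of_index_two (index_R a b hab)).mpr
        ⟨fun h => absurd (inv_mem_iff.mp h) (tau_not_range a b), fun h => absurd h hx⟩
    obtain ⟨p, hp⟩ := h
    have hx' : x = tau a b * rho0 a b p := by rw [hp]; group
    rw [hx']
    obtain ⟨q, hq⟩ := conj_R a b p q0
    have e : tau a b * rho0 a b p * rho1 a b q0 * (tau a b * rho0 a b p)⁻¹
        = tau a b * (rho0 a b p * rho1 a b q0 * (rho0 a b p)⁻¹) * (tau a b)⁻¹ := by group
    rw [e, hq, tau_swap, mul_inv_cancel_right]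
    exact ⟨_, rfl⟩

theorem ker_rho1 : (rho1 a b).ker
    = Subgroup.center (SpecialLinearGroup (Fin 2) (QuadraticAlgebra F (-b) a)) := by
  ext s
  constructor
  · intro hs
    have h0 : incl a b s ∈ (rho0 a b).ker := hs
    exact (SpecialLinearGroup.toGL_mem_center_iff s).mp (ker_rho0_scalar a b (incl a b s) h0).1
  · intro hs
    rw [Matrix.SpecialLinearGroup.mem_center_iff] at hs
    obtain ⟨r, hr, hr'⟩ := hs
    have hr2 : (r - 1) * (r + 1) = 0 := by
      have : r ^ 2 = 1 := by simpa using hr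
      linear_combination this
    have hs1 : s.1 = 1 ∨ s.1 = -1 := by
      rcases mul_eq_zero.mp hr2 with h | h
      · left
        rw [← hr', sub_eq_zero.mp h, map_one]
      · right
        rw [← hr', eq_neg_of_add_eq_zero_left h, map_neg, map_one]
    rw [MonoidHom.mem_ker]
    apply Subtype.ext
    apply LinearEquiv.ext
    intro v
    show pi a b (algebraMap F (QuadraticAlgebra F (-b) a) ((1 : Fˣ) : F)
      • (s.1 * iota a b v * s.1ᴴ)) = v
    rcases hs1 with h | h
    · rw [h]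
      simp [pi_iota]
    · rw [h]
      simp [pi_iota]

theorem comm_le_N
    (hab : ∀ z₁ z₂ : F, z₁ ^ 2 + a * z₁ * z₂ + b * z₂ ^ 2 = 0 → z₁ = 0 ∧ z₂ = 0) :
    commutator (Orth.OQ (Cfsg.quadFormMinus 1 F a b)) ≤ (rho1 a b).range := by
  haveI := N_normal a b hab
  haveI : Fintype (QuadraticAlgebra F (-b) a) := Fintype.ofFinite _
  have c1 := Subgroup.card_eq_card_quotient_mul_card_subgroup (rho1 a b).ker
  rw [Nat.card_congr (QuotientGroup.quotientKerEquivRange (rho1 a b)).toEquiv] at c1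
  have c2 := Subgroup.card_eq_card_quotient_mul_card_subgroup (rho1 a b).range
  rw [card_O a b hab] at c2
  have c3 : Nat.card (rho1 a b).ker ≤ 2 := by
    rw [ker_rho1, GLn.card_center_SL 2 (by norm_num)]
    exact Nat.gcd_le_left _ (by norm_num)
  have c4 : 0 < Nat.card (rho1 a b).ker := Nat.card_pos
  have hSL : 0 < Nat.card (SpecialLinearGroup (Fin 2) (QuadraticAlgebra F (-b) a)) := Nat.card_pos
  have hN : 0 < Nat.card (rho1 a b).range := by
    rcases Nat.eq_zero_or_pos (Nat.card (rho1 a b).range) with h | h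
    · rw [h, zero_mul] at c1
      omega
    · exact h
  have hcard : Nat.card (Orth.OQ (Cfsg.quadFormMinus 1 F a b) ⧸ (rho1 a b).range)
      = 2 * Nat.card (rho1 a b).ker := by
    have : Nat.card (Orth.OQ (Cfsg.quadFormMinus 1 F a b) ⧸ (rho1 a b).range)
        * Nat.card (rho1 a b).range
        = 2 * Nat.card (rho1 a b).ker * Nat.card (rho1 a b).range := by
      rw [← c2, c1]
      ring
    exact Nat.eq_of_mul_eq_mul_right hN this
  have hcomm := O4.comm_of_card
    (G := Orth.OQ (Cfsg.quadFormMinus 1 F a b) ⧸ (rho1 a b).range) (by rw [hcard]; omega)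
  rw [_root_.commutator_def, Subgroup.commutator_le]
  intro x _ y _
  rw [← QuotientGroup.eq_one_iff, commutatorElement_def]
  simp only [QuotientGroup.mk_mul, QuotientGroup.mk_inv]
  rw [hcomm (↑x) (↑y)]
  group

theorem exists_good : ∃ x : QuadraticAlgebra F (-b) a, x ≠ 0 ∧ x ^ 2 ≠ 1 := by
  classical
  haveI : Fintype (QuadraticAlgebra F (-b) a) := Fintype.ofFinite _
  have hq : 2 ≤ Fintype.card F := Fintype.one_lt_card
  have hn : 4 ≤ Fintype.card F * Fintype.card F := Nat.mul_le_mul hq hq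
  have hc : Fintype.card (QuadraticAlgebra F (-b) a) = Fintype.card F * Fintype.card F := by
    rw [← Nat.card_eq_fintype_card, Orth.card_K]
  by_contra h
  push Not at h
  have hsub : (Finset.univ : Finset (QuadraticAlgebra F (-b) a)) ⊆ {0, 1, -1} := by
    intro x _
    by_cases hx : x = 0
    · simp [hx]
    · have h1 := h x hx
      have h2 : (x - 1) * (x + 1) = 0 := by linear_combination h1
      rcases mul_eq_zero.mp h2 with h3 | h3
      · simp [sub_eq_zero.mp h3]
      · simp [eq_neg_of_add_eq_zero_left h3]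
  have := Finset.card_le_card hsub
  rw [Finset.card_univ, hc] at this
  have h3 := Finset.card_le_three (a := (0 : QuadraticAlgebra F (-b) a)) (b := 1) (c := -1)
  omega

theorem N_le_comm :
    (rho1 a b).range ≤ commutator (Orth.OQ (Cfsg.quadFormMinus 1 F a b)) := by
  obtain ⟨x, hx0, hx1⟩ := exists_good a b
  have hperf := Matrix.SL2.commutator_eq_top hx0 hx1
  rintro n ⟨s, rfl⟩
  have hs : s ∈ commutator (SpecialLinearGroup (Fin 2) (QuadraticAlgebra F (-b) a)) := by
    rw [hperf]; exact Subgroup.mem_top _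
  exact O4.map_commutator_le' _ (Subgroup.mem_map_of_mem _ hs)

theorem commutator_O
    (hab : ∀ z₁ z₂ : F, z₁ ^ 2 + a * z₁ * z₂ + b * z₂ ^ 2 = 0 → z₁ = 0 ∧ z₂ = 0) :
    commutator (Orth.OQ (Cfsg.quadFormMinus 1 F a b)) = (rho1 a b).range :=
  le_antisymm (comm_le_N a b hab) (N_le_comm a b)

end

theorem main {F K : Type*} [Field F] [Fintype F] [Field K] [Fintype K]
    (hK : Fintype.card K = Fintype.card F ^ 2) (a b : F)
    (hab : ∀ z₁ z₂ : F, z₁ ^ 2 + a * z₁ * z₂ + b * z₂ ^ 2 = 0 → z₁ = 0 ∧ z₂ = 0) :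
    Nonempty (Cfsg.POmega F (Cfsg.quadFormMinus 1 F a b) ≃*
      ProjectiveSpecialLinearGroup (Fin 2) K) := by
  haveI := Orth.fact_of_aniso a b hab
  haveI : Fintype (QuadraticAlgebra F (-b) a) := Fintype.ofFinite _
  have hc : Fintype.card (QuadraticAlgebra F (-b) a) = Fintype.card K := by
    rw [← Nat.card_eq_fintype_card, Orth.card_K, hK, sq]
  obtain ⟨E4⟩ := psl_congr (FiniteField.ringEquivOfCardEq hc)
  let E0 := O3.commEquiv (Orth.isoOQ (Cfsg.quadFormMinus 1 F a b))
  let E1 := MulEquiv.subgroupCongr (commutator_O a b hab)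
  let E2 := (QuotientGroup.quotientKerEquivRange (rho1 a b)).symm
  let E3 := QuotientGroup.quotientMulEquivOfEq (ker_rho1 a b)
  let E : Cfsg.Omega F (Cfsg.quadFormMinus 1 F a b) ≃*
      ProjectiveSpecialLinearGroup (Fin 2) (QuadraticAlgebra F (-b) a) :=
    ((E0.trans E1).trans E2).trans E3
  have hcen : Subgroup.center (Cfsg.Omega F (Cfsg.quadFormMinus 1 F a b)) = ⊥ :=
    O3.center_eq_bot_of_equiv E O4.center_PSL2_all
  exact ⟨(((QuotientGroup.quotientMulEquivOfEq hcen).trans QuotientGroup.quotientBot).trans E).trans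
    E4⟩

end Cfsg.Agent.Lib.Helper1.Om4
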