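import Mathlib
import Cfsg.Agent.Lib.Helper1.O6b
import Cfsg.Agent.Lib.Helper1.Om4d

set_option autoImplicit false

namespace Cfsg.Agent.Lib.Helper1.A8

open Matrix

def Bm : Matrix (Fin 8) (Fin 3 ⊕ Fin 3) (ZMod 2) := fun i =>
  Sum.elim ((![![0, 0, 0], ![0, 0, 1], ![0, 1, 0], ![0, 1, 1], ![1, 1, 1], ![1, 0, 1],
      ![1, 0, 0], ![1, 1, 0]] : Fin 8 → Fin 3 → ZMod 2) i)
    ((![![0, 0, 0], ![0, 0, 1], ![0, 1, 1], ![1, 1, 0], ![0, 1, 0], ![1, 0, 0],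
      ![1, 1, 1], ![1, 0, 1]] : Fin 8 → Fin 3 → ZMod 2) i)

def Cm : Matrix (Fin 3 ⊕ Fin 3) (Fin 8) (ZMod 2) := fun k =>
  Sum.elim (![![0, 0, 0, 1, 0, 1, 1, 1], ![0, 0, 1, 1, 1, 0, 1, 0], ![0, 1, 1, 0, 0, 0, 1, 1]] :
      Fin 3 → Fin 8 → ZMod 2)
    (![![0, 0, 0, 0, 1, 1, 1, 1], ![0, 0, 1, 1, 1, 0, 0, 1], ![0, 1, 0, 1, 1, 1, 0, 0]] :
      Fin 3 → Fin 8 → ZMod 2) k

def one8 : Matrix (Fin 8) Unit (ZMod 2) := fun _ _ => 1

def onesRow : Matrix Unit (Fin 8) (ZMod 2) := fun _ _ => 1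

def urow : Matrix Unit (Fin 8) (ZMod 2) :=
  fun _ j => (![0, 1, 1, 1, 1, 1, 1, 1] : Fin 8 → ZMod 2) j

def tcol : Matrix (Fin 8) Unit (ZMod 2) :=
  fun i _ => (![1, 0, 0, 0, 0, 0, 0, 0] : Fin 8 → ZMod 2) i

theorem hCB : Cm * Bm = 1 := by decide

theorem hBC : Bm * Cm = 1 + one8 * urow + tcol * onesRow := by decide

theorem hC1 : Cm * one8 = 0 := by decide

theorem h1B : onesRow * Bm = 0 := by decide

def Pm (σ : Equiv.Perm (Fin 8)) : Matrix (Fin 8) (Fin 8) (ZMod 2) :=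
  fun i j => if σ j = i then 1 else 0

theorem Pm_mul (σ τ : Equiv.Perm (Fin 8)) : Pm (σ * τ) = Pm σ * Pm τ := by
  ext i j
  simp only [Pm, Matrix.mul_apply, Equiv.Perm.mul_apply]
  rw [Finset.sum_eq_single (τ j)]
  · rw [if_pos rfl, mul_one]; rfl
  · intro k _ hk
    have : ¬ τ j = k := fun h => hk h.symm
    simp [this]
  · intro h; exact absurd (Finset.mem_univ _) h

theorem Pm_one : Pm 1 = 1 := by
  ext i j
  simp [Pm, Matrix.one_apply, eq_comm]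

theorem Pm_one8 (σ : Equiv.Perm (Fin 8)) : Pm σ * one8 = one8 := by
  ext i u
  simp only [Pm, one8, Matrix.mul_apply, mul_one]
  rw [Finset.sum_eq_single (σ⁻¹ i)]
  · simp
  · intro k _ hk
    have : ¬ σ k = i := fun h => hk (by rw [← h]; simp)
    simp [this]
  · intro h; exact absurd (Finset.mem_univ _) h

theorem onesRow_Pm (σ : Equiv.Perm (Fin 8)) : onesRow * Pm σ = onesRow := by
  ext u j
  simp only [Pm, onesRow, Matrix.mul_apply, one_mul]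
  rw [Finset.sum_eq_single (σ j)]
  · simp
  · intro k _ hk
    have : ¬ σ j = k := fun h => hk h.symm
    simp [this]
  · intro h; exact absurd (Finset.mem_univ _) h

theorem Pm_mulVec (σ : Equiv.Perm (Fin 8)) (x : Fin 8 → ZMod 2) :
    Pm σ *ᵥ x = fun i => x (σ⁻¹ i) := by
  funext i
  simp only [Pm, Matrix.mulVec, dotProduct]
  rw [Finset.sum_eq_single (σ⁻¹ i)]
  · simp
  · intro k _ hk
    have : ¬ σ k = i := fun h => hk (by rw [← h]; simp)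
    simp [this]
  · intro h; exact absurd (Finset.mem_univ _) h

def Mm (σ : Equiv.Perm (Fin 8)) : Matrix (Fin 3 ⊕ Fin 3) (Fin 3 ⊕ Fin 3) (ZMod 2) :=
  Cm * Pm σ * Bm

theorem sandwich (σ τ : Equiv.Perm (Fin 8)) :
    Cm * Pm σ * (Bm * Cm) * (Pm τ * Bm) = Cm * Pm σ * (Pm τ * Bm) := by
  rw [hBC, Matrix.mul_add, Matrix.mul_add, Matrix.add_mul, Matrix.add_mul, Matrix.mul_one]
  have h1 : Cm * Pm σ * (one8 * urow) * (Pm τ * Bm) = 0 := by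
    have : Cm * Pm σ * (one8 * urow) = Cm * (Pm σ * one8) * urow := by
      simp only [Matrix.mul_assoc]
    rw [this, Pm_one8, hC1, Matrix.zero_mul, Matrix.zero_mul]
  have h2 : Cm * Pm σ * (tcol * onesRow) * (Pm τ * Bm) = 0 := by
    have : Cm * Pm σ * (tcol * onesRow) * (Pm τ * Bm)
        = Cm * Pm σ * tcol * ((onesRow * Pm τ) * Bm) := by
      simp only [Matrix.mul_assoc]
    rw [this, onesRow_Pm, h1B, Matrix.mul_zero]
  rw [h1, h2, add_zero, add_zero]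

theorem Mm_mul (σ τ : Equiv.Perm (Fin 8)) : Mm (σ * τ) = Mm σ * Mm τ := by
  unfold Mm
  have h := sandwich σ τ
  calc Cm * Pm (σ * τ) * Bm = Cm * Pm σ * (Pm τ * Bm) := by
        rw [Pm_mul]; simp only [Matrix.mul_assoc]
    _ = Cm * Pm σ * (Bm * Cm) * (Pm τ * Bm) := h.symm
    _ = Cm * Pm σ * Bm * (Cm * Pm τ * Bm) := by simp only [Matrix.mul_assoc]

theorem Mm_one : Mm 1 = 1 := by
  unfold Mm
  rw [Pm_one, Matrix.mul_one, hCB]

def wt (w : Fin 8 → ZMod 2) : ℕ := ∑ i, (w i).val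

def q8 (w : Fin 8 → ZMod 2) : ZMod 2 := ((wt w / 2 : ℕ) : ZMod 2)

def mkv (a b c d e f : ZMod 2) : Fin 3 ⊕ Fin 3 → ZMod 2 := Sum.elim ![a, b, c] ![d, e, f]

theorem mkv_eta (v : Fin 3 ⊕ Fin 3 → ZMod 2) :
    v = mkv (v (.inl 0)) (v (.inl 1)) (v (.inl 2)) (v (.inr 0)) (v (.inr 1)) (v (.inr 2)) := by
  funext i
  rcases i with i | i <;> fin_cases i <;> rfl

theorem Q_eq_mk : ∀ a b c d e f : ZMod 2,
    Cfsg.quadFormPlus 3 (ZMod 2) (mkv a b c d e f) = q8 (Bm *ᵥ mkv a b c d e f) := by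
  decide

theorem Q_eq (v : Fin 3 ⊕ Fin 3 → ZMod 2) :
    Cfsg.quadFormPlus 3 (ZMod 2) v = q8 (Bm *ᵥ v) := by
  rw [mkv_eta v]
  exact Q_eq_mk _ _ _ _ _ _

theorem even_mk : ∀ a b c d e f : ZMod 2, wt (Bm *ᵥ mkv a b c d e f) % 2 = 0 := by
  decide

theorem even_Bm (v : Fin 3 ⊕ Fin 3 → ZMod 2) : wt (Bm *ᵥ v) % 2 = 0 := by
  rw [mkv_eta v]
  exact even_mk _ _ _ _ _ _

theorem wt_perm (σ : Equiv.Perm (Fin 8)) (w : Fin 8 → ZMod 2) :
    wt (fun i => w (σ i)) = wt w :=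
  Equiv.sum_comp σ (fun i => (w i).val)

theorem wt_add_one (w : Fin 8 → ZMod 2) : wt (fun i => w i + 1) + wt w = 8 := by
  unfold wt
  rw [← Finset.sum_add_distrib]
  have h : ∀ x : ZMod 2, (x + 1).val + x.val = 1 := by decide
  simp [h]

theorem q8_add (w : Fin 8 → ZMod 2) (hw : wt w % 2 = 0) (c : ZMod 2) :
    q8 (fun i => w i + c) = q8 w := by
  have hc : c = 0 ∨ c = 1 := by
    revert c
    decide
  rcases hc with rfl | rfl
  · simp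
  · unfold q8
    have h := wt_add_one w
    obtain ⟨k, hk⟩ : ∃ k, wt w = 2 * k := ⟨wt w / 2, by omega⟩
    have h1 : wt (fun i => w i + 1) = 8 - 2 * k := by omega
    have hk4 : k ≤ 4 := by omega
    have e1 : (8 - 2 * k) / 2 = 4 - k := by omega
    have e2 : (2 * k) / 2 = k := by omega
    rw [h1, hk, e1, e2]
    interval_cases k <;> decide

theorem Bm_Mm (σ : Equiv.Perm (Fin 8)) (v : Fin 3 ⊕ Fin 3 → ZMod 2) :
    Bm *ᵥ (Mm σ *ᵥ v) = fun i => (Pm σ *ᵥ (Bm *ᵥ v)) i + (urow *ᵥ (Pm σ *ᵥ (Bm *ᵥ v))) () := by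
  have h1 : Bm *ᵥ (Mm σ *ᵥ v) = (Bm * Cm) *ᵥ (Pm σ *ᵥ (Bm *ᵥ v)) := by
    unfold Mm
    simp only [Matrix.mulVec_mulVec, Matrix.mul_assoc]
  have h2 : onesRow *ᵥ (Pm σ *ᵥ (Bm *ᵥ v)) = 0 := by
    rw [Matrix.mulVec_mulVec, Matrix.mulVec_mulVec, onesRow_Pm, h1B, Matrix.zero_mulVec]
  rw [h1, hBC]
  obtain ⟨w', hw'⟩ : ∃ w', w' = Pm σ *ᵥ (Bm *ᵥ v) := ⟨_, rfl⟩
  rw [← hw'] at h2 ⊢
  rw [Matrix.add_mulVec, Matrix.add_mulVec, Matrix.one_mulVec]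
  have e1 : (tcol * onesRow) *ᵥ w' = 0 := by
    rw [← Matrix.mulVec_mulVec, h2, Matrix.mulVec_zero]
  rw [e1, add_zero]
  funext i
  rw [Pi.add_apply, ← Matrix.mulVec_mulVec]
  congr 1
  simp [Matrix.mulVec, dotProduct, one8]

theorem Q_Mm (σ : Equiv.Perm (Fin 8)) (v : Fin 3 ⊕ Fin 3 → ZMod 2) :
    Cfsg.quadFormPlus 3 (ZMod 2) (Mm σ *ᵥ v) = Cfsg.quadFormPlus 3 (ZMod 2) v := by
  rw [Q_eq, Q_eq, Bm_Mm, Pm_mulVec]
  have hw : wt (fun i => (Bm *ᵥ v) (σ⁻¹ i)) % 2 = 0 := by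
    rw [wt_perm]
    exact even_Bm v
  rw [q8_add _ hw]
  unfold q8
  rw [wt_perm]

def MmHom : Equiv.Perm (Fin 8) →* Matrix (Fin 3 ⊕ Fin 3) (Fin 3 ⊕ Fin 3) (ZMod 2) where
  toFun := Mm
  map_one' := Mm_one
  map_mul' := Mm_mul

def Phi : Equiv.Perm (Fin 8) →*
    Cfsg.isometryGroup (ZMod 2) (Cfsg.quadFormPlus 3 (ZMod 2)) :=
  MmHom.toHomUnits.codRestrict _ (fun σ => by
    rw [Orth.mem_isometryGroup]
    intro u
    exact Q_Mm σ u)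

theorem Mm_c3 : Mm (Equiv.swap 0 1 * Equiv.swap 1 2) ≠ 1 := by decide

theorem Phi_injective : Function.Injective Phi := by
  rw [← MonoidHom.ker_eq_bot_iff]
  by_contra hne
  haveI : Nontrivial Phi.ker := (Subgroup.nontrivial_iff_ne_bot _).2 hne
  have h1 := Equiv.Perm.alternatingGroup_le_of_normal (α := Fin 8) (by simp) (N := Phi.ker)
    inferInstance
  have h2 : (Equiv.swap (0 : Fin 8) 1 * Equiv.swap 1 2) ∈ alternatingGroup (Fin 8) := by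
    rw [Equiv.Perm.mem_alternatingGroup]
    decide
  have h3 := h1 h2
  rw [MonoidHom.mem_ker] at h3
  have h4 := congrArg (fun g : Cfsg.isometryGroup (ZMod 2) (Cfsg.quadFormPlus 3 (ZMod 2)) =>
    ((g : GL (Fin 3 ⊕ Fin 3) (ZMod 2)) : Matrix (Fin 3 ⊕ Fin 3) (Fin 3 ⊕ Fin 3) (ZMod 2))) h3
  exact Mm_c3 h4

theorem Phi_bijective : Function.Bijective Phi := by
  apply Phi_injective.bijective_of_nat_card_le
  rw [Orth.card_plus 2, Nat.card_perm]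
  simp [Finset.prod_range_succ]
  decide

end Cfsg.Agent.Lib.Helper1.A8
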