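import Mathlib
import Cfsg.Agent.Lib.Helper1.A8a

set_option autoImplicit false

namespace Cfsg.Agent.Lib.Helper1.A8

open Matrix

theorem psl_congr {L K : Type*} [Field L] [Field K] (n : ℕ) (e : L ≃+* K) :
    Nonempty (ProjectiveSpecialLinearGroup (Fin n) L ≃* ProjectiveSpecialLinearGroup (Fin n) K) := by
  let f : SpecialLinearGroup (Fin n) L →* SpecialLinearGroup (Fin n) K :=
    SpecialLinearGroup.map e.toRingHom
  let f' : SpecialLinearGroup (Fin n) K →* SpecialLinearGroup (Fin n) L :=
    SpecialLinearGroup.map e.symm.toRingHom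
  have h1 : ∀ s, f' (f s) = s := by
    intro s
    apply Subtype.ext
    refine Matrix.ext fun i j => ?_
    show e.symm (e (s.1 i j)) = s.1 i j
    simp
  have h2 : ∀ t, f (f' t) = t := by
    intro t
    apply Subtype.ext
    refine Matrix.ext fun i j => ?_
    show e (e.symm (t.1 i j)) = t.1 i j
    simp
  let E : SpecialLinearGroup (Fin n) L ≃* SpecialLinearGroup (Fin n) K :=
    { toFun := f, invFun := f', left_inv := h1, right_inv := h2, map_mul' := f.map_mul }
  let ψ : SpecialLinearGroup (Fin n) L →* ProjectiveSpecialLinearGroup (Fin n) K :=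
    (QuotientGroup.mk' _).comp f
  have hs : Function.Surjective ψ := by
    intro y
    obtain ⟨t, rfl⟩ := QuotientGroup.mk'_surjective _ y
    exact ⟨f' t, by show QuotientGroup.mk' _ (f (f' t)) = _; rw [h2]⟩
  have hk : ψ.ker = Subgroup.center (SpecialLinearGroup (Fin n) L) := by
    ext s
    rw [MonoidHom.mem_ker]
    show QuotientGroup.mk' _ (f s) = 1 ↔ _
    rw [QuotientGroup.mk'_apply, QuotientGroup.eq_one_iff]
    exact Om4.mem_center_equiv E s
  exact ⟨(QuotientGroup.quotientMulEquivOfEq hk.symm).trans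
    (QuotientGroup.quotientKerEquivOfSurjective ψ hs)⟩

theorem pomega_alt : Nonempty (Cfsg.POmega (ZMod 2) (Cfsg.quadFormPlus 3 (ZMod 2)) ≃*
    alternatingGroup (Fin 8)) := by
  let E : Equiv.Perm (Fin 8) ≃* Cfsg.isometryGroup (ZMod 2) (Cfsg.quadFormPlus 3 (ZMod 2)) :=
    MulEquiv.ofBijective Phi Phi_bijective
  let e0 := O3.commEquiv E.symm
  have hc : commutator (Equiv.Perm (Fin 8)) = alternatingGroup (Fin 8) :=
    alternatingGroup.commutator_perm_eq (by simp)
  let e1 : Cfsg.Omega (ZMod 2) (Cfsg.quadFormPlus 3 (ZMod 2)) ≃* alternatingGroup (Fin 8) :=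
    e0.trans (MulEquiv.subgroupCongr hc)
  refine O4.quotCenterEquiv e1.toMonoidHom e1.surjective
    (alternatingGroup.center_eq_bot (by simp)) ?_
  intro a ha
  rw [MonoidHom.mem_ker] at ha
  have h1 : a = 1 := e1.injective (by rw [map_one]; exact ha)
  rw [h1]
  exact Subgroup.one_mem _

theorem main {F : Type*} [Field F] [Fintype F] (hF : Fintype.card F = 2) :
    Nonempty (ProjectiveSpecialLinearGroup (Fin 4) F ≃* alternatingGroup (Fin 8)) := by
  have e := ZMod.ringEquivOfPrime F Nat.prime_two hF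
  obtain ⟨e1⟩ := psl_congr 4 e.symm
  obtain ⟨e2⟩ := O6.main (F := ZMod 2)
  obtain ⟨e3⟩ := pomega_alt
  exact ⟨e1.trans (e2.symm.trans e3)⟩

end Cfsg.Agent.Lib.Helper1.A8
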