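import Mathlib
import Cfsg.Agent.Lib.Helper1.Om4d
import Cfsg.Agent.Lib.Helper1.A8b

set_option autoImplicit false

namespace Cfsg.Agent.Lib.Helper1.A6

open Matrix

abbrev I4 : Type := (Fin 1 ⊕ Fin 1) ⊕ Fin 2

def idx : I4 → Fin 4 := Sum.elim (Sum.elim (fun _ => 0) (fun _ => 1)) (fun k => ![2, 3] k)

def Bm : Matrix (Fin 6) I4 (ZMod 3) := fun i k =>
  (![![0, 0, 0, 0], ![0, 0, 1, 1], ![0, 1, 2, 2], ![1, 0, 2, 2], ![1, 1, 0, 1],
    ![1, 1, 1, 0]] : Fin 6 → Fin 4 → ZMod 3) i (idx k)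

def Cm : Matrix I4 (Fin 6) (ZMod 3) := fun k j =>
  (![![0, 0, 2, 0, 2, 2], ![0, 0, 0, 2, 2, 2], ![0, 1, 2, 2, 0, 1],
    ![0, 1, 2, 2, 1, 0]] : Fin 4 → Fin 6 → ZMod 3) (idx k) j

def one6 : Matrix (Fin 6) Unit (ZMod 3) := fun _ _ => 1

def onesRow : Matrix Unit (Fin 6) (ZMod 3) := fun _ _ => 1

def urow : Matrix Unit (Fin 6) (ZMod 3) :=
  fun _ j => (![0, 1, 1, 1, 1, 1] : Fin 6 → ZMod 3) j

def tcol : Matrix (Fin 6) Unit (ZMod 3) :=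
  fun i _ => (![2, 0, 0, 0, 0, 0] : Fin 6 → ZMod 3) i

theorem hCB : Cm * Bm = 1 := by decide

theorem hBC : Bm * Cm = 1 + one6 * urow + tcol * onesRow := by decide

theorem hC1 : Cm * one6 = 0 := by decide

theorem h1B : onesRow * Bm = 0 := by decide

def Pm (σ : Equiv.Perm (Fin 6)) : Matrix (Fin 6) (Fin 6) (ZMod 3) :=
  fun i j => if σ j = i then 1 else 0

theorem Pm_mul (σ τ : Equiv.Perm (Fin 6)) : Pm (σ * τ) = Pm σ * Pm τ := by
  ext i j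
  simp only [Pm, Matrix.mul_apply, Equiv.Perm.mul_apply]
  rw [Finset.sum_eq_single (τ j)]
  · rw [if_pos rfl, mul_one]; rfl
  · intro k _ hk
    have : ¬ τ j = k := fun h => hk h.symm
    simp [this]
  · intro h; exact absurd (Finset.mem_univ _) h

theorem Pm_one : Pm 1 = 1 := by
  ext i j
  simp [Pm, Matrix.one_apply, eq_comm]

theorem Pm_one6 (σ : Equiv.Perm (Fin 6)) : Pm σ * one6 = one6 := by
  ext i u
  simp only [Pm, one6, Matrix.mul_apply, mul_one]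
  rw [Finset.sum_eq_single (σ⁻¹ i)]
  · simp
  · intro k _ hk
    have : ¬ σ k = i := fun h => hk (by rw [← h]; simp)
    simp [this]
  · intro h; exact absurd (Finset.mem_univ _) h

theorem onesRow_Pm (σ : Equiv.Perm (Fin 6)) : onesRow * Pm σ = onesRow := by
  ext u j
  simp only [Pm, onesRow, Matrix.mul_apply, one_mul]
  rw [Finset.sum_eq_single (σ j)]
  · simp
  · intro k _ hk
    have : ¬ σ j = k := fun h => hk h.symm
    simp [this]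
  · intro h; exact absurd (Finset.mem_univ _) h

theorem Pm_mulVec (σ : Equiv.Perm (Fin 6)) (x : Fin 6 → ZMod 3) :
    Pm σ *ᵥ x = fun i => x (σ⁻¹ i) := by
  funext i
  simp only [Pm, Matrix.mulVec, dotProduct]
  rw [Finset.sum_eq_single (σ⁻¹ i)]
  · simp
  · intro k _ hk
    have : ¬ σ k = i := fun h => hk (by rw [← h]; simp)
    simp [this]
  · intro h; exact absurd (Finset.mem_univ _) h

def Mm (σ : Equiv.Perm (Fin 6)) : Matrix I4 I4 (ZMod 3) :=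
  Cm * Pm σ * Bm

theorem sandwich (σ τ : Equiv.Perm (Fin 6)) :
    Cm * Pm σ * (Bm * Cm) * (Pm τ * Bm) = Cm * Pm σ * (Pm τ * Bm) := by
  rw [hBC, Matrix.mul_add, Matrix.mul_add, Matrix.add_mul, Matrix.add_mul, Matrix.mul_one]
  have h1 : Cm * Pm σ * (one6 * urow) * (Pm τ * Bm) = 0 := by
    have : Cm * Pm σ * (one6 * urow) = Cm * (Pm σ * one6) * urow := by
      simp only [Matrix.mul_assoc]
    rw [this, Pm_one6, hC1, Matrix.zero_mul, Matrix.zero_mul]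
  have h2 : Cm * Pm σ * (tcol * onesRow) * (Pm τ * Bm) = 0 := by
    have : Cm * Pm σ * (tcol * onesRow) * (Pm τ * Bm)
        = Cm * Pm σ * tcol * ((onesRow * Pm τ) * Bm) := by
      simp only [Matrix.mul_assoc]
    rw [this, onesRow_Pm, h1B, Matrix.mul_zero]
  rw [h1, h2, add_zero, add_zero]

theorem Mm_mul (σ τ : Equiv.Perm (Fin 6)) : Mm (σ * τ) = Mm σ * Mm τ := by
  unfold Mm
  have h := sandwich σ τ
  calc Cm * Pm (σ * τ) * Bm = Cm * Pm σ * (Pm τ * Bm) := by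
        rw [Pm_mul]; simp only [Matrix.mul_assoc]
    _ = Cm * Pm σ * (Bm * Cm) * (Pm τ * Bm) := h.symm
    _ = Cm * Pm σ * Bm * (Cm * Pm τ * Bm) := by simp only [Matrix.mul_assoc]

theorem Mm_one : Mm 1 = 1 := by
  unfold Mm
  rw [Pm_one, Matrix.mul_one, hCB]

def q6 (w : Fin 6 → ZMod 3) : ZMod 3 := ∑ i, w i ^ 2

def mkv (a b c d : ZMod 3) : I4 → ZMod 3 :=
  Sum.elim (Sum.elim (fun _ => a) (fun _ => b)) ![c, d]

theorem mkv_eta (v : I4 → ZMod 3) :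
    v = mkv (v (.inl (.inl 0))) (v (.inl (.inr 0))) (v (.inr 0)) (v (.inr 1)) := by
  funext i
  rcases i with (i | i) | i <;> fin_cases i <;> rfl

theorem Q_eq_mk : ∀ a b c d : ZMod 3,
    Cfsg.quadFormMinus 1 (ZMod 3) 0 1 (mkv a b c d) = q6 (Bm *ᵥ mkv a b c d) := by
  decide

theorem Q_eq (v : I4 → ZMod 3) :
    Cfsg.quadFormMinus 1 (ZMod 3) 0 1 v = q6 (Bm *ᵥ v) := by
  rw [mkv_eta v]
  exact Q_eq_mk _ _ _ _

theorem q6_add (w : Fin 6 → ZMod 3) (hw : ∑ i, w i = 0) (c : ZMod 3) :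
    q6 (fun i => w i + c) = q6 w := by
  unfold q6
  have h : ∀ i, (w i + c) ^ 2 = w i ^ 2 + 2 * c * w i + c ^ 2 := fun i => by ring
  simp only [h, Finset.sum_add_distrib, ← Finset.mul_sum, hw, Finset.sum_const, Finset.card_univ,
    Fintype.card_fin]
  have h6 : (6 : ℕ) • (c ^ 2 : ZMod 3) = 0 := by
    rw [nsmul_eq_mul]
    have : ((6 : ℕ) : ZMod 3) = 0 := by decide
    rw [this, zero_mul]
  rw [h6]
  ring

theorem sum_eq_onesRow (w : Fin 6 → ZMod 3) : (onesRow *ᵥ w) () = ∑ i, w i := by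
  simp [Matrix.mulVec, dotProduct, onesRow]

theorem Bm_Mm (σ : Equiv.Perm (Fin 6)) (v : I4 → ZMod 3) :
    Bm *ᵥ (Mm σ *ᵥ v) = fun i => (Pm σ *ᵥ (Bm *ᵥ v)) i + (urow *ᵥ (Pm σ *ᵥ (Bm *ᵥ v))) () := by
  have h1 : Bm *ᵥ (Mm σ *ᵥ v) = (Bm * Cm) *ᵥ (Pm σ *ᵥ (Bm *ᵥ v)) := by
    unfold Mm
    simp only [Matrix.mulVec_mulVec, Matrix.mul_assoc]
  have h2 : onesRow *ᵥ (Pm σ *ᵥ (Bm *ᵥ v)) = 0 := by
    rw [Matrix.mulVec_mulVec, Matrix.mulVec_mulVec, onesRow_Pm, h1B, Matrix.zero_mulVec]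
  rw [h1, hBC]
  obtain ⟨w', hw'⟩ : ∃ w', w' = Pm σ *ᵥ (Bm *ᵥ v) := ⟨_, rfl⟩
  rw [← hw'] at h2 ⊢
  rw [Matrix.add_mulVec, Matrix.add_mulVec, Matrix.one_mulVec]
  have e1 : (tcol * onesRow) *ᵥ w' = 0 := by
    rw [← Matrix.mulVec_mulVec, h2, Matrix.mulVec_zero]
  rw [e1, add_zero]
  funext i
  rw [Pi.add_apply, ← Matrix.mulVec_mulVec]
  congr 1
  simp [Matrix.mulVec, dotProduct, one6]

theorem Q_Mm (σ : Equiv.Perm (Fin 6)) (v : I4 → ZMod 3) :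
    Cfsg.quadFormMinus 1 (ZMod 3) 0 1 (Mm σ *ᵥ v) = Cfsg.quadFormMinus 1 (ZMod 3) 0 1 v := by
  rw [Q_eq, Q_eq, Bm_Mm, Pm_mulVec]
  have hw : ∑ i, (Bm *ᵥ v) (σ⁻¹ i) = 0 := by
    rw [Equiv.sum_comp σ⁻¹ (fun i => (Bm *ᵥ v) i), ← sum_eq_onesRow, Matrix.mulVec_mulVec, h1B,
      Matrix.zero_mulVec]
    rfl
  rw [q6_add _ hw]
  unfold q6
  exact Equiv.sum_comp σ⁻¹ (fun i => (Bm *ᵥ v) i ^ 2)

def MmHom : Equiv.Perm (Fin 6) →* Matrix I4 I4 (ZMod 3) where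
  toFun := Mm
  map_one' := Mm_one
  map_mul' := Mm_mul

def Phi : Equiv.Perm (Fin 6) →*
    Cfsg.isometryGroup (ZMod 3) (Cfsg.quadFormMinus 1 (ZMod 3) 0 1) :=
  MmHom.toHomUnits.codRestrict _ (fun σ => by
    rw [Orth.mem_isometryGroup]
    intro u
    exact Q_Mm σ u)

theorem Mm_c3 : Mm (Equiv.swap 0 1 * Equiv.swap 1 2) ≠ 1 := by decide

theorem Phi_injective : Function.Injective Phi := by
  rw [← MonoidHom.ker_eq_bot_iff]
  by_contra hne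
  haveI : Nontrivial Phi.ker := (Subgroup.nontrivial_iff_ne_bot _).2 hne
  have h1 := Equiv.Perm.alternatingGroup_le_of_normal (α := Fin 6) (by simp) (N := Phi.ker)
    inferInstance
  have h2 : (Equiv.swap (0 : Fin 6) 1 * Equiv.swap 1 2) ∈ alternatingGroup (Fin 6) := by
    rw [Equiv.Perm.mem_alternatingGroup]
    decide
  have h3 := h1 h2
  rw [MonoidHom.mem_ker] at h3
  have h4 := congrArg (fun g : Cfsg.isometryGroup (ZMod 3) (Cfsg.quadFormMinus 1 (ZMod 3) 0 1) =>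
    ((g : GL I4 (ZMod 3)) : Matrix I4 I4 (ZMod 3))) h3
  exact Mm_c3 h4

theorem hab : ∀ z₁ z₂ : ZMod 3, z₁ ^ 2 + 0 * z₁ * z₂ + 1 * z₂ ^ 2 = 0 → z₁ = 0 ∧ z₂ = 0 := by
  decide

theorem card_O : Nat.card (Cfsg.isometryGroup (ZMod 3) (Cfsg.quadFormMinus 1 (ZMod 3) 0 1))
    = 2 * Nat.card (Equiv.Perm (Fin 6)) := by
  rw [Orth.card_minus (F := ZMod 3) 0 1 hab 1, Nat.card_perm]
  simp [Finset.prod_range_succ]
  decide

end Cfsg.Agent.Lib.Helper1.A6
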