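import Mathlib
import Cfsg.Agent.Lib.Helper1.A6a

set_option autoImplicit false

namespace Cfsg.Agent.Lib.Helper1.A6

open Matrix

theorem comm_eq_map {O S : Type*} [Group O] [Group S] [Finite O] (φ : S →* O)
    (hφ : Function.Injective φ) (hidx : Nat.card O = 2 * Nat.card S)
    (hA2 : (commutator S).index = 2) :
    commutator O = (commutator S).map φ := by
  haveI : Finite S := Finite.of_injective φ hφ
  have hS : 0 < Nat.card S := Nat.card_pos
  have hH : φ.range.index = 2 := by
    have h1 := Subgroup.index_mul_card φ.range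
    have h2 : Nat.card φ.range = Nat.card S :=
      (Nat.card_congr (MonoidHom.ofInjective hφ).toEquiv).symm
    rw [h2, hidx] at h1
    exact Nat.eq_of_mul_eq_mul_right hS h1
  haveI hHn : φ.range.Normal := Subgroup.normal_of_index_eq_two hH
  have hmap : (commutator S).map φ = ⁅φ.range, φ.range⁆ := by
    rw [_root_.commutator_def, Subgroup.map_commutator, ← MonoidHom.range_eq_map]
  haveI hN : ((commutator S).map φ).Normal := by
    rw [hmap]
    infer_instance
  apply le_antisymm
  · have c1 := Subgroup.card_eq_card_quotient_mul_card_subgroup ((commutator S).map φ)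
    have c2 : Nat.card ((commutator S).map φ) = Nat.card (commutator S) :=
      (Nat.card_congr ((commutator S).equivMapOfInjective φ hφ).toEquiv).symm
    have c3 := Subgroup.index_mul_card (commutator S)
    rw [hA2] at c3
    have hpos : 0 < Nat.card (commutator S) := Nat.card_pos
    have hcard : Nat.card (O ⧸ (commutator S).map φ) = 4 := by
      rw [c2, hidx, ← c3] at c1
      have : Nat.card (O ⧸ (commutator S).map φ) * Nat.card (commutator S)
          = 4 * Nat.card (commutator S) := by
        rw [← c1]
        ring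
      exact Nat.eq_of_mul_eq_mul_right hpos this
    have hcomm := O4.comm_of_card (G := O ⧸ (commutator S).map φ) (Or.inr hcard)
    rw [_root_.commutator_def, Subgroup.commutator_le]
    intro a _ b _
    rw [← QuotientGroup.eq_one_iff, commutatorElement_def]
    simp only [QuotientGroup.mk_mul, QuotientGroup.mk_inv]
    rw [hcomm (↑a) (↑b)]
    group
  · exact O4.map_commutator_le' φ

theorem pomega_alt : Nonempty (Cfsg.POmega (ZMod 3) (Cfsg.quadFormMinus 1 (ZMod 3) 0 1) ≃*
    alternatingGroup (Fin 6)) := by
  have hc : commutator (Equiv.Perm (Fin 6)) = alternatingGroup (Fin 6) :=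
    alternatingGroup.commutator_perm_eq (by simp)
  have hidx : (commutator (Equiv.Perm (Fin 6))).index = 2 := by
    rw [hc]
    exact alternatingGroup.index_eq_two
  have hO := comm_eq_map Phi Phi_injective card_O hidx
  let e0 := (alternatingGroup (Fin 6)).equivMapOfInjective Phi Phi_injective
  have hO' : Cfsg.Omega (ZMod 3) (Cfsg.quadFormMinus 1 (ZMod 3) 0 1)
      = (alternatingGroup (Fin 6)).map Phi := by
    rw [← hc]
    exact hO
  let e1 : Cfsg.Omega (ZMod 3) (Cfsg.quadFormMinus 1 (ZMod 3) 0 1) ≃* alternatingGroup (Fin 6) :=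
    (MulEquiv.subgroupCongr hO').trans e0.symm
  refine O4.quotCenterEquiv e1.toMonoidHom e1.surjective
    (alternatingGroup.center_eq_bot (by simp)) ?_
  intro a ha
  rw [MonoidHom.mem_ker] at ha
  have h1 : a = 1 := e1.injective (by rw [map_one]; exact ha)
  rw [h1]
  exact Subgroup.one_mem _

theorem main {F : Type*} [Field F] [Fintype F] (hF : Fintype.card F = 9) :
    Nonempty (ProjectiveSpecialLinearGroup (Fin 2) F ≃* alternatingGroup (Fin 6)) := by
  obtain ⟨e2⟩ := Om4.main (F := ZMod 3) (K := F) (by rw [hF, ZMod.card]; norm_num) 0 1 hab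
  obtain ⟨e3⟩ := pomega_alt
  exact ⟨e2.symm.trans e3⟩

end Cfsg.Agent.Lib.Helper1.A6
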