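import Mathlib
import Cfsg.Prelude.Def_Characters
import Cfsg.Agent.Lib.Helper3.CharInd
import Cfsg.Agent.Lib.Helper3.CharArith
import Cfsg.Agent.Lib.Helper3.CharDeg

set_option autoImplicit false

namespace Cfsg.Agent.Lib.Helper1.Artin

open Cfsg.Agent.Lib.Helper3.Char Cfsg.Agent.Lib.Helper3.CharCore Cfsg.Agent.Lib.Helper3.CharArith
  Cfsg.Agent.Lib.Helper3.CharInd Cfsg.Agent.Lib.Helper3.CharTable
  Cfsg.Agent.Lib.Helper3.CharLinear Cfsg.Agent.Lib.Helper3.CharDeg
open scoped ComplexConjugate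

universe v

open scoped Classical

theorem abelian_linear' {Q : Type v} [Group Q] [Finite Q] (hab : ∀ a b : Q, a * b = b * a)
    {lam : Q → ℂ} (hlam : Cfsg.IsIrrCharacter Q lam) : lam 1 = 1 := by
  classical
  have _i : Fintype Q := Fintype.ofFinite Q
  have _j : Fintype (Cfsg.IrrCharacter Q) := Fintype.ofFinite _
  have hd : ∀ χ : Cfsg.IrrCharacter Q, ∃ n : ℕ, 0 < n ∧ (χ : Q → ℂ) 1 = (n : ℂ) :=
    fun χ => irr_one_pos χ.2
  choose d hdpos hd using hd
  have h1 := sum_degree_sq d hd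
  have h2 : Nat.card (ConjClasses Q) = Nat.card Q := by
    symm
    apply Nat.card_congr
    refine Equiv.ofBijective ConjClasses.mk ⟨?_, ConjClasses.mk_surjective⟩
    intro a b h
    rw [ConjClasses.mk_eq_mk_iff_isConj] at h
    obtain ⟨c, hc⟩ := h
    have h3 : (c : Q) * a = b * c := hc
    rw [hab] at h3
    exact mul_right_cancel h3
  have h3 : Nat.card (Cfsg.IrrCharacter Q) = Nat.card Q := by rw [card_irr, h2]
  rw [Nat.card_eq_fintype_card, ← Finset.card_univ] at h3
  have h4 : ∑ χ : Cfsg.IrrCharacter Q, d χ ^ 2 = ∑ _χ : Cfsg.IrrCharacter Q, 1 := by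
    rw [← h1, Finset.sum_const, smul_eq_mul, mul_one, h3]
  have h5 : ∀ χ ∈ (Finset.univ : Finset (Cfsg.IrrCharacter Q)), 1 ≤ d χ ^ 2 :=
    fun χ _ => Nat.one_le_pow _ _ (hdpos χ)
  have h6 := (Finset.sum_eq_sum_iff_of_le h5).mp h4.symm ⟨lam, hlam⟩ (Finset.mem_univ _)
  have h7 : d ⟨lam, hlam⟩ = 1 := by
    have := hdpos ⟨lam, hlam⟩
    nlinarith
  have h8 := hd ⟨lam, hlam⟩
  rw [h7] at h8
  simpa using h8

theorem sum_hom_int {B : Type*} [Group B] [Fintype B] (ν : B →* ℂˣ) :
    ∃ m : ℤ, ∑ b : B, (ν b : ℂ) = m := by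
  classical
  have h := sum_hom_units ((Units.coeHom ℂ).comp ν)
  by_cases h1 : (Units.coeHom ℂ).comp ν = 1
  · refine ⟨Fintype.card B, ?_⟩
    rw [if_pos h1] at h
    simpa using h
  · refine ⟨0, ?_⟩
    rw [if_neg h1] at h
    simpa using h

theorem finset_sum_int {ι : Type*} (s : Finset ι) (f : ι → ℂ)
    (h : ∀ i ∈ s, ∃ m : ℤ, f i = m) : ∃ m : ℤ, ∑ i ∈ s, f i = m := by
  choose! g hg using h
  exact ⟨∑ i ∈ s, g i, by rw [Int.cast_sum]; exact Finset.sum_congr rfl hg⟩

theorem ram_int {A : Type*} [Group A] [Fintype A] (ν : A →* ℂˣ) :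
    ∀ (k : ℕ) (B : Subgroup A), Nat.card B = k →
      ∃ m : ℤ, (∑ a : A, if Subgroup.zpowers a = B then (ν a : ℂ) else 0) = m := by
  classical
  haveI : Fintype (Subgroup A) := Fintype.ofFinite _
  intro k
  induction k using Nat.strong_induction_on with
  | _ k ih =>
    intro B hB
    have h1 : ∑ a : A, (if a ∈ B then (ν a : ℂ) else 0) =
        ∑ C : Subgroup A, if C ≤ B then
          (∑ a : A, if Subgroup.zpowers a = C then (ν a : ℂ) else 0) else 0 := by
      symm
      calc ∑ C : Subgroup A, (if C ≤ B then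
            (∑ a : A, if Subgroup.zpowers a = C then (ν a : ℂ) else 0) else 0)
          = ∑ C : Subgroup A, ∑ a : A,
              if C ≤ B ∧ Subgroup.zpowers a = C then (ν a : ℂ) else 0 := by
            refine Finset.sum_congr rfl (fun C _ => ?_)
            by_cases hC : C ≤ B
            · simp [hC]
            · simp [hC]
        _ = ∑ a : A, ∑ C : Subgroup A,
              if C ≤ B ∧ Subgroup.zpowers a = C then (ν a : ℂ) else 0 := Finset.sum_comm
        _ = ∑ a : A, (if a ∈ B then (ν a : ℂ) else 0) := by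
            refine Finset.sum_congr rfl (fun a _ => ?_)
            rw [Finset.sum_eq_single (Subgroup.zpowers a)]
            · by_cases ha : a ∈ B
              · have h3 : Subgroup.zpowers a ≤ B := (Subgroup.zpowers_le).mpr ha
                simp [ha, h3]
              · have h3 : ¬ Subgroup.zpowers a ≤ B := fun h => ha (Subgroup.zpowers_le.mp h)
                simp [ha, h3]
            · intro C _ hC
              rw [if_neg]
              rintro ⟨_, h⟩
              exact hC h.symm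
            · intro h
              exact absurd (Finset.mem_univ _) h
    obtain ⟨m0, hm0⟩ : ∃ m : ℤ, ∑ a : A, (if a ∈ B then (ν a : ℂ) else 0) = m := by
      haveI : Fintype B := Fintype.ofFinite _
      obtain ⟨m, hm⟩ := sum_hom_int (ν.comp B.subtype)
      refine ⟨m, ?_⟩
      rw [← hm, ← Finset.sum_filter]
      exact Finset.sum_subtype (Finset.univ.filter (· ∈ B)) (by simp) (fun a => (ν a : ℂ))
    rw [h1, ← Finset.add_sum_erase Finset.univ _ (Finset.mem_univ B)] at hm0
    rw [if_pos le_rfl] at hm0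
    have h2 : ∃ m : ℤ, ∑ C ∈ Finset.univ.erase B, (if C ≤ B then
        (∑ a : A, if Subgroup.zpowers a = C then (ν a : ℂ) else 0) else 0) = m := by
      apply finset_sum_int
      intro C hC
      by_cases hCB : C ≤ B
      · rw [if_pos hCB]
        have hlt : C < B := lt_of_le_of_ne hCB (Finset.ne_of_mem_erase hC)
        have hcard : Nat.card C < k := by
          rw [← hB]
          show Nat.card (C : Set A) < Nat.card (B : Set A)
          rw [Nat.card_coe_set_eq, Nat.card_coe_set_eq]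
          exact Set.ncard_lt_ncard (SetLike.coe_ssubset_coe.mpr hlt) (Set.toFinite _)
        exact ih _ hcard C rfl
      · exact ⟨0, by simp [hCB]⟩
    obtain ⟨m1, hm1⟩ := h2
    refine ⟨m0 - m1, ?_⟩
    rw [hm1] at hm0
    push_cast
    linear_combination hm0

theorem cyc_comm {A : Type*} [Group A] [IsCyclic A] (a b : A) : a * b = b * a := by
  obtain ⟨g, hg⟩ := IsCyclic.exists_generator (α := A)
  obtain ⟨i, rfl⟩ := Subgroup.mem_zpowers_iff.mp (hg a)
  obtain ⟨j, rfl⟩ := Subgroup.mem_zpowers_iff.mp (hg b)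
  exact zpow_mul_comm g i j

theorem zpowers_coe_iff {G : Type*} [Group G] (A : Subgroup G) (a : A) :
    Subgroup.zpowers (a : G) = A ↔ Subgroup.zpowers a = ⊤ := by
  have h1 : (Subgroup.zpowers a).map A.subtype = Subgroup.zpowers (a : G) := by
    rw [MonoidHom.map_zpowers]
    rfl
  have h2 : (⊤ : Subgroup A).map A.subtype = A := by
    rw [← MonoidHom.range_eq_map, Subgroup.range_subtype]
  constructor
  · intro h
    apply Subgroup.map_injective A.subtype_injective
    rw [h1, h2, h]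
  · intro h
    rw [← h1, h, h2]

noncomputable def fA {G : Type*} [Group G] (χ : G → ℂ) (A : Subgroup G) : A → ℂ :=
  fun a => if Subgroup.zpowers (a : G) = A then (Nat.card A : ℂ) * χ a else 0

theorem ext_fA {G : Type*} [Group G] (χ : G → ℂ) (A : Subgroup G) (y : G) :
    Cfsg.extendByZero A (fA χ A) y =
      if Subgroup.zpowers y = A then (Nat.card A : ℂ) * χ y else 0 := by
  by_cases hy : y ∈ A
  · rw [extendByZero_mem A _ hy]
    rfl
  · rw [extendByZero_not_mem A _ hy, if_neg]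
    intro h
    apply hy
    rw [← h]
    exact Subgroup.mem_zpowers y

theorem artin_sum {G : Type*} [Group G] [Fintype G] [Fintype (Subgroup G)] (χ : G → ℂ)
    (hχ : Cfsg.IsClassFunction G χ) :
    ∑ A : Subgroup G, Cfsg.indFun A (fA χ A) = (Nat.card G : ℂ) • χ := by
  classical
  funext g
  simp only [Finset.sum_apply, Pi.smul_apply, smul_eq_mul]
  have h1 : ∀ A : Subgroup G, Cfsg.indFun A (fA χ A) g =
      ∑ x : G, if Subgroup.zpowers (x⁻¹ * g * x) = A then χ g else 0 := by
    intro A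
    unfold Cfsg.indFun
    rw [Finset.mul_sum]
    refine Finset.sum_congr rfl (fun x _ => ?_)
    rw [ext_fA]
    by_cases h : Subgroup.zpowers (x⁻¹ * g * x) = A
    · rw [if_pos h, if_pos h]
      have hc : (Nat.card A : ℂ) ≠ 0 := by exact_mod_cast Nat.card_pos.ne'
      have e : χ (x⁻¹ * g * x) = χ g := by
        have h5 := hχ g x⁻¹
        simpa using h5
      rw [e, ← mul_assoc, inv_mul_cancel₀ hc, one_mul]
    · rw [if_neg h, if_neg h, mul_zero]
  rw [Finset.sum_congr rfl (fun A _ => h1 A), Finset.sum_comm]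
  have h2 : ∀ x : G, ∑ A : Subgroup G,
      (if Subgroup.zpowers (x⁻¹ * g * x) = A then χ g else 0) = χ g := by
    intro x
    rw [Finset.sum_ite_eq]
    simp
  rw [Finset.sum_congr rfl (fun x _ => h2 x), Finset.sum_const, Finset.card_univ, nsmul_eq_mul,
    Fintype.card_eq_nat_card]

theorem indFun_sum_smul {G : Type*} [Group G] [Fintype G] (H : Subgroup G) {ι : Type*}
    (s : Finset ι) (c : ι → ℂ) (θ : ι → H → ℂ) :
    Cfsg.indFun H (∑ i ∈ s, c i • θ i) = ∑ i ∈ s, c i • Cfsg.indFun H (θ i) := by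
  funext g
  have key : ∀ y : G, Cfsg.extendByZero H (∑ i ∈ s, c i • θ i) y =
      ∑ i ∈ s, c i * Cfsg.extendByZero H (θ i) y := by
    intro y
    by_cases hy : y ∈ H
    · rw [extendByZero_mem H _ hy]
      simp only [Finset.sum_apply, Pi.smul_apply, smul_eq_mul]
      refine Finset.sum_congr rfl (fun i _ => ?_)
      rw [extendByZero_mem H _ hy]
    · rw [extendByZero_not_mem H _ hy]
      symm
      apply Finset.sum_eq_zero
      intro i _
      rw [extendByZero_not_mem H _ hy, mul_zero]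
  simp only [Finset.sum_apply, Pi.smul_apply, smul_eq_mul]
  unfold Cfsg.indFun
  rw [Finset.sum_congr rfl (fun x _ => key _), Finset.sum_comm, Finset.mul_sum]
  refine Finset.sum_congr rfl (fun i _ => ?_)
  rw [← Finset.mul_sum]
  ring

theorem indFun_zero {G : Type*} [Group G] [Fintype G] (H : Subgroup G) :
    Cfsg.indFun H (0 : H → ℂ) = 0 := by
  have h := indFun_sum_smul H (∅ : Finset ℕ) (fun _ => 0) (fun _ => (0 : H → ℂ))
  simpa using h

theorem coeff_list {G : Type*} [Group G] (A : Subgroup G) [Fintype A]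
    (hA : ∀ a b : A, a * b = b * a) (μ : A →* ℂˣ) :
    ∀ l : List (A → ℂ), (∀ ψ ∈ l, Cfsg.IsIrrCharacter A ψ) →
    ∃ m : ℤ, ∑ a : A, (if Subgroup.zpowers (a : G) = A then
      l.sum a * (((μ a)⁻¹ : ℂˣ) : ℂ) else 0) = m := by
  intro l
  induction l with
  | nil =>
    intro _
    exact ⟨0, by simp⟩
  | cons ψ l ih =>
    intro hl
    obtain ⟨m1, hm1⟩ := ih (fun ψ' h => hl ψ' (List.mem_cons_of_mem _ h))
    have hψ := hl ψ List.mem_cons_self
    obtain ⟨ν, rfl⟩ := hom_of_deg_one (isCharacter_of_irr hψ) (abelian_linear' hA hψ)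
    obtain ⟨m2, hm2⟩ := ram_int (ν * μ⁻¹) _ ⊤ rfl
    refine ⟨m2 + m1, ?_⟩
    push_cast
    rw [← hm1, ← hm2, ← Finset.sum_add_distrib]
    refine Finset.sum_congr rfl (fun a _ => ?_)
    by_cases h : Subgroup.zpowers (a : G) = A
    · have h' : Subgroup.zpowers a = ⊤ := (zpowers_coe_iff A a).mp h
      have e : ((ν * μ⁻¹) a : ℂ) = (ν a : ℂ) * (((μ a)⁻¹ : ℂˣ) : ℂ) := by
        rw [MonoidHom.mul_apply, MonoidHom.inv_apply, Units.val_mul]
      rw [if_pos h, if_pos h, if_pos h', List.sum_cons, Pi.add_apply, add_mul, e]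
      simp only [Units.val_inv_eq_inv_val]
    · have h' : ¬ Subgroup.zpowers a = ⊤ := fun h' => h ((zpowers_coe_iff A a).mpr h')
      rw [if_neg h, if_neg h, if_neg h', add_zero]

theorem coeff_int {G : Type*} [Group G] [Fintype G] (χ : G → ℂ) (hχ : Cfsg.IsCharacter G χ)
    (A : Subgroup G) [Fintype A] (hA : ∀ a b : A, a * b = b * a) (lam : A → ℂ)
    (hlam : Cfsg.IsIrrCharacter A lam) :
    ∃ (μ : A →* ℂˣ) (m : ℤ), lam = (fun a => (μ a : ℂ)) ∧
      Cfsg.classInner (fA χ A) lam = m := by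
  obtain ⟨μ, hμ⟩ := hom_of_deg_one (isCharacter_of_irr hlam) (abelian_linear' hA hlam)
  obtain ⟨l, hl, hsum⟩ := isCharacter_decomp (comp_isCharacter A.subtype hχ)
  obtain ⟨m, hm⟩ := coeff_list A hA μ l hl
  refine ⟨μ, m, hμ, ?_⟩
  rw [← hm]
  unfold Cfsg.classInner
  rw [Finset.mul_sum]
  refine Finset.sum_congr rfl (fun a _ => ?_)
  have hc : (Nat.card A : ℂ) ≠ 0 := by exact_mod_cast Nat.card_pos.ne'
  have hconj : conj (lam a) = (((μ a)⁻¹ : ℂˣ) : ℂ) := by
    rw [← char_inv (isCharacter_of_irr hlam) a, hμ]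
    simp
  unfold fA
  by_cases h : Subgroup.zpowers (a : G) = A
  · rw [if_pos h, if_pos h, hconj, ← hsum]
    simp only [Function.comp_apply, Subgroup.coe_subtype]
    rw [← mul_assoc, ← mul_assoc, inv_mul_cancel₀ hc, one_mul]
  · rw [if_neg h, if_neg h]
    simp

theorem fA_expand {G : Type*} [Group G] [Fintype G] (χ : G → ℂ) (hχ : Cfsg.IsCharacter G χ)
    (A : Subgroup G) (hA : IsCyclic A) [Fintype (Cfsg.IrrCharacter A)] :
    ∃ (μ : Cfsg.IrrCharacter A → (A →* ℂˣ)) (m : Cfsg.IrrCharacter A → ℤ),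
      fA χ A = ∑ lam : Cfsg.IrrCharacter A, (m lam : ℂ) • (fun a : A => (μ lam a : ℂ)) := by
  classical
  haveI : Fintype A := Fintype.ofFinite _
  have hcomm : ∀ a b : A, a * b = b * a := fun a b => cyc_comm a b
  have hex : ∀ lam : Cfsg.IrrCharacter A, ∃ (μ : A →* ℂˣ) (m : ℤ),
      (lam : A → ℂ) = (fun a => (μ a : ℂ)) ∧ Cfsg.classInner (fA χ A) lam = m :=
    fun lam => coeff_int χ hχ A hcomm lam lam.2
  choose μ m hμ hm using hex
  refine ⟨μ, m, ?_⟩
  have hcf : Cfsg.IsClassFunction A (fA χ A) := by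
    intro g h
    have e : h * g * h⁻¹ = g := by rw [hcomm h g, mul_inv_cancel_right]
    rw [e]
  have h1 := class_fun_expand (fA χ A) hcf
  rw [h1]
  refine Finset.sum_congr rfl (fun lam _ => ?_)
  rw [hm lam, ← hμ lam]

theorem main {G : Type*} [Group G] [Fintype G] (χ : G → ℂ) (hχ : Cfsg.IsCharacter G χ) :
    ∃ l : List ((A : Subgroup G) × ((A →* ℂˣ) × ℤ)), (∀ t ∈ l, IsCyclic t.1) ∧
      (Nat.card G : ℂ) • χ =
        (l.map fun t => (t.2.2 : ℂ) • Cfsg.indFun t.1 (fun a => (t.2.1 a : ℂ))).sum := by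
  classical
  haveI : Fintype (Subgroup G) := Fintype.ofFinite _
  haveI : ∀ A : Subgroup G, Fintype (Cfsg.IrrCharacter A) := fun A => Fintype.ofFinite _
  have hex : ∀ A : {A : Subgroup G // IsCyclic A},
      ∃ (μ : Cfsg.IrrCharacter A.1 → (A.1 →* ℂˣ)) (m : Cfsg.IrrCharacter A.1 → ℤ),
      fA χ A.1 = ∑ lam : Cfsg.IrrCharacter A.1, (m lam : ℂ) • (fun a : A.1 => (μ lam a : ℂ)) :=
    fun A => fA_expand χ hχ A.1 A.2
  choose μ m hexp using hex
  refine ⟨(Finset.univ : Finset (Σ A : {A : Subgroup G // IsCyclic A},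
    Cfsg.IrrCharacter A.1)).toList.map (fun p => ⟨p.1.1, (μ p.1 p.2, m p.1 p.2)⟩), ?_, ?_⟩
  · intro t ht
    rw [List.mem_map] at ht
    obtain ⟨p, _, rfl⟩ := ht
    exact p.1.2
  · have hsum : (List.map (fun t : (A : Subgroup G) × ((A →* ℂˣ) × ℤ) =>
          (t.2.2 : ℂ) • Cfsg.indFun t.1 (fun a => (t.2.1 a : ℂ)))
        ((Finset.univ : Finset (Σ A : {A : Subgroup G // IsCyclic A},
          Cfsg.IrrCharacter A.1)).toList.map
            (fun p => ⟨p.1.1, (μ p.1 p.2, m p.1 p.2)⟩))).sum =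
        ∑ p : (Σ A : {A : Subgroup G // IsCyclic A}, Cfsg.IrrCharacter A.1),
          (m p.1 p.2 : ℂ) • Cfsg.indFun p.1.1 (fun a => (μ p.1 p.2 a : ℂ)) := by
      rw [List.map_map]
      exact Finset.sum_map_toList _ _
    have h1 : ∑ A : Subgroup G, Cfsg.indFun A (fA χ A) =
        ∑ A : {A : Subgroup G // IsCyclic A}, Cfsg.indFun A.1 (fA χ A.1) := by
      rw [← Finset.sum_subtype (Finset.univ.filter (fun A : Subgroup G => IsCyclic A))
        (by simp) (fun A => Cfsg.indFun A (fA χ A))]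
      symm
      apply Finset.sum_subset (Finset.filter_subset _ _)
      intro A _ hA
      simp only [Finset.mem_filter, Finset.mem_univ, true_and] at hA
      have h3 : fA χ A = 0 := by
        funext a
        unfold fA
        rw [if_neg]
        · rfl
        · intro h
          apply hA
          exact h ▸ (inferInstance : IsCyclic (Subgroup.zpowers (a : G)))
      rw [h3, indFun_zero]
    rw [hsum, Fintype.sum_sigma, ← artin_sum χ (char_classFun hχ), h1]
    refine Finset.sum_congr rfl (fun A _ => ?_)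
    conv_lhs => rw [hexp A]
    rw [indFun_sum_smul]

end Cfsg.Agent.Lib.Helper1.Artin
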