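import Mathlib
import Cfsg.Agent.Lib.Helper1.Inv

set_option autoImplicit false

namespace Cfsg.Agent.Lib.Helper1.BF

open Cfsg.Agent.Lib.Helper1

variable {G : Type*} [Group G]

def cnt [DecidableEq G] (I : Finset G) (x : G) : ℕ := (I.filter (fun u => u * x ∈ I)).card

theorem sum_cnt [Fintype G] [DecidableEq G] (I : Finset G) :
    ∑ x : G, cnt I x = I.card ^ 2 := by
  unfold cnt
  simp only [Finset.card_filter]
  rw [Finset.sum_comm]
  have key : ∀ u ∈ I, ∑ x : G, (if u * x ∈ I then 1 else 0) = I.card := by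
    intro u _
    rw [← Finset.card_filter]
    apply Finset.card_bij (fun x _ => u * x)
    · intro x hx
      simpa using hx
    · intro a _ b _ h
      exact mul_left_cancel h
    · intro b hb
      exact ⟨u⁻¹ * b, by simp [hb], by simp⟩
  rw [Finset.sum_congr rfl key, Finset.sum_const, smul_eq_mul, sq]

theorem cnt_one [DecidableEq G] (I : Finset G) : cnt I 1 = I.card := by
  unfold cnt
  congr 1
  ext u
  simp

theorem inverts_of_mem {I : Finset G} (hI : ∀ u ∈ I, u * u = 1) {u x : G} (hu : u ∈ I)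
    (hux : u * x ∈ I) : u * x * u⁻¹ = x⁻¹ := by
  have h1 := hI u hu
  have h2 := hI _ hux
  have hinv : u⁻¹ = u := inv_eq_of_mul_eq_one_right h1
  rw [hinv]
  exact eq_inv_of_mul_eq_one_left (by simpa [mul_assoc] using h2)

theorem mem_centralizer_of_inverts {u₀ u x : G} (h0 : u₀ * x * u₀⁻¹ = x⁻¹)
    (hu : u * x * u⁻¹ = x⁻¹) : u₀⁻¹ * u ∈ Subgroup.centralizer ({x} : Set G) := by
  rw [Subgroup.mem_centralizer_singleton_iff]
  refine Eq.symm ?_
  calc x * (u₀⁻¹ * u) = u₀⁻¹ * (u₀ * x * u₀⁻¹) * u := by group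
    _ = u₀⁻¹ * x⁻¹ * u := by rw [h0]
    _ = u₀⁻¹ * (u * x * u⁻¹) * u := by rw [hu]
    _ = u₀⁻¹ * u * x := by group

theorem card_finset_le_card_subgroup [Finite G] (S : Finset G) (H : Subgroup G)
    (h : ∀ u ∈ S, u ∈ H) : S.card ≤ Nat.card H := by
  have h1 : S.card = Nat.card {u : G // u ∈ S} := by simp
  rw [h1]
  apply Nat.card_le_card_of_injective (fun u => (⟨u.1, h u.1 u.2⟩ : H))
  intro a b hab
  simp only [Subtype.mk.injEq] at hab
  exact Subtype.ext hab

theorem cnt_le_centralizer [Finite G] [DecidableEq G] (I : Finset G)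
    (hI : ∀ u ∈ I, u * u = 1) (x : G) :
    cnt I x ≤ Nat.card (Subgroup.centralizer ({x} : Set G)) := by
  unfold cnt
  by_cases hne : (I.filter (fun u => u * x ∈ I)).Nonempty
  · obtain ⟨u₀, hu₀⟩ := hne
    rw [Finset.mem_filter] at hu₀
    have h0 := inverts_of_mem hI hu₀.1 hu₀.2
    have hc : (I.filter (fun u => u * x ∈ I)).card =
        ((I.filter (fun u => u * x ∈ I)).image (fun u => u₀⁻¹ * u)).card := by
      rw [Finset.card_image_of_injective]
      intro a b hab
      exact mul_left_cancel hab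
    rw [hc]
    apply card_finset_le_card_subgroup
    intro w hw
    rw [Finset.mem_image] at hw
    obtain ⟨u, hu, rfl⟩ := hw
    rw [Finset.mem_filter] at hu
    exact mem_centralizer_of_inverts h0 (inverts_of_mem hI hu.1 hu.2)
  · rw [Finset.not_nonempty_iff_eq_empty] at hne
    rw [hne]
    simp

theorem cnt_add_two_le [Finite G] [DecidableEq G] (I : Finset G) (hI : ∀ u ∈ I, u * u = 1)
    (hI1 : (1 : G) ∉ I) (x : G) (hx : x * x = 1) (hx1 : x ≠ 1) :
    cnt I x + 2 ≤ Nat.card (Subgroup.centralizer ({x} : Set G)) := by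
  unfold cnt
  have hxinv : x⁻¹ = x := inv_eq_of_mul_eq_one_right hx
  have h1 : (1 : G) ∉ I.filter (fun u => u * x ∈ I) := by
    intro h
    exact hI1 (Finset.mem_filter.mp h).1
  have h2 : x ∉ insert (1 : G) (I.filter (fun u => u * x ∈ I)) := by
    intro h
    rcases Finset.mem_insert.mp h with h | h
    · exact hx1 h
    · have := (Finset.mem_filter.mp h).2
      rw [hx] at this
      exact hI1 this
  have hc : (insert x (insert (1 : G) (I.filter (fun u => u * x ∈ I)))).card =
      (I.filter (fun u => u * x ∈ I)).card + 2 := by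
    rw [Finset.card_insert_of_notMem h2, Finset.card_insert_of_notMem h1]
  rw [← hc]
  apply card_finset_le_card_subgroup
  intro w hw
  rcases Finset.mem_insert.mp hw with rfl | hw
  · exact Subgroup.mem_centralizer_singleton_iff.mpr rfl
  rcases Finset.mem_insert.mp hw with rfl | hw
  · exact Subgroup.one_mem _
  · rw [Finset.mem_filter] at hw
    have h3 := inverts_of_mem hI hw.1 hw.2
    rw [hxinv] at h3
    rw [Subgroup.mem_centralizer_singleton_iff]
    have : w * x = x * w := by
      calc w * x = (w * x * w⁻¹) * w := by group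
        _ = x * w := by rw [h3]
    exact this

def extCentralizer (x : G) : Subgroup G where
  carrier := {g | g * x * g⁻¹ = x ∨ g * x * g⁻¹ = x⁻¹}
  one_mem' := Or.inl (by group)
  mul_mem' := by
    intro g h hg hh
    have e : g * h * x * (g * h)⁻¹ = g * (h * x * h⁻¹) * g⁻¹ := by group
    have e' : g * x⁻¹ * g⁻¹ = (g * x * g⁻¹)⁻¹ := by group
    rcases hh with hh | hh
    · rcases hg with hg | hg
      · left
        rw [e, hh, hg]
      · right
        rw [e, hh, hg]
    · rcases hg with hg | hg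
      · right
        rw [e, hh, e', hg]
      · left
        rw [e, hh, e', hg, inv_inv]
  inv_mem' := by
    intro g hg
    rcases hg with hg | hg
    · left
      calc g⁻¹ * x * g⁻¹⁻¹ = g⁻¹ * (g * x * g⁻¹) * g := by rw [hg, inv_inv]
        _ = x := by group
    · right
      have : x = g⁻¹ * x⁻¹ * g := by
        calc x = g⁻¹ * (g * x * g⁻¹) * g := by group
          _ = g⁻¹ * x⁻¹ * g := by rw [hg]
      calc g⁻¹ * x * g⁻¹⁻¹ = (g⁻¹ * x⁻¹ * g)⁻¹ := by group
        _ = x⁻¹ := by rw [← this]

theorem mem_extCentralizer (x g : G) :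
    g ∈ extCentralizer x ↔ g * x * g⁻¹ = x ∨ g * x * g⁻¹ = x⁻¹ := Iff.rfl

theorem two_cnt_le_ext [Finite G] [DecidableEq G] (I : Finset G) (hI : ∀ u ∈ I, u * u = 1)
    (x : G) (hx : x * x ≠ 1) : 2 * cnt I x ≤ Nat.card (extCentralizer x) := by
  unfold cnt
  by_cases hne : (I.filter (fun u => u * x ∈ I)).Nonempty
  · obtain ⟨u₀, hu₀⟩ := hne
    rw [Finset.mem_filter] at hu₀
    have h0 := inverts_of_mem hI hu₀.1 hu₀.2
    have hxx : x ≠ x⁻¹ := by
      intro h
      apply hx
      calc x * x = x * x⁻¹ := by rw [← h]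
        _ = 1 := mul_inv_cancel x
    have hc : ((I.filter (fun u => u * x ∈ I)).image (fun u => u₀⁻¹ * u)).card =
        (I.filter (fun u => u * x ∈ I)).card := by
      rw [Finset.card_image_of_injective]
      intro a b hab
      exact mul_left_cancel hab
    have hdisj : Disjoint (I.filter (fun u => u * x ∈ I))
        ((I.filter (fun u => u * x ∈ I)).image (fun u => u₀⁻¹ * u)) := by
      rw [Finset.disjoint_left]
      intro w hw1 hw2
      rw [Finset.mem_filter] at hw1
      have h3 := inverts_of_mem hI hw1.1 hw1.2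
      rw [Finset.mem_image] at hw2
      obtain ⟨u, hu, rfl⟩ := hw2
      rw [Finset.mem_filter] at hu
      have h4 := mem_centralizer_of_inverts h0 (inverts_of_mem hI hu.1 hu.2)
      rw [Subgroup.mem_centralizer_singleton_iff] at h4
      apply hxx
      calc x = x * (u₀⁻¹ * u) * (u₀⁻¹ * u)⁻¹ := by group
        _ = (u₀⁻¹ * u) * x * (u₀⁻¹ * u)⁻¹ := by rw [h4]
        _ = x⁻¹ := h3
    have hcard : 2 * (I.filter (fun u => u * x ∈ I)).card =
        ((I.filter (fun u => u * x ∈ I)) ∪
          ((I.filter (fun u => u * x ∈ I)).image (fun u => u₀⁻¹ * u))).card := by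
      rw [Finset.card_union_of_disjoint hdisj, hc]
      ring
    rw [hcard]
    apply card_finset_le_card_subgroup
    intro w hw
    rcases Finset.mem_union.mp hw with hw | hw
    · rw [Finset.mem_filter] at hw
      exact Or.inr (inverts_of_mem hI hw.1 hw.2)
    · rw [Finset.mem_image] at hw
      obtain ⟨u, hu, rfl⟩ := hw
      rw [Finset.mem_filter] at hu
      have h4 := mem_centralizer_of_inverts h0 (inverts_of_mem hI hu.1 hu.2)
      rw [Subgroup.mem_centralizer_singleton_iff] at h4
      left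
      calc (u₀⁻¹ * u) * x * (u₀⁻¹ * u)⁻¹ = x * (u₀⁻¹ * u) * (u₀⁻¹ * u)⁻¹ := by rw [h4]
        _ = x := by group
  · rw [Finset.not_nonempty_iff_eq_empty] at hne
    rw [hne]
    simp

theorem card_le_factorial_index [Finite G] [IsSimpleGroup G] (H : Subgroup G) (hH : H ≠ ⊤) :
    Nat.card G ≤ H.index.factorial := by
  have hker : (MulAction.toPermHom G (G ⧸ H)).ker ≤ H := by
    intro g hg
    rw [MonoidHom.mem_ker] at hg
    have h1 := congrArg (fun σ : Equiv.Perm (G ⧸ H) => σ (QuotientGroup.mk 1)) hg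
    simp only [MulAction.toPermHom_apply, MulAction.toPerm_apply, Equiv.Perm.coe_one, id_eq] at h1
    have h2 : (QuotientGroup.mk (g * 1) : G ⧸ H) = QuotientGroup.mk 1 := h1
    rw [QuotientGroup.eq] at h2
    simpa using H.inv_mem h2
  have hbot : (MulAction.toPermHom G (G ⧸ H)).ker = ⊥ := by
    rcases (MonoidHom.normal_ker (MulAction.toPermHom G (G ⧸ H))).eq_bot_or_eq_top with h | h
    · exact h
    · exfalso
      apply hH
      rw [eq_top_iff, ← h]
      exact hker
  have hinj : Function.Injective (MulAction.toPermHom G (G ⧸ H)) :=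
    (MonoidHom.ker_eq_bot_iff _).mp hbot
  have h3 := Nat.card_le_card_of_injective _ hinj
  rw [Nat.card_perm] at h3
  exact h3

end Cfsg.Agent.Lib.Helper1.BF
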