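import Mathlib
import Cfsg.Agent.Lib.Helper1.BF

set_option autoImplicit false

namespace Cfsg.Agent.Lib.Helper1.BF

open Cfsg.Agent.Lib.Helper1

theorem centralizer_ne_top_of_center_bot {G : Type*} [Group G] (hc : Subgroup.center G = ⊥)
    (x : G) (hx : x ≠ 1) : Subgroup.centralizer ({x} : Set G) ≠ ⊤ := by
  intro h
  apply hx
  have : x ∈ Subgroup.center G := by
    rw [Subgroup.mem_center_iff]
    intro g
    have hg : g ∈ Subgroup.centralizer ({x} : Set G) := by rw [h]; trivial
    exact Subgroup.mem_centralizer_singleton_iff.mp hg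
  rw [hc, Subgroup.mem_bot] at this
  exact this

theorem brauer_fowler_bound {G : Type*} [Group G] [Finite G] [IsSimpleGroup G] (t : G)
    (ht : orderOf t = 2) :
    Nat.card G ≤ Nat.factorial (2 * (Nat.card (Subgroup.centralizer ({t} : Set G))) ^ 2) := by
  classical
  haveI : Fintype G := Fintype.ofFinite G
  obtain ⟨n, hn⟩ : ∃ n, n = Nat.card (Subgroup.centralizer ({t} : Set G)) := ⟨_, rfl⟩
  rw [← hn]
  have hnpos : 0 < n := by rw [hn]; exact Nat.card_pos
  by_cases htop : Subgroup.centralizer ({t} : Set G) = ⊤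
  · have h1 : n = Nat.card G := by
      rw [hn, htop, Subgroup.card_top]
    rw [← h1]
    have h2 : n ≤ 2 * n ^ 2 := by nlinarith
    exact le_trans h2 (Nat.self_le_factorial _)
  · have hcen : Subgroup.center G = ⊥ := by
      rcases (inferInstance : (Subgroup.center G).Normal).eq_bot_or_eq_top with h | h
      · exact h
      · exfalso
        apply htop
        rw [eq_top_iff, ← h]
        exact Subgroup.center_le_centralizer _
    by_contra hcon
    rw [not_le] at hcon
    obtain ⟨K, hK⟩ : ∃ K : Finset G, K = Finset.univ.filter (fun u => IsConj t u) := ⟨_, rfl⟩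
    have hmK : ∀ u, u ∈ K ↔ IsConj t u := by intro u; simp [hK]
    have hKI : ∀ u ∈ K, u * u = 1 := by
      intro u hu
      obtain ⟨g, rfl⟩ := isConj_iff.mp ((hmK u).mp hu)
      exact mul_self_of_orderOf_two (orderOf_conj_two ht g)
    obtain ⟨N', hN'⟩ : ∃ N', Nat.card G = N' + 1 := ⟨Nat.card G - 1, by
      have : 0 < Nat.card G := Nat.card_pos
      omega⟩
    have hmn : K.card * n = N' + 1 := by
      have h1 := card_eq_card_conj_mul_card_centralizer t
      have h2 : Nat.card {u : G // IsConj t u} = K.card := by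
        rw [Nat.card_eq_fintype_card, Fintype.card_subtype, hK]
      rw [h2, ← hn, hN'] at h1
      exact h1.symm
    have h2n : 2 * n ≤ N' + 1 := by
      have h1 := (Subgroup.centralizer ({t} : Set G)).card_mul_index
      rw [← hn, hN'] at h1
      have h2 : (Subgroup.centralizer ({t} : Set G)).index ≠ 1 := by
        rw [Ne, Subgroup.index_eq_one]
        exact htop
      have h3 : (Subgroup.centralizer ({t} : Set G)).index ≠ 0 := Subgroup.index_ne_zero_of_finite
      have h4 : 2 ≤ (Subgroup.centralizer ({t} : Set G)).index := by omega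
      calc 2 * n = n * 2 := by ring
        _ ≤ n * (Subgroup.centralizer ({t} : Set G)).index := Nat.mul_le_mul_left _ h4
        _ = N' + 1 := h1
    have hbound : ∀ x : G, x ≠ 1 → 2 * n ^ 2 * BF.cnt K x ≤ N' := by
      intro x hx
      have hCx := centralizer_ne_top_of_center_bot hcen x hx
      have h1 := card_le_factorial_index _ hCx
      have h2 : 2 * n ^ 2 < (Subgroup.centralizer ({x} : Set G)).index := by
        by_contra h
        rw [not_lt] at h
        have := Nat.factorial_le h
        omega
      have h3 := (Subgroup.centralizer ({x} : Set G)).card_mul_index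
      rw [hN'] at h3
      have h4 := cnt_le_centralizer K hKI x
      have h5 : 2 * n ^ 2 * BF.cnt K x < N' + 1 := by
        calc 2 * n ^ 2 * BF.cnt K x
            ≤ 2 * n ^ 2 * Nat.card (Subgroup.centralizer ({x} : Set G)) :=
              Nat.mul_le_mul_left _ h4
          _ = Nat.card (Subgroup.centralizer ({x} : Set G)) * (2 * n ^ 2) := by ring
          _ < Nat.card (Subgroup.centralizer ({x} : Set G)) *
              (Subgroup.centralizer ({x} : Set G)).index :=
              Nat.mul_lt_mul_of_pos_left h2 Nat.card_pos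
          _ = N' + 1 := h3
      omega
    have hsum := sum_cnt K
    rw [← Finset.add_sum_erase Finset.univ _ (Finset.mem_univ (1 : G)), cnt_one] at hsum
    obtain ⟨S, hS⟩ : ∃ S, S = ∑ x ∈ Finset.univ.erase (1 : G), BF.cnt K x := ⟨_, rfl⟩
    rw [← hS] at hsum
    have hSb : 2 * n ^ 2 * S ≤ N' * N' := by
      rw [hS, Finset.mul_sum]
      calc ∑ x ∈ Finset.univ.erase (1 : G), 2 * n ^ 2 * BF.cnt K x
          ≤ ∑ _x ∈ Finset.univ.erase (1 : G), N' := by
            apply Finset.sum_le_sum
            intro x hx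
            exact hbound x (Finset.ne_of_mem_erase hx)
        _ = N' * N' := by
            rw [Finset.sum_const, Finset.card_erase_of_mem (Finset.mem_univ _), Finset.card_univ,
              ← Nat.card_eq_fintype_card, hN', smul_eq_mul]
            simp
    obtain ⟨m, hm⟩ : ∃ m, m = K.card := ⟨_, rfl⟩
    rw [← hm] at hsum hmn
    have e1 : 2 * n ^ 2 * m ^ 2 = 2 * (N' + 1) ^ 2 := by rw [← hmn]; ring
    have e2 : 2 * n ^ 2 * m = 2 * n * (N' + 1) := by rw [← hmn]; ring
    have e3 : 2 * n * (N' + 1) ≤ (N' + 1) * (N' + 1) := Nat.mul_le_mul_right _ h2n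
    have e4 : 2 * n ^ 2 * m ^ 2 = 2 * n ^ 2 * m + 2 * n ^ 2 * S := by rw [← hsum]; ring
    have e5 : 2 * (N' + 1) ^ 2 ≤ (N' + 1) * (N' + 1) + N' * N' := by
      rw [← e1, e4, e2]
      exact add_le_add e3 hSb
    nlinarith

end Cfsg.Agent.Lib.Helper1.BF
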