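import Mathlib
import Cfsg.Agent.Lib.Helper1.BF2

set_option autoImplicit false

namespace Cfsg.Agent.Lib.Helper1.BF

open Cfsg.Agent.Lib.Helper1

theorem centralizer_ne_top_of_not_mem_center {G : Type*} [Group G] (x : G)
    (hx : x ∉ Subgroup.center G) : Subgroup.centralizer ({x} : Set G) ≠ ⊤ := by
  intro h
  apply hx
  rw [Subgroup.mem_center_iff]
  intro g
  have hg : g ∈ Subgroup.centralizer ({x} : Set G) := by rw [h]; trivial
  exact Subgroup.mem_centralizer_singleton_iff.mp hg

theorem index_two_of_ext_top {G : Type*} [Group G] (x u₀ : G) (hx : x * x ≠ 1)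
    (h0 : u₀ * x * u₀⁻¹ = x⁻¹) (htop : extCentralizer x = ⊤) :
    (Subgroup.centralizer ({x} : Set G)).index = 2 := by
  have hxx : x ≠ x⁻¹ := by
    intro h
    apply hx
    calc x * x = x * x⁻¹ := by rw [← h]
      _ = 1 := mul_inv_cancel x
  rw [Subgroup.index_eq_two_iff_exists_notMem_and]
  refine ⟨u₀, ?_, ?_⟩
  · intro h
    rw [Subgroup.mem_centralizer_singleton_iff] at h
    apply hxx
    calc x = x * u₀ * u₀⁻¹ := by group
      _ = u₀ * x * u₀⁻¹ := by rw [h]
      _ = x⁻¹ := h0
  · intro b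
    have hb : b ∈ extCentralizer x := by rw [htop]; trivial
    rcases (mem_extCentralizer x b).mp hb with hb | hb
    · right
      rw [Subgroup.mem_centralizer_singleton_iff]
      calc b * x = (b * x * b⁻¹) * b := by group
        _ = x * b := by rw [hb]
    · left
      rw [Subgroup.mem_centralizer_singleton_iff]
      have e : b * x⁻¹ * b⁻¹ = (b * x * b⁻¹)⁻¹ := by group
      calc b * u₀ * x = b * (u₀ * x * u₀⁻¹) * b⁻¹ * (b * u₀) := by group
        _ = b * x⁻¹ * b⁻¹ * (b * u₀) := by rw [h0]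
        _ = x * (b * u₀) := by rw [e, hb, inv_inv]

theorem brauer_fowler_index {G : Type*} [Group G] [Finite G] (heven : Even (Nat.card G))
    (hZ : Odd (Nat.card (Subgroup.center G))) :
    ∃ H : Subgroup G, H ≠ ⊤ ∧ (H.index = 2 ∨
      2 * H.index * (Nat.card {t : G // orderOf t = 2}) ^ 2 <
        Nat.card G * (Nat.card G + Nat.card {t : G // orderOf t = 2})) := by
  classical
  haveI : Fintype G := Fintype.ofFinite G
  obtain ⟨I, hI⟩ : ∃ I : Finset G, I = Finset.univ.filter (fun u => orderOf u = 2) := ⟨_, rfl⟩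
  have hmI : ∀ u, u ∈ I ↔ orderOf u = 2 := by intro u; simp [hI]
  obtain ⟨n, hn⟩ : ∃ n, n = I.card := ⟨_, rfl⟩
  have hcardI : Nat.card {t : G // orderOf t = 2} = n := by
    rw [Nat.card_eq_fintype_card, Fintype.card_subtype, hn, hI]
  rw [hcardI]
  have hII : ∀ u ∈ I, u * u = 1 := fun u hu => mul_self_of_orderOf_two ((hmI u).mp hu)
  have hI1 : (1 : G) ∉ I := by
    intro h
    have := (hmI 1).mp h
    rw [orderOf_one] at this
    omega
  have hnpos : 0 < n := by
    haveI : Fact (Nat.Prime 2) := ⟨Nat.prime_two⟩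
    obtain ⟨t, ht⟩ := exists_prime_orderOf_dvd_card' (G := G) 2 heven.two_dvd
    rw [hn]
    exact Finset.card_pos.mpr ⟨t, (hmI t).mpr ht⟩
  have hnc : ∀ t : G, orderOf t = 2 → t ∉ Subgroup.center G := by
    intro t ht htc
    have h1 : orderOf (⟨t, htc⟩ : Subgroup.center G) = 2 := by
      rw [← ht]
      exact Subgroup.orderOf_mk t htc
    have h2 := orderOf_dvd_natCard (⟨t, htc⟩ : Subgroup.center G)
    rw [h1] at h2
    rcases hZ with ⟨k, hk⟩
    omega
  obtain ⟨N', hN'⟩ : ∃ N', Nat.card G = N' + 1 := ⟨Nat.card G - 1, by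
    have : 0 < Nat.card G := Nat.card_pos
    omega⟩
  rw [hN']
  by_contra hcon
  have hall : ∀ H : Subgroup G, H ≠ ⊤ → H.index ≠ 2 ∧
      (N' + 1) * (N' + 1 + n) ≤ 2 * H.index * n ^ 2 := by
    intro H hH
    constructor
    · intro h
      exact hcon ⟨H, hH, Or.inl h⟩
    · by_contra h
      rw [not_le] at h
      exact hcon ⟨H, hH, Or.inr h⟩
  have hkey : ∀ H : Subgroup G, H ≠ ⊤ → Nat.card H * (N' + 1 + n) ≤ 2 * n ^ 2 := by
    intro H hH
    have h1 := (hall H hH).2
    have h2 := H.card_mul_index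
    rw [hN'] at h2
    have h3 : (N' + 1) * (Nat.card H * (N' + 1 + n)) ≤ (N' + 1) * (2 * n ^ 2) := by
      calc (N' + 1) * (Nat.card H * (N' + 1 + n))
          = Nat.card H * ((N' + 1) * (N' + 1 + n)) := by ring
        _ ≤ Nat.card H * (2 * H.index * n ^ 2) := Nat.mul_le_mul_left _ h1
        _ = (Nat.card H * H.index) * (2 * n ^ 2) := by ring
        _ = (N' + 1) * (2 * n ^ 2) := by rw [h2]
    exact Nat.le_of_mul_le_mul_left h3 (Nat.succ_pos N')
  have hw : ∀ x : G, x ≠ 1 →
      (BF.cnt I x + (if x ∈ I then 2 else 0)) * (N' + 1 + n) ≤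
        n ^ 2 + (if x ∈ I then n ^ 2 else 0) := by
    intro x hx
    by_cases hxI : x ∈ I
    · rw [if_pos hxI, if_pos hxI]
      have hx2 := (hmI x).mp hxI
      have hCx := centralizer_ne_top_of_not_mem_center x (hnc x hx2)
      have h1 := cnt_add_two_le I hII hI1 x (mul_self_of_orderOf_two hx2) hx
      have h2 := hkey _ hCx
      calc (BF.cnt I x + 2) * (N' + 1 + n)
          ≤ Nat.card (Subgroup.centralizer ({x} : Set G)) * (N' + 1 + n) :=
            Nat.mul_le_mul_right _ h1
        _ ≤ 2 * n ^ 2 := h2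
        _ = n ^ 2 + n ^ 2 := by ring
    · rw [if_neg hxI, if_neg hxI, add_zero, add_zero]
      have hxx : x * x ≠ 1 := by
        intro h
        exact hxI ((hmI x).mpr (orderOf_two_of h hx))
      by_cases hc0 : BF.cnt I x = 0
      · rw [hc0, zero_mul]
        exact Nat.zero_le _
      · have hne : (I.filter (fun u => u * x ∈ I)).Nonempty := by
          rw [Finset.nonempty_iff_ne_empty]
          intro h
          apply hc0
          unfold BF.cnt
          rw [h, Finset.card_empty]
        obtain ⟨u₀, hu₀⟩ := hne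
        rw [Finset.mem_filter] at hu₀
        have h0 := inverts_of_mem hII hu₀.1 hu₀.2
        have hext : extCentralizer x ≠ ⊤ := by
          intro htop
          have h2 := index_two_of_ext_top x u₀ hxx h0 htop
          have h3 : Subgroup.centralizer ({x} : Set G) ≠ ⊤ := by
            intro h
            rw [h, Subgroup.index_top] at h2
            omega
          exact (hall _ h3).1 h2
        have h1 := two_cnt_le_ext I hII x hxx
        have h2 := hkey _ hext
        have h3 : 2 * (BF.cnt I x * (N' + 1 + n)) ≤ 2 * n ^ 2 := by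
          calc 2 * (BF.cnt I x * (N' + 1 + n)) = (2 * BF.cnt I x) * (N' + 1 + n) := by ring
            _ ≤ Nat.card (extCentralizer x) * (N' + 1 + n) := Nat.mul_le_mul_right _ h1
            _ ≤ 2 * n ^ 2 := h2
        omega
  have hsum := sum_cnt I
  rw [← Finset.add_sum_erase Finset.univ _ (Finset.mem_univ (1 : G)), cnt_one, ← hn] at hsum
  obtain ⟨S, hS⟩ : ∃ S, S = ∑ x ∈ Finset.univ.erase (1 : G), BF.cnt I x := ⟨_, rfl⟩
  rw [← hS] at hsum
  have hinter : (Finset.univ.erase (1 : G)) ∩ I = I := by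
    ext u
    simp only [Finset.mem_inter, Finset.mem_erase, Finset.mem_univ, and_true]
    constructor
    · exact fun h => h.2
    · intro h
      refine ⟨?_, h⟩
      rintro rfl
      exact hI1 h
  have hcardE : (Finset.univ.erase (1 : G)).card = N' := by
    rw [Finset.card_erase_of_mem (Finset.mem_univ _), Finset.card_univ,
      ← Nat.card_eq_fintype_card, hN']
    simp
  have hL : ∑ x ∈ Finset.univ.erase (1 : G),
      (BF.cnt I x + (if x ∈ I then 2 else 0)) * (N' + 1 + n) = (S + 2 * n) * (N' + 1 + n) := by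
    rw [← Finset.sum_mul, Finset.sum_add_distrib, ← hS, Finset.sum_ite_mem, hinter,
      Finset.sum_const, ← hn, smul_eq_mul]
    ring
  have hR : ∑ x ∈ Finset.univ.erase (1 : G), (n ^ 2 + (if x ∈ I then n ^ 2 else 0)) =
      N' * n ^ 2 + n * n ^ 2 := by
    rw [Finset.sum_add_distrib, Finset.sum_const, hcardE, Finset.sum_ite_mem, hinter,
      Finset.sum_const, ← hn, smul_eq_mul, smul_eq_mul]
  have hle : (S + 2 * n) * (N' + 1 + n) ≤ N' * n ^ 2 + n * n ^ 2 := by
    rw [← hL, ← hR]
    apply Finset.sum_le_sum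
    intro x hx
    exact hw x (Finset.ne_of_mem_erase hx)
  have hS2 : S + 2 * n = n ^ 2 + n := by omega
  rw [hS2] at hle
  nlinarith

end Cfsg.Agent.Lib.Helper1.BF
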