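import Mathlib
import Cfsg.Agent.Lib.Helper1.BF3

set_option autoImplicit false

namespace Cfsg.Agent.Lib.Helper1.BF

open Cfsg.Agent.Lib.Helper1

universe u

theorem cube_of_index_two {G : Type*} [Group G] [Finite G] (H : Subgroup G) (h : H.index = 2)
    (hgt : 2 < Nat.card G) : H ≠ ⊤ ∧ Nat.card G < Nat.card H ^ 3 := by
  constructor
  · intro htop
    rw [htop, Subgroup.index_top] at h
    omega
  · have h1 := H.card_mul_index
    rw [h] at h1
    obtain ⟨m, hm⟩ : ∃ m, m = Nat.card H := ⟨_, rfl⟩
    rw [← hm] at h1 ⊢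
    rw [← h1] at hgt ⊢
    have hm2 : 2 ≤ m := by omega
    nlinarith [mul_le_mul hm2 hm2 (by norm_num) (Nat.zero_le m)]

theorem cube_case_B {G : Type*} [Group G] [Finite G] (heven : Even (Nat.card G))
    (hgt : 2 < Nat.card G) (hnc : ∀ t : G, orderOf t = 2 → t ∉ Subgroup.center G) :
    ∃ H : Subgroup G, H ≠ ⊤ ∧ Nat.card G < Nat.card H ^ 3 := by
  classical
  haveI : Fintype G := Fintype.ofFinite G
  haveI : Nontrivial G := by
    rw [← Finite.one_lt_card_iff_nontrivial]
    omega
  haveI : Nonempty {H : Subgroup G // H ≠ ⊤} := ⟨⟨⊥, bot_ne_top⟩⟩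
  obtain ⟨⟨H₀, hH₀⟩, hmax⟩ := Finite.exists_max (fun H : {H : Subgroup G // H ≠ ⊤} => Nat.card H.1)
  refine ⟨H₀, hH₀, ?_⟩
  by_contra hcon
  rw [not_lt] at hcon
  obtain ⟨h, hh⟩ : ∃ h, h = Nat.card H₀ := ⟨_, rfl⟩
  rw [← hh] at hcon
  have hle : ∀ H : Subgroup G, H ≠ ⊤ → Nat.card H ≤ h := by
    intro H hH
    rw [hh]
    exact hmax ⟨H, hH⟩
  obtain ⟨I, hI⟩ : ∃ I : Finset G, I = Finset.univ.filter (fun u => orderOf u = 2) := ⟨_, rfl⟩
  have hmI : ∀ u, u ∈ I ↔ orderOf u = 2 := by intro u; simp [hI]
  obtain ⟨n, hn⟩ : ∃ n, n = I.card := ⟨_, rfl⟩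
  have hII : ∀ u ∈ I, u * u = 1 := fun u hu => mul_self_of_orderOf_two ((hmI u).mp hu)
  have hI1 : (1 : G) ∉ I := by
    intro h
    have := (hmI 1).mp h
    rw [orderOf_one] at this
    omega
  obtain ⟨N', hN'⟩ : ∃ N', Nat.card G = N' + 1 := ⟨Nat.card G - 1, by omega⟩
  rw [hN'] at hcon
  have hNle : N' + 1 ≤ n * h := by
    haveI : Fact (Nat.Prime 2) := ⟨Nat.prime_two⟩
    obtain ⟨t, ht⟩ := exists_prime_orderOf_dvd_card' (G := G) 2 heven.two_dvd
    have h1 := card_eq_card_conj_mul_card_centralizer t
    rw [hN'] at h1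
    have h2 : Nat.card {u : G // IsConj t u} ≤ n := by
      rw [Nat.card_eq_fintype_card, Fintype.card_subtype, hn]
      apply Finset.card_le_card
      intro u hu
      simp only [Finset.mem_filter, Finset.mem_univ, true_and] at hu
      obtain ⟨g, rfl⟩ := isConj_iff.mp hu
      exact (hmI _).mpr (orderOf_conj_two ht g)
    have h3 := hle _ (centralizer_ne_top_of_not_mem_center t (hnc t ht))
    rw [h1]
    exact Nat.mul_le_mul h2 h3
  have hw : ∀ x : G, x ≠ 1 → BF.cnt I x + (if x ∈ I then 2 else 0) ≤ h := by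
    intro x hx
    by_cases hxI : x ∈ I
    · rw [if_pos hxI]
      have hx2 := (hmI x).mp hxI
      have hCx := centralizer_ne_top_of_not_mem_center x (hnc x hx2)
      exact le_trans (cnt_add_two_le I hII hI1 x (mul_self_of_orderOf_two hx2) hx) (hle _ hCx)
    · rw [if_neg hxI, add_zero]
      by_cases hC : Subgroup.centralizer ({x} : Set G) = ⊤
      · have hc0 : BF.cnt I x = 0 := by
          unfold BF.cnt
          rw [Finset.card_eq_zero, Finset.eq_empty_iff_forall_notMem]
          intro u hu
          rw [Finset.mem_filter] at hu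
          have h0 := inverts_of_mem hII hu.1 hu.2
          have hu' : u ∈ Subgroup.centralizer ({x} : Set G) := by rw [hC]; trivial
          rw [Subgroup.mem_centralizer_singleton_iff] at hu'
          have hxx : x * x = 1 := by
            have e : x = x⁻¹ := by
              calc x = x * u * u⁻¹ := by group
                _ = u * x * u⁻¹ := by rw [hu']
                _ = x⁻¹ := h0
            calc x * x = x * x⁻¹ := by rw [← e]
              _ = 1 := mul_inv_cancel x
          exact hxI ((hmI x).mpr (orderOf_two_of hxx hx))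
        rw [hc0]
        exact Nat.zero_le _
      · exact le_trans (cnt_le_centralizer I hII x) (hle _ hC)
  have hsum := sum_cnt I
  rw [← Finset.add_sum_erase Finset.univ _ (Finset.mem_univ (1 : G)), cnt_one, ← hn] at hsum
  obtain ⟨S, hS⟩ : ∃ S, S = ∑ x ∈ Finset.univ.erase (1 : G), BF.cnt I x := ⟨_, rfl⟩
  rw [← hS] at hsum
  have hinter : (Finset.univ.erase (1 : G)) ∩ I = I := by
    ext u
    simp only [Finset.mem_inter, Finset.mem_erase, Finset.mem_univ, and_true]
    constructor
    · exact fun h => h.2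
    · intro h
      refine ⟨?_, h⟩
      rintro rfl
      exact hI1 h
  have hcardE : (Finset.univ.erase (1 : G)).card = N' := by
    rw [Finset.card_erase_of_mem (Finset.mem_univ _), Finset.card_univ,
      ← Nat.card_eq_fintype_card, hN']
    simp
  have hL : ∑ x ∈ Finset.univ.erase (1 : G), (BF.cnt I x + (if x ∈ I then 2 else 0)) =
      S + 2 * n := by
    rw [Finset.sum_add_distrib, ← hS, Finset.sum_ite_mem, hinter, Finset.sum_const, ← hn,
      smul_eq_mul]
    ring
  have hle2 : S + 2 * n ≤ N' * h := by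
    rw [← hL]
    calc ∑ x ∈ Finset.univ.erase (1 : G), (BF.cnt I x + (if x ∈ I then 2 else 0))
        ≤ ∑ _x ∈ Finset.univ.erase (1 : G), h := by
          apply Finset.sum_le_sum
          intro x hx
          exact hw x (Finset.ne_of_mem_erase hx)
      _ = N' * h := by rw [Finset.sum_const, hcardE, smul_eq_mul]
  have hS2 : n ^ 2 + n ≤ N' * h := by omega
  have e1 : (n * h) ^ 2 + n * h ^ 2 = h ^ 2 * (n ^ 2 + n) := by ring
  have e2 : h ^ 2 * (n ^ 2 + n) ≤ h ^ 2 * (N' * h) := Nat.mul_le_mul_left _ hS2
  have e3 : h ^ 2 * (N' * h) = N' * h ^ 3 := by ring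
  have e4 : N' * h ^ 3 ≤ N' * (N' + 1) := Nat.mul_le_mul_left _ hcon
  have e5 : (N' + 1) ^ 2 ≤ (n * h) ^ 2 := Nat.pow_le_pow_left hNle 2
  nlinarith

theorem cube_aux : ∀ (n : ℕ) (G : Type u) [Group G] [Finite G], Nat.card G = n → Even n →
    2 < n → ∃ H : Subgroup G, H ≠ ⊤ ∧ Nat.card G < Nat.card H ^ 3 := by
  intro n
  induction n using Nat.strong_induction_on with
  | _ n ih =>
    intro G _ _ hn heven hgt
    by_cases hA0 : ∃ H : Subgroup G, H.index = 2
    · obtain ⟨H, hH⟩ := hA0
      exact ⟨H, cube_of_index_two H hH (by omega)⟩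
    by_cases hA : ∃ t : G, orderOf t = 2 ∧ t ∈ Subgroup.center G
    · obtain ⟨t, ht, htc⟩ := hA
      have hZle : Subgroup.zpowers t ≤ Subgroup.center G := by
        rw [Subgroup.zpowers_le]
        exact htc
      haveI hZn : (Subgroup.zpowers t).Normal := by
        constructor
        intro z hz g
        have hzc := hZle hz
        rw [Subgroup.mem_center_iff] at hzc
        have : g * z * g⁻¹ = z := by
          rw [hzc g]
          group
        rw [this]
        exact hz
      have hZcard : Nat.card (Subgroup.zpowers t) = 2 := by rw [Nat.card_zpowers, ht]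
      have hmul := (Subgroup.zpowers t).card_mul_index
      rw [hZcard, hn] at hmul
      have hidx2 : (Subgroup.zpowers t).index ≠ 2 := fun h => hA0 ⟨_, h⟩
      have hidxeven : Even (Subgroup.zpowers t).index := by
        by_contra hodd
        rw [Nat.not_even_iff_odd] at hodd
        have hcop : Nat.Coprime (Nat.card (Subgroup.zpowers t)) (Subgroup.zpowers t).index := by
          rw [hZcard]
          exact Nat.coprime_two_left.mpr hodd
        obtain ⟨K, hK⟩ := Subgroup.exists_right_complement'_of_coprime hcop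
        have := hK.index_eq_card
        rw [hZcard] at this
        exact hA0 ⟨K, this⟩
      have hQcard : Nat.card (G ⧸ Subgroup.zpowers t) = (Subgroup.zpowers t).index :=
        (Subgroup.index_eq_card _).symm
      have hQgt : 2 < Nat.card (G ⧸ Subgroup.zpowers t) := by
        rw [hQcard]
        rcases hidxeven with ⟨k, hk⟩
        omega
      have hQlt : Nat.card (G ⧸ Subgroup.zpowers t) < n := by
        rw [hQcard]
        omega
      obtain ⟨Hb, hHb, hlt⟩ := ih _ hQlt (G ⧸ Subgroup.zpowers t) rfl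
        (by rw [hQcard]; exact hidxeven) hQgt
      have hsurj : Function.Surjective (QuotientGroup.mk' (Subgroup.zpowers t)) :=
        QuotientGroup.mk'_surjective _
      have hidx : (Hb.comap (QuotientGroup.mk' (Subgroup.zpowers t))).index = Hb.index :=
        Subgroup.index_comap_of_surjective _ hsurj
      refine ⟨Hb.comap (QuotientGroup.mk' (Subgroup.zpowers t)), ?_, ?_⟩
      · intro htop
        rw [htop, Subgroup.index_top] at hidx
        apply hHb
        rw [← Subgroup.index_eq_one]
        exact hidx.symm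
      · have h1 := (Hb.comap (QuotientGroup.mk' (Subgroup.zpowers t))).card_mul_index
        have h2 := Hb.card_mul_index
        rw [hidx, hn] at h1
        rw [hQcard] at h2 hlt
        have hpos : 0 < Hb.index := Nat.pos_of_ne_zero Subgroup.index_ne_zero_of_finite
        have h3 : Nat.card (Hb.comap (QuotientGroup.mk' (Subgroup.zpowers t))) =
            2 * Nat.card Hb := by
          have : Nat.card (Hb.comap (QuotientGroup.mk' (Subgroup.zpowers t))) * Hb.index =
              (2 * Nat.card Hb) * Hb.index := by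
            rw [h1, ← hmul, ← h2]
            ring
          exact Nat.eq_of_mul_eq_mul_right hpos this
        rw [h3, hn, ← hmul]
        obtain ⟨b, hb⟩ : ∃ b, b = Nat.card Hb := ⟨_, rfl⟩
        rw [← hb] at hlt ⊢
        nlinarith
    · have hnc : ∀ t : G, orderOf t = 2 → t ∉ Subgroup.center G := by
        intro t ht htc
        exact hA ⟨t, ht, htc⟩
      exact cube_case_B (by rw [hn]; exact heven) (by rw [hn]; exact hgt) hnc

theorem exists_cube_subgroup {G : Type u} [Group G] [Finite G] (heven : Even (Nat.card G))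
    (hgt : 2 < Nat.card G) : ∃ H : Subgroup G, H ≠ ⊤ ∧ Nat.card G < (Nat.card H) ^ 3 :=
  cube_aux (Nat.card G) G rfl heven hgt

end Cfsg.Agent.Lib.Helper1.BF
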