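import Mathlib
import Cfsg.Prelude.Def_Characters

set_option autoImplicit false

namespace Cfsg.Agent.Lib.Helper1.Ch

open Polynomial

variable {G : Type*} [Group G] [Finite G] {V : Type*} [AddCommGroup V] [Module ℂ V]
  [FiniteDimensional ℂ V]

theorem rho_pow_card (ρ : Representation ℂ G V) (g : G) : (ρ g) ^ (Nat.card G) = 1 := by
  rw [← map_pow, pow_card_eq_one', map_one]

theorem eigenvalue_pow (ρ : Representation ℂ G V) (g : G) (μ : ℂ)
    (h : Module.End.HasEigenvalue (ρ g) μ) : μ ^ Nat.card G = 1 := by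
  obtain ⟨v, hv⟩ := h.exists_hasEigenvector
  have h1 : ((ρ g) ^ Nat.card G) v = μ ^ Nat.card G • v := hv.pow_apply _
  rw [rho_pow_card, Module.End.one_apply] at h1
  have h2 : (μ ^ Nat.card G - 1) • v = 0 := by rw [sub_smul, one_smul, ← h1, sub_self]
  rcases smul_eq_zero.mp h2 with h3 | h3
  · exact sub_eq_zero.mp h3
  · exact absurd h3 hv.2

theorem char_eq_roots_sum (ρ : Representation ℂ G V) (g : G) :
    ρ.character g = ((ρ g).charpoly.roots).sum :=
  Module.End.trace_eq_sum_roots_charpoly_of_splits (IsAlgClosed.splits _)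

theorem card_roots (ρ : Representation ℂ G V) (g : G) :
    Multiset.card (ρ g).charpoly.roots = Module.finrank ℂ V := by
  rw [Polynomial.splits_iff_card_roots.mp (IsAlgClosed.splits _), LinearMap.charpoly_natDegree]

theorem root_pow (ρ : Representation ℂ G V) (g : G) (μ : ℂ) (hμ : μ ∈ (ρ g).charpoly.roots) :
    μ ^ Nat.card G = 1 := by
  apply eigenvalue_pow ρ g μ
  rw [Module.End.hasEigenvalue_iff_isRoot_charpoly]
  exact Polynomial.isRoot_of_mem_roots hμ

theorem root_norm (ρ : Representation ℂ G V) (g : G) (μ : ℂ) (hμ : μ ∈ (ρ g).charpoly.roots) :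
    ‖μ‖ = 1 := by
  have h := root_pow ρ g μ hμ
  have h2 : ‖μ‖ ^ Nat.card G = 1 := by rw [← norm_pow, h, norm_one]
  exact (pow_eq_one_iff_of_nonneg (norm_nonneg μ) Nat.card_pos.ne').mp h2

theorem norm_char_le (ρ : Representation ℂ G V) (g : G) :
    ‖ρ.character g‖ ≤ (Module.finrank ℂ V : ℝ) := by
  rw [char_eq_roots_sum, ← card_roots ρ g]
  calc ‖((ρ g).charpoly.roots).sum‖ ≤ (((ρ g).charpoly.roots).map (fun μ => ‖μ‖)).sum :=
        norm_multiset_sum_le _
    _ = (((ρ g).charpoly.roots).map (fun _ => (1 : ℝ))).sum := by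
        congr 1
        exact Multiset.map_congr rfl (fun μ hμ => root_norm ρ g μ hμ)
    _ = (Multiset.card (ρ g).charpoly.roots : ℝ) := by simp

theorem char_isIntegral (ρ : Representation ℂ G V) (g : G) : IsIntegral ℤ (ρ.character g) := by
  rw [char_eq_roots_sum]
  apply IsIntegral.multiset_sum
  intro μ hμ
  apply IsIntegral.of_pow (n := Nat.card G) Nat.card_pos
  rw [root_pow ρ g μ hμ]
  exact isIntegral_one

theorem multiset_unit_sum : ∀ m : Multiset ℂ, (∀ μ ∈ m, ‖μ‖ = 1) →
    ‖m.sum‖ = (Multiset.card m : ℝ) → ∀ μ ∈ m, (Multiset.card m : ℂ) * μ = m.sum := by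
  intro m
  induction m using Multiset.induction with
  | empty =>
    intro _ _ μ hμ
    simp at hμ
  | cons a m ih =>
    intro hnorm hsum μ hμ
    have ha : ‖a‖ = 1 := hnorm a (Multiset.mem_cons_self a m)
    have hm : ∀ μ ∈ m, ‖μ‖ = 1 := fun y hy => hnorm y (Multiset.mem_cons_of_mem hy)
    have hle : ‖m.sum‖ ≤ (Multiset.card m : ℝ) := by
      calc ‖m.sum‖ ≤ (m.map (fun μ => ‖μ‖)).sum := norm_multiset_sum_le _
        _ = (m.map (fun _ => (1 : ℝ))).sum := by
            congr 1
            exact Multiset.map_congr rfl hm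
        _ = (Multiset.card m : ℝ) := by simp
    rw [Multiset.sum_cons, Multiset.card_cons] at hsum
    push_cast at hsum
    have htri := norm_add_le a m.sum
    have hS : ‖m.sum‖ = (Multiset.card m : ℝ) := by linarith
    have hray : SameRay ℝ a m.sum := by
      rw [sameRay_iff_norm_add]
      linarith
    have h1 := hray.norm_smul_eq
    rw [ha, hS, one_smul] at h1
    have h2 : m.sum = (Multiset.card m : ℂ) * a := by
      rw [h1, Complex.real_smul]
      push_cast
      rfl
    have ih' := ih hm hS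
    rw [Multiset.sum_cons, Multiset.card_cons, h2]
    push_cast
    rw [Multiset.mem_cons] at hμ
    rcases hμ with rfl | hμ
    · ring
    · have h3 := ih' μ hμ
      rw [h2] at h3
      have hc : (Multiset.card m : ℂ) ≠ 0 := by
        have : 0 < Multiset.card m := Multiset.card_pos_iff_exists_mem.mpr ⟨μ, hμ⟩
        exact_mod_cast this.ne'
      have h4 : μ = a := mul_left_cancel₀ hc h3
      rw [h4]
      ring

theorem isSemisimple_rho (ρ : Representation ℂ G V) (g : G) :
    Module.End.IsSemisimple (ρ g) := by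
  have hn : ((Nat.card G : ℕ) : ℂ) ≠ 0 := Nat.cast_ne_zero.mpr Nat.card_pos.ne'
  apply Module.End.isSemisimple_of_squarefree_aeval_eq_zero
    (separable_X_pow_sub_C (1 : ℂ) hn one_ne_zero).squarefree
  simp [rho_pow_card]

theorem eq_smul_of_eigenvalues (ρ : Representation ℂ G V) (g : G) (ω : ℂ)
    (h : ∀ μ : ℂ, Module.End.HasEigenvalue (ρ g) μ → μ = ω) :
    ρ g = ω • (LinearMap.id : V →ₗ[ℂ] V) := by
  have hss := (isSemisimple_rho ρ g).iSup_eigenspace_eq_top
  have htop : Module.End.eigenspace (ρ g) ω = ⊤ := by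
    rw [eq_top_iff, ← hss]
    apply iSup_le
    intro μ
    by_cases hμ : Module.End.HasEigenvalue (ρ g) μ
    · rw [h μ hμ]
    · have : Module.End.eigenspace (ρ g) μ = ⊥ := by
        by_contra hne
        exact hμ hne
      rw [this]
      exact bot_le
  ext v
  have hv : v ∈ Module.End.eigenspace (ρ g) ω := by
    rw [htop]
    exact Submodule.mem_top
  rw [Module.End.mem_eigenspace_iff] at hv
  simp [hv]

theorem norm_char_eq_iff (ρ : Representation ℂ G V) (g : G) :
    ‖ρ.character g‖ = (Module.finrank ℂ V : ℝ) ↔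
      ∃ ω : ℂ, ρ g = ω • (LinearMap.id : V →ₗ[ℂ] V) := by
  constructor
  · intro heq
    by_cases hd : Module.finrank ℂ V = 0
    · refine ⟨0, ?_⟩
      have hsub : Subsingleton V := Module.finrank_zero_iff.mp hd
      ext v
      exact Subsingleton.elim _ _
    · rw [char_eq_roots_sum, ← card_roots ρ g] at heq
      have hall := multiset_unit_sum _ (fun μ hμ => root_norm ρ g μ hμ) heq
      have hc : (Multiset.card (ρ g).charpoly.roots : ℂ) ≠ 0 := by
        rw [card_roots ρ g]
        exact_mod_cast hd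
      refine ⟨(ρ g).charpoly.roots.sum / (Multiset.card (ρ g).charpoly.roots : ℂ),
        eq_smul_of_eigenvalues ρ g _ ?_⟩
      intro μ hμ
      rw [Module.End.hasEigenvalue_iff_isRoot_charpoly] at hμ
      have hμ' : μ ∈ (ρ g).charpoly.roots := by
        rw [Polynomial.mem_roots (LinearMap.charpoly_monic _).ne_zero]
        exact hμ
      rw [eq_div_iff hc, mul_comm]
      exact hall μ hμ'
  · rintro ⟨ω, hω⟩
    have htr : ρ.character g = ω * (Module.finrank ℂ V : ℂ) := by
      show LinearMap.trace ℂ V (ρ g) = _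
      rw [hω, map_smul, LinearMap.trace_id, smul_eq_mul]
    rw [htr, norm_mul, Complex.norm_natCast]
    by_cases hd : Module.finrank ℂ V = 0
    · rw [hd]
      simp
    · have hpos : 0 < Module.finrank ℂ V := Nat.pos_of_ne_zero hd
      have hnt : Nontrivial V := Module.finrank_pos_iff.mp hpos
      obtain ⟨v, hv⟩ := exists_ne (0 : V)
      have hev : Module.End.HasEigenvalue (ρ g) ω := by
        apply Module.End.hasEigenvalue_of_hasEigenvector (x := v)
        refine ⟨?_, hv⟩
        rw [Module.End.mem_eigenspace_iff, hω]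
        simp
      have h1 := eigenvalue_pow ρ g ω hev
      have h2 : ‖ω‖ ^ Nat.card G = 1 := by rw [← norm_pow, h1, norm_one]
      have h3 : ‖ω‖ = 1 := (pow_eq_one_iff_of_nonneg (norm_nonneg ω) Nat.card_pos.ne').mp h2
      rw [h3, one_mul]

theorem char_eq_finrank_iff (ρ : Representation ℂ G V) (g : G) :
    ρ.character g = (Module.finrank ℂ V : ℂ) ↔ ρ g = LinearMap.id := by
  constructor
  · intro heq
    have h1 : ‖ρ.character g‖ = (Module.finrank ℂ V : ℝ) := by
      rw [heq, Complex.norm_natCast]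
    obtain ⟨ω, hω⟩ := (norm_char_eq_iff ρ g).mp h1
    by_cases hd : Module.finrank ℂ V = 0
    · have hsub : Subsingleton V := Module.finrank_zero_iff.mp hd
      ext v
      exact Subsingleton.elim _ _
    · have htr : ρ.character g = ω * (Module.finrank ℂ V : ℂ) := by
        show LinearMap.trace ℂ V (ρ g) = _
        rw [hω, map_smul, LinearMap.trace_id, smul_eq_mul]
      rw [heq] at htr
      have hc : (Module.finrank ℂ V : ℂ) ≠ 0 := by exact_mod_cast hd
      have hω1 : ω = 1 := by
        have h2 : (1 : ℂ) * (Module.finrank ℂ V : ℂ) = ω * (Module.finrank ℂ V : ℂ) := by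
          rw [one_mul]
          exact htr
        exact (mul_right_cancel₀ hc h2).symm
      rw [hω, hω1, one_smul]
  · intro h
    show LinearMap.trace ℂ V (ρ g) = _
    rw [h, LinearMap.trace_id]

end Cfsg.Agent.Lib.Helper1.Ch
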