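import Mathlib
import Cfsg.Agent.Lib.Helper1.Inv
import Cfsg.Agent.Lib.Helper1.Ch1
import Cfsg.Agent.Lib.Helper3.CharTable

set_option autoImplicit false

namespace Cfsg.Agent.Lib.Helper1.Ch

open Representation

theorem index_centralizer_eq_card_conj {G : Type*} [Group G] [Finite G] (g : G) :
    (Subgroup.centralizer ({g} : Set G)).index = Nat.card {u : G // IsConj g u} := by
  have h1 := (Subgroup.centralizer ({g} : Set G)).card_mul_index
  have h2 := card_eq_card_conj_mul_card_centralizer g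
  have hpos : 0 < Nat.card (Subgroup.centralizer ({g} : Set G)) := Nat.card_pos
  have h3 : Nat.card (Subgroup.centralizer ({g} : Set G)) *
      (Subgroup.centralizer ({g} : Set G)).index =
      Nat.card (Subgroup.centralizer ({g} : Set G)) * Nat.card {u : G // IsConj g u} := by
    rw [h1, h2, mul_comm]
  exact Nat.eq_of_mul_eq_mul_left hpos h3

theorem irr_nontrivial {G : Type*} [Group G] {V : Type*} [AddCommGroup V] [Module ℂ V]
    (ρ : Representation ℂ G V) [ρ.IsIrreducible] : Nontrivial V := by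
  have hs : IsSimpleModule (MonoidAlgebra ℂ G) ρ.asModule := inferInstance
  have hnt : Nontrivial ρ.asModule := IsSimpleModule.nontrivial (MonoidAlgebra ℂ G) ρ.asModule
  exact hnt

theorem central_char_integral {G : Type*} [Group G] [Finite G] {V : Type*} [AddCommGroup V]
    [Module ℂ V] [FiniteDimensional ℂ V] (ρ : Representation ℂ G V) [ρ.IsIrreducible] (g : G) :
    IsIntegral ℤ (((Subgroup.centralizer ({g} : Set G)).index : ℂ) * ρ.character g /
      (Module.finrank ℂ V : ℂ)) := by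
  classical
  haveI : Fintype G := Fintype.ofFinite G
  obtain ⟨K, hK⟩ : ∃ K : Finset G, K = Finset.univ.filter (fun x => IsConj g x) := ⟨_, rfl⟩
  have hKmem : ∀ x, x ∈ K ↔ IsConj g x := by
    intro x
    simp [hK]
  have hcomm : ∀ h : G, (∑ x ∈ K, ρ x) ∘ₗ ρ h = ρ h ∘ₗ (∑ x ∈ K, ρ x) := by
    intro h
    have e0 : (∑ x ∈ K, ρ x) * ρ h = ρ h * (∑ x ∈ K, ρ x) := by
      rw [Finset.sum_mul, Finset.mul_sum]
      simp only [← map_mul]
      apply Finset.sum_bij' (fun x _ => h⁻¹ * x * h) (fun y _ => h * y * h⁻¹)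
      · intro x hx
        rw [hKmem] at hx ⊢
        exact hx.trans (isConj_iff.mpr ⟨h⁻¹, by group⟩)
      · intro y hy
        rw [hKmem] at hy ⊢
        exact hy.trans (isConj_iff.mpr ⟨h, rfl⟩)
      · intro x _
        group
      · intro y _
        group
      · intro x _
        congr 1
        group
    exact e0
  let T : IntertwiningMap ρ ρ := ⟨∑ x ∈ K, ρ x, hcomm⟩
  obtain ⟨ω, hω⟩ :=
    (IsIrreducible.algebraMap_intertwiningMap_bijective_of_isAlgClosed (ρ := ρ)).2 T
  have hT : ∑ x ∈ K, ρ x = ω • LinearMap.id := (congrArg IntertwiningMap.toLinearMap hω).symm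
  have hnt : Nontrivial V := irr_nontrivial ρ
  have hpos : 0 < Module.finrank ℂ V := Module.finrank_pos
  have hne : (Module.finrank ℂ V : ℂ) ≠ 0 := by exact_mod_cast hpos.ne'
  have htr : LinearMap.trace ℂ V (∑ x ∈ K, ρ x) = (K.card : ℂ) * ρ.character g := by
    rw [map_sum, ← nsmul_eq_mul, ← Finset.sum_const]
    refine Finset.sum_congr rfl (fun x hx => ?_)
    rw [hKmem, isConj_iff] at hx
    obtain ⟨c, rfl⟩ := hx
    exact char_conj ρ g c
  rw [hT, map_smul, LinearMap.trace_id, smul_eq_mul] at htr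
  have hKcard : K.card = (Subgroup.centralizer ({g} : Set G)).index := by
    rw [index_centralizer_eq_card_conj, Nat.card_eq_fintype_card, Fintype.card_subtype, hK]
  have hint : IsIntegral ℤ ω := by
    have hz : IsIntegral ℤ (∑ x ∈ K, MonoidAlgebra.of ℤ G x) := IsIntegral.of_finite ℤ _
    have hφ := hz.map (MonoidAlgebra.lift ℤ (Module.End ℂ V) G ρ)
    have e : (MonoidAlgebra.lift ℤ (Module.End ℂ V) G ρ) (∑ x ∈ K, MonoidAlgebra.of ℤ G x)
        = algebraMap ℂ (Module.End ℂ V) ω := by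
      rw [map_sum]
      simp only [MonoidAlgebra.lift_of]
      rw [hT]
      rfl
    rw [e] at hφ
    exact (isIntegral_algebraMap_iff
      (FaithfulSMul.algebraMap_injective ℂ (Module.End ℂ V))).mp hφ
  have hval : ((Subgroup.centralizer ({g} : Set G)).index : ℂ) * ρ.character g /
      (Module.finrank ℂ V : ℂ) = ω := by
    rw [← hKcard, ← htr]
    field_simp
  rw [hval]
  exact hint

theorem nat_dvd_of_isIntegral_div (a b : ℕ) (hb : b ≠ 0)
    (h : IsIntegral ℤ ((a : ℂ) / (b : ℂ))) : b ∣ a := by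
  have h1 : ((a : ℂ) / (b : ℂ)) = algebraMap ℚ ℂ ((a : ℚ) / (b : ℚ)) := by
    simp
  rw [h1] at h
  have h2 : IsIntegral ℤ ((a : ℚ) / (b : ℚ)) :=
    (isIntegral_algebraMap_iff (algebraMap ℚ ℂ).injective).mp h
  obtain ⟨n, hn⟩ := IsIntegrallyClosed.isIntegral_iff.mp h2
  have hbq : (b : ℚ) ≠ 0 := by exact_mod_cast hb
  have h3 : (a : ℚ) = (n : ℚ) * (b : ℚ) := by
    have h4 : (n : ℚ) = (a : ℚ) / (b : ℚ) := by
      rw [← hn]
      simp
    rw [h4]
    field_simp
  have h5 : (a : ℤ) = n * (b : ℤ) := by exact_mod_cast h3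
  have h6 : (b : ℤ) ∣ (a : ℤ) := ⟨n, by rw [h5, mul_comm]⟩
  exact Int.natCast_dvd_natCast.mp h6

theorem sum_char_mul_inv {G : Type*} [Group G] [Fintype G] {V : Type*} [AddCommGroup V]
    [Module ℂ V] [FiniteDimensional ℂ V] (ρ : Representation ℂ G V) [hirr : ρ.IsIrreducible] :
    (∑ g : G, ρ.character g * ρ.character g⁻¹) = (Nat.card G : ℂ) := by
  have hI := Cfsg.Agent.Lib.Helper3.CharCore.isIrr_of_rep ρ hirr
  have h1 := Cfsg.Agent.Lib.Helper3.Char.irr_inner_self hI
  rw [Cfsg.Agent.Lib.Helper3.Char.classInner_eq _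
    (Cfsg.Agent.Lib.Helper3.Char.isCharacter_of_irr hI)] at h1
  have hc : (Nat.card G : ℂ) ≠ 0 := by exact_mod_cast Nat.card_pos.ne'
  field_simp at h1
  exact h1

theorem sum_class_fun {G : Type*} [Group G] [Fintype G] [Fintype (ConjClasses G)]
    [DecidableEq (ConjClasses G)] (F : G → ℂ)
    (hF : ∀ g k : G, F (k * g * k⁻¹) = F g) :
    ∑ g : G, F g = ∑ c : ConjClasses G,
      ((Subgroup.centralizer ({Quotient.out c} : Set G)).index : ℂ) * F (Quotient.out c) := by
  classical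
  rw [← Finset.sum_fiberwise Finset.univ (fun g : G => ConjClasses.mk g) F]
  refine Finset.sum_congr rfl (fun c _ => ?_)
  have h1 : ∀ g ∈ Finset.univ.filter (fun g : G => ConjClasses.mk g = c),
      F g = F (Quotient.out c) := by
    intro g hg
    rw [Finset.mem_filter] at hg
    have h2 : ConjClasses.mk g = ConjClasses.mk (Quotient.out c) := by
      rw [hg.2]
      exact (Quotient.out_eq c).symm
    rw [ConjClasses.mk_eq_mk_iff_isConj, isConj_iff] at h2
    obtain ⟨k, hk⟩ := h2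
    rw [← hk, hF]
  rw [Finset.sum_congr rfl h1, Finset.sum_const, nsmul_eq_mul]
  congr 2
  rw [index_centralizer_eq_card_conj, Nat.card_eq_fintype_card, Fintype.card_subtype]
  congr 1
  ext g
  simp only [Finset.mem_filter, Finset.mem_univ, true_and]
  rw [← ConjClasses.mk_eq_mk_iff_isConj]
  constructor
  · intro h
    rw [h]
    exact Quotient.out_eq c
  · intro h
    rw [← h]
    exact Quotient.out_eq c

theorem finrank_dvd_card {G : Type*} [Group G] [Finite G] {V : Type*} [AddCommGroup V]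
    [Module ℂ V] [FiniteDimensional ℂ V] (ρ : Representation ℂ G V) [ρ.IsIrreducible] :
    Module.finrank ℂ V ∣ Nat.card G := by
  classical
  have : Fintype G := Fintype.ofFinite G
  have : Fintype (ConjClasses G) := Fintype.ofFinite _
  have hnt : Nontrivial V := irr_nontrivial ρ
  have hpos : 0 < Module.finrank ℂ V := Module.finrank_pos
  apply nat_dvd_of_isIntegral_div _ _ hpos.ne'
  have hsum : (Nat.card G : ℂ) / (Module.finrank ℂ V : ℂ) = ∑ c : ConjClasses G,
      (((Subgroup.centralizer ({Quotient.out c} : Set G)).index : ℂ) *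
        ρ.character (Quotient.out c) / (Module.finrank ℂ V : ℂ)) *
        ρ.character (Quotient.out c)⁻¹ := by
    rw [← sum_char_mul_inv ρ, sum_class_fun (fun g => ρ.character g * ρ.character g⁻¹),
      Finset.sum_div]
    · refine Finset.sum_congr rfl (fun c _ => ?_)
      ring
    · intro g k
      have e : (k * g * k⁻¹)⁻¹ = k * g⁻¹ * k⁻¹ := by group
      rw [e, char_conj, char_conj]
  rw [hsum]
  apply IsIntegral.sum
  intro c _
  exact (central_char_integral ρ (Quotient.out c)).mul (char_isIntegral ρ _)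

open IntermediateField in
theorem unit_avg_root_of_unity (n : ℕ) (hn : 0 < n) (m : ℕ → ℕ) (d : ℕ)
    (hd : ∑ j ∈ Finset.range n, m j = d) (ζ : ℂ) (hζ : ζ ^ n = 1)
    (hint : IsIntegral ℤ ((∑ j ∈ Finset.range n, (m j : ℂ) * ζ ^ j) / (d : ℂ)))
    (hne : (∑ j ∈ Finset.range n, (m j : ℂ) * ζ ^ j) ≠ 0) :
    ‖∑ j ∈ Finset.range n, (m j : ℂ) * ζ ^ j‖ = (d : ℝ) := by
  have hζint : IsIntegral ℚ ζ := by
    apply IsIntegral.of_pow hn
    rw [hζ]
    exact isIntegral_one
  haveI : FiniteDimensional ℚ ℚ⟮ζ⟯ := IntermediateField.adjoin.finiteDimensional hζint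
  haveI : NumberField ℚ⟮ζ⟯ := ⟨⟩
  have hd0 : d ≠ 0 := by
    rintro rfl
    apply hne
    apply Finset.sum_eq_zero
    intro j hj
    have : m j = 0 := (Finset.sum_eq_zero_iff.mp hd) j hj
    rw [this]
    simp
  have hdc : (d : ℂ) ≠ 0 := by exact_mod_cast hd0
  obtain ⟨ζK, hζK⟩ : ∃ ζK : ℚ⟮ζ⟯, algebraMap ℚ⟮ζ⟯ ℂ ζK = ζ :=
    ⟨⟨ζ, IntermediateField.mem_adjoin_simple_self ℚ ζ⟩, rfl⟩
  obtain ⟨x, hx⟩ : ∃ x : ℚ⟮ζ⟯,
      x = (∑ j ∈ Finset.range n, (m j : ℚ⟮ζ⟯) * ζK ^ j) / (d : ℚ⟮ζ⟯) := ⟨_, rfl⟩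
  have hxc : algebraMap ℚ⟮ζ⟯ ℂ x = (∑ j ∈ Finset.range n, (m j : ℂ) * ζ ^ j) / (d : ℂ) := by
    rw [hx, map_div₀, map_sum, map_natCast]
    simp only [map_mul, map_pow, map_natCast, hζK]
  have hinj : Function.Injective (algebraMap ℚ⟮ζ⟯ ℂ) := (algebraMap ℚ⟮ζ⟯ ℂ).injective
  have hx0 : x ≠ 0 := by
    intro h
    rw [h, map_zero] at hxc
    have := hxc.symm
    rw [div_eq_zero_iff] at this
    rcases this with h1 | h1
    · exact hne h1
    · exact hdc h1
  have hxi : IsIntegral ℤ x := by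
    apply (isIntegral_algebraMap_iff hinj).mp
    rw [hxc]
    exact hint
  have hζKn : ζK ^ n = 1 := by
    apply hinj
    rw [map_pow, hζK, hζ, map_one]
  have hbd : ∀ φ : ℚ⟮ζ⟯ →+* ℂ, ‖φ x‖ ≤ 1 := by
    intro φ
    have hφζ : (φ ζK) ^ n = 1 := by rw [← map_pow, hζKn, map_one]
    have hnorm : ‖φ ζK‖ = 1 :=
      (pow_eq_one_iff_of_nonneg (norm_nonneg _) hn.ne').mp (by rw [← norm_pow, hφζ, norm_one])
    have e : φ x = (∑ j ∈ Finset.range n, (m j : ℂ) * (φ ζK) ^ j) / (d : ℂ) := by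
      rw [hx, map_div₀, map_sum, map_natCast]
      simp only [map_mul, map_pow, map_natCast]
    have hdpos : (0 : ℝ) < d := by exact_mod_cast Nat.pos_of_ne_zero hd0
    rw [e, norm_div, Complex.norm_natCast, div_le_one hdpos]
    calc ‖∑ j ∈ Finset.range n, (m j : ℂ) * φ ζK ^ j‖
        ≤ ∑ j ∈ Finset.range n, ‖(m j : ℂ) * φ ζK ^ j‖ := norm_sum_le _ _
      _ = ∑ j ∈ Finset.range n, (m j : ℝ) := by
          refine Finset.sum_congr rfl (fun j _ => ?_)
          rw [norm_mul, norm_pow, hnorm, one_pow, mul_one, Complex.norm_natCast]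
      _ = (d : ℝ) := by
          rw [← hd]
          push_cast
          rfl
  obtain ⟨N, hN, hxN⟩ := NumberField.Embeddings.pow_eq_one_of_norm_le_one ℚ⟮ζ⟯ ℂ hx0 hxi hbd
  have h1 : (algebraMap ℚ⟮ζ⟯ ℂ x) ^ N = 1 := by rw [← map_pow, hxN, map_one]
  have h2 : ‖algebraMap ℚ⟮ζ⟯ ℂ x‖ = 1 :=
    (pow_eq_one_iff_of_nonneg (norm_nonneg _) hN.ne').mp (by rw [← norm_pow, h1, norm_one])
  have hdpos : (0 : ℝ) < d := by exact_mod_cast Nat.pos_of_ne_zero hd0
  rw [hxc, norm_div, Complex.norm_natCast, div_eq_one_iff_eq hdpos.ne'] at h2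
  exact h2

theorem char_zero_or_norm_eq {G : Type*} [Group G] [Finite G] {V : Type*} [AddCommGroup V]
    [Module ℂ V] [FiniteDimensional ℂ V] (ρ : Representation ℂ G V) [ρ.IsIrreducible] (g : G)
    (hcop : Nat.Coprime (Module.finrank ℂ V) (Subgroup.centralizer ({g} : Set G)).index) :
    ρ.character g = 0 ∨ ‖ρ.character g‖ = (Module.finrank ℂ V : ℝ) := by
  by_cases h0 : ρ.character g = 0
  · left
    exact h0
  right
  have hnt : Nontrivial V := irr_nontrivial ρ
  have hpos : 0 < Module.finrank ℂ V := Module.finrank_pos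
  have hne : (Module.finrank ℂ V : ℂ) ≠ 0 := by exact_mod_cast hpos.ne'
  obtain ⟨a, b, hab⟩ := Nat.isCoprime_iff_coprime.mpr hcop
  have hα : IsIntegral ℤ (ρ.character g / (Module.finrank ℂ V : ℂ)) := by
    have hab' : (a : ℂ) * (Module.finrank ℂ V : ℂ) +
        (b : ℂ) * ((Subgroup.centralizer ({g} : Set G)).index : ℂ) = 1 := by exact_mod_cast hab
    have e : ρ.character g / (Module.finrank ℂ V : ℂ) = (a : ℂ) * ρ.character g +
        (b : ℂ) * (((Subgroup.centralizer ({g} : Set G)).index : ℂ) * ρ.character g /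
          (Module.finrank ℂ V : ℂ)) := by
      have e2 : (a : ℂ) * ρ.character g +
          (b : ℂ) * (((Subgroup.centralizer ({g} : Set G)).index : ℂ) * ρ.character g /
            (Module.finrank ℂ V : ℂ)) = ρ.character g * ((a : ℂ) * (Module.finrank ℂ V : ℂ) +
          (b : ℂ) * ((Subgroup.centralizer ({g} : Set G)).index : ℂ)) /
            (Module.finrank ℂ V : ℂ) := by
        field_simp
      rw [e2, hab', mul_one]
    rw [e]
    have hia : IsIntegral ℤ (a : ℂ) := by
      have := isIntegral_algebraMap (R := ℤ) (A := ℂ) (x := a)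
      simpa using this
    have hib : IsIntegral ℤ (b : ℂ) := by
      have := isIntegral_algebraMap (R := ℤ) (A := ℂ) (x := b)
      simpa using this
    exact (hia.mul (char_isIntegral ρ g)).add (hib.mul (central_char_integral ρ g))
  obtain ⟨n, m, hn, hgn, hm, hformula⟩ := Cfsg.Agent.Lib.Helper3.Char.rep_char_formula ρ g
  have hf1 := hformula 1
  rw [pow_one] at hf1
  simp only [mul_one] at hf1
  have hζ := (Complex.isPrimitiveRoot_exp n hn.ne').pow_eq_one
  rw [hf1] at hα h0 ⊢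
  exact unit_avg_root_of_unity n hn m _ hm _ hζ hα h0

end Cfsg.Agent.Lib.Helper1.Ch
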