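import Mathlib
import Cfsg.Agent.Lib.Helper1.Ch2
import Cfsg.Agent.Lib.Helper3.CharTable
import Cfsg.Agent.Lib.Helper3.CharArith

set_option autoImplicit false

namespace Cfsg.Agent.Lib.Helper1.Ch

open Representation
open scoped ComplexConjugate

def scalarSubgroup {G : Type*} [Group G] {V : Type*} [AddCommGroup V] [Module ℂ V]
    (ρ : Representation ℂ G V) : Subgroup G where
  carrier := {x | ∃ ω : ℂ, ρ x = ω • (LinearMap.id : V →ₗ[ℂ] V)}
  one_mem' := ⟨1, by rw [map_one, one_smul]; rfl⟩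
  mul_mem' := by
    rintro a b ⟨ω, hω⟩ ⟨ω', hω'⟩
    refine ⟨ω * ω', ?_⟩
    rw [map_mul, hω, hω']
    ext v
    simp only [Module.End.mul_apply, LinearMap.smul_apply, LinearMap.id_coe, id_eq, map_smul,
      mul_smul]
    exact smul_comm _ _ _
  inv_mem' := by
    rintro a ⟨ω, hω⟩
    refine ⟨ω⁻¹, ?_⟩
    have h1 : ρ a * ρ a⁻¹ = 1 := by rw [← map_mul, mul_inv_cancel, map_one]
    rw [hω] at h1
    have h2 : ∀ v : V, ω • (ρ a⁻¹ v) = v := by
      intro v
      have := congrArg (fun f : V →ₗ[ℂ] V => f v) h1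
      simpa using this
    by_cases h0 : ω = 0
    · subst h0
      have hv : ∀ w : V, w = 0 := by
        intro w
        rw [← h2 w, zero_smul]
      ext v
      rw [hv (ρ a⁻¹ v)]
      simp
    · ext v
      have e : ρ a⁻¹ v = ω⁻¹ • (ω • ρ a⁻¹ v) := by
        rw [smul_smul, inv_mul_cancel₀ h0, one_smul]
      rw [e, h2 v]
      simp

theorem mem_scalarSubgroup {G : Type*} [Group G] {V : Type*} [AddCommGroup V] [Module ℂ V]
    (ρ : Representation ℂ G V) (x : G) :
    x ∈ scalarSubgroup ρ ↔ ∃ ω : ℂ, ρ x = ω • (LinearMap.id : V →ₗ[ℂ] V) := Iff.rfl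

theorem scalarSubgroup_normal {G : Type*} [Group G] {V : Type*} [AddCommGroup V] [Module ℂ V]
    (ρ : Representation ℂ G V) : (scalarSubgroup ρ).Normal := by
  constructor
  intro x hx y
  obtain ⟨ω, hω⟩ := hx
  refine ⟨ω, ?_⟩
  rw [map_mul, map_mul, hω]
  ext v
  have h1 : ρ y * ρ y⁻¹ = 1 := by rw [← map_mul, mul_inv_cancel, map_one]
  have h2 := congrArg (fun f : V →ₗ[ℂ] V => f v) h1
  simp only [Module.End.mul_apply, Module.End.one_apply] at h2
  simp only [Module.End.mul_apply, LinearMap.smul_apply, LinearMap.id_coe, id_eq, map_smul]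
  rw [h2]

theorem trivial_of_scalar {G : Type*} [Group G] [Finite G] [IsSimpleGroup G]
    (hnc : ¬ ∀ a b : G, a * b = b * a) {n : ℕ} (ρ : Representation ℂ G (Fin n → ℂ))
    (hirr : ρ.IsIrreducible) (g : G) (hg : g ≠ 1)
    (hs : ∃ ω : ℂ, ρ g = ω • (LinearMap.id : (Fin n → ℂ) →ₗ[ℂ] (Fin n → ℂ))) :
    ρ.character = fun _ => 1 := by
  classical
  haveI : Fintype G := Fintype.ofFinite G
  have hZn : (scalarSubgroup ρ).Normal := scalarSubgroup_normal ρ
  have hZ : scalarSubgroup ρ = ⊤ := by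
    rcases hZn.eq_bot_or_eq_top with h | h
    · exfalso
      have : g ∈ scalarSubgroup ρ := hs
      rw [h, Subgroup.mem_bot] at this
      exact hg this
    · exact h
  have hall : ∀ x : G, ∃ ω : ℂ, ρ x = ω • (LinearMap.id : (Fin n → ℂ) →ₗ[ℂ] (Fin n → ℂ)) := by
    intro x
    have : x ∈ scalarSubgroup ρ := by rw [hZ]; trivial
    exact this
  have hK : (ρ : G →* ((Fin n → ℂ) →ₗ[ℂ] (Fin n → ℂ))).ker = ⊤ := by
    rcases (MonoidHom.normal_ker (ρ : G →* ((Fin n → ℂ) →ₗ[ℂ] (Fin n → ℂ)))).eq_bot_or_eq_top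
      with h | h
    · exfalso
      apply hnc
      intro a b
      obtain ⟨ω, hω⟩ := hall a
      obtain ⟨ω', hω'⟩ := hall b
      have hcomm : ρ (a * b) = ρ (b * a) := by
        rw [map_mul, map_mul, hω, hω']
        ext v
        simp [smul_smul, mul_comm]
      have hmem : a * b * (b * a)⁻¹ ∈ (ρ : G →* ((Fin n → ℂ) →ₗ[ℂ] (Fin n → ℂ))).ker := by
        rw [MonoidHom.mem_ker, map_mul, hcomm, ← map_mul, mul_inv_cancel, map_one]
      rw [h, Subgroup.mem_bot] at hmem
      exact mul_inv_eq_one.mp hmem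
    · exact h
  have hone : ∀ x : G, ρ x = 1 := by
    intro x
    have : x ∈ (ρ : G →* ((Fin n → ℂ) →ₗ[ℂ] (Fin n → ℂ))).ker := by rw [hK]; trivial
    exact MonoidHom.mem_ker.mp this
  have hchar : ρ.character = fun _ => (n : ℂ) := by
    funext x
    unfold Representation.character
    rw [hone x, LinearMap.trace_one, Module.finrank_fin_fun]
  have hI : Cfsg.IsIrrCharacter G ρ.character := ⟨n, ρ, hirr, rfl⟩
  have h1 := Cfsg.Agent.Lib.Helper3.Char.irr_inner_self hI
  rw [hchar] at h1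
  unfold Cfsg.classInner at h1
  rw [Finset.sum_const, Finset.card_univ, Complex.conj_natCast, ← Nat.card_eq_fintype_card,
    nsmul_eq_mul] at h1
  have hc : (Nat.card G : ℂ) ≠ 0 := by exact_mod_cast Nat.card_pos.ne'
  rw [← mul_assoc, inv_mul_cancel₀ hc, one_mul] at h1
  have hn : n * n = 1 := by exact_mod_cast h1
  have hn1 : n = 1 := by
    exact Nat.eq_one_of_mul_eq_one_right hn
  rw [hchar, hn1]
  simp

theorem irr_char_trichotomy {G : Type*} [Group G] [Finite G] [IsSimpleGroup G]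
    (hnc : ¬ ∀ a b : G, a * b = b * a) (p k : ℕ) (hp : p.Prime) (g : G) (hg : g ≠ 1)
    (hclass : (Subgroup.centralizer ({g} : Set G)).index = p ^ k)
    (χ : G → ℂ) (hχ : Cfsg.IsIrrCharacter G χ) (hne : χ ≠ fun _ => 1) :
    ∃ α : ℂ, IsIntegral ℤ α ∧ χ g * conj (χ 1) = (p : ℂ) * α := by
  obtain ⟨n, ρ, hirr, rfl⟩ := hχ
  haveI := hirr
  have h1 : ρ.character 1 = (n : ℂ) := by
    rw [Representation.char_one, Module.finrank_fin_fun]
  rw [h1, Complex.conj_natCast]
  by_cases hdvd : p ∣ n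
  · obtain ⟨m, rfl⟩ := hdvd
    refine ⟨ρ.character g * (m : ℂ), (char_isIntegral ρ g).mul ?_, ?_⟩
    · have := isIntegral_algebraMap (R := ℤ) (A := ℂ) (x := m)
      simpa using this
    · push_cast
      ring
  · have hcop : Nat.Coprime (Module.finrank ℂ (Fin n → ℂ))
        (Subgroup.centralizer ({g} : Set G)).index := by
      rw [hclass, Module.finrank_fin_fun]
      exact Nat.Coprime.pow_right k ((Nat.Prime.coprime_iff_not_dvd hp).mpr hdvd).symm
    rcases char_zero_or_norm_eq ρ g hcop with h0 | h0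
    · exact ⟨0, isIntegral_zero, by rw [h0]; ring⟩
    · exfalso
      apply hne
      exact trivial_of_scalar hnc ρ hirr g hg ((norm_char_eq_iff ρ g).mp h0)

theorem prime_card_of_class_prime_power {G : Type*} [Group G] [Finite G] [IsSimpleGroup G]
    (p k : ℕ) (hp : p.Prime) (g : G) (hg : g ≠ 1)
    (hclass : (Subgroup.centralizer ({g} : Set G)).index = p ^ k) : (Nat.card G).Prime := by
  classical
  by_cases hc : ∀ a b : G, a * b = b * a
  · letI : CommGroup G := { (inferInstance : Group G) with mul_comm := hc }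
    exact IsSimpleGroup.prime_card
  · exfalso
    haveI : Fintype G := Fintype.ofFinite G
    haveI : Fintype (Cfsg.IrrCharacter G) := Fintype.ofFinite _
    have hcol := Cfsg.Agent.Lib.Helper3.CharTable.column_orth g (1 : G)
    have hempty : Nat.card {y : G // y * g * y⁻¹ = 1} = 0 := by
      rw [Nat.card_eq_zero]
      left
      constructor
      rintro ⟨y, hy⟩
      apply hg
      have : g = y⁻¹ * 1 * y := by rw [← hy]; group
      simpa using this
    rw [hempty, Nat.cast_zero] at hcol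
    let χ₁ : Cfsg.IrrCharacter G := ⟨fun _ => 1, Cfsg.Agent.Lib.Helper3.CharArith.isIrr_one G⟩
    rw [← Finset.add_sum_erase Finset.univ _ (Finset.mem_univ χ₁)] at hcol
    have hterm : ∀ χ ∈ Finset.univ.erase χ₁, ∃ α : ℂ, IsIntegral ℤ α ∧
        (χ : G → ℂ) g * conj ((χ : G → ℂ) 1) = (p : ℂ) * α := by
      intro χ hχ
      apply irr_char_trichotomy hc p k hp g hg hclass χ.1 χ.2
      intro h
      apply (Finset.mem_erase.mp hχ).1
      exact Subtype.ext h
    choose! α hα1 hα2 using hterm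
    rw [Finset.sum_congr rfl hα2, ← Finset.mul_sum] at hcol
    have hint : IsIntegral ℤ (∑ χ ∈ Finset.univ.erase χ₁, α χ) :=
      IsIntegral.sum _ (fun χ hχ => hα1 χ hχ)
    have hpc : (p : ℂ) ≠ 0 := by exact_mod_cast hp.ne_zero
    have hS : -(∑ χ ∈ Finset.univ.erase χ₁, α χ) = ((1 : ℕ) : ℂ) / (p : ℂ) := by
      have h3 : (χ₁ : G → ℂ) g * conj ((χ₁ : G → ℂ) 1) = 1 := by
        change (1 : ℂ) * conj (1 : ℂ) = 1
        simp
      rw [h3] at hcol
      rw [eq_div_iff hpc, Nat.cast_one]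
      linear_combination (-1 : ℂ) * hcol
    have h4 : IsIntegral ℤ (((1 : ℕ) : ℂ) / (p : ℂ)) := by
      rw [← hS]
      exact hint.neg
    have h5 := nat_dvd_of_isIntegral_div 1 p hp.ne_zero h4
    exact hp.one_lt.ne' (Nat.dvd_one.mp h5)

end Cfsg.Agent.Lib.Helper1.Ch
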