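import Mathlib
import Cfsg.Agent.Lib.Helper1.Ch3

set_option autoImplicit false

namespace Cfsg.Agent.Lib.Helper1.Ch

universe u

theorem isSolvable_of_card_prime_pow {G : Type*} [Group G] [Finite G] (p n : ℕ) (hp : p.Prime)
    (h : Nat.card G = p ^ n) : Group.IsSolvable G := by
  haveI : Fact p.Prime := ⟨hp⟩
  haveI := (IsPGroup.of_card h).isNilpotent
  infer_instance

theorem dvd_two_prime_pow (p q a b d : ℕ) (hp : p.Prime) (hq : q.Prime)
    (h : d ∣ p ^ a * q ^ b) : ∃ a' b', d = p ^ a' * q ^ b' := by
  obtain ⟨k₁, k₂, h1, h2, rfl⟩ := (Nat.dvd_mul).mp h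
  obtain ⟨a', _, rfl⟩ := (Nat.dvd_prime_pow hp).mp h1
  obtain ⟨b', _, rfl⟩ := (Nat.dvd_prime_pow hq).mp h2
  exact ⟨a', b', rfl⟩

theorem burnside_simple {G : Type*} [Group G] [Finite G] [IsSimpleGroup G] (p q a b : ℕ)
    (hp : p.Prime) (hq : q.Prime) (hab : Nat.card G = p ^ a * q ^ b) : Group.IsSolvable G := by
  by_cases hb : b = 0
  · subst hb
    rw [pow_zero, mul_one] at hab
    exact isSolvable_of_card_prime_pow p a hp hab
  haveI : Fact q.Prime := ⟨hq⟩
  let Q : Sylow q G := default
  have hqdvd : q ∣ Nat.card G := by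
    rw [hab]
    exact Dvd.dvd.mul_left (dvd_pow_self q hb) _
  have hQne : (Q : Subgroup G) ≠ ⊥ := Q.ne_bot_of_dvd_card hqdvd
  haveI : Nontrivial (Q : Subgroup G) := (Subgroup.nontrivial_iff_ne_bot _).mpr hQne
  haveI : Nontrivial (Subgroup.center (Q : Subgroup G)) := Q.isPGroup'.center_nontrivial
  obtain ⟨z, hz⟩ := exists_ne (1 : Subgroup.center (Q : Subgroup G))
  have hg : (((z : (Q : Subgroup G)) : G)) ≠ 1 := by
    intro h
    apply hz
    apply Subtype.ext
    apply Subtype.ext
    exact h
  have hle : (Q : Subgroup G) ≤ Subgroup.centralizer ({((z : (Q : Subgroup G)) : G)} : Set G) := by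
    intro x hx
    rw [Subgroup.mem_centralizer_iff]
    intro h hh
    rw [Set.mem_singleton_iff] at hh
    subst hh
    have h1 := Subgroup.mem_center_iff.mp z.2 ⟨x, hx⟩
    have h2 := congrArg (Subtype.val) h1
    simpa using h2.symm
  have hdvd1 : (Subgroup.centralizer ({((z : (Q : Subgroup G)) : G)} : Set G)).index ∣
      (Q : Subgroup G).index := Subgroup.index_dvd_of_le hle
  have hnd : ¬ q ∣ (Q : Subgroup G).index := Q.not_dvd_index
  have hdvd2 : (Q : Subgroup G).index ∣ p ^ a * q ^ b := by
    rw [← hab]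
    exact Subgroup.index_dvd_card _
  have hcop : Nat.Coprime (Q : Subgroup G).index (q ^ b) :=
    Nat.Coprime.pow_right b ((Nat.Prime.coprime_iff_not_dvd hq).mpr hnd).symm
  have hdvd3 : (Q : Subgroup G).index ∣ p ^ a := hcop.dvd_of_dvd_mul_right hdvd2
  obtain ⟨k, _, hk⟩ := (Nat.dvd_prime_pow hp).mp (hdvd1.trans hdvd3)
  have hprime := prime_card_of_class_prime_power p k hp _ hg hk
  exact isSolvable_of_card_prime_pow (Nat.card G) 1 hprime (pow_one _).symm

theorem burnside_aux (p q : ℕ) (hp : p.Prime) (hq : q.Prime) :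
    ∀ (n : ℕ) (G : Type u) [Group G] [Finite G], Nat.card G = n →
      (∃ a b, Nat.card G = p ^ a * q ^ b) → Group.IsSolvable G := by
  intro n
  induction n using Nat.strong_induction_on with
  | _ n ih =>
    intro G _ _ hn hab
    obtain ⟨a, b, hab⟩ := hab
    by_cases hsimp : IsSimpleGroup G
    · exact burnside_simple p q a b hp hq hab
    · by_cases hsub : Subsingleton G
      · infer_instance
      · haveI : Nontrivial G := not_subsingleton_iff_nontrivial.mp hsub
        have hex : ∃ N : Subgroup G, N.Normal ∧ N ≠ ⊥ ∧ N ≠ ⊤ := by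
          by_contra hcon
          apply hsimp
          refine ⟨fun N hN => ?_⟩
          by_contra h
          rw [not_or] at h
          exact hcon ⟨N, hN, h.1, h.2⟩
        obtain ⟨N, hN, hbot, htop⟩ := hex
        have hcm : Nat.card N * N.index = Nat.card G := N.card_mul_index
        have hNdvd : Nat.card N ∣ p ^ a * q ^ b := by
          rw [← hab]
          exact N.card_subgroup_dvd_card
        have hIdvd : N.index ∣ p ^ a * q ^ b := by
          rw [← hab]
          exact N.index_dvd_card
        have hN1 : 1 < Nat.card N := by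
          rw [Subgroup.one_lt_card_iff_ne_bot]
          exact hbot
        have hI1 : 1 < N.index := by
          have h0 : N.index ≠ 0 := Subgroup.index_ne_zero_of_finite
          have h1 : N.index ≠ 1 := by
            rw [Ne, Subgroup.index_eq_one]
            exact htop
          omega
        have hNlt : Nat.card N < n := by
          rw [← hn, ← hcm]
          exact lt_mul_of_one_lt_right Nat.card_pos hI1
        have hIlt : Nat.card (G ⧸ N) < n := by
          rw [← Subgroup.index_eq_card, ← hn, ← hcm]
          exact lt_mul_of_one_lt_left (by omega) hN1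
        haveI h1 : Group.IsSolvable N :=
          ih _ hNlt N rfl (dvd_two_prime_pow p q a b _ hp hq hNdvd)
        haveI h2 : Group.IsSolvable (G ⧸ N) :=
          ih _ hIlt (G ⧸ N) rfl (by
            rw [← Subgroup.index_eq_card]
            exact dvd_two_prime_pow p q a b _ hp hq hIdvd)
        exact solvable_of_ker_le_range N.subtype (QuotientGroup.mk' N) (by simp)

theorem burnside_paqb_thm {G : Type u} [Group G] [Finite G] (p q a b : ℕ) (hp : p.Prime)
    (hq : q.Prime) (hcard : Nat.card G = p ^ a * q ^ b) : Group.IsSolvable G :=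
  burnside_aux p q hp hq (Nat.card G) G rfl ⟨a, b, hcard⟩

end Cfsg.Agent.Lib.Helper1.Ch
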