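import Mathlib
import Cfsg.Agent.Lib.Helper1.Inv
import Cfsg.Agent.Lib.Helper1.Ch4

set_option autoImplicit false

namespace Cfsg.Agent.Lib.Helper1.Small

open Cfsg.Agent.Lib.Helper1

theorem small_orders (N : ℕ) (h1 : 1 ≤ N) (h : N ≤ 100) :
    N = 60 ∨ N = 84 ∨ N % 4 = 2 ∨
      ∃ p q a b : ℕ, p.Prime ∧ q.Prime ∧ N = p ^ a * q ^ b := by
  interval_cases N
  · exact Or.inr (Or.inr (Or.inr ⟨2, 2, 0, 0, by norm_num, by norm_num, by norm_num⟩))
  · exact Or.inr (Or.inr (Or.inl rfl))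
  · exact Or.inr (Or.inr (Or.inr ⟨3, 2, 1, 0, by norm_num, by norm_num, by norm_num⟩))
  · exact Or.inr (Or.inr (Or.inr ⟨2, 2, 2, 0, by norm_num, by norm_num, by norm_num⟩))
  · exact Or.inr (Or.inr (Or.inr ⟨5, 2, 1, 0, by norm_num, by norm_num, by norm_num⟩))
  · exact Or.inr (Or.inr (Or.inl rfl))
  · exact Or.inr (Or.inr (Or.inr ⟨7, 2, 1, 0, by norm_num, by norm_num, by norm_num⟩))
  · exact Or.inr (Or.inr (Or.inr ⟨2, 2, 3, 0, by norm_num, by norm_num, by norm_num⟩))
  · exact Or.inr (Or.inr (Or.inr ⟨3, 2, 2, 0, by norm_num, by norm_num, by norm_num⟩))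
  · exact Or.inr (Or.inr (Or.inl rfl))
  · exact Or.inr (Or.inr (Or.inr ⟨11, 2, 1, 0, by norm_num, by norm_num, by norm_num⟩))
  · exact Or.inr (Or.inr (Or.inr ⟨2, 3, 2, 1, by norm_num, by norm_num, by norm_num⟩))
  · exact Or.inr (Or.inr (Or.inr ⟨13, 2, 1, 0, by norm_num, by norm_num, by norm_num⟩))
  · exact Or.inr (Or.inr (Or.inl rfl))
  · exact Or.inr (Or.inr (Or.inr ⟨3, 5, 1, 1, by norm_num, by norm_num, by norm_num⟩))
  · exact Or.inr (Or.inr (Or.inr ⟨2, 2, 4, 0, by norm_num, by norm_num, by norm_num⟩))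
  · exact Or.inr (Or.inr (Or.inr ⟨17, 2, 1, 0, by norm_num, by norm_num, by norm_num⟩))
  · exact Or.inr (Or.inr (Or.inl rfl))
  · exact Or.inr (Or.inr (Or.inr ⟨19, 2, 1, 0, by norm_num, by norm_num, by norm_num⟩))
  · exact Or.inr (Or.inr (Or.inr ⟨2, 5, 2, 1, by norm_num, by norm_num, by norm_num⟩))
  · exact Or.inr (Or.inr (Or.inr ⟨3, 7, 1, 1, by norm_num, by norm_num, by norm_num⟩))
  · exact Or.inr (Or.inr (Or.inl rfl))
  · exact Or.inr (Or.inr (Or.inr ⟨23, 2, 1, 0, by norm_num, by norm_num, by norm_num⟩))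
  · exact Or.inr (Or.inr (Or.inr ⟨2, 3, 3, 1, by norm_num, by norm_num, by norm_num⟩))
  · exact Or.inr (Or.inr (Or.inr ⟨5, 2, 2, 0, by norm_num, by norm_num, by norm_num⟩))
  · exact Or.inr (Or.inr (Or.inl rfl))
  · exact Or.inr (Or.inr (Or.inr ⟨3, 2, 3, 0, by norm_num, by norm_num, by norm_num⟩))
  · exact Or.inr (Or.inr (Or.inr ⟨2, 7, 2, 1, by norm_num, by norm_num, by norm_num⟩))
  · exact Or.inr (Or.inr (Or.inr ⟨29, 2, 1, 0, by norm_num, by norm_num, by norm_num⟩))
  · exact Or.inr (Or.inr (Or.inl rfl))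
  · exact Or.inr (Or.inr (Or.inr ⟨31, 2, 1, 0, by norm_num, by norm_num, by norm_num⟩))
  · exact Or.inr (Or.inr (Or.inr ⟨2, 2, 5, 0, by norm_num, by norm_num, by norm_num⟩))
  · exact Or.inr (Or.inr (Or.inr ⟨3, 11, 1, 1, by norm_num, by norm_num, by norm_num⟩))
  · exact Or.inr (Or.inr (Or.inl rfl))
  · exact Or.inr (Or.inr (Or.inr ⟨5, 7, 1, 1, by norm_num, by norm_num, by norm_num⟩))
  · exact Or.inr (Or.inr (Or.inr ⟨2, 3, 2, 2, by norm_num, by norm_num, by norm_num⟩))
  · exact Or.inr (Or.inr (Or.inr ⟨37, 2, 1, 0, by norm_num, by norm_num, by norm_num⟩))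
  · exact Or.inr (Or.inr (Or.inl rfl))
  · exact Or.inr (Or.inr (Or.inr ⟨3, 13, 1, 1, by norm_num, by norm_num, by norm_num⟩))
  · exact Or.inr (Or.inr (Or.inr ⟨2, 5, 3, 1, by norm_num, by norm_num, by norm_num⟩))
  · exact Or.inr (Or.inr (Or.inr ⟨41, 2, 1, 0, by norm_num, by norm_num, by norm_num⟩))
  · exact Or.inr (Or.inr (Or.inl rfl))
  · exact Or.inr (Or.inr (Or.inr ⟨43, 2, 1, 0, by norm_num, by norm_num, by norm_num⟩))
  · exact Or.inr (Or.inr (Or.inr ⟨2, 11, 2, 1, by norm_num, by norm_num, by norm_num⟩))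
  · exact Or.inr (Or.inr (Or.inr ⟨3, 5, 2, 1, by norm_num, by norm_num, by norm_num⟩))
  · exact Or.inr (Or.inr (Or.inl rfl))
  · exact Or.inr (Or.inr (Or.inr ⟨47, 2, 1, 0, by norm_num, by norm_num, by norm_num⟩))
  · exact Or.inr (Or.inr (Or.inr ⟨2, 3, 4, 1, by norm_num, by norm_num, by norm_num⟩))
  · exact Or.inr (Or.inr (Or.inr ⟨7, 2, 2, 0, by norm_num, by norm_num, by norm_num⟩))
  · exact Or.inr (Or.inr (Or.inl rfl))
  · exact Or.inr (Or.inr (Or.inr ⟨3, 17, 1, 1, by norm_num, by norm_num, by norm_num⟩))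
  · exact Or.inr (Or.inr (Or.inr ⟨2, 13, 2, 1, by norm_num, by norm_num, by norm_num⟩))
  · exact Or.inr (Or.inr (Or.inr ⟨53, 2, 1, 0, by norm_num, by norm_num, by norm_num⟩))
  · exact Or.inr (Or.inr (Or.inl rfl))
  · exact Or.inr (Or.inr (Or.inr ⟨5, 11, 1, 1, by norm_num, by norm_num, by norm_num⟩))
  · exact Or.inr (Or.inr (Or.inr ⟨2, 7, 3, 1, by norm_num, by norm_num, by norm_num⟩))
  · exact Or.inr (Or.inr (Or.inr ⟨3, 19, 1, 1, by norm_num, by norm_num, by norm_num⟩))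
  · exact Or.inr (Or.inr (Or.inl rfl))
  · exact Or.inr (Or.inr (Or.inr ⟨59, 2, 1, 0, by norm_num, by norm_num, by norm_num⟩))
  · exact Or.inl rfl
  · exact Or.inr (Or.inr (Or.inr ⟨61, 2, 1, 0, by norm_num, by norm_num, by norm_num⟩))
  · exact Or.inr (Or.inr (Or.inl rfl))
  · exact Or.inr (Or.inr (Or.inr ⟨3, 7, 2, 1, by norm_num, by norm_num, by norm_num⟩))
  · exact Or.inr (Or.inr (Or.inr ⟨2, 2, 6, 0, by norm_num, by norm_num, by norm_num⟩))
  · exact Or.inr (Or.inr (Or.inr ⟨5, 13, 1, 1, by norm_num, by norm_num, by norm_num⟩))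
  · exact Or.inr (Or.inr (Or.inl rfl))
  · exact Or.inr (Or.inr (Or.inr ⟨67, 2, 1, 0, by norm_num, by norm_num, by norm_num⟩))
  · exact Or.inr (Or.inr (Or.inr ⟨2, 17, 2, 1, by norm_num, by norm_num, by norm_num⟩))
  · exact Or.inr (Or.inr (Or.inr ⟨3, 23, 1, 1, by norm_num, by norm_num, by norm_num⟩))
  · exact Or.inr (Or.inr (Or.inl rfl))
  · exact Or.inr (Or.inr (Or.inr ⟨71, 2, 1, 0, by norm_num, by norm_num, by norm_num⟩))
  · exact Or.inr (Or.inr (Or.inr ⟨2, 3, 3, 2, by norm_num, by norm_num, by norm_num⟩))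
  · exact Or.inr (Or.inr (Or.inr ⟨73, 2, 1, 0, by norm_num, by norm_num, by norm_num⟩))
  · exact Or.inr (Or.inr (Or.inl rfl))
  · exact Or.inr (Or.inr (Or.inr ⟨3, 5, 1, 2, by norm_num, by norm_num, by norm_num⟩))
  · exact Or.inr (Or.inr (Or.inr ⟨2, 19, 2, 1, by norm_num, by norm_num, by norm_num⟩))
  · exact Or.inr (Or.inr (Or.inr ⟨7, 11, 1, 1, by norm_num, by norm_num, by norm_num⟩))
  · exact Or.inr (Or.inr (Or.inl rfl))
  · exact Or.inr (Or.inr (Or.inr ⟨79, 2, 1, 0, by norm_num, by norm_num, by norm_num⟩))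
  · exact Or.inr (Or.inr (Or.inr ⟨2, 5, 4, 1, by norm_num, by norm_num, by norm_num⟩))
  · exact Or.inr (Or.inr (Or.inr ⟨3, 2, 4, 0, by norm_num, by norm_num, by norm_num⟩))
  · exact Or.inr (Or.inr (Or.inl rfl))
  · exact Or.inr (Or.inr (Or.inr ⟨83, 2, 1, 0, by norm_num, by norm_num, by norm_num⟩))
  · exact Or.inr (Or.inl rfl)
  · exact Or.inr (Or.inr (Or.inr ⟨5, 17, 1, 1, by norm_num, by norm_num, by norm_num⟩))
  · exact Or.inr (Or.inr (Or.inl rfl))
  · exact Or.inr (Or.inr (Or.inr ⟨3, 29, 1, 1, by norm_num, by norm_num, by norm_num⟩))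
  · exact Or.inr (Or.inr (Or.inr ⟨2, 11, 3, 1, by norm_num, by norm_num, by norm_num⟩))
  · exact Or.inr (Or.inr (Or.inr ⟨89, 2, 1, 0, by norm_num, by norm_num, by norm_num⟩))
  · exact Or.inr (Or.inr (Or.inl rfl))
  · exact Or.inr (Or.inr (Or.inr ⟨7, 13, 1, 1, by norm_num, by norm_num, by norm_num⟩))
  · exact Or.inr (Or.inr (Or.inr ⟨2, 23, 2, 1, by norm_num, by norm_num, by norm_num⟩))
  · exact Or.inr (Or.inr (Or.inr ⟨3, 31, 1, 1, by norm_num, by norm_num, by norm_num⟩))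
  · exact Or.inr (Or.inr (Or.inl rfl))
  · exact Or.inr (Or.inr (Or.inr ⟨5, 19, 1, 1, by norm_num, by norm_num, by norm_num⟩))
  · exact Or.inr (Or.inr (Or.inr ⟨2, 3, 5, 1, by norm_num, by norm_num, by norm_num⟩))
  · exact Or.inr (Or.inr (Or.inr ⟨97, 2, 1, 0, by norm_num, by norm_num, by norm_num⟩))
  · exact Or.inr (Or.inr (Or.inl rfl))
  · exact Or.inr (Or.inr (Or.inr ⟨3, 11, 2, 1, by norm_num, by norm_num, by norm_num⟩))
  · exact Or.inr (Or.inr (Or.inr ⟨2, 5, 2, 2, by norm_num, by norm_num, by norm_num⟩))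

theorem false_of_paqb {G : Type*} [Group G] [Finite G] [IsSimpleGroup G]
    (hnc : ¬ ∀ a b : G, a * b = b * a) (p q a b : ℕ) (hp : p.Prime) (hq : q.Prime)
    (h : Nat.card G = p ^ a * q ^ b) : False :=
  hnc (IsSimpleGroup.comm_iff_isSolvable.mpr (Ch.burnside_paqb_thm p q a b hp hq h))

theorem false_of_index_two {G : Type*} [Group G] [Finite G] [IsSimpleGroup G]
    (hnc : ¬ ∀ a b : G, a * b = b * a) (H : Subgroup G) (h : H.index = 2) : False := by
  haveI : H.Normal := Subgroup.normal_of_index_eq_two h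
  rcases Subgroup.Normal.eq_bot_or_eq_top (inferInstance : H.Normal) with hb | ht
  · rw [hb, Subgroup.index_bot] at h
    exact false_of_paqb hnc 2 2 1 0 Nat.prime_two Nat.prime_two (by rw [h]; norm_num)
  · rw [ht, Subgroup.index_top] at h
    omega

theorem false_of_two_odd {G : Type*} [Group G] [Finite G] [IsSimpleGroup G]
    (hnc : ¬ ∀ a b : G, a * b = b * a) (h : Nat.card G % 4 = 2) : False := by
  haveI : Fact (Nat.Prime 2) := ⟨Nat.prime_two⟩
  have heven : Even (Nat.card G) := by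
    rw [Nat.even_iff]
    omega
  let T : Sylow 2 G := default
  obtain ⟨k, hk⟩ := IsPGroup.iff_card.mp T.isPGroup'
  have h1 := (T : Subgroup G).card_mul_index
  have hnd : ¬ 2 ∣ (T : Subgroup G).index := T.not_dvd_index
  have hk1 : k = 1 := by
    rcases Nat.lt_or_ge k 1 with hlt | hge
    · exfalso
      have hk0 : k = 0 := by omega
      rw [hk0, pow_zero] at hk
      rw [hk, one_mul] at h1
      apply hnd
      rw [h1]
      exact heven.two_dvd
    · rcases Nat.lt_or_ge k 2 with hlt | hge2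
      · omega
      · exfalso
        have h4 : 4 ∣ Nat.card (T : Subgroup G) := by
          rw [hk]
          exact pow_dvd_pow 2 hge2
        have h4' : 4 ∣ Nat.card G := by
          rw [← h1]
          exact Dvd.dvd.mul_right h4 _
        omega
  rw [hk1, pow_one] at hk
  have hcyc : IsCyclic (T : Subgroup G) := isCyclic_of_prime_card hk
  obtain ⟨H, hH⟩ := exists_index_two_of_cyclic_sylow heven T hcyc
  exact false_of_index_two hnc H hH

theorem toPermHom_injective {G : Type*} [Group G] [IsSimpleGroup G] (H : Subgroup G)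
    (hH : H ≠ ⊤) : Function.Injective (MulAction.toPermHom G (G ⧸ H)) := by
  have hker : (MulAction.toPermHom G (G ⧸ H)).ker ≤ H := by
    intro g hg
    rw [MonoidHom.mem_ker] at hg
    have h1 := congrArg (fun σ : Equiv.Perm (G ⧸ H) => σ (QuotientGroup.mk 1)) hg
    simp only [MulAction.toPermHom_apply, MulAction.toPerm_apply, Equiv.Perm.coe_one, id_eq] at h1
    have h2 : (QuotientGroup.mk (g * 1) : G ⧸ H) = QuotientGroup.mk 1 := h1
    rw [QuotientGroup.eq] at h2
    simpa using H.inv_mem h2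
  have hbot : (MulAction.toPermHom G (G ⧸ H)).ker = ⊥ := by
    rcases (MonoidHom.normal_ker (MulAction.toPermHom G (G ⧸ H))).eq_bot_or_eq_top with h | h
    · exact h
    · exfalso
      apply hH
      rw [eq_top_iff, ← h]
      exact hker
  exact (MonoidHom.ker_eq_bot_iff _).mp hbot

theorem card_dvd_factorial_index {G : Type*} [Group G] [Finite G] [IsSimpleGroup G]
    (H : Subgroup G) (hH : H ≠ ⊤) : Nat.card G ∣ H.index.factorial := by
  have hinj := toPermHom_injective H hH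
  have h1 : Nat.card G = Nat.card (MulAction.toPermHom G (G ⧸ H)).range :=
    Nat.card_congr (Equiv.ofInjective _ hinj)
  have h2 := Subgroup.card_subgroup_dvd_card (MulAction.toPermHom G (G ⧸ H)).range
  rw [Nat.card_perm] at h2
  rw [h1]
  exact h2

theorem false_of_84 {G : Type*} [Group G] [Finite G] [IsSimpleGroup G]
    (h : Nat.card G = 84) : False := by
  haveI : Fact (Nat.Prime 7) := ⟨by norm_num⟩
  let P : Sylow 7 G := default
  obtain ⟨k, hk⟩ := IsPGroup.iff_card.mp P.isPGroup'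
  have h1 := (P : Subgroup G).card_mul_index
  rw [h] at h1
  have hnd : ¬ 7 ∣ (P : Subgroup G).index := P.not_dvd_index
  have hk1 : k = 1 := by
    rcases Nat.lt_or_ge k 1 with hlt | hge
    · exfalso
      have hk0 : k = 0 := by omega
      rw [hk0, pow_zero] at hk
      rw [hk, one_mul] at h1
      apply hnd
      rw [h1]
      norm_num
    · rcases Nat.lt_or_ge k 2 with hlt | hge2
      · omega
      · exfalso
        have h49 : 49 ∣ Nat.card (P : Subgroup G) := by
          rw [hk]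
          exact pow_dvd_pow 7 hge2
        have h49' : 49 ∣ 84 := by
          rw [← h1]
          exact Dvd.dvd.mul_right h49 _
        omega
  rw [hk1, pow_one] at hk
  rw [hk] at h1
  have hidx : (P : Subgroup G).index = 12 := by omega
  have hdvd := P.card_dvd_index
  rw [hidx] at hdvd
  have hmod := card_sylow_modEq_one 7 G
  have hle := Nat.le_of_dvd (by norm_num) hdvd
  have hn1 : Nat.card (Sylow 7 G) = 1 := by
    unfold Nat.ModEq at hmod
    obtain ⟨n, hn⟩ : ∃ n, n = Nat.card (Sylow 7 G) := ⟨_, rfl⟩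
    rw [← hn] at hdvd hmod hle ⊢
    interval_cases n <;> omega
  haveI : Subsingleton (Sylow 7 G) := (Nat.card_eq_one_iff_unique.mp hn1).1
  haveI hPn : (P : Subgroup G).Normal := P.normal_of_subsingleton
  rcases hPn.eq_bot_or_eq_top with hb | ht
  · rw [hb, Subgroup.card_bot] at hk
    omega
  · rw [ht, Subgroup.card_top, h] at hk
    omega

theorem not_comm_of_not_cyclic {G : Type*} [Group G] [Finite G] [IsSimpleGroup G]
    (hG : ¬ IsCyclic G) : ¬ ∀ a b : G, a * b = b * a := by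
  intro hc
  apply hG
  letI : CommGroup G := { (inferInstance : Group G) with mul_comm := hc }
  exact IsSimpleGroup.isCyclic

theorem simple_le_100 {G : Type*} [Group G] [Finite G] [IsSimpleGroup G]
    (hG : ¬ IsCyclic G) (h : Nat.card G ≤ 100) : Nat.card G = 60 := by
  have hnc := not_comm_of_not_cyclic hG
  rcases small_orders (Nat.card G) Nat.card_pos h with h60 | h84 | h2 | ⟨p, q, a, b, hp, hq, hpq⟩
  · exact h60
  · exact (false_of_84 h84).elim
  · exact (false_of_two_odd hnc h2).elim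
  · exact (false_of_paqb hnc p q a b hp hq hpq).elim

end Cfsg.Agent.Lib.Helper1.Small
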