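import Mathlib
import Cfsg.Agent.Lib.Helper1.Small

set_option autoImplicit false

namespace Cfsg.Agent.Lib.Helper1.Small

open Cfsg.Agent.Lib.Helper1

theorem sylow2_card_60 {G : Type*} [Group G] [Finite G] (h : Nat.card G = 60) (P : Sylow 2 G) :
    Nat.card (P : Subgroup G) = 4 := by
  haveI : Fact (Nat.Prime 2) := ⟨Nat.prime_two⟩
  obtain ⟨k, hk⟩ := IsPGroup.iff_card.mp P.isPGroup'
  have h1 := (P : Subgroup G).card_mul_index
  rw [h, hk] at h1
  have hnd : ¬ 2 ∣ (P : Subgroup G).index := P.not_dvd_index
  rcases Nat.lt_or_ge k 3 with hlt | hge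
  · interval_cases k
    · exfalso
      apply hnd
      omega
    · exfalso
      apply hnd
      omega
    · rw [hk]
      norm_num
  · exfalso
    have h8 : 8 ∣ 2 ^ k := pow_dvd_pow 2 hge
    have h8' : 8 ∣ 60 := by
      rw [← h1]
      exact Dvd.dvd.mul_right h8 _
    omega

theorem normalizer_index_60 {G : Type*} [Group G] [Finite G] [IsSimpleGroup G]
    (h : Nat.card G = 60) (P : Sylow 2 G) :
    (Subgroup.normalizer ((P : Subgroup G) : Set G)).index = 5 := by
  haveI : Fact (Nat.Prime 2) := ⟨Nat.prime_two⟩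
  have hP4 := sylow2_card_60 h P
  have h1 := (Subgroup.normalizer ((P : Subgroup G) : Set G)).card_mul_index
  rw [h] at h1
  have hle : (P : Subgroup G) ≤ Subgroup.normalizer ((P : Subgroup G) : Set G) :=
    Subgroup.le_normalizer
  have h4 : 4 ∣ Nat.card (Subgroup.normalizer ((P : Subgroup G) : Set G)) := by
    rw [← hP4]
    exact Subgroup.card_dvd_of_le hle
  obtain ⟨c, hc⟩ := h4
  obtain ⟨i, hi⟩ : ∃ i, i = (Subgroup.normalizer ((P : Subgroup G) : Set G)).index := ⟨_, rfl⟩
  rw [← hi, hc] at h1
  rw [← hi]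
  have hci : c * i = 15 :=
    Nat.eq_of_mul_eq_mul_left (by norm_num : 0 < 4) (by rw [← mul_assoc, h1])
  have hidvd : i ∣ 15 := Dvd.intro_left c hci
  have hile : i ≤ 15 := Nat.le_of_dvd (by norm_num) hidvd
  have hipos : 0 < i := Nat.pos_of_dvd_of_pos hidvd (by norm_num)
  have hi1 : i ≠ 1 := by
    intro hi1
    rw [hi1] at hi
    have htop := Subgroup.index_eq_one.mp hi.symm
    haveI hPn : (P : Subgroup G).Normal := Subgroup.normalizer_eq_top_iff.mp htop
    rcases hPn.eq_bot_or_eq_top with hb | ht
    · rw [hb, Subgroup.card_bot] at hP4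
      omega
    · rw [ht, Subgroup.card_top, h] at hP4
      omega
  have hne : Subgroup.normalizer ((P : Subgroup G) : Set G) ≠ ⊤ := by
    intro htop
    rw [htop, Subgroup.index_top] at hi
    exact hi1 hi
  have hi3 : i ≠ 3 := by
    intro hi3
    have hd := card_dvd_factorial_index _ hne
    rw [← hi, hi3, h] at hd
    have : Nat.factorial 3 = 6 := rfl
    rw [this] at hd
    omega
  have hi15 : i ≠ 15 := by
    intro hi15
    have hc1 : c = 1 := by
      rw [hi15] at hci
      omega
    rw [hc1] at hc
    have heq : (P : Subgroup G) = Subgroup.normalizer ((P : Subgroup G) : Set G) :=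
      Subgroup.eq_of_le_of_card_ge hle (by rw [hc, hP4])
    have hcomm : ∀ a b : (P : Subgroup G), a * b = b * a :=
      IsPGroup.commutative_of_card_eq_prime_sq (p := 2) (by rw [hP4]; norm_num)
    have hPc : Subgroup.normalizer ((P : Subgroup G) : Set G) ≤
        Subgroup.centralizer ((P : Subgroup G) : Set G) := by
      rw [← heq]
      intro g hg
      rw [Subgroup.mem_centralizer_iff]
      intro x hx
      have := hcomm ⟨x, hx⟩ ⟨g, hg⟩
      exact congrArg Subtype.val this
    have hcomp := MonoidHom.ker_transferSylow_isComplement' P hPc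
    have hK := hcomp.index_eq_card
    have hPi := (P : Subgroup G).card_mul_index
    rw [hP4, h] at hPi
    rcases (MonoidHom.normal_ker (MonoidHom.transferSylow P hPc)).eq_bot_or_eq_top with hb | ht
    · rw [hb, Subgroup.card_bot] at hK
      omega
    · rw [ht, Subgroup.card_top, h] at hK
      omega
  interval_cases i <;> omega

theorem involutions_le_15 {G : Type*} [Group G] [Finite G] [IsSimpleGroup G]
    (h : Nat.card G = 60) : Nat.card {t : G // orderOf t = 2} ≤ 15 := by
  classical
  haveI : Fact (Nat.Prime 2) := ⟨Nat.prime_two⟩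
  haveI : Fintype G := Fintype.ofFinite G
  haveI : Fintype (Sylow 2 G) := Fintype.ofFinite _
  have hcardS : Fintype.card (Sylow 2 G) = 5 := by
    rw [← Nat.card_eq_fintype_card, (default : Sylow 2 G).card_eq_index_normalizer]
    exact normalizer_index_60 h _
  obtain ⟨F, hF⟩ : ∃ F : Sylow 2 G → Finset G,
      F = fun Q : Sylow 2 G =>
        (Finset.univ.filter (fun x => x ∈ (Q : Subgroup G))).erase 1 := ⟨_, rfl⟩
  have hFcard : ∀ Q : Sylow 2 G, (F Q).card = 3 := by
    intro Q
    rw [hF]
    simp only
    rw [Finset.card_erase_of_mem (by simp)]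
    have h1 : (Finset.univ.filter (fun x => x ∈ (Q : Subgroup G))).card =
        Nat.card (Q : Subgroup G) := by
      rw [Nat.card_eq_fintype_card, Fintype.card_subtype]
    rw [h1, sylow2_card_60 h Q]
  rw [Nat.card_eq_fintype_card, Fintype.card_subtype]
  calc (Finset.univ.filter (fun t : G => orderOf t = 2)).card
      ≤ (Finset.univ.biUnion F).card := by
        apply Finset.card_le_card
        intro t ht
        simp only [Finset.mem_filter, Finset.mem_univ, true_and] at ht
        have hp : IsPGroup 2 (Subgroup.zpowers t) := by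
          apply IsPGroup.of_card (n := 1)
          rw [Nat.card_zpowers, ht, pow_one]
        obtain ⟨Q, hQ⟩ := hp.exists_le_sylow
        rw [Finset.mem_biUnion]
        refine ⟨Q, Finset.mem_univ _, ?_⟩
        rw [hF]
        simp only [Finset.mem_erase, Finset.mem_filter, Finset.mem_univ, true_and]
        refine ⟨?_, hQ (Subgroup.mem_zpowers t)⟩
        rintro rfl
        rw [orderOf_one] at ht
        omega
    _ ≤ ∑ Q : Sylow 2 G, (F Q).card := Finset.card_biUnion_le
    _ = 15 := by
        rw [Finset.sum_congr rfl (fun Q _ => hFcard Q), Finset.sum_const, Finset.card_univ, hcardS]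
        rfl

theorem simple_60_iso_A5 {G : Type*} [Group G] [Finite G] [IsSimpleGroup G]
    (h : Nat.card G = 60) : Nonempty (G ≃* alternatingGroup (Fin 5)) := by
  classical
  haveI : Fact (Nat.Prime 2) := ⟨Nat.prime_two⟩
  let P : Sylow 2 G := default
  obtain ⟨H, hH⟩ : ∃ H : Subgroup G, H = Subgroup.normalizer ((P : Subgroup G) : Set G) :=
    ⟨_, rfl⟩
  have hidx : H.index = 5 := by
    rw [hH]
    exact normalizer_index_60 h P
  have hne : H ≠ ⊤ := by
    intro htop
    rw [htop, Subgroup.index_top] at hidx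
    omega
  have hinj₀ := toPermHom_injective H hne
  haveI : Fintype (G ⧸ H) := Fintype.ofFinite _
  have hcardQ : Fintype.card (G ⧸ H) = 5 := by
    rw [← Nat.card_eq_fintype_card, ← Subgroup.index_eq_card, hidx]
  let e : (G ⧸ H) ≃ Fin 5 := Fintype.equivFinOfCardEq hcardQ
  obtain ⟨f, hf⟩ : ∃ f : G →* Equiv.Perm (Fin 5),
      f = (Equiv.permCongrHom e).toMonoidHom.comp (MulAction.toPermHom G (G ⧸ H)) := ⟨_, rfl⟩
  have hinj : Function.Injective f := by
    rw [hf]
    exact (Equiv.permCongrHom e).injective.comp hinj₀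
  have hsign : ∀ g : G, Equiv.Perm.sign (f g) = 1 := by
    rcases (MonoidHom.normal_ker (Equiv.Perm.sign.comp f)).eq_bot_or_eq_top with hb | ht
    · exfalso
      have hinj2 : Function.Injective (Equiv.Perm.sign.comp f) :=
        (MonoidHom.ker_eq_bot_iff _).mp hb
      have h1 := Nat.card_le_card_of_injective _ hinj2
      rw [h, Nat.card_eq_fintype_card, Fintype.card_units_int] at h1
      omega
    · intro g
      have hg : g ∈ (Equiv.Perm.sign.comp f).ker := by rw [ht]; trivial
      exact MonoidHom.mem_ker.mp hg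
  have hle : f.range ≤ alternatingGroup (Fin 5) := by
    rintro _ ⟨g, rfl⟩
    exact Equiv.Perm.mem_alternatingGroup.mpr (hsign g)
  have hcr : Nat.card f.range = 60 := by
    rw [← h]
    exact (Nat.card_congr (Equiv.ofInjective _ hinj)).symm
  have hA : Nat.card (alternatingGroup (Fin 5)) = 60 := by
    have h2 := two_mul_nat_card_alternatingGroup (α := Fin 5)
    rw [Nat.card_perm, Nat.card_fin] at h2
    have : Nat.factorial 5 = 120 := rfl
    omega
  have heq : f.range = alternatingGroup (Fin 5) :=
    Subgroup.eq_of_le_of_card_ge hle (by rw [hcr, hA])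
  exact ⟨(MonoidHom.ofInjective hinj).trans (MulEquiv.subgroupCongr heq)⟩

end Cfsg.Agent.Lib.Helper1.Small
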