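import Mathlib
import Cfsg.Agent.Lib.Helper1.BF3
import Cfsg.Agent.Lib.Helper1.Small60

set_option autoImplicit false

namespace Cfsg.Agent.Lib.Helper1.BF

open Cfsg.Agent.Lib.Helper1

theorem false_of_120 {G : Type*} [Group G] [Finite G] [IsSimpleGroup G]
    (h : Nat.card G = 120) (H : Subgroup G) (hH : H ≠ ⊤) (hidx : H.index ≤ 5) : False := by
  classical
  have hinj := Small.toPermHom_injective H hH
  have hdvd := Small.card_dvd_factorial_index H hH
  rw [h] at hdvd
  have hidx5 : H.index = 5 := by
    by_contra hne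
    have h4 : H.index ≤ 4 := by omega
    have h24 := Nat.factorial_dvd_factorial h4
    have : Nat.factorial 4 = 24 := rfl
    rw [this] at h24
    have := hdvd.trans h24
    omega
  have hcardQ : Nat.card (G ⧸ H) = 5 := by rw [← Subgroup.index_eq_card, hidx5]
  haveI : Nontrivial (G ⧸ H) := by
    rw [← Finite.one_lt_card_iff_nontrivial, hcardQ]
    norm_num
  haveI : Fintype (G ⧸ H) := Fintype.ofFinite _
  have hcardP : Nat.card (Equiv.Perm (G ⧸ H)) = 120 := by
    rw [Nat.card_perm, hcardQ]
    rfl
  have hbij : Function.Bijective (MulAction.toPermHom G (G ⧸ H)) :=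
    hinj.bijective_of_nat_card_le (by rw [hcardP, h])
  obtain ⟨σ, hσ⟩ := Equiv.Perm.sign_surjective (G ⧸ H) (-1)
  obtain ⟨g, rfl⟩ := hbij.2 σ
  rcases (MonoidHom.normal_ker (Equiv.Perm.sign.comp
      (MulAction.toPermHom G (G ⧸ H)))).eq_bot_or_eq_top with hb | ht
  · have hinj2 : Function.Injective (Equiv.Perm.sign.comp (MulAction.toPermHom G (G ⧸ H))) :=
      (MonoidHom.ker_eq_bot_iff _).mp hb
    have h1 := Nat.card_le_card_of_injective _ hinj2
    rw [h, Nat.card_eq_fintype_card, Fintype.card_units_int] at h1
    omega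
  · have hg : g ∈ (Equiv.Perm.sign.comp (MulAction.toPermHom G (G ⧸ H))).ker := by
      rw [ht]; trivial
    have h1 : Equiv.Perm.sign ((MulAction.toPermHom G (G ⧸ H)) g) = 1 := MonoidHom.mem_ker.mp hg
    rw [hσ] at h1
    exact absurd h1 (by decide)

theorem three_involutions_lt {G : Type*} [Group G] [Finite G] [IsSimpleGroup G]
    (heven : Even (Nat.card G)) (hgt : 2 < Nat.card G) :
    3 * Nat.card {t : G // orderOf t = 2} < Nat.card G := by
  have hnc : ¬ ∀ a b : G, a * b = b * a := by
    intro hc
    letI : CommGroup G := { (inferInstance : Group G) with mul_comm := hc }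
    have hp : (Nat.card G).Prime := IsSimpleGroup.prime_card
    have h2 : Nat.card G = 2 := ((Nat.prime_dvd_prime_iff_eq Nat.prime_two hp).mp
      heven.two_dvd).symm
    omega
  have hcen : Subgroup.center G = ⊥ := by
    rcases (inferInstance : (Subgroup.center G).Normal).eq_bot_or_eq_top with hb | ht
    · exact hb
    · exfalso
      apply hnc
      intro a b
      have ha : a ∈ Subgroup.center G := by rw [ht]; trivial
      exact (Subgroup.mem_center_iff.mp ha b).symm
  have hZ : Odd (Nat.card (Subgroup.center G)) := by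
    rw [hcen, Subgroup.card_bot]
    exact odd_one
  obtain ⟨H, hH, hor⟩ := brauer_fowler_index heven hZ
  rcases hor with h2 | hlt
  · exact (Small.false_of_index_two hnc H h2).elim
  · by_contra hcon
    rw [not_lt] at hcon
    obtain ⟨n, hn⟩ : ∃ n, n = Nat.card {t : G // orderOf t = 2} := ⟨_, rfl⟩
    obtain ⟨N, hN⟩ : ∃ N, N = Nat.card G := ⟨_, rfl⟩
    rw [← hn, ← hN] at hlt hcon
    have hidx : H.index ≤ 5 := by
      by_contra hbig
      rw [not_le] at hbig
      have h6 : 6 ≤ H.index := hbig
      have e1 : 2 * 6 * n ^ 2 ≤ 2 * H.index * n ^ 2 :=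
        Nat.mul_le_mul_right _ (Nat.mul_le_mul_left _ h6)
      have e2 : N * (N + n) ≤ (3 * n) * (3 * n + n) :=
        Nat.mul_le_mul hcon (Nat.add_le_add_right hcon n)
      nlinarith
    have hdvd := Small.card_dvd_factorial_index H hH
    have h120 : N ∣ 120 := by
      rw [hN]
      have h5 := Nat.factorial_dvd_factorial hidx
      have : Nat.factorial 5 = 120 := rfl
      rw [this] at h5
      exact hdvd.trans h5
    obtain ⟨c, hc⟩ := h120
    have hNpos : 0 < N := by rw [hN]; exact Nat.card_pos
    rcases Nat.lt_or_ge c 2 with hc2 | hc2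
    · have hc1 : c = 1 := by
        rcases Nat.eq_zero_or_pos c with h0 | h0
        · rw [h0] at hc
          omega
        · omega
      rw [hc1, mul_one] at hc
      exact false_of_120 (by rw [← hN, ← hc]) H hH hidx
    · have hN60 : N ≤ 60 := by nlinarith
      rcases Small.small_orders N hNpos (by omega) with h60 | h84 | hm | ⟨p, q, a, b, hp, hq, hpq⟩
      · have h15 := Small.involutions_le_15 (G := G) (by rw [← hN, h60])
        rw [← hn] at h15
        omega
      · omega
      · exact Small.false_of_two_odd hnc (by rw [← hN]; exact hm)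
      · exact Small.false_of_paqb hnc p q a b hp hq (by rw [← hN]; exact hpq)

end Cfsg.Agent.Lib.Helper1.BF
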