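import Mathlib
import Cfsg.Prelude.Def_LieExceptional

set_option autoImplicit false

namespace Cfsg.Agent.Lib.Helper1.BN

open Cfsg

variable {G : Type*} [Group G]

theorem stable_sup_closure (H : Subgroup G) (X : Set G) (U : Set G)
    (hH : ∀ h ∈ H, ∀ g ∈ U, h * g ∈ U) (hX : ∀ s ∈ X, ∀ g ∈ U, s * g ∈ U)
    (hX' : ∀ s ∈ X, ∀ g ∈ U, s⁻¹ * g ∈ U) :
    ∀ h ∈ H ⊔ Subgroup.closure X, ∀ g ∈ U, h * g ∈ U := by
  let K : Subgroup G :=
    { carrier := {h | ∀ g ∈ U, h * g ∈ U ∧ h⁻¹ * g ∈ U}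
      one_mem' := by
        intro g hg
        simp [hg]
      mul_mem' := by
        intro a b ha hb g hg
        refine ⟨?_, ?_⟩
        · rw [mul_assoc]
          exact (ha _ (hb g hg).1).1
        · rw [mul_inv_rev, mul_assoc]
          exact (hb _ (ha g hg).2).2
      inv_mem' := by
        intro a ha g hg
        refine ⟨(ha g hg).2, ?_⟩
        rw [inv_inv]
        exact (ha g hg).1 }
  have hHK : H ≤ K := fun h hh g hg => ⟨hH h hh g hg, hH h⁻¹ (H.inv_mem hh) g hg⟩
  have hXK : Subgroup.closure X ≤ K := by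
    rw [Subgroup.closure_le]
    intro s hs g hg
    exact ⟨hX s hs g hg, hX' s hs g hg⟩
  intro h hh g hg
  exact ((sup_le hHK hXK) hh g hg).1

variable (P : BNPair G)

abbrev dc (n : G) : Set G := DoubleCoset.doubleCoset n (P.B : Set G) (P.B : Set G)

theorem mem_dc {n g : G} : g ∈ dc P n ↔ ∃ b ∈ P.B, ∃ b' ∈ P.B, g = b * n * b' :=
  DoubleCoset.mem_doubleCoset

theorem mem_dc_self (n : G) : n ∈ dc P n := DoubleCoset.mem_doubleCoset_self _ _ n

theorem dc_eq_of_mem {n g : G} (h : g ∈ dc P n) : dc P g = dc P n :=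
  DoubleCoset.doubleCoset_eq_of_mem h

theorem mul_mem_dc {n g b b' : G} (hb : b ∈ P.B) (hb' : b' ∈ P.B) (h : g ∈ dc P n) :
    b * g * b' ∈ dc P n := by
  obtain ⟨c, hc, c', hc', rfl⟩ := (mem_dc P).mp h
  exact (mem_dc P).mpr ⟨b * c, P.B.mul_mem hb hc, c' * b', P.B.mul_mem hc' hb', by group⟩

theorem mul_left_mem_dc {n g b : G} (hb : b ∈ P.B) (h : g ∈ dc P n) : b * g ∈ dc P n := by
  have := mul_mem_dc P hb P.B.one_mem h
  rwa [mul_one] at this

theorem mul_right_mem_dc {n g b : G} (hb : b ∈ P.B) (h : g ∈ dc P n) : g * b ∈ dc P n := by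
  have := mul_mem_dc P P.B.one_mem hb h
  rwa [one_mul] at this

theorem inv_mem_dc {n g : G} (h : g ∈ dc P n) : g⁻¹ ∈ dc P n⁻¹ := by
  obtain ⟨c, hc, c', hc', rfl⟩ := (mem_dc P).mp h
  exact (mem_dc P).mpr ⟨c'⁻¹, P.B.inv_mem hc', c⁻¹, P.B.inv_mem hc, by group⟩

theorem dc_eq_iff {n n' : G} : dc P n = dc P n' ↔ n ∈ dc P n' :=
  ⟨fun h => h ▸ mem_dc_self P n, fun h => dc_eq_of_mem P h⟩

theorem dc_of_mem_B {b : G} (hb : b ∈ P.B) : dc P b = (P.B : Set G) := by
  ext g
  rw [mem_dc]
  constructor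
  · rintro ⟨c, hc, c', hc', rfl⟩
    exact P.B.mul_mem (P.B.mul_mem hc hb) hc'
  · intro hg
    exact ⟨g * b⁻¹, P.B.mul_mem hg (P.B.inv_mem hb), 1, P.B.one_mem, by group⟩

def eqv (n n' : G) : Prop := n⁻¹ * n' ∈ P.B

theorem eqv_refl (n : G) : eqv P n n := by
  unfold eqv
  rw [inv_mul_cancel]
  exact P.B.one_mem

theorem eqv_symm {n n' : G} (h : eqv P n n') : eqv P n' n := by
  unfold eqv at *
  have := P.B.inv_mem h
  rwa [mul_inv_rev, inv_inv] at this

theorem eqv_trans {n n' n'' : G} (h : eqv P n n') (h' : eqv P n' n'') : eqv P n n'' := by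
  unfold eqv at *
  have := P.B.mul_mem h h'
  rwa [mul_assoc, mul_inv_cancel_left] at this

theorem eqv_mul_left (g : G) {n n' : G} (h : eqv P n n') : eqv P (g * n) (g * n') := by
  unfold eqv at *
  rwa [mul_inv_rev, mul_assoc, inv_mul_cancel_left]

theorem eqv_of_eq {n n' : G} (h : n = n') : eqv P n n' := h ▸ eqv_refl P n

theorem conjT {n t : G} (hn : n ∈ P.N) (ht : t ∈ P.B) (htN : t ∈ P.N) : n * t * n⁻¹ ∈ P.B :=
  P.conj_mem n hn t (Subgroup.mem_inf.mpr ⟨ht, htN⟩)

theorem conjT' {n t : G} (hn : n ∈ P.N) (ht : t ∈ P.B) (htN : t ∈ P.N) : n⁻¹ * t * n ∈ P.B := by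
  have := conjT P (P.N.inv_mem hn) ht htN
  rwa [inv_inv] at this

theorem eqv_mul_right {n n' m : G} (hn : n ∈ P.N) (hn' : n' ∈ P.N) (hm : m ∈ P.N)
    (h : eqv P n n') : eqv P (n * m) (n' * m) := by
  unfold eqv at *
  have h1 := conjT' P hm h (P.N.mul_mem (P.N.inv_mem hn) hn')
  have h2 : (n * m)⁻¹ * (n' * m) = m⁻¹ * (n⁻¹ * n') * m := by group
  rw [h2]
  exact h1

theorem eqv_dc {n n' : G} (h : eqv P n n') : dc P n = dc P n' := by
  symm
  apply dc_eq_of_mem
  rw [mem_dc]
  exact ⟨1, P.B.one_mem, n⁻¹ * n', h, by group⟩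

theorem S_mem_N {s : G} (hs : s ∈ P.S) : s ∈ P.N := P.subset hs

theorem sq_mem_N {s : G} (hs : s ∈ P.S) : s * s ∈ P.N := P.N.mul_mem (P.subset hs) (P.subset hs)

theorem S_not_mem_B {s : G} (hs : s ∈ P.S) : s ∉ P.B := by
  intro hsB
  apply P.conj_ne s hs
  ext g
  constructor
  · rintro ⟨b, hb, rfl⟩
    exact P.B.mul_mem (P.B.mul_mem hsB hb) hsB
  · intro hg
    refine ⟨s⁻¹ * g * s⁻¹, P.B.mul_mem (P.B.mul_mem (P.B.inv_mem hsB) hg) (P.B.inv_mem hsB), ?_⟩
    show s * (s⁻¹ * g * s⁻¹) * s = g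
    group

theorem exists_conj_not_mem {s : G} (hs : s ∈ P.S) : ∃ b ∈ P.B, s * b * s ∉ P.B := by
  by_contra hcon
  push Not at hcon
  apply P.conj_ne s hs
  ext g
  constructor
  · rintro ⟨b, hb, rfl⟩
    exact hcon b hb
  · intro hg
    have hsq := P.B.inv_mem (P.sq_mem s hs)
    have h1 : s⁻¹ * g * s⁻¹ = (s * s)⁻¹ * (s * g * s) * (s * s)⁻¹ := by group
    refine ⟨s⁻¹ * g * s⁻¹, ?_, ?_⟩
    · rw [h1]
      exact P.B.mul_mem (P.B.mul_mem hsq (hcon g hg)) hsq
    · show s * (s⁻¹ * g * s⁻¹) * s = g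
      group

theorem eqv_inv_S {s : G} (hs : s ∈ P.S) : eqv P s⁻¹ s := by
  unfold eqv
  rw [inv_inv]
  exact P.sq_mem s hs

theorem eqv_sq_mul {s n : G} (hs : s ∈ P.S) (hn : n ∈ P.N) : eqv P (s * (s * n)) n := by
  unfold eqv
  have h1 : (s * (s * n))⁻¹ * n = n⁻¹ * (s * s)⁻¹ * n := by group
  rw [h1]
  exact conjT' P hn (P.B.inv_mem (P.sq_mem s hs)) (P.N.inv_mem (sq_mem_N P hs))

theorem eqv_mul_sq {s : G} (n : G) (hs : s ∈ P.S) : eqv P (n * s * s) n := by
  unfold eqv
  have h1 : (n * s * s)⁻¹ * n = (s * s)⁻¹ := by group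
  rw [h1]
  exact P.B.inv_mem (P.sq_mem s hs)

theorem t3_left {s n g : G} (hs : s ∈ P.S) (hn : n ∈ P.N) (hg : g ∈ dc P n) :
    s * g ∈ dc P (s * n) ∪ dc P n := by
  obtain ⟨b, hb, b', hb', rfl⟩ := (mem_dc P).mp hg
  have h := P.mul_mem_union s hs n hn b hb
  have h2 : s * (b * n * b') = s * b * n * b' := by group
  rw [h2]
  rcases h with h | h
  · left
    exact mul_right_mem_dc P hb' h
  · right
    exact mul_right_mem_dc P hb' h

theorem t3_left_inv {s n g : G} (hs : s ∈ P.S) (hn : n ∈ P.N) (hg : g ∈ dc P n) :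
    s⁻¹ * g ∈ dc P (s * n) ∪ dc P n := by
  have h2 : s⁻¹ * g = (s * s)⁻¹ * (s * g) := by group
  rw [h2]
  have hsq := P.B.inv_mem (P.sq_mem s hs)
  rcases t3_left P hs hn hg with h | h
  · left
    exact mul_left_mem_dc P hsq h
  · right
    exact mul_left_mem_dc P hsq h

theorem t3_right {s n g : G} (hs : s ∈ P.S) (hn : n ∈ P.N) (hg : g ∈ dc P n) :
    g * s ∈ dc P (n * s) ∪ dc P n := by
  have h1 := t3_left_inv P hs (P.N.inv_mem hn) (inv_mem_dc P hg)
  have h3 : dc P (n * s) = dc P (s * n⁻¹)⁻¹ := by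
    apply eqv_dc
    have : (s * n⁻¹)⁻¹ = n * s⁻¹ := by group
    rw [this]
    exact eqv_mul_left P n (eqv_symm P (eqv_inv_S P hs))
  have hinv : (s⁻¹ * g⁻¹)⁻¹ = g * s := by group
  rcases h1 with h | h
  · left
    have := inv_mem_dc P h
    rw [hinv] at this
    rw [h3]
    exact this
  · right
    have := inv_mem_dc P h
    rw [hinv, inv_inv] at this
    exact this

theorem t3_right_inv {s n g : G} (hs : s ∈ P.S) (hn : n ∈ P.N) (hg : g ∈ dc P n) :
    g * s⁻¹ ∈ dc P (n * s) ∪ dc P n := by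
  have h2 : g * s⁻¹ = (g * s) * (s * s)⁻¹ := by group
  rw [h2]
  have hsq := P.B.inv_mem (P.sq_mem s hs)
  rcases t3_right P hs hn hg with h | h
  · left
    exact mul_right_mem_dc P hsq h
  · right
    exact mul_right_mem_dc P hsq h

def IsWord (L : List G) : Prop := ∀ x ∈ L, x ∈ P.S

theorem word_prod_mem_N {L : List G} (hL : IsWord P L) : L.prod ∈ P.N :=
  Subgroup.list_prod_mem _ (fun x hx => P.subset (hL x hx))

theorem isWord_nil : IsWord P [] := by
  intro x hx
  simp at hx

theorem isWord_cons {s : G} {L : List G} (hs : s ∈ P.S) (hL : IsWord P L) : IsWord P (s :: L) := by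
  intro x hx
  rw [List.mem_cons] at hx
  rcases hx with rfl | hx
  · exact hs
  · exact hL x hx

theorem isWord_append {L L' : List G} (hL : IsWord P L) (hL' : IsWord P L') :
    IsWord P (L ++ L') := by
  intro x hx
  rw [List.mem_append] at hx
  rcases hx with hx | hx
  · exact hL x hx
  · exact hL' x hx

theorem isWord_singleton {s : G} (hs : s ∈ P.S) : IsWord P [s] := isWord_cons P hs (isWord_nil P)

theorem exists_word {n : G} (hn : n ∈ P.N) : ∃ L, IsWord P L ∧ eqv P L.prod n := by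
  have key := stable_sup_closure (P.B ⊓ P.N) P.S {n | n ∈ P.N ∧ ∃ L, IsWord P L ∧ eqv P L.prod n}
    (by
      rintro t ht g ⟨hg, L, hL, hLg⟩
      rw [Subgroup.mem_inf] at ht
      refine ⟨P.N.mul_mem ht.2 hg, L, hL, ?_⟩
      unfold eqv at *
      have h1 : L.prod⁻¹ * (t * g) = (L.prod⁻¹ * t * L.prod) * (L.prod⁻¹ * g) := by group
      rw [h1]
      exact P.B.mul_mem (conjT' P (word_prod_mem_N P hL) ht.1 ht.2) hLg)
    (by
      rintro s hs g ⟨hg, L, hL, hLg⟩
      refine ⟨P.N.mul_mem (P.subset hs) hg, s :: L, isWord_cons P hs hL, ?_⟩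
      rw [List.prod_cons]
      exact eqv_mul_left P s hLg)
    (by
      rintro s hs g ⟨hg, L, hL, hLg⟩
      refine ⟨P.N.mul_mem (P.N.inv_mem (P.subset hs)) hg, s :: L, isWord_cons P hs hL, ?_⟩
      rw [List.prod_cons]
      unfold eqv at *
      have h1 : (s * L.prod)⁻¹ * (s⁻¹ * g)
          = (L.prod⁻¹ * (s * s)⁻¹ * L.prod) * (L.prod⁻¹ * g) := by group
      rw [h1]
      exact P.B.mul_mem (conjT' P (word_prod_mem_N P hL) (P.B.inv_mem (P.sq_mem s hs))
        (P.N.inv_mem (sq_mem_N P hs))) hLg)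
  have hn' : n ∈ (P.B ⊓ P.N) ⊔ Subgroup.closure P.S := by
    rw [sup_comm, P.closure_sup]
    exact hn
  have := key n hn' 1 ⟨P.N.one_mem, [], isWord_nil P, by
    rw [List.prod_nil]
    exact eqv_refl P 1⟩
  rw [mul_one] at this
  exact this.2

noncomputable def len (n : G) : ℕ :=
  sInf {k | ∃ L : List G, IsWord P L ∧ L.length = k ∧ eqv P L.prod n}

theorem len_spec {n : G} (hn : n ∈ P.N) :
    ∃ L, IsWord P L ∧ L.length = len P n ∧ eqv P L.prod n := by
  obtain ⟨L, hL, hLn⟩ := exists_word P hn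
  exact Nat.sInf_mem (s := {k | ∃ L : List G, IsWord P L ∧ L.length = k ∧ eqv P L.prod n})
    ⟨L.length, L, hL, rfl, hLn⟩

theorem len_le {n : G} {L : List G} (hL : IsWord P L) (h : eqv P L.prod n) :
    len P n ≤ L.length :=
  Nat.sInf_le ⟨L, hL, rfl, h⟩

theorem len_eqv {n n' : G} (h : eqv P n n') : len P n = len P n' := by
  unfold len
  congr 1
  ext k
  constructor
  · rintro ⟨L, hL, hk, hLn⟩
    exact ⟨L, hL, hk, eqv_trans P hLn h⟩
  · rintro ⟨L, hL, hk, hLn⟩
    exact ⟨L, hL, hk, eqv_trans P hLn (eqv_symm P h)⟩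

theorem mem_B_of_len_zero {n : G} (hn : n ∈ P.N) (h : len P n = 0) : n ∈ P.B := by
  obtain ⟨L, hL, hlen, hLn⟩ := len_spec P hn
  rw [h, List.length_eq_zero_iff] at hlen
  rw [hlen, List.prod_nil] at hLn
  unfold eqv at hLn
  rwa [inv_one, one_mul] at hLn

theorem len_zero_of_mem_B {n : G} (h : n ∈ P.B) : len P n = 0 := by
  have := len_le P (n := n) (isWord_nil P) (by
    rw [List.prod_nil]
    unfold eqv
    rwa [inv_one, one_mul])
  simpa using this

theorem len_mul_left_le {s n : G} (hs : s ∈ P.S) (hn : n ∈ P.N) :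
    len P (s * n) ≤ len P n + 1 := by
  obtain ⟨L, hL, hlen, hLn⟩ := len_spec P hn
  have := len_le P (n := s * n) (isWord_cons P hs hL) (by
    rw [List.prod_cons]
    exact eqv_mul_left P s hLn)
  rw [List.length_cons, hlen] at this
  exact this

theorem len_le_mul_left {s n : G} (hs : s ∈ P.S) (hn : n ∈ P.N) :
    len P n ≤ len P (s * n) + 1 := by
  have h1 := len_mul_left_le P hs (P.N.mul_mem (P.subset hs) hn)
  rw [len_eqv P (eqv_sq_mul P hs hn)] at h1
  exact h1

theorem len_mul_right_le {s n : G} (hs : s ∈ P.S) (hn : n ∈ P.N) :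
    len P (n * s) ≤ len P n + 1 := by
  obtain ⟨L, hL, hlen, hLn⟩ := len_spec P hn
  have := len_le P (n := n * s) (isWord_append P hL (isWord_singleton P hs)) (by
    rw [List.prod_append, List.prod_singleton]
    exact eqv_mul_right P (word_prod_mem_N P hL) hn (P.subset hs) hLn)
  rw [List.length_append, List.length_singleton, hlen] at this
  exact this

theorem len_le_mul_right {s n : G} (hs : s ∈ P.S) (hn : n ∈ P.N) :
    len P n ≤ len P (n * s) + 1 := by
  have h1 := len_mul_right_le P hs (P.N.mul_mem hn (P.subset hs))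
  rw [len_eqv P (eqv_mul_sq P n hs)] at h1
  exact h1

theorem len_S {s : G} (hs : s ∈ P.S) : len P s = 1 := by
  have h1 := len_le P (n := s) (isWord_singleton P hs) (by
    rw [List.prod_singleton]
    exact eqv_refl P s)
  rw [List.length_singleton] at h1
  have h2 : len P s ≠ 0 := fun h => S_not_mem_B P hs (mem_B_of_len_zero P (P.subset hs) h)
  omega

theorem bruhat (g : G) : ∃ n ∈ P.N, g ∈ dc P n := by
  have key := stable_sup_closure P.B P.S {g | ∃ n ∈ P.N, g ∈ dc P n}
    (by
      rintro b hb g ⟨n, hn, hg⟩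
      exact ⟨n, hn, mul_left_mem_dc P hb hg⟩)
    (by
      rintro s hs g ⟨n, hn, hg⟩
      rcases t3_left P hs hn hg with h | h
      · exact ⟨s * n, P.N.mul_mem (P.subset hs) hn, h⟩
      · exact ⟨n, hn, h⟩)
    (by
      rintro s hs g ⟨n, hn, hg⟩
      rcases t3_left_inv P hs hn hg with h | h
      · exact ⟨s * n, P.N.mul_mem (P.subset hs) hn, h⟩
      · exact ⟨n, hn, h⟩)
  have htop : P.B ⊔ Subgroup.closure P.S = ⊤ := by
    rw [eq_top_iff, ← P.sup_eq_top]
    apply sup_le le_sup_left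
    calc P.N = Subgroup.closure P.S ⊔ (P.B ⊓ P.N) := P.closure_sup.symm
      _ ≤ P.B ⊔ Subgroup.closure P.S := sup_le le_sup_right (inf_le_left.trans le_sup_left)
  have := key g (by rw [htop]; exact Subgroup.mem_top g) 1 ⟨1, P.N.one_mem, mem_dc_self P 1⟩
  rwa [mul_one] at this

theorem closure_le_N {J : Set G} (hJ : J ⊆ P.S) : Subgroup.closure J ≤ P.N :=
  (Subgroup.closure_le _).mpr (fun _ hx => P.subset (hJ hx))

theorem B_le_parabolic (J : Set G) : P.B ≤ P.parabolic J := le_sup_left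

theorem closure_le_parabolic (J : Set G) : Subgroup.closure J ≤ P.parabolic J := le_sup_right

theorem mem_parabolic_iff {J : Set G} (hJ : J ⊆ P.S) (g : G) :
    g ∈ P.parabolic J ↔ ∃ n ∈ Subgroup.closure J, g ∈ dc P n := by
  constructor
  · intro hg
    have hJN := closure_le_N P hJ
    have key := stable_sup_closure P.B J {g | ∃ n ∈ Subgroup.closure J, g ∈ dc P n}
      (by
        rintro b hb g ⟨n, hn, hg⟩
        exact ⟨n, hn, mul_left_mem_dc P hb hg⟩)
      (by
        rintro s hs g ⟨n, hn, hg⟩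
        rcases t3_left P (hJ hs) (hJN hn) hg with h | h
        · exact ⟨s * n, Subgroup.mul_mem _ (Subgroup.subset_closure hs) hn, h⟩
        · exact ⟨n, hn, h⟩)
      (by
        rintro s hs g ⟨n, hn, hg⟩
        rcases t3_left_inv P (hJ hs) (hJN hn) hg with h | h
        · exact ⟨s * n, Subgroup.mul_mem _ (Subgroup.subset_closure hs) hn, h⟩
        · exact ⟨n, hn, h⟩)
    have := key g hg 1 ⟨1, Subgroup.one_mem _, mem_dc_self P 1⟩
    rwa [mul_one] at this
  · rintro ⟨n, hn, hg⟩
    obtain ⟨b, hb, b', hb', rfl⟩ := (mem_dc P).mp hg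
    exact Subgroup.mul_mem _ (Subgroup.mul_mem _ (B_le_parabolic P J hb)
      (closure_le_parabolic P J hn)) (B_le_parabolic P J hb')

theorem bruhat_unique_aux : ∀ k : ℕ, ∀ n n' : G, n ∈ P.N → n' ∈ P.N → len P n = k →
    k ≤ len P n' → dc P n = dc P n' → eqv P n n' := by
  intro k
  induction k with
  | zero =>
    intro n n' hn hn' hk _ hdc
    have hnB := mem_B_of_len_zero P hn hk
    have h1 : n' ∈ dc P n := hdc ▸ mem_dc_self P n'
    rw [dc_of_mem_B P hnB] at h1
    exact P.B.mul_mem (P.B.inv_mem hnB) h1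
  | succ k ih =>
    intro n n' hn hn' hk hle hdc
    obtain ⟨L, hL, hlen, hLn⟩ := len_spec P hn
    rw [hk] at hlen
    rcases L with _ | ⟨s, L'⟩
    · simp at hlen
    have hs : s ∈ P.S := hL s List.mem_cons_self
    have hL' : IsWord P L' := fun x hx => hL x (List.mem_cons_of_mem _ hx)
    have hsN := P.subset hs
    have hn''N := word_prod_mem_N P hL'
    rw [List.prod_cons] at hLn
    rw [List.length_cons] at hlen
    have h1 : len P L'.prod ≤ k := by
      have := len_le P (n := L'.prod) hL' (eqv_refl P _)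
      omega
    have h2 : len P n ≤ len P L'.prod + 1 := by
      rw [← len_eqv P hLn]
      exact len_mul_left_le P hs hn''N
    have hlen'' : len P L'.prod = k := by omega
    have h3 : s * L'.prod ∈ dc P n' := by
      rw [← hdc, ← eqv_dc P hLn]
      exact mem_dc_self P _
    have h4 := t3_left_inv P hs hn' h3
    rw [inv_mul_cancel_left] at h4
    rcases h4 with h4 | h4
    · have h5 : dc P L'.prod = dc P (s * n') := dc_eq_of_mem P h4
      have h6 : k ≤ len P (s * n') := by
        have := len_le_mul_left P hs hn'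
        omega
      have h7 := ih L'.prod (s * n') hn''N (P.N.mul_mem hsN hn') hlen'' h6 h5
      have h8 : eqv P (s * L'.prod) (s * (s * n')) := eqv_mul_left P s h7
      exact eqv_trans P (eqv_symm P hLn) (eqv_trans P h8 (eqv_sq_mul P hs hn'))
    · have h5 : dc P L'.prod = dc P n' := dc_eq_of_mem P h4
      have h7 := ih L'.prod n' hn''N hn' hlen'' (by omega) h5
      have := len_eqv P h7
      omega

theorem bruhat_unique {n n' : G} (hn : n ∈ P.N) (hn' : n' ∈ P.N) (h : dc P n = dc P n') :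
    eqv P n n' := by
  rcases le_total (len P n) (len P n') with hle | hle
  · exact bruhat_unique_aux P _ n n' hn hn' rfl hle h
  · exact eqv_symm P (bruhat_unique_aux P _ n' n hn' hn rfl hle h.symm)

theorem key_a : ∀ k : ℕ, ∀ n : G, n ∈ P.N → len P n = k → ∀ s ∈ P.S,
    len P n ≤ len P (s * n) → ∀ g ∈ dc P n, s * g ∈ dc P (s * n) := by
  intro k
  induction k with
  | zero =>
    intro n hn hk s hs _ g hg
    have hnB := mem_B_of_len_zero P hn hk
    rw [dc_of_mem_B P hnB] at hg
    rw [mem_dc]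
    exact ⟨1, P.B.one_mem, n⁻¹ * g, P.B.mul_mem (P.B.inv_mem hnB) hg, by group⟩
  | succ k ih =>
    intro n hn hk s hs hle g hg
    by_contra hcon
    have hg2 : s * g ∈ dc P n := by
      rcases t3_left P hs hn hg with h | h
      · exact absurd h hcon
      · exact h
    obtain ⟨L, hL, hlen, hLn⟩ := len_spec P hn
    rw [hk] at hlen
    rcases List.eq_nil_or_concat' L with rfl | ⟨L', ρ, rfl⟩
    · simp at hlen
    have hρ : ρ ∈ P.S := hL ρ (by simp)
    have hL' : IsWord P L' := fun x hx => hL x (by simp [hx])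
    rw [List.prod_append, List.prod_singleton] at hLn
    rw [List.length_append, List.length_singleton] at hlen
    have hn'N : L'.prod ∈ P.N := word_prod_mem_N P hL'
    have hρN := P.subset hρ
    have hsN := P.subset hs
    have hlen' : len P L'.prod = k := by
      have h1 := len_le P (n := L'.prod) hL' (eqv_refl P _)
      have h2 := len_mul_right_le P hρ hn'N
      rw [len_eqv P hLn] at h2
      omega
    have hle' : len P L'.prod ≤ len P (s * L'.prod) := by
      by_contra hlt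
      rw [not_le] at hlt
      have h1 : len P (s * n) = len P (s * L'.prod * ρ) := by
        apply len_eqv
        rw [mul_assoc]
        exact eqv_mul_left P s (eqv_symm P hLn)
      have h2 := len_mul_right_le P hρ (P.N.mul_mem hsN hn'N)
      omega
    have ihn' := ih L'.prod hn'N hlen' s hs hle'
    have hdc : dc P n = dc P (L'.prod * ρ) := (eqv_dc P hLn).symm
    rw [hdc] at hg hg2
    obtain ⟨b1, hb1, b2, hb2, rfl⟩ := (mem_dc P).mp hg
    have hx : s * (b1 * L'.prod) ∈ dc P (s * L'.prod) :=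
      ihn' _ (mul_left_mem_dc P hb1 (mem_dc_self P _))
    have hxρ : s * (b1 * L'.prod) * ρ ∈ dc P (L'.prod * ρ) := by
      have := mul_right_mem_dc P (P.B.inv_mem hb2) hg2
      have e : s * (b1 * (L'.prod * ρ) * b2) * b2⁻¹ = s * (b1 * L'.prod) * ρ := by group
      rwa [e] at this
    have h3 := t3_right_inv P hρ (P.N.mul_mem hn'N hρN) hxρ
    rw [mul_inv_cancel_right] at h3
    rw [eqv_dc P (eqv_mul_sq P L'.prod hρ)] at h3
    rcases h3 with h3 | h3
    · have h4 : dc P (s * L'.prod) = dc P L'.prod :=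
        (dc_eq_of_mem P hx).symm.trans (dc_eq_of_mem P h3)
      have h5 := bruhat_unique P (P.N.mul_mem hsN hn'N) hn'N h4
      apply S_not_mem_B P hs
      unfold eqv at h5
      have h6 := conjT P hn'N h5 (P.N.mul_mem (P.N.inv_mem (P.N.mul_mem hsN hn'N)) hn'N)
      have e : L'.prod * ((s * L'.prod)⁻¹ * L'.prod) * L'.prod⁻¹ = s⁻¹ := by group
      rw [e] at h6
      have := P.B.inv_mem h6
      rwa [inv_inv] at this
    · have h4 : dc P (s * L'.prod) = dc P (L'.prod * ρ) :=
        (dc_eq_of_mem P hx).symm.trans (dc_eq_of_mem P h3)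
      have h5 := bruhat_unique P (P.N.mul_mem hsN hn'N) (P.N.mul_mem hn'N hρN) h4
      have h6 : eqv P (s * (s * L'.prod)) (s * n) := eqv_mul_left P s (eqv_trans P h5 hLn)
      have h7 : len P (s * n) = len P L'.prod := by
        rw [← len_eqv P h6, len_eqv P (eqv_sq_mul P hs hn'N)]
      omega

theorem key_b {s n : G} (hs : s ∈ P.S) (hn : n ∈ P.N) (h : len P (s * n) ≤ len P n) :
    ∃ g ∈ dc P n, s * g ∈ dc P n := by
  obtain ⟨b, hb, hbs⟩ := exists_conj_not_mem P hs
  have hsN := P.subset hs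
  have h1 : s * b * s ∈ dc P s := by
    have := t3_left P hs hsN (mul_left_mem_dc P hb (mem_dc_self P s))
    rw [dc_of_mem_B P (P.sq_mem s hs), ← mul_assoc] at this
    rcases this with h' | h'
    · exact absurd h' hbs
    · exact h'
  obtain ⟨b1, hb1, b2, hb2, hb12⟩ := (mem_dc P).mp h1
  have hsnN := P.N.mul_mem hsN hn
  have ha := key_a P (len P (s * n)) (s * n) hsnN rfl s hs (by
    rw [len_eqv P (eqv_sq_mul P hs hn)]
    exact h)
  refine ⟨b * n, mul_left_mem_dc P hb (mem_dc_self P n), ?_⟩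
  have e : s * (b * n) = b1 * (s * (b2 * (s⁻¹ * n))) := by
    have h2 : s * b = b1 * s * b2 * s⁻¹ := by
      rw [← hb12]
      group
    calc s * (b * n) = (s * b) * n := by group
      _ = (b1 * s * b2 * s⁻¹) * n := by rw [h2]
      _ = b1 * (s * (b2 * (s⁻¹ * n))) := by group
  rw [e]
  apply mul_left_mem_dc P hb1
  have h2 : b2 * (s⁻¹ * n) ∈ dc P (s * n) := by
    apply mul_left_mem_dc P hb2
    rw [← eqv_dc P (eqv_mul_right P (P.N.inv_mem hsN) hsN hn (eqv_inv_S P hs))]
    exact mem_dc_self P _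
  have h3 := ha _ h2
  rwa [eqv_dc P (eqv_sq_mul P hs hn)] at h3

theorem key_c (H : Subgroup G) (hBH : P.B ≤ H) : ∀ L : List G, IsWord P L → ∀ n ∈ P.N,
    L.length = len P n → eqv P L.prod n → (∀ b ∈ P.B, n * b * n⁻¹ ∈ H) → ∀ x ∈ L, x ∈ H := by
  intro L
  induction L with
  | nil =>
    intro _ n _ _ _ _ x hx
    simp at hx
  | cons s L' ih =>
    intro hL n hn hlen hLn hconj x hx
    have hs : s ∈ P.S := hL s List.mem_cons_self
    have hL' : IsWord P L' := fun x hx => hL x (List.mem_cons_of_mem _ hx)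
    have hsN := P.subset hs
    rw [List.prod_cons] at hLn
    rw [List.length_cons] at hlen
    have h1 : eqv P L'.prod (s⁻¹ * n) := by
      have := eqv_mul_left P s⁻¹ hLn
      rwa [inv_mul_cancel_left] at this
    have hn'N : s⁻¹ * n ∈ P.N := P.N.mul_mem (P.N.inv_mem hsN) hn
    have h2 : len P (s⁻¹ * n) ≤ L'.length := len_le P hL' h1
    have h3 : len P (s * n) = len P (s⁻¹ * n) :=
      len_eqv P (eqv_mul_right P hsN (P.N.inv_mem hsN) hn (eqv_symm P (eqv_inv_S P hs)))
    obtain ⟨g, hg, hsg⟩ := key_b P hs hn (by omega)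
    obtain ⟨b1, hb1, b2, hb2, rfl⟩ := (mem_dc P).mp hg
    obtain ⟨b3, hb3, b4, hb4, h4⟩ := (mem_dc P).mp hsg
    have hsH : s ∈ H := by
      have e : s = b3 * (n * (b4 * b2⁻¹) * n⁻¹) * b1⁻¹ := by
        have e1 : s = (s * (b1 * n * b2)) * (b1 * n * b2)⁻¹ := by group
        rw [e1, h4]
        group
      rw [e]
      exact H.mul_mem (H.mul_mem (hBH hb3) (hconj _ (P.B.mul_mem hb4 (P.B.inv_mem hb2))))
        (hBH (P.B.inv_mem hb1))
    rw [List.mem_cons] at hx
    rcases hx with rfl | hx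
    · exact hsH
    · apply ih hL' (s⁻¹ * n) hn'N _ h1 _ x hx
      · have h5 : len P n ≤ len P (s⁻¹ * n) + 1 := by
          have := len_mul_left_le P hs hn'N
          rwa [mul_inv_cancel_left] at this
        omega
      · intro b hb
        have e : s⁻¹ * n * b * (s⁻¹ * n)⁻¹ = s⁻¹ * (n * b * n⁻¹) * s := by group
        rw [e]
        exact H.mul_mem (H.mul_mem (H.inv_mem hsH) (hconj b hb)) hsH

theorem mem_of_conj_mem (H : Subgroup G) (hBH : P.B ≤ H) {n : G} (hn : n ∈ P.N)
    (hconj : ∀ b ∈ P.B, n * b * n⁻¹ ∈ H) : n ∈ H := by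
  obtain ⟨L, hL, hlen, hLn⟩ := len_spec P hn
  have h1 := key_c P H hBH L hL n hn hlen hLn hconj
  have h2 : L.prod ∈ H := Subgroup.list_prod_mem _ h1
  have e : n = L.prod * (L.prod⁻¹ * n) := by group
  rw [e]
  exact H.mul_mem h2 (hBH hLn)

theorem cond_C {σ ρ n : G} (hσ : σ ∈ P.S) (hρ : ρ ∈ P.S) (hn : n ∈ P.N)
    (h1 : len P n ≤ len P (σ * n)) (h2 : len P (σ * (n * ρ)) ≤ len P (n * ρ)) :
    eqv P (σ * n) (n * ρ) := by
  have hσN := P.subset hσ
  have hρN := P.subset hρ
  have hnρ := P.N.mul_mem hn hρN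
  obtain ⟨g, hg, hσg⟩ := key_b P hσ hnρ h2
  obtain ⟨b1, hb1, b2, hb2, rfl⟩ := (mem_dc P).mp hg
  have hx : σ * (b1 * n) ∈ dc P (σ * n) :=
    key_a P _ n hn rfl σ hσ h1 _ (mul_left_mem_dc P hb1 (mem_dc_self P n))
  have hy : σ * (b1 * n) * ρ ∈ dc P (n * ρ) := by
    have := mul_right_mem_dc P (P.B.inv_mem hb2) hσg
    have e : σ * (b1 * (n * ρ) * b2) * b2⁻¹ = σ * (b1 * n) * ρ := by group
    rwa [e] at this
  have h3 := t3_right P hρ (P.N.mul_mem hσN hn) hx
  rcases h3 with h3 | h3
  · exfalso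
    have h4 : dc P (n * ρ) = dc P (σ * n * ρ) :=
      (dc_eq_of_mem P hy).symm.trans (dc_eq_of_mem P h3)
    have h5 := bruhat_unique P hnρ (P.N.mul_mem (P.N.mul_mem hσN hn) hρN) h4
    apply S_not_mem_B P hσ
    unfold eqv at h5
    have h6 := conjT P hnρ h5
      (P.N.mul_mem (P.N.inv_mem hnρ) (P.N.mul_mem (P.N.mul_mem hσN hn) hρN))
    have e : n * ρ * ((n * ρ)⁻¹ * (σ * n * ρ)) * (n * ρ)⁻¹ = σ := by group
    rwa [e] at h6
  · have h4 : dc P (n * ρ) = dc P (σ * n) :=
      (dc_eq_of_mem P hy).symm.trans (dc_eq_of_mem P h3)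
    exact eqv_symm P (bruhat_unique P hnρ (P.N.mul_mem hσN hn) h4)

theorem exchange : ∀ L : List G, IsWord P L → len P L.prod = L.length → ∀ σ ∈ P.S,
    len P (σ * L.prod) ≤ L.length →
    ∃ L1 x L2, L = L1 ++ x :: L2 ∧ eqv P (σ * L.prod) (L1 ++ L2).prod := by
  intro L
  induction L using List.reverseRecOn with
  | nil =>
    intro _ _ σ hσ h
    exfalso
    rw [List.prod_nil, mul_one, List.length_nil] at h
    have := len_S P hσ
    omega
  | append_singleton L0 ρ ih =>
    intro hL hred σ hσ h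
    have hρ : ρ ∈ P.S := hL ρ (by simp)
    have hL0 : IsWord P L0 := fun x hx => hL x (by simp [hx])
    have hn0 := word_prod_mem_N P hL0
    have hσN := P.subset hσ
    have hρN := P.subset hρ
    have hprod : (L0 ++ [ρ]).prod = L0.prod * ρ := by
      rw [List.prod_append, List.prod_singleton]
    rw [hprod] at hred h
    rw [List.length_append, List.length_singleton] at hred h
    have hred0 : len P L0.prod = L0.length := by
      have h1 := len_le P (n := L0.prod) hL0 (eqv_refl P _)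
      have h2 := len_mul_right_le P hρ hn0
      omega
    by_cases hc : len P (σ * L0.prod) ≤ L0.length
    · obtain ⟨L1, x, L2, hLeq, heq⟩ := ih hL0 hred0 σ hσ hc
      have hW : IsWord P (L1 ++ L2) := by
        intro y hy
        apply hL0 y
        rw [hLeq]
        simp only [List.mem_append, List.mem_cons] at hy ⊢
        tauto
      refine ⟨L1, x, L2 ++ [ρ], ?_, ?_⟩
      · rw [hLeq]
        simp
      · have h3 := eqv_mul_right P (P.N.mul_mem hσN hn0) (word_prod_mem_N P hW) hρN heq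
        have e1 : (L1 ++ (L2 ++ [ρ])).prod = (L1 ++ L2).prod * ρ := by
          rw [← List.append_assoc, List.prod_append, List.prod_singleton]
        rw [hprod, e1, ← mul_assoc]
        exact h3
    · rw [not_le] at hc
      have h4 := cond_C P hσ hρ hn0 (by omega) (by omega)
      refine ⟨L0, ρ, [], rfl, ?_⟩
      rw [List.append_nil, hprod, ← mul_assoc]
      have h5 := eqv_mul_right P (P.N.mul_mem hσN hn0) (P.N.mul_mem hn0 hρN) hρN h4
      exact eqv_trans P h5 (eqv_mul_sq P _ hρ)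

theorem deletion : ∀ L : List G, IsWord P L → len P L.prod < L.length →
    ∃ L' : List G, L'.length + 2 = L.length ∧ (∀ x ∈ L', x ∈ L) ∧ eqv P L'.prod L.prod := by
  intro L
  induction L with
  | nil =>
    intro _ h
    simp at h
  | cons σ L0 ih =>
    intro hL h
    have hσ : σ ∈ P.S := hL σ List.mem_cons_self
    have hL0 : IsWord P L0 := fun x hx => hL x (List.mem_cons_of_mem _ hx)
    rw [List.prod_cons, List.length_cons] at h
    by_cases hred : len P L0.prod < L0.length
    · obtain ⟨L', hlen, hmem, heq⟩ := ih hL0 hred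
      refine ⟨σ :: L', ?_, ?_, ?_⟩
      · rw [List.length_cons, List.length_cons]
        omega
      · intro x hx
        rw [List.mem_cons] at hx ⊢
        rcases hx with rfl | hx
        · left
          rfl
        · right
          exact hmem x hx
      · rw [List.prod_cons, List.prod_cons]
        exact eqv_mul_left P σ heq
    · have hred0 : len P L0.prod = L0.length := by
        have := len_le P (n := L0.prod) hL0 (eqv_refl P _)
        omega
      obtain ⟨L1, x, L2, hLeq, heq⟩ := exchange P L0 hL0 hred0 σ hσ (by omega)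
      refine ⟨L1 ++ L2, ?_, ?_, ?_⟩
      · rw [hLeq]
        simp only [List.length_append, List.length_cons]
        omega
      · intro y hy
        rw [hLeq]
        simp only [List.mem_append, List.mem_cons] at hy ⊢
        tauto
      · rw [List.prod_cons]
        exact eqv_symm P heq

theorem closure_word {J : Set G} (hJ : J ⊆ P.S) {n : G} (hn : n ∈ Subgroup.closure J) :
    ∃ L : List G, (∀ x ∈ L, x ∈ J) ∧ eqv P L.prod n := by
  have key := stable_sup_closure (⊥ : Subgroup G) J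
    {n | n ∈ P.N ∧ ∃ L : List G, (∀ x ∈ L, x ∈ J) ∧ eqv P L.prod n}
    (by
      rintro t ht g hg
      rw [Subgroup.mem_bot] at ht
      rw [ht, one_mul]
      exact hg)
    (by
      rintro s hs g ⟨hg, L, hL, hLg⟩
      refine ⟨P.N.mul_mem (P.subset (hJ hs)) hg, s :: L, ?_, ?_⟩
      · intro x hx
        rw [List.mem_cons] at hx
        rcases hx with rfl | hx
        · exact hs
        · exact hL x hx
      · rw [List.prod_cons]
        exact eqv_mul_left P s hLg)
    (by
      rintro s hs g ⟨hg, L, hL, hLg⟩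
      have hLW : IsWord P L := fun x hx => hJ (hL x hx)
      have hsS := hJ hs
      refine ⟨P.N.mul_mem (P.N.inv_mem (P.subset hsS)) hg, s :: L, ?_, ?_⟩
      · intro x hx
        rw [List.mem_cons] at hx
        rcases hx with rfl | hx
        · exact hs
        · exact hL x hx
      · rw [List.prod_cons]
        unfold eqv at *
        have h1 : (s * L.prod)⁻¹ * (s⁻¹ * g)
            = (L.prod⁻¹ * (s * s)⁻¹ * L.prod) * (L.prod⁻¹ * g) := by group
        rw [h1]
        exact P.B.mul_mem (conjT' P (word_prod_mem_N P hLW) (P.B.inv_mem (P.sq_mem s hsS))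
          (P.N.inv_mem (sq_mem_N P hsS))) hLg)
  have := key n (by rw [bot_sup_eq]; exact hn) 1 ⟨P.N.one_mem, [], by simp, by
    rw [List.prod_nil]
    exact eqv_refl P 1⟩
  rw [mul_one] at this
  exact this.2

theorem S_inter_parabolic {J : Set G} (hJ : J ⊆ P.S) {s : G} (hs : s ∈ P.S)
    (h : s ∈ P.parabolic J) : s ∈ J := by
  obtain ⟨n, hn, hsn⟩ := (mem_parabolic_iff P hJ s).mp h
  have hJN := closure_le_N P hJ
  have h1 : eqv P n s := eqv_symm P (bruhat_unique P (P.subset hs) (hJN hn) (dc_eq_of_mem P hsn))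
  obtain ⟨L0, hL0, hL0n⟩ := closure_word P hJ hn
  have hex : ∃ k, ∃ L : List G, (∀ x ∈ L, x ∈ J) ∧ eqv P L.prod s ∧ L.length = k :=
    ⟨_, L0, hL0, eqv_trans P hL0n h1, rfl⟩
  classical
  obtain ⟨L, hLJ, hLs, hLlen⟩ := Nat.find_spec hex
  have hLW : IsWord P L := fun x hx => hJ (hLJ x hx)
  have hred : len P L.prod = L.length := by
    by_contra hne
    have hlt : len P L.prod < L.length := lt_of_le_of_ne (len_le P hLW (eqv_refl P _)) hne
    obtain ⟨L', hlen', hmem', heq'⟩ := deletion P L hLW hlt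
    apply Nat.find_min hex (m := L'.length) (by omega)
    exact ⟨L', fun x hx => hLJ x (hmem' x hx), eqv_trans P heq' hLs, rfl⟩
  have h2 : L.length = 1 := by rw [← hred, len_eqv P hLs, len_S P hs]
  obtain ⟨x, rfl⟩ := List.length_eq_one_iff.mp h2
  rw [List.prod_singleton] at hLs
  have hxJ : x ∈ J := hLJ x (by simp)
  have := P.inj x (hJ hxJ) s hs hLs
  rw [← this]
  exact hxJ

theorem subgroup_eq_parabolic (M : Subgroup G) (hM : P.B ≤ M) :
    M = P.parabolic (P.S ∩ (M : Set G)) := by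
  apply le_antisymm
  · intro g hg
    obtain ⟨n, hn, hgn⟩ := bruhat P g
    obtain ⟨b, hb, b', hb', rfl⟩ := (mem_dc P).mp hgn
    have hnM : n ∈ M := by
      have e : n = b⁻¹ * (b * n * b') * b'⁻¹ := by group
      rw [e]
      exact M.mul_mem (M.mul_mem (M.inv_mem (hM hb)) hg) (M.inv_mem (hM hb'))
    obtain ⟨L, hL, hlen, hLn⟩ := len_spec P hn
    have h1 := key_c P M hM L hL n hn hlen hLn
      (fun c hc => M.mul_mem (M.mul_mem hnM (hM hc)) (M.inv_mem hnM))
    have hB := B_le_parabolic P (P.S ∩ (M : Set G))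
    have hC := closure_le_parabolic P (P.S ∩ (M : Set G))
    have h2 : L.prod ∈ P.parabolic (P.S ∩ (M : Set G)) :=
      Subgroup.list_prod_mem _ (fun x hx => hC (Subgroup.subset_closure ⟨hL x hx, h1 x hx⟩))
    have e : b * n * b' = b * (L.prod * (L.prod⁻¹ * n)) * b' := by group
    rw [e]
    exact Subgroup.mul_mem _ (Subgroup.mul_mem _ (hB hb) (Subgroup.mul_mem _ h2 (hB hLn))) (hB hb')
  · apply sup_le hM
    rw [Subgroup.closure_le]
    exact fun x hx => hx.2

theorem mem_of_conj_B (H : Subgroup G) (hBH : P.B ≤ H) (g : G)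
    (h : ∀ c ∈ P.B, g * c * g⁻¹ ∈ H) : g ∈ H := by
  obtain ⟨n, hn, hgn⟩ := bruhat P g
  obtain ⟨b, hb, b', hb', rfl⟩ := (mem_dc P).mp hgn
  have hnH : n ∈ H := by
    apply mem_of_conj_mem P H hBH hn
    intro c hc
    have e : n * c * n⁻¹ = b⁻¹ * ((b * n * b') * (b'⁻¹ * c * b') * (b * n * b')⁻¹) * b := by group
    rw [e]
    exact H.mul_mem (H.mul_mem (H.inv_mem (hBH hb))
      (h _ (P.B.mul_mem (P.B.mul_mem (P.B.inv_mem hb') hc) hb'))) (hBH hb)
  exact H.mul_mem (H.mul_mem (hBH hb) hnH) (hBH hb')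

theorem parabolic_mono {J K : Set G} (h : J ⊆ K) : P.parabolic J ≤ P.parabolic K :=
  sup_le_sup_left (Subgroup.closure_mono h) _

theorem parabolic_S : P.parabolic P.S = ⊤ := by
  rw [eq_top_iff, ← P.sup_eq_top]
  apply sup_le (B_le_parabolic P P.S)
  calc P.N = Subgroup.closure P.S ⊔ (P.B ⊓ P.N) := P.closure_sup.symm
    _ ≤ P.parabolic P.S :=
      sup_le (closure_le_parabolic P P.S) (inf_le_left.trans (B_le_parabolic P P.S))

theorem parabolic_empty : P.parabolic ∅ = P.B := by
  show P.B ⊔ Subgroup.closure ∅ = P.B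
  rw [Subgroup.closure_empty, sup_bot_eq]

theorem parabolic_singleton {s : G} (hs : s ∈ P.S) :
    (P.parabolic {s} : Set G) = (P.B : Set G) ∪ dc P s := by
  ext g
  constructor
  · intro hg
    have key := stable_sup_closure P.B {s} ((P.B : Set G) ∪ dc P s)
      (by
        rintro b hb g (hg | hg)
        · left
          exact P.B.mul_mem hb hg
        · right
          exact mul_left_mem_dc P hb hg)
      (by
        rintro t ht g hg
        rw [Set.mem_singleton_iff] at ht
        subst ht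
        rcases hg with hg | hg
        · right
          rw [mem_dc]
          exact ⟨1, P.B.one_mem, g, hg, by group⟩
        · rcases t3_left P hs (P.subset hs) hg with h | h
          · left
            rwa [dc_of_mem_B P (P.sq_mem t hs)] at h
          · right
            exact h)
      (by
        rintro t ht g hg
        rw [Set.mem_singleton_iff] at ht
        subst ht
        have hsq := P.B.inv_mem (P.sq_mem t hs)
        rcases hg with hg | hg
        · right
          rw [mem_dc]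
          exact ⟨(t * t)⁻¹, hsq, g, hg, by group⟩
        · rcases t3_left_inv P hs (P.subset hs) hg with h | h
          · left
            rwa [dc_of_mem_B P (P.sq_mem t hs)] at h
          · right
            exact h)
    have := key g hg 1 (Or.inl P.B.one_mem)
    rwa [mul_one] at this
  · rintro (hg | hg)
    · exact B_le_parabolic P {s} hg
    · obtain ⟨b, hb, b', hb', rfl⟩ := (mem_dc P).mp hg
      exact Subgroup.mul_mem _ (Subgroup.mul_mem _ (B_le_parabolic P {s} hb)
        (closure_le_parabolic P {s} (Subgroup.subset_closure rfl))) (B_le_parabolic P {s} hb')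

end Cfsg.Agent.Lib.Helper1.BN
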