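import Mathlib
import Cfsg.Agent.Lib.Helper1.GLn

set_option autoImplicit false

namespace Cfsg.Agent.Lib.Helper1.Cent5

open Matrix

def Sh (A : Matrix (Fin 5) (Fin 5) (ZMod 2)) : Prop :=
  (∀ i : Fin 4, A i.succ 0 = 0) ∧ (∀ j : Fin 5, j ≠ 1 → A 1 j = 0) ∧ A 0 0 = A 1 1

theorem comm_iff (A : Matrix (Fin 5) (Fin 5) (ZMod 2)) :
    A * transvection 0 1 1 = transvection 0 1 1 * A ↔ Sh A := by
  have h1 : ∀ i j, (A * (transvection 0 1 1 : Matrix (Fin 5) (Fin 5) (ZMod 2))) i j
      = A i j + if j = 1 then A i 0 else 0 := by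
    intro i j
    unfold transvection
    rw [mul_add, mul_one, Matrix.add_apply]
    congr 1
    by_cases hj : j = 1
    · subst hj; rw [mul_single_apply_same, mul_one, if_pos rfl]
    · rw [mul_single_apply_of_ne (hbj := hj), if_neg hj]
  have h2 : ∀ i j, ((transvection 0 1 1 : Matrix (Fin 5) (Fin 5) (ZMod 2)) * A) i j
      = A i j + if i = 0 then A 1 j else 0 := by
    intro i j
    unfold transvection
    rw [add_mul, one_mul, Matrix.add_apply]
    congr 1
    by_cases hi : i = 0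
    · subst hi; rw [single_mul_apply_same, one_mul, if_pos rfl]
    · rw [single_mul_apply_of_ne (h := hi), if_neg hi]
  constructor
  · intro h
    have h3 : ∀ i j, (if j = 1 then A i 0 else 0) = (if i = 0 then A 1 j else 0) := by
      intro i j
      have := congrFun (congrFun h i) j
      rw [h1, h2] at this
      exact add_left_cancel this
    refine ⟨fun i => ?_, fun j hj => ?_, ?_⟩
    · have := h3 i.succ 1
      rw [if_pos rfl, if_neg (Fin.succ_ne_zero i)] at this
      exact this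
    · have := h3 0 j
      rw [if_neg hj, if_pos rfl] at this
      exact this.symm
    · have := h3 0 1
      rw [if_pos rfl, if_pos rfl] at this
      exact this
  · rintro ⟨s1, s2, s3⟩
    ext i j
    rw [h1, h2]
    congr 1
    by_cases hj : j = 1 <;> by_cases hi : i = 0
    · subst hj; subst hi; rw [if_pos rfl, if_pos rfl]; exact s3
    · subst hj; rw [if_pos rfl, if_neg hi]
      obtain ⟨i', rfl⟩ := Fin.exists_succ_eq_of_ne_zero hi
      exact s1 i'
    · subst hi; rw [if_neg hj, if_pos rfl]; exact (s2 j hj).symm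
    · rw [if_neg hj, if_neg hi]

theorem det_of_sh (A : Matrix (Fin 5) (Fin 5) (ZMod 2)) (h : Sh A) :
    A.det = A 0 0 * (A 1 1 * (A.submatrix (Fin.succ ∘ Fin.succ) (Fin.succ ∘ Fin.succ)).det) := by
  obtain ⟨s1, s2, s3⟩ := h
  have key : det (A.submatrix Fin.succ Fin.succ)
      = A 1 1 * (A.submatrix (Fin.succ ∘ Fin.succ) (Fin.succ ∘ Fin.succ)).det := by
    rw [det_succ_row_zero, Fin.sum_univ_succ]
    have hz2 : ∑ j : Fin 3, (-1 : ZMod 2) ^ (j.succ : ℕ)
        * (A.submatrix Fin.succ Fin.succ) 0 j.succ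
        * det ((A.submatrix Fin.succ Fin.succ).submatrix Fin.succ j.succ.succAbove) = 0 := by
      apply Finset.sum_eq_zero; intro j _
      have : (A.submatrix Fin.succ Fin.succ) 0 j.succ = 0 := by
        rw [submatrix_apply]
        exact s2 _ (Fin.succ_succ_ne_one j)
      rw [this, mul_zero, zero_mul]
    rw [hz2, add_zero, Fin.val_zero, pow_zero, one_mul, Fin.succAbove_zero, submatrix_submatrix,
      submatrix_apply]
    rfl
  rw [det_succ_column_zero, Fin.sum_univ_succ]
  have hz : ∑ i : Fin 4, (-1 : ZMod 2) ^ (i.succ : ℕ) * A i.succ 0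
      * det (A.submatrix i.succ.succAbove Fin.succ) = 0 := by
    apply Finset.sum_eq_zero; intro i _; rw [s1 i, mul_zero, zero_mul]
  rw [hz, add_zero, Fin.val_zero, pow_zero, one_mul, Fin.succAbove_zero, key]

def mk (u : Fin 4 → ZMod 2) (w : Fin 3 → ZMod 2) (S : Matrix (Fin 3) (Fin 3) (ZMod 2)) :
    Matrix (Fin 5) (Fin 5) (ZMod 2) :=
  Matrix.of (vecCons (vecCons 1 u) (vecCons (Pi.single 1 1)
    (fun i => vecCons 0 (vecCons (w i) (S i)))))

theorem sh_mk (u : Fin 4 → ZMod 2) (w : Fin 3 → ZMod 2) (S : Matrix (Fin 3) (Fin 3) (ZMod 2)) :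
    Sh (mk u w S) := by
  refine ⟨fun i => ?_, fun j hj => ?_, ?_⟩
  · refine Fin.cases ?_ (fun i => ?_) i
    · rfl
    · rfl
  · show (Pi.single 1 1 : Fin 5 → ZMod 2) j = 0
    exact Pi.single_eq_of_ne hj _
  · rfl

theorem sub_mk (u : Fin 4 → ZMod 2) (w : Fin 3 → ZMod 2) (S : Matrix (Fin 3) (Fin 3) (ZMod 2)) :
    (mk u w S).submatrix (Fin.succ ∘ Fin.succ) (Fin.succ ∘ Fin.succ) = S := by
  ext i j
  rfl

theorem det_mk (u : Fin 4 → ZMod 2) (w : Fin 3 → ZMod 2) (S : Matrix (Fin 3) (Fin 3) (ZMod 2)) :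
    (mk u w S).det = S.det := by
  rw [det_of_sh _ (sh_mk u w S), sub_mk]
  have h0 : mk u w S 0 0 = 1 := rfl
  have h1 : mk u w S 1 1 = 1 := rfl
  rw [h0, h1, one_mul, one_mul]

theorem zmod2_mul : ∀ x y z : ZMod 2, x * (y * z) = 1 → x = 1 ∧ y = 1 ∧ z = 1 := by decide

noncomputable def eqv : {A : Matrix (Fin 5) (Fin 5) (ZMod 2) // A.det = 1 ∧ Sh A} ≃
    (Fin 4 → ZMod 2) × (Fin 3 → ZMod 2) × SpecialLinearGroup (Fin 3) (ZMod 2) where
  toFun A := (fun j => A.1 0 j.succ, fun i => A.1 i.succ.succ 1,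
    ⟨A.1.submatrix (Fin.succ ∘ Fin.succ) (Fin.succ ∘ Fin.succ),
      (zmod2_mul _ _ _ ((det_of_sh A.1 A.2.2).symm.trans A.2.1)).2.2⟩)
  invFun p := ⟨mk p.1 p.2.1 p.2.2.1, by rw [det_mk]; exact p.2.2.2, sh_mk _ _ _⟩
  left_inv A := by
    apply Subtype.ext
    obtain ⟨A, hdet, hsh⟩ := A
    obtain ⟨h00, h11, -⟩ := zmod2_mul _ _ _ ((det_of_sh A hsh).symm.trans hdet)
    obtain ⟨s1, s2, s3⟩ := hsh
    ext i j
    refine Fin.cases ?_ (fun i => ?_) i
    · refine Fin.cases ?_ (fun j => ?_) j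
      · exact h00.symm
      · rfl
    · refine Fin.cases ?_ (fun i => ?_) i
      · show (Pi.single 1 1 : Fin 5 → ZMod 2) j = A 1 j
        by_cases hj : j = 1
        · subst hj; rw [Pi.single_eq_same]; exact h11.symm
        · rw [Pi.single_eq_of_ne hj, s2 j hj]
      · refine Fin.cases ?_ (fun j => ?_) j
        · exact (s1 i.succ).symm
        · refine Fin.cases ?_ (fun j => ?_) j
          · rfl
          · rfl
  right_inv p := by
    obtain ⟨u, w, S⟩ := p
    refine Prod.ext ?_ (Prod.ext ?_ ?_)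
    · rfl
    · rfl
    · apply Subtype.ext
      exact sub_mk u w S.1

theorem card_cent (s : SpecialLinearGroup (Fin 5) (ZMod 2))
    (hs : (s : Matrix (Fin 5) (Fin 5) (ZMod 2)) = transvection 0 1 1) :
    Nat.card (Subgroup.centralizer ({s} : Set (SpecialLinearGroup (Fin 5) (ZMod 2)))) = 21504 := by
  have e1 : Subgroup.centralizer ({s} : Set (SpecialLinearGroup (Fin 5) (ZMod 2))) ≃
      {A : Matrix (Fin 5) (Fin 5) (ZMod 2) // A.det = 1 ∧ Sh A} :=
    { toFun := fun g => ⟨g.1.1, g.1.2, by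
        rw [← comm_iff, ← hs]
        have := Subgroup.mem_centralizer_singleton_iff.mp g.2
        exact congrArg Subtype.val this⟩
      invFun := fun A => ⟨(⟨A.1, A.2.1⟩ : SpecialLinearGroup (Fin 5) (ZMod 2)), by
        refine Subgroup.mem_centralizer_singleton_iff.mpr ?_
        apply Subtype.ext
        show A.1 * s.1 = s.1 * A.1
        rw [hs]
        exact (comm_iff A.1).mpr A.2.2⟩
      left_inv := fun g => rfl
      right_inv := fun A => rfl }
  rw [Nat.card_congr (e1.trans eqv), Nat.card_prod, Nat.card_prod]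
  have h168 : Nat.card (SpecialLinearGroup (Fin 3) (ZMod 2)) = 168 := by
    have := GLn.card_SL_formula (F := ZMod 2) 3 (by norm_num)
    rw [ZMod.card] at this
    simp [Fin.prod_univ_succ] at this
    rw [Nat.card_eq_fintype_card]
    convert this
  rw [h168]
  simp

end Cfsg.Agent.Lib.Helper1.Cent5
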