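import Mathlib
import Cfsg.Agent.Lib.Helper1.Ch2

set_option autoImplicit false

namespace Cfsg.Agent.Lib.Helper1.Ch

open Representation

theorem schur_scalar {G : Type*} [Group G] {V : Type*} [AddCommGroup V] [Module ℂ V]
    [FiniteDimensional ℂ V] (ρ : Representation ℂ G V) [ρ.IsIrreducible] (T : V →ₗ[ℂ] V)
    (hT : ∀ h : G, T ∘ₗ ρ h = ρ h ∘ₗ T) : ∃ ω : ℂ, T = ω • (LinearMap.id : V →ₗ[ℂ] V) := by
  let T' : IntertwiningMap ρ ρ := ⟨T, hT⟩
  obtain ⟨ω, hω⟩ :=
    (IsIrreducible.algebraMap_intertwiningMap_bijective_of_isAlgClosed (ρ := ρ)).2 T'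
  exact ⟨ω, (congrArg IntertwiningMap.toLinearMap hω).symm⟩

theorem char_eq_zero_of_fpf {G : Type*} [Group G] [Finite G] {V : Type*} [AddCommGroup V]
    [Module ℂ V] [FiniteDimensional ℂ V] (ρ : Representation ℂ G V) [ρ.IsIrreducible]
    (H : Subgroup G) [hHn : H.Normal] (hker : ∃ h ∈ H, ρ h ≠ LinearMap.id) (g : G)
    (hg : ∀ h ∈ H, h * g = g * h → h = 1) : ρ.character g = 0 := by
  classical
  haveI : Fintype G := Fintype.ofFinite G
  haveI : Fintype H := Fintype.ofFinite H
  obtain ⟨e, he⟩ : ∃ e : V →ₗ[ℂ] V, e = ∑ h : H, ρ (h : G) := ⟨_, rfl⟩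
  have hcomm : ∀ x : G, e ∘ₗ ρ x = ρ x ∘ₗ e := by
    intro x
    have e0 : e * ρ x = ρ x * e := by
      rw [he, Finset.sum_mul, Finset.mul_sum]
      simp only [← map_mul]
      let φ : H ≃ H :=
        { toFun := fun h => ⟨x⁻¹ * (h : G) * x, by
            have := hHn.conj_mem (h : G) h.2 x⁻¹
            simpa using this⟩
          invFun := fun h => ⟨x * (h : G) * x⁻¹, hHn.conj_mem (h : G) h.2 x⟩
          left_inv := by
            intro h
            apply Subtype.ext
            simp [mul_assoc]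
          right_inv := by
            intro h
            apply Subtype.ext
            simp [mul_assoc] }
      rw [← Equiv.sum_comp φ (fun h : H => ρ (x * (h : G)))]
      refine Finset.sum_congr rfl (fun h _ => ?_)
      congr 1
      change (h : G) * x = x * (x⁻¹ * (h : G) * x)
      group
    exact e0
  obtain ⟨ω, hω⟩ := schur_scalar ρ e hcomm
  have hfix : ∀ h₀ : H, ρ (h₀ : G) * e = e := by
    intro h₀
    rw [he, Finset.mul_sum]
    simp only [← map_mul]
    rw [← Equiv.sum_comp (Equiv.mulLeft h₀) (fun h : H => ρ (h : G))]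
    refine Finset.sum_congr rfl (fun h _ => ?_)
    rfl
  have hω0 : ω = 0 := by
    by_contra hne
    obtain ⟨h₀, hh₀, hρ⟩ := hker
    apply hρ
    have h1 := hfix ⟨h₀, hh₀⟩
    rw [hω] at h1
    ext v
    have h2 := congrArg (fun f : V →ₗ[ℂ] V => f v) h1
    simp only [Module.End.mul_apply, LinearMap.smul_apply, LinearMap.id_coe, id_eq,
      map_smul] at h2
    have h3 : ω • (ρ h₀ v - v) = 0 := by rw [smul_sub, h2, sub_self]
    rcases smul_eq_zero.mp h3 with h4 | h4
    · exact absurd h4 hne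
    · simpa using sub_eq_zero.mp h4
  have he0 : e = 0 := by rw [hω, hω0, zero_smul]
  have hconj : ∀ h : H, ρ.character (g * (h : G)) = ρ.character g := by
    let ψ : H → H := fun k => ⟨g⁻¹ * (k : G) * g * (k : G)⁻¹, by
      have h1 : g⁻¹ * (k : G) * g ∈ H := by
        have := hHn.conj_mem (k : G) k.2 g⁻¹
        simpa using this
      exact H.mul_mem h1 (H.inv_mem k.2)⟩
    have hinj : Function.Injective ψ := by
      intro k k' hkk
      have h1 : g⁻¹ * (k : G) * g * (k : G)⁻¹ = g⁻¹ * (k' : G) * g * (k' : G)⁻¹ :=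
        congrArg Subtype.val hkk
      have h2 : ((k' : G)⁻¹ * (k : G)) * g = g * ((k' : G)⁻¹ * (k : G)) := by
        have h3 : (k : G) * g * (k : G)⁻¹ = (k' : G) * g * (k' : G)⁻¹ := by
          have := congrArg (fun y => g * y) h1
          simpa [mul_assoc] using this
        calc ((k' : G)⁻¹ * (k : G)) * g
            = (k' : G)⁻¹ * ((k : G) * g * (k : G)⁻¹) * (k : G) := by group
          _ = (k' : G)⁻¹ * ((k' : G) * g * (k' : G)⁻¹) * (k : G) := by rw [h3]
          _ = g * ((k' : G)⁻¹ * (k : G)) := by group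
      have h4 := hg ((k' : G)⁻¹ * (k : G)) (H.mul_mem (H.inv_mem k'.2) k.2) h2
      apply Subtype.ext
      have h5 : (k : G) = (k' : G) * ((k' : G)⁻¹ * (k : G)) := by group
      rw [h5, h4, mul_one]
    have hsurj : Function.Surjective ψ := Finite.injective_iff_surjective.mp hinj
    intro h
    obtain ⟨k, hk⟩ := hsurj h
    have h1 : (h : G) = g⁻¹ * (k : G) * g * (k : G)⁻¹ := (congrArg Subtype.val hk).symm
    have h2 : g * (h : G) = (k : G) * g * (k : G)⁻¹ := by
      rw [h1]
      group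
    rw [h2]
    exact char_conj ρ g k
  have htr : LinearMap.trace ℂ V (ρ g * e) = (Nat.card H : ℂ) * ρ.character g := by
    rw [he, Finset.mul_sum, map_sum]
    simp only [← map_mul]
    have : ∀ h : H, LinearMap.trace ℂ V (ρ (g * (h : G))) = ρ.character g := hconj
    rw [Finset.sum_congr rfl (fun h _ => this h), Finset.sum_const, Finset.card_univ,
      nsmul_eq_mul, Nat.card_eq_fintype_card]
  rw [he0, mul_zero, map_zero] at htr
  have hc : (Nat.card H : ℂ) ≠ 0 := by exact_mod_cast Nat.card_pos.ne'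
  rcases mul_eq_zero.mp htr.symm with h | h
  · exact absurd h hc
  · exact h

end Cfsg.Agent.Lib.Helper1.Ch
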