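import Mathlib
import Cfsg.Agent.Lib.Helper1.Ch2
import Cfsg.Agent.Lib.Helper3.CharTable
import Cfsg.Agent.Lib.Helper3.CharArith
import Cfsg.Agent.S0161

set_option autoImplicit false

namespace Cfsg.Agent.Lib.Helper1.Ch

open scoped ComplexConjugate

theorem card_modEq_classes_of_odd {G : Type*} [Group G] [Finite G] (hodd : Odd (Nat.card G)) :
    Nat.card G ≡ Nat.card (ConjClasses G) [MOD 16] := by
  classical
  haveI : Fintype G := Fintype.ofFinite G
  haveI : Fintype (Cfsg.IrrCharacter G) := Fintype.ofFinite _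
  have hdeg : ∀ χ : Cfsg.IrrCharacter G, ∃ d : ℕ, Odd d ∧ (χ : G → ℂ) 1 = d := by
    intro χ
    obtain ⟨n, ρ, hirr, hρ⟩ := χ.2
    haveI := hirr
    refine ⟨n, ?_, ?_⟩
    · have h := finrank_dvd_card ρ
      rw [Module.finrank_fin_fun] at h
      exact Odd.of_dvd_nat hodd h
    · rw [← hρ, Representation.char_one, Module.finrank_fin_fun]
  choose d hdodd hd using hdeg
  have hcol := Cfsg.Agent.Lib.Helper3.CharTable.column_orth (1 : G) (1 : G)
  have hcardset : Nat.card {y : G // y * 1 * y⁻¹ = 1} = Nat.card G := by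
    apply Nat.card_congr
    exact Equiv.subtypeUnivEquiv (fun y => by simp)
  rw [hcardset] at hcol
  have hsumN : ∑ χ : Cfsg.IrrCharacter G, (d χ) ^ 2 = Nat.card G := by
    have : ((∑ χ : Cfsg.IrrCharacter G, (d χ) ^ 2 : ℕ) : ℂ) = (Nat.card G : ℂ) := by
      rw [← hcol]
      push_cast
      refine Finset.sum_congr rfl (fun χ _ => ?_)
      rw [hd χ, Complex.conj_natCast]
      ring
    exact_mod_cast this
  obtain ⟨χ₁, hχ₁⟩ : ∃ χ₁ : Cfsg.IrrCharacter G, (χ₁ : G → ℂ) = fun _ => 1 :=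
    ⟨⟨fun _ => 1, Cfsg.Agent.Lib.Helper3.CharArith.isIrr_one G⟩, rfl⟩
  have hd1 : d χ₁ = 1 := by
    have h : ((d χ₁ : ℕ) : ℂ) = 1 := by rw [← hd χ₁, hχ₁]
    exact_mod_cast h
  obtain ⟨cj, hcj⟩ : ∃ cj : Cfsg.IrrCharacter G → Cfsg.IrrCharacter G,
      ∀ χ, ((cj χ : Cfsg.IrrCharacter G) : G → ℂ) = fun g => conj ((χ : G → ℂ) g) :=
    ⟨fun χ => ⟨fun g => conj ((χ : G → ℂ) g),
      Cfsg.Agent.Lib.Helper3.CharArith.isIrr_conj χ.2⟩, fun _ => rfl⟩
  have hcj2 : ∀ χ, cj (cj χ) = χ := by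
    intro χ
    apply Subtype.ext
    rw [hcj, hcj]
    funext g
    simp
  have hdcj : ∀ χ, d (cj χ) = d χ := by
    intro χ
    have h1 := hd (cj χ)
    rw [hcj] at h1
    simp only at h1
    rw [hd χ, Complex.conj_natCast] at h1
    exact_mod_cast h1.symm
  have hfix : ∀ χ, cj χ = χ → χ = χ₁ := by
    intro χ h
    apply Subtype.ext
    rw [hχ₁]
    apply Cfsg.Agent.S0161.result hodd χ
    intro g
    have h1 := congrArg (fun ψ : Cfsg.IrrCharacter G => (ψ : G → ℂ) g) h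
    simp only [hcj] at h1
    exact Complex.conj_eq_iff_im.mp h1
  have hcj1 : cj χ₁ = χ₁ := by
    apply Subtype.ext
    rw [hcj, hχ₁]
    funext g
    simp
  have hz : ∀ x : ZMod 16, 2 * ((2 * x + 1) ^ 2 - 1) = 0 := by decide
  have hsum0 : ∑ χ ∈ Finset.univ.erase χ₁, (((d χ : ℕ) : ZMod 16) ^ 2 - 1) = 0 := by
    apply Finset.sum_involution (fun χ _ => cj χ)
    · intro χ _
      rw [hdcj χ]
      obtain ⟨j, hj⟩ := hdodd χ
      rw [hj]
      push_cast
      have := hz (j : ZMod 16)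
      linear_combination this
    · intro χ hχ _ h
      exact (Finset.mem_erase.mp hχ).1 (hfix χ h)
    · intro χ hχ
      rw [Finset.mem_erase] at hχ ⊢
      refine ⟨?_, Finset.mem_univ _⟩
      intro h
      apply hχ.1
      have h2 := congrArg cj h
      rw [hcj2, hcj1] at h2
      exact h2
    · intro χ _
      exact hcj2 χ
  have hk : Fintype.card (Cfsg.IrrCharacter G) = Nat.card (ConjClasses G) := by
    rw [← Nat.card_eq_fintype_card]
    exact Cfsg.Agent.Lib.Helper3.CharTable.card_irr G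
  have hpos : 0 < Fintype.card (Cfsg.IrrCharacter G) := Fintype.card_pos_iff.mpr ⟨χ₁⟩
  obtain ⟨k', hk'⟩ : ∃ k', Fintype.card (Cfsg.IrrCharacter G) = k' + 1 :=
    ⟨Fintype.card (Cfsg.IrrCharacter G) - 1, by omega⟩
  rw [← ZMod.natCast_eq_natCast_iff, ← hsumN, ← hk]
  push_cast
  rw [← Finset.add_sum_erase Finset.univ _ (Finset.mem_univ χ₁), hd1]
  have h3 : ∑ χ ∈ Finset.univ.erase χ₁, ((d χ : ZMod 16)) ^ 2 =
      ∑ χ ∈ Finset.univ.erase χ₁, (1 : ZMod 16) := by
    rw [← sub_eq_zero, ← Finset.sum_sub_distrib]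
    exact hsum0
  rw [h3, Finset.sum_const, Finset.card_erase_of_mem (Finset.mem_univ _), Finset.card_univ, hk']
  simp
  ring

end Cfsg.Agent.Lib.Helper1.Ch
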