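import Cfsg.Agent.Lib.Helper9.Co0
import Cfsg.Prelude.Def_Spor_Conway

set_option autoImplicit false

namespace Cfsg.Agent.Lib.Helper1.C2R

open Cfsg Cfsg.Agent.Lib.Helper9.Leech

/-- the vectors `8 e_q` in the lattice -/
def bL (q : GolayPt) : leechLattice := ⟨bvec q, bvec_mem q⟩

theorem bL_apply (q i : GolayPt) : (bL q : GolayPt → ℤ) i = if i = q then 8 else 0 := by
  show (Pi.single q (8 : ℤ) : GolayPt → ℤ) i = _
  by_cases h : i = q
  · rw [if_pos h, h, Pi.single_eq_same]
  · rw [if_neg h, Pi.single_eq_of_ne h]

theorem eight_smul (v : leechLattice) :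
    (8 : ℤ) • v = ∑ q, (v : GolayPt → ℤ) q • bL q := by
  apply Subtype.ext
  funext i
  rw [AddSubgroup.coe_zsmul, AddSubgroup.val_finset_sum, Finset.sum_apply, Pi.smul_apply,
    smul_eq_mul]
  rw [Finset.sum_eq_single i]
  · rw [AddSubgroup.coe_zsmul, Pi.smul_apply, smul_eq_mul, bL_apply, if_pos rfl]
    ring
  · intro q _ hq
    rw [AddSubgroup.coe_zsmul, Pi.smul_apply, smul_eq_mul, bL_apply, if_neg (Ne.symm hq),
      mul_zero]
  · intro h
    exact absurd (Finset.mem_univ i) h

section
variable (f : Equiv.Perm leechLattice)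
  (hadd : ∀ v w : leechLattice, f (v + w) = f v + f w)

include hadd

/-- linearity: `8 (f v) = Σ_q v_q f(8 e_q)` coordinatewise -/
theorem lin (v : leechLattice) (i : GolayPt) :
    8 * (f v : GolayPt → ℤ) i = ∑ q, (v : GolayPt → ℤ) q * (f (bL q) : GolayPt → ℤ) i := by
  have h1 : (AddMonoidHom.mk' f hadd) ((8 : ℤ) • v)
      = (AddMonoidHom.mk' f hadd) (∑ q, (v : GolayPt → ℤ) q • bL q) := by
    rw [eight_smul v]
  rw [map_zsmul, map_sum] at h1
  have h2 := congrArg (fun w : leechLattice => (w : GolayPt → ℤ) i) h1
  simp only [AddSubgroup.coe_zsmul, AddSubgroup.val_finset_sum, Finset.sum_apply, Pi.smul_apply,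
    smul_eq_mul, map_zsmul, AddMonoidHom.mk'_apply] at h2
  exact h2

end


theorem sqNorm_add (x y : GolayPt → ℤ) :
    sqNorm (x + y) = sqNorm x + sqNorm y + 2 * dotInt x y := by
  unfold sqNorm dotInt
  rw [Finset.mul_sum, ← Finset.sum_add_distrib, ← Finset.sum_add_distrib]
  apply Finset.sum_congr rfl
  intro i _
  rw [Pi.add_apply]
  ring

/-- the matrix of `f` modulo 13 in the (scaled) standard basis -/
def A (f : Equiv.Perm leechLattice) : Matrix GolayPt GolayPt (ZMod 13) :=
  fun i q => (((f (bL q)).1 i : ℤ) : ZMod 13) * 5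

theorem five_eight : (5 : ZMod 13) * 8 = 1 := by decide

theorem A_one : A 1 = 1 := by
  ext i q
  unfold A
  rw [Equiv.Perm.one_apply, bL_apply, Matrix.one_apply]
  by_cases h : i = q
  · rw [if_pos h, if_pos h]
    decide
  · rw [if_neg h, if_neg h]
    decide

section
variable (f : Equiv.Perm leechLattice)
  (hadd : ∀ v w : leechLattice, f (v + w) = f v + f w)

include hadd

theorem red_apply (v : leechLattice) (i : GolayPt) :
    (((f v).1 i : ℤ) : ZMod 13) = ∑ q, A f i q * ((v.1 q : ℤ) : ZMod 13) := by
  have h := lin f hadd v i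
  have h2 := congrArg (fun z : ℤ => (z : ZMod 13)) h
  simp only [Int.cast_mul, Int.cast_sum, Int.cast_ofNat] at h2
  calc (((f v).1 i : ℤ) : ZMod 13) = 5 * (8 * (((f v).1 i : ℤ) : ZMod 13)) := by
        rw [← mul_assoc, five_eight, one_mul]
    _ = 5 * ∑ q, ((v.1 q : ℤ) : ZMod 13) * (((f (bL q)).1 i : ℤ) : ZMod 13) := by rw [h2]
    _ = ∑ q, A f i q * ((v.1 q : ℤ) : ZMod 13) := by
        rw [Finset.mul_sum]
        apply Finset.sum_congr rfl
        intro q _
        unfold A
        ring

theorem A_mul (g : Equiv.Perm leechLattice) : A (f * g) = A f * A g := by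
  ext i k
  rw [Matrix.mul_apply]
  show (((f (g (bL k))).1 i : ℤ) : ZMod 13) * 5 = _
  rw [red_apply f hadd (g (bL k)) i, Finset.sum_mul]
  apply Finset.sum_congr rfl
  intro q _
  unfold A
  ring

end

section
variable (f : Equiv.Perm leechLattice)
  (hadd : ∀ v w : leechLattice, f (v + w) = f v + f w)
  (hnorm : ∀ v : leechLattice, sqNorm ((f v).1) = sqNorm v.1)

include hadd hnorm

theorem dot_pres (x y : leechLattice) : dotInt (f x).1 (f y).1 = dotInt x.1 y.1 := by
  have h := hnorm (x + y)
  rw [hadd] at h
  have h1 : (f x + f y).1 = (f x).1 + (f y).1 := rfl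
  have h2 : (x + y).1 = x.1 + y.1 := rfl
  rw [h1, h2, sqNorm_add, sqNorm_add, hnorm x, hnorm y] at h
  linarith

end


theorem dot_vecU (y : GolayPt → ℤ) :
    dotInt Spor.vecU y = 4 * y none + 4 * y (some 0) := by
  unfold dotInt Spor.vecU
  rw [Fintype.sum_option, Finset.sum_eq_single (0 : ZMod 23)]
  · simp
  · intro x _ hx
    have h1 : ¬ ((some x : GolayPt) = none ∨ (some x : GolayPt) = some 0) := by
      rintro (h | h)
      · exact Option.some_ne_none x h
      · exact hx (Option.some.inj h)
    rw [if_neg h1, zero_mul]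
  · intro h
    exact absurd (Finset.mem_univ _) h

section
variable (f : Equiv.Perm leechLattice)
  (hadd : ∀ v w : leechLattice, f (v + w) = f v + f w)
  (hnorm : ∀ v : leechLattice, sqNorm ((f v).1) = sqNorm v.1)
  (hu : f Spor.leechU = Spor.leechU)

include hadd hnorm hu

/-- the integer identity expressing that `f` preserves the functional `⟨u, ·⟩` -/
theorem ut_int (q : GolayPt) :
    (f (bL q)).1 none + (f (bL q)).1 (some 0) = if q = none ∨ q = some 0 then 8 else 0 := by
  have h := dot_pres f hadd hnorm Spor.leechU (bL q)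
  rw [hu] at h
  have h1 : (Spor.leechU : leechLattice).1 = Spor.vecU := rfl
  rw [h1, dot_vecU, dot_vecU, bL_apply, bL_apply] at h
  by_cases hq1 : q = none
  · subst hq1
    rw [if_pos (Or.inl rfl)]
    rw [if_pos rfl, if_neg (by exact Option.some_ne_none _)] at h
    linarith
  · by_cases hq2 : q = some 0
    · subst hq2
      rw [if_pos (Or.inr rfl)]
      rw [if_neg (by exact (Option.some_ne_none _).symm), if_pos rfl] at h
      linarith
    · rw [if_neg (by rintro (h | h); exact hq1 h; exact hq2 h)]
      rw [if_neg (Ne.symm hq1), if_neg (Ne.symm hq2)] at h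
      linarith

theorem ut (q : GolayPt) :
    A f none q + A f (some 0) q = if q = none ∨ q = some 0 then 1 else 0 := by
  have h := ut_int f hadd hnorm hu q
  have h2 := congrArg (fun z : ℤ => (z : ZMod 13) * 5) h
  simp only [Int.cast_add] at h2
  unfold A
  rw [← add_mul, h2]
  split_ifs
  · decide
  · decide

end

/-- the 23-dimensional matrix -/
def B (f : Equiv.Perm leechLattice) : Matrix (ZMod 23) (ZMod 23) (ZMod 13) :=
  fun x z => A f (some x) (some z) - if z = 0 then A f (some x) none else 0

theorem B_one : B 1 = 1 := by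
  ext x z
  unfold B
  rw [A_one, Matrix.one_apply, Matrix.one_apply, Matrix.one_apply,
    if_neg (Option.some_ne_none x)]
  by_cases h : x = z
  · rw [if_pos h, if_pos (by rw [h])]
    split_ifs <;> ring
  · rw [if_neg h, if_neg (fun hh => h (Option.some.inj hh))]
    split_ifs <;> ring

theorem B_mul (f g : Equiv.Perm leechLattice)
    (hadd : ∀ v w : leechLattice, f (v + w) = f v + f w)
    (hgadd : ∀ v w : leechLattice, g (v + w) = g v + g w)
    (hgnorm : ∀ v : leechLattice, sqNorm ((g v).1) = sqNorm v.1)
    (hgu : g Spor.leechU = Spor.leechU) : B (f * g) = B f * B g := by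
  ext x z
  rw [Matrix.mul_apply]
  have hA := A_mul f hadd g
  have u1 := ut g hgadd hgnorm hgu (some z)
  have u2 := ut g hgadd hgnorm hgu none
  rw [if_pos (Or.inl rfl)] at u2
  have e1 : ∀ k, A (f * g) (some x) k
      = A f (some x) none * A g none k + ∑ y : ZMod 23, A f (some x) (some y) * A g (some y) k := by
    intro k
    rw [hA, Matrix.mul_apply, Fintype.sum_option]
  have e2 : ∑ y : ZMod 23, B f x y * B g y z
      = ∑ y : ZMod 23, A f (some x) (some y) * B g y z - A f (some x) none * B g 0 z := by
    have h3 : ∀ y : ZMod 23, B f x y * B g y z = A f (some x) (some y) * B g y z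
        - (if y = 0 then A f (some x) none * B g y z else 0) := by
      intro y
      unfold B
      split_ifs <;> ring
    rw [Finset.sum_congr rfl (fun y _ => h3 y), Finset.sum_sub_distrib, Finset.sum_ite_eq']
    rw [if_pos (Finset.mem_univ _)]
  rw [e2]
  unfold B
  rw [e1, e1]
  by_cases hz : z = 0
  · subst hz
    rw [if_pos rfl, if_pos rfl, if_pos (Or.inr rfl)] at *
    simp only [if_true]
    rw [Finset.sum_congr rfl (fun y _ => mul_sub (A f (some x) (some y)) _ _),
      Finset.sum_sub_distrib]
    linear_combination (A f (some x) none) * u1 - (A f (some x) none) * u2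
  · have hz' : ¬ ((some z : GolayPt) = none ∨ (some z : GolayPt) = some 0) := by
      rintro (h | h)
      · exact Option.some_ne_none z h
      · exact hz (Option.some.inj h)
    rw [if_neg hz'] at u1
    simp only [if_neg hz, sub_zero]
    linear_combination (A f (some x) none) * u1


theorem coord_sq_le (Y : GolayPt → ℤ) (h : sqNorm Y = 64) (i : GolayPt) : Y i ^ 2 ≤ 64 := by
  rw [← h]
  unfold sqNorm
  exact Finset.single_le_sum (f := fun i => Y i ^ 2) (fun j _ => sq_nonneg (Y j))
    (Finset.mem_univ i)

theorem zero_of_mod (a : ℤ) (h : (a : ZMod 13) = 0) (hb : a ^ 2 ≤ 64) : a = 0 := by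
  have hd := (ZMod.intCast_zmod_eq_zero_iff_dvd a 13).mp h
  have h8 : -8 ≤ a ∧ a ≤ 8 := by constructor <;> nlinarith
  push_cast at hd
  omega

theorem eight_of_mod (a : ℤ) (h : (a : ZMod 13) = 8) (hb : a ^ 2 ≤ 64) : a = 8 ∨ a = -5 := by
  have h0 : ((a - 8 : ℤ) : ZMod 13) = 0 := by
    rw [Int.cast_sub, h]
    simp
  have hd := (ZMod.intCast_zmod_eq_zero_iff_dvd (a - 8) 13).mp h0
  have h8 : -8 ≤ a ∧ a ≤ 8 := by constructor <;> nlinarith
  push_cast at hd
  omega

theorem mul5 (t s : ZMod 13) (h : t * 5 = s) : t = s * 8 := by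
  rw [← h, mul_assoc, five_eight, mul_one]

theorem mul2 (t r : ZMod 13) (h : 2 * t = r) : t = r * 7 := by
  have h14 : (7 : ZMod 13) * 2 = 1 := by decide
  rw [← h, mul_comm, ← mul_assoc, h14, one_mul]

theorem bL_norm (q : GolayPt) : sqNorm (bL q).1 = 64 := bvec_norm q

theorem bL_sum : bL none + bL (some 0) = Spor.leechU + Spor.leechU := by
  apply Subtype.ext
  funext i
  show (bL none).1 i + (bL (some 0)).1 i = Spor.vecU i + Spor.vecU i
  rw [bL_apply, bL_apply]
  unfold Spor.vecU
  by_cases h1 : i = none
  · subst h1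
    simp
  · by_cases h2 : i = some 0
    · subst h2
      simp
    · simp [h1, h2]

section
variable (f : Equiv.Perm leechLattice)
  (hadd : ∀ v w : leechLattice, f (v + w) = f v + f w)
  (hnorm : ∀ v : leechLattice, sqNorm ((f v).1) = sqNorm v.1)
  (hu : f Spor.leechU = Spor.leechU)
  (hB : B f = 1)

include hadd hnorm hu hB

theorem fix_some (z : ZMod 23) (hz : z ≠ 0) : f (bL (some z)) = bL (some z) := by
  have hn : sqNorm (f (bL (some z))).1 = 64 := by rw [hnorm, bL_norm]
  have hres : ∀ x : ZMod 23, (((f (bL (some z))).1 (some x) : ℤ) : ZMod 13)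
      = if x = z then 8 else 0 := by
    intro x
    have h1 := congrFun (congrFun hB x) z
    unfold B at h1
    rw [if_neg hz, sub_zero, Matrix.one_apply] at h1
    have h2 := mul5 _ _ h1
    rw [h2]
    split_ifs <;> decide
  have h0 : ∀ x : ZMod 23, x ≠ z → (f (bL (some z))).1 (some x) = 0 := by
    intro x hx
    have h1 := hres x
    rw [if_neg hx] at h1
    exact zero_of_mod _ h1 (coord_sq_le _ hn _)
  have hnone : (f (bL (some z))).1 none = 0 := by
    have h1 := ut_int f hadd hnorm hu (some z)
    rw [if_neg (by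
      rintro (h | h)
      · exact Option.some_ne_none z h
      · exact hz (Option.some.inj h)), h0 0 (Ne.symm hz)] at h1
    linarith
  have hzz : (f (bL (some z))).1 (some z) = 8 := by
    have h1 := hres z
    rw [if_pos rfl] at h1
    rcases eight_of_mod _ h1 (coord_sq_le _ hn _) with h | h
    · exact h
    · exfalso
      unfold sqNorm at hn
      rw [Finset.sum_eq_single (some z), h] at hn
      · norm_num at hn
      · intro i _ hi
        cases i with
        | none => rw [hnone]; rfl
        | some x =>
          rw [h0 x (fun hh => hi (by rw [hh]))]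
          rfl
      · intro hh
        exact absurd (Finset.mem_univ _) hh
  apply Subtype.ext
  funext i
  rw [bL_apply]
  cases i with
  | none => rw [hnone, if_neg (by exact (Option.some_ne_none z).symm)]
  | some x =>
    by_cases hx : x = z
    · rw [hx, hzz, if_pos rfl]
    · rw [h0 x hx, if_neg (fun hh => hx (Option.some.inj hh))]

theorem fix_zero : f (bL (some 0)) = bL (some 0) ∧ f (bL none) = bL none := by
  have hn : sqNorm (f (bL (some 0))).1 = 64 := by rw [hnorm, bL_norm]
  have hsum : f (bL none) + f (bL (some 0)) = Spor.leechU + Spor.leechU := by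
    rw [← hadd, bL_sum, hadd, hu]
  have hsumc : ∀ i, (f (bL none)).1 i + (f (bL (some 0))).1 i = 2 * Spor.vecU i := by
    intro i
    have h1 : (f (bL none) + f (bL (some 0))).1 i
        = (Spor.leechU + Spor.leechU : leechLattice).1 i := by rw [hsum]
    have h2 : (Spor.leechU + Spor.leechU : leechLattice).1 i = Spor.vecU i + Spor.vecU i := rfl
    have h3 : (f (bL none) + f (bL (some 0))).1 i
        = (f (bL none)).1 i + (f (bL (some 0))).1 i := rfl
    rw [h2, h3] at h1
    linarith
  have hres : ∀ x : ZMod 23, (((f (bL (some 0))).1 (some x) : ℤ) : ZMod 13)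
      = if x = 0 then 8 else 0 := by
    intro x
    have h1 := congrFun (congrFun hB x) 0
    unfold B at h1
    rw [if_pos rfl, Matrix.one_apply] at h1
    unfold A at h1
    have h2 : (((f (bL none)).1 (some x) : ℤ) : ZMod 13)
        = ((2 * Spor.vecU (some x) : ℤ) : ZMod 13) - (((f (bL (some 0))).1 (some x) : ℤ) : ZMod 13) := by
      rw [← Int.cast_sub]
      congr 1
      have := hsumc (some x)
      linarith
    rw [h2, ← sub_mul] at h1
    have h3 := mul5 _ _ h1
    have h4 : 2 * (((f (bL (some 0))).1 (some x) : ℤ) : ZMod 13)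
        = (if x = 0 then (1 : ZMod 13) else 0) * 8 + ((2 * Spor.vecU (some x) : ℤ) : ZMod 13) := by
      rw [← h3]
      ring
    have h5 := mul2 _ _ h4
    rw [h5]
    unfold Spor.vecU
    by_cases hx : x = 0
    · subst hx
      simp
      decide
    · have h6 : ¬ ((some x : GolayPt) = none ∨ (some x : GolayPt) = some 0) := by
        rintro (h | h)
        · exact Option.some_ne_none x h
        · exact hx (Option.some.inj h)
      simp only [if_neg hx, if_neg h6]
      simp
  have h0 : ∀ x : ZMod 23, x ≠ 0 → (f (bL (some 0))).1 (some x) = 0 := by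
    intro x hx
    have h1 := hres x
    rw [if_neg hx] at h1
    exact zero_of_mod _ h1 (coord_sq_le _ hn _)
  have hut := ut_int f hadd hnorm hu (some 0)
  rw [if_pos (Or.inr rfl)] at hut
  have hb := coord_sq_le _ hn none
  have h00 : (f (bL (some 0))).1 (some 0) = 8 := by
    have h1 := hres 0
    rw [if_pos rfl] at h1
    rcases eight_of_mod _ h1 (coord_sq_le _ hn _) with h | h
    · exact h
    · exfalso
      rw [h] at hut
      have h13 : (f (bL (some 0))).1 none = 13 := by linarith
      rw [h13] at hb
      norm_num at hb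
  have hnone : (f (bL (some 0))).1 none = 0 := by
    rw [h00] at hut
    linarith
  have key : f (bL (some 0)) = bL (some 0) := by
    apply Subtype.ext
    funext i
    rw [bL_apply]
    cases i with
    | none => rw [hnone, if_neg (by exact (Option.some_ne_none _).symm)]
    | some x =>
      by_cases hx : x = 0
      · rw [hx, h00, if_pos rfl]
      · rw [h0 x hx, if_neg (fun hh => hx (Option.some.inj hh))]
  refine ⟨key, ?_⟩
  apply Subtype.ext
  funext i
  have h1 := hsumc i
  rw [key, bL_apply] at h1
  rw [bL_apply]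
  unfold Spor.vecU at h1
  cases i with
  | none =>
    rw [if_neg (by exact (Option.some_ne_none _).symm), if_pos (Or.inl rfl)] at h1
    rw [if_pos rfl]
    linarith
  | some x =>
    rw [if_neg (by exact Option.some_ne_none x)]
    by_cases hx : x = 0
    · subst hx
      rw [if_pos rfl, if_pos (Or.inr rfl)] at h1
      linarith
    · rw [if_neg (fun hh => hx (Option.some.inj hh)), if_neg (by
        rintro (h | h)
        · exact Option.some_ne_none x h
        · exact hx (Option.some.inj h))] at h1
      linarith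

theorem inj : f = 1 := by
  have hfix : ∀ q, f (bL q) = bL q := by
    intro q
    cases q with
    | none => exact (fix_zero f hadd hnorm hu hB).2
    | some z =>
      by_cases hz : z = 0
      · rw [hz]
        exact (fix_zero f hadd hnorm hu hB).1
      · exact fix_some f hadd hnorm hu hB z hz
  ext v i
  have h1 := lin f hadd v i
  have h2 := lin 1 (fun _ _ => rfl) v i
  simp only [hfix] at h1
  rw [Equiv.Perm.one_apply] at h2
  simp only [Equiv.Perm.one_apply] at h2 ⊢
  linarith

end

end Cfsg.Agent.Lib.Helper1.C2R
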