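import Mathlib
import Cfsg.Prelude.Def_Characters
import Cfsg.Agent.Lib.Helper3.CharArith

set_option autoImplicit false

namespace Cfsg.Agent.Lib.Helper1.Iso

open Cfsg.Agent.Lib.Helper3.Char Cfsg.Agent.Lib.Helper3.CharCore Cfsg.Agent.Lib.Helper3.CharArith
open scoped ComplexConjugate

theorem norm_two {I : Type*} [Fintype I] [DecidableEq I] (d : I → ℤ) (hd : ∀ x, 0 < d x)
    (a : I → ℤ) (h2 : ∑ x, a x * a x = 2) (h0 : ∑ x, a x * d x = 0) :
    ∃ α β : I, α ≠ β ∧ ∀ x, a x = (if x = α then 1 else 0) - (if x = β then 1 else 0) := by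
  have hle : ∀ x, a x * a x ≤ 2 := by
    intro x
    rw [← h2]
    exact Finset.single_le_sum (f := fun x => a x * a x) (fun y _ => mul_self_nonneg (a y))
      (Finset.mem_univ x)
  have hrange : ∀ x, a x = 0 ∨ a x = 1 ∨ a x = -1 := by
    intro x
    have h := hle x
    have h1 : a x ≤ 1 := by nlinarith
    have h2 : -1 ≤ a x := by nlinarith
    omega
  have hsq : ∀ x, a x * a x = if a x ≠ 0 then 1 else 0 := by
    intro x
    rcases hrange x with h | h | h <;> simp [h]
  have hcard : (Finset.univ.filter (fun x => a x ≠ 0)).card = 2 := by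
    have h3 : ∑ x, a x * a x = ((Finset.univ.filter (fun x => a x ≠ 0)).card : ℤ) := by
      rw [Finset.sum_congr rfl (fun x _ => hsq x), Finset.sum_boole]
    rw [h2] at h3
    exact_mod_cast h3.symm
  obtain ⟨α, β, hαβ, hS⟩ := Finset.card_eq_two.mp hcard
  have hα : a α ≠ 0 := by
    have h3 : α ∈ Finset.univ.filter (fun x => a x ≠ 0) := by rw [hS]; simp
    simpa using h3
  have hβ : a β ≠ 0 := by
    have h3 : β ∈ Finset.univ.filter (fun x => a x ≠ 0) := by rw [hS]; simp
    simpa using h3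
  have hother : ∀ x, x ≠ α → x ≠ β → a x = 0 := by
    intro x hxα hxβ
    by_contra hx
    have h3 : x ∈ Finset.univ.filter (fun x => a x ≠ 0) := by simp [hx]
    rw [hS] at h3
    simp only [Finset.mem_insert, Finset.mem_singleton] at h3
    rcases h3 with h | h
    · exact hxα h
    · exact hxβ h
  have hsum : ∑ x, a x * d x = a α * d α + a β * d β := by
    apply Finset.sum_eq_add α β hαβ
    · intro c _ hc
      rw [hother c hc.1 hc.2, zero_mul]
    · intro h; exact absurd (Finset.mem_univ α) h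
    · intro h; exact absurd (Finset.mem_univ β) h
  rw [hsum] at h0
  have hdα := hd α
  have hdβ := hd β
  rcases hrange α with h | h | h
  · exact absurd h hα
  · rcases hrange β with h' | h' | h'
    · exact absurd h' hβ
    · rw [h, h'] at h0; omega
    · refine ⟨α, β, hαβ, ?_⟩
      intro x
      by_cases hxα : x = α
      · subst hxα; simp [h, hαβ]
      · by_cases hxβ : x = β
        · subst hxβ; simp [h', hxα]
        · simp [hother x hxα hxβ, hxα, hxβ]
  · rcases hrange β with h' | h' | h'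
    · exact absurd h' hβ
    · refine ⟨β, α, hαβ.symm, ?_⟩
      intro x
      by_cases hxα : x = α
      · subst hxα; simp [h, hαβ]
      · by_cases hxβ : x = β
        · subst hxβ; simp [h', hxα]
        · simp [hother x hxα hxβ, hxα, hxβ]
    · rw [h, h'] at h0; omega

theorem pair_cases {I : Type*} [Fintype I] [DecidableEq I] (α β α' β' : I) (hab : α ≠ β)
    (hab' : α' ≠ β')
    (h : ∑ x : I, ((if x = α then (1 : ℤ) else 0) - (if x = β then 1 else 0)) *
       ((if x = α' then 1 else 0) - (if x = β' then 1 else 0)) = 1) :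
    (α = α' ∧ β ≠ β') ∨ (β = β' ∧ α ≠ α') := by
  have e : ∑ x : I, ((if x = α then (1 : ℤ) else 0) - (if x = β then 1 else 0)) *
       ((if x = α' then 1 else 0) - (if x = β' then 1 else 0)) =
       ((if α = α' then 1 else 0) - (if α = β' then 1 else 0)) -
        ((if β = α' then 1 else 0) - (if β = β' then 1 else 0)) := by
    simp only [sub_mul, Finset.sum_sub_distrib, ite_mul, one_mul, zero_mul, Finset.sum_ite_eq',
      Finset.mem_univ, if_true]
  rw [e] at h
  by_cases h1 : α = α'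
  · left
    refine ⟨h1, ?_⟩
    intro h4
    have h2 : α ≠ β' := fun h2 => hab' (h1.symm.trans h2)
    have h3 : β ≠ α' := fun h3 => hab (h1.trans h3.symm)
    rw [if_pos h1, if_neg h2, if_neg h3, if_pos h4] at h
    norm_num at h
  · right
    by_cases h4 : β = β'
    · exact ⟨h4, h1⟩
    · exfalso
      rw [if_neg h1, if_neg h4] at h
      split_ifs at h <;> omega

theorem comb {I J : Type*} [Fintype I] [DecidableEq I] [DecidableEq J] (d : I → ℤ)
    (hd : ∀ x, 0 < d x) (a : J → I → ℤ)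
    (hgram : ∀ i j, ∑ x, a i x * a j x = if i = j then 2 else 1)
    (hdeg : ∀ i, ∑ x, a i x * d x = 0) (x0 : I) :
    ∃ ε : ℤ, (ε = 1 ∨ ε = -1) ∧ ∃ (φ0 : I) (ν : J → I), Function.Injective ν ∧
      (∀ j, ν j ≠ φ0) ∧
      ∀ j x, a j x = ε * ((if x = ν j then 1 else 0) - (if x = φ0 then 1 else 0)) := by
  have h1 : ∀ j, ∃ α β : I, α ≠ β ∧
      ∀ x, a j x = (if x = α then 1 else 0) - (if x = β then 1 else 0) := by
    intro j
    apply norm_two d hd (a j) _ (hdeg j)
    have h := hgram j j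
    rwa [if_pos rfl] at h
  choose α β hαβ ha using h1
  have hpair : ∀ i j, i ≠ j → (α i = α j ∧ β i ≠ β j) ∨ (β i = β j ∧ α i ≠ α j) := by
    intro i j hij
    apply pair_cases _ _ _ _ (hαβ i) (hαβ j)
    have h := hgram i j
    rw [if_neg hij] at h
    refine Eq.trans (Finset.sum_congr rfl (fun x _ => ?_)) h
    rw [ha i x, ha j x]
  by_cases hA : ∃ i j, i ≠ j ∧ α i = α j
  · obtain ⟨i, j, hij, hαij⟩ := hA
    have hβij : β i ≠ β j := by
      rcases hpair i j hij with h | h
      · exact h.2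
      · exact absurd hαij h.2
    have hall : ∀ k, α k = α i := by
      intro k
      by_cases hki : k = i
      · rw [hki]
      by_cases hkj : k = j
      · rw [hkj, hαij]
      rcases hpair k i hki with h | h
      · exact h.1
      · rcases hpair k j hkj with h' | h'
        · rw [h'.1, hαij]
        · exact absurd (h.1.symm.trans h'.1) hβij
    refine ⟨-1, Or.inr rfl, α i, β, ?_, ?_, ?_⟩
    · intro k l hkl
      by_contra hne
      rcases hpair k l hne with h | h
      · exact h.2 hkl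
      · exact h.2 ((hall k).trans (hall l).symm)
    · intro k h
      exact hαβ k ((hall k).trans h.symm)
    · intro k x
      rw [ha k x, hall k]; ring
  · push Not at hA
    have hβ : ∀ i j, β i = β j := by
      intro i j
      by_cases hij : i = j
      · rw [hij]
      rcases hpair i j hij with h | h
      · exact absurd h.1 (hA i j hij)
      · exact h.1
    by_cases hJ : Nonempty J
    · obtain ⟨j0⟩ := hJ
      refine ⟨1, Or.inl rfl, β j0, α, ?_, ?_, ?_⟩
      · intro k l hkl
        by_contra hne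
        exact hA k l hne hkl
      · intro k h
        exact hαβ k (h.trans (hβ j0 k))
      · intro k x
        rw [ha k x, hβ k j0]; ring
    · refine ⟨1, Or.inl rfl, x0, fun j => (hJ ⟨j⟩).elim, ?_, ?_, ?_⟩
      · intro k; exact (hJ ⟨k⟩).elim
      · intro k; exact (hJ ⟨k⟩).elim
      · intro k; exact (hJ ⟨k⟩).elim

theorem gen_coeff {G : Type*} [Group G] [Fintype G] {θ : G → ℂ}
    (hθ : Cfsg.IsGeneralizedCharacter G θ) (φ : G → ℂ) (hφ : Cfsg.IsCharacter G φ) :
    ∃ m : ℤ, Cfsg.classInner θ φ = (m : ℂ) := by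
  obtain ⟨χ, ψ, hχ, hψ, rfl⟩ := hθ
  obtain ⟨n1, h1⟩ := inner_char_nat hχ hφ
  obtain ⟨n2, h2⟩ := inner_char_nat hψ hφ
  refine ⟨(n1 : ℤ) - n2, ?_⟩
  rw [classInner_sub_left, h1, h2]
  push_cast
  ring

theorem gen_classFun {G : Type*} [Group G] {θ : G → ℂ}
    (hθ : Cfsg.IsGeneralizedCharacter G θ) : Cfsg.IsClassFunction G θ := by
  obtain ⟨χ, ψ, hχ, hψ, rfl⟩ := hθ
  intro g h
  simp only [Pi.sub_apply]
  rw [char_classFun hχ g h, char_classFun hψ g h]

theorem main {G : Type*} [Group G] [Fintype G] (n : ℕ) (i₀ : Fin n) (τ : Fin n → (G → ℂ))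
    (h0 : τ i₀ = 0) (hgen : ∀ i, Cfsg.IsGeneralizedCharacter G (τ i)) (hone : ∀ i, τ i 1 = 0)
    (hgram : ∀ i j, i ≠ i₀ → j ≠ i₀ → Cfsg.classInner (τ i) (τ j) = if i = j then 2 else 1) :
    ∃ ε : ℂ, (ε = 1 ∨ ε = -1) ∧ ∃ μ : Fin n → (G → ℂ), (∀ i, Cfsg.IsIrrCharacter G (μ i)) ∧
      Function.Injective μ ∧ ∀ i, τ i = ε • (μ i - μ i₀) := by
  classical
  haveI : Fintype (Cfsg.IrrCharacter G) := Fintype.ofFinite _
  have hc : ∀ (i : Fin n) (φ : Cfsg.IrrCharacter G),
      ∃ m : ℤ, Cfsg.classInner (τ i) (φ : G → ℂ) = (m : ℂ) :=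
    fun i φ => gen_coeff (hgen i) _ (isCharacter_of_irr φ.2)
  choose c hc using hc
  have hexp : ∀ i, τ i = ∑ φ : Cfsg.IrrCharacter G, (c i φ : ℂ) • (φ : G → ℂ) := by
    intro i
    have h := class_fun_expand (τ i) (gen_classFun (hgen i))
    rw [h]
    refine Finset.sum_congr rfl (fun φ _ => ?_)
    rw [hc]
  have hd : ∀ φ : Cfsg.IrrCharacter G, ∃ m : ℕ, 0 < m ∧ (φ : G → ℂ) 1 = (m : ℂ) :=
    fun φ => irr_one_pos φ.2
  choose d hdpos hd using hd
  have hG : ∀ i j : {i : Fin n // i ≠ i₀},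
      ∑ φ, c i.1 φ * c j.1 φ = if i = j then 2 else 1 := by
    intro i j
    have h1 := hgram i.1 j.1 i.2 j.2
    have h2 : Cfsg.classInner (τ i.1) (τ j.1) =
        ∑ φ : Cfsg.IrrCharacter G, (c i.1 φ : ℂ) * (c j.1 φ : ℂ) := by
      conv_lhs => rw [hexp j.1]
      rw [classInner_sum_right]
      refine Finset.sum_congr rfl (fun φ _ => ?_)
      rw [classInner_smul_right, hc, map_intCast]
      ring
    rw [h2] at h1
    have h3 : ((∑ φ, c i.1 φ * c j.1 φ : ℤ) : ℂ) = ((if i = j then 2 else 1 : ℤ) : ℂ) := by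
      push_cast
      rw [h1]
      by_cases hij : i = j
      · simp [hij]
      · have h4 : i.1 ≠ j.1 := fun h => hij (Subtype.ext h)
        simp [hij, h4]
    exact_mod_cast h3
  have hD : ∀ i : {i : Fin n // i ≠ i₀}, ∑ φ, c i.1 φ * (d φ : ℤ) = 0 := by
    intro i
    have h1 := hone i.1
    rw [hexp i.1] at h1
    simp only [Finset.sum_apply, Pi.smul_apply, smul_eq_mul] at h1
    have h3 : ((∑ φ, c i.1 φ * (d φ : ℤ) : ℤ) : ℂ) = 0 := by
      push_cast
      rw [← h1]
      refine Finset.sum_congr rfl (fun φ _ => ?_)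
      rw [hd φ]
    exact_mod_cast h3
  obtain ⟨ε, hε, φ0, ν, hν, hνφ, hform⟩ := comb (fun φ => (d φ : ℤ))
    (fun φ => by exact_mod_cast hdpos φ) (fun j : {i : Fin n // i ≠ i₀} => c j.1) hG hD
    ⟨_, isIrr_one G⟩
  refine ⟨(ε : ℂ), ?_, fun i => if h : i = i₀ then (φ0 : G → ℂ) else (ν ⟨i, h⟩ : G → ℂ),
    ?_, ?_, ?_⟩
  · rcases hε with rfl | rfl <;> simp
  · intro i
    by_cases h : i = i₀
    · simp only [dif_pos h]; exact φ0.2
    · simp only [dif_neg h]; exact (ν ⟨i, h⟩).2
  · intro i j hij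
    by_cases hi : i = i₀
    · by_cases hj : j = i₀
      · rw [hi, hj]
      · exfalso
        simp only [dif_pos hi, dif_neg hj] at hij
        exact hνφ ⟨j, hj⟩ (Subtype.ext hij.symm)
    · by_cases hj : j = i₀
      · exfalso
        simp only [dif_neg hi, dif_pos hj] at hij
        exact hνφ ⟨i, hi⟩ (Subtype.ext hij)
      · simp only [dif_neg hi, dif_neg hj] at hij
        have h5 := hν (Subtype.ext hij)
        exact congrArg Subtype.val h5
  · intro i
    by_cases hi : i = i₀
    · subst hi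
      simp [h0]
    · simp only [dif_neg hi, dif_pos]
      rw [hexp i]
      have h6 : ∀ φ : Cfsg.IrrCharacter G, (c i φ : ℂ) • (φ : G → ℂ) =
          (ε : ℂ) • ((if φ = ν ⟨i, hi⟩ then (φ : G → ℂ) else 0) -
            (if φ = φ0 then (φ : G → ℂ) else 0)) := by
        intro φ
        rw [hform ⟨i, hi⟩ φ]
        push_cast
        split_ifs <;> simp
      rw [Finset.sum_congr rfl (fun φ _ => h6 φ), ← Finset.smul_sum, Finset.sum_sub_distrib,
        Finset.sum_ite_eq', Finset.sum_ite_eq']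
      simp

end Cfsg.Agent.Lib.Helper1.Iso
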