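import Mathlib
import Cfsg.Prelude.Def_Characters
import Cfsg.Agent.Lib.Helper3.CharInd
import Cfsg.Agent.Lib.Helper3.CharArith
import Cfsg.Agent.Lib.Helper1.Iso198

set_option autoImplicit false

namespace Cfsg.Agent.Lib.Helper1.Exc

open Cfsg.Agent.Lib.Helper3.Char Cfsg.Agent.Lib.Helper3.CharCore Cfsg.Agent.Lib.Helper3.CharArith
  Cfsg.Agent.Lib.Helper3.CharInd
open scoped ComplexConjugate

theorem ind_char {G : Type*} [Group G] [Fintype G] (H : Subgroup G) (θ : H → ℂ)
    (hθ : Cfsg.IsCharacter H θ) : Cfsg.IsCharacter G (Cfsg.indFun H θ) := by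
  classical
  have _i : Fintype H := Fintype.ofFinite H
  apply isCharacter_of_nat_inner (Cfsg.indFun H θ) (indFun_classFun H θ)
  intro χ hχ
  rw [frobenius H θ χ (char_classFun (isCharacter_of_irr hχ))]
  exact inner_char_nat hθ (comp_isCharacter H.subtype (isCharacter_of_irr hχ))

theorem ind_one {G : Type*} [Group G] [Fintype G] (H : Subgroup G) (θ : H → ℂ) :
    Cfsg.indFun H θ 1 = (Nat.card H : ℂ)⁻¹ * ((Nat.card G : ℂ) * θ 1) := by
  unfold Cfsg.indFun
  congr 1
  have h1 : ∀ x : G, Cfsg.extendByZero H θ (x⁻¹ * 1 * x) = θ 1 := by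
    intro x
    have e : x⁻¹ * 1 * x = (1 : G) := by simp
    rw [e, extendByZero_mem H θ H.one_mem]
    rfl
  rw [Finset.sum_congr rfl (fun x _ => h1 x), Finset.sum_const, Finset.card_univ, nsmul_eq_mul,
    Fintype.card_eq_nat_card]

theorem main {G : Type*} [Group G] [Fintype G] (S : Set G)
    (hTI : ∀ g : G, g ∉ Subgroup.normalizer S → ∀ s ∈ S, g * s * g⁻¹ ∈ S → s = 1)
    (n : ℕ) (hn : 2 ≤ n) (χ : Fin n → (Subgroup.normalizer S → ℂ))
    (hirr : ∀ i, Cfsg.IsIrrCharacter (Subgroup.normalizer S) (χ i))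
    (hinj : Function.Injective χ)
    (hvan : ∀ i, ∀ x : Subgroup.normalizer S, (x : G) ∉ S → χ i x = 0)
    (hdeg : ∀ i j, χ i 1 = χ j 1) :
    ∃ ε : ℂ, (ε = 1 ∨ ε = -1) ∧ ∃ θ : Fin n → (G → ℂ), (∀ i, Cfsg.IsIrrCharacter G (θ i)) ∧
      Function.Injective θ ∧ ∀ i j, Cfsg.indFun (Subgroup.normalizer S) (χ i) -
        Cfsg.indFun (Subgroup.normalizer S) (χ j) = ε • (θ i - θ j) := by
  classical
  have _i : Fintype (Subgroup.normalizer S) := Fintype.ofFinite _
  let i₀ : Fin n := ⟨0, by omega⟩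
  let τ : Fin n → G → ℂ := fun i =>
    Cfsg.indFun (Subgroup.normalizer S) (χ i) - Cfsg.indFun (Subgroup.normalizer S) (χ i₀)
  have hchar : ∀ i, Cfsg.IsCharacter G (Cfsg.indFun (Subgroup.normalizer S) (χ i)) :=
    fun i => ind_char _ (χ i) (isCharacter_of_irr (hirr i))
  have h0 : τ i₀ = 0 := sub_self _
  have hgen : ∀ i, Cfsg.IsGeneralizedCharacter G (τ i) :=
    fun i => ⟨_, _, hchar i, hchar i₀, rfl⟩
  have hone : ∀ i, τ i 1 = 0 := by
    intro i
    show Cfsg.indFun (Subgroup.normalizer S) (χ i) 1 -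
      Cfsg.indFun (Subgroup.normalizer S) (χ i₀) 1 = 0
    rw [ind_one, ind_one, hdeg i i₀, sub_self]
  have hcf : ∀ i, Cfsg.IsClassFunction (Subgroup.normalizer S) (χ i) :=
    fun i => char_classFun (isCharacter_of_irr (hirr i))
  have hres : ∀ j (y : Subgroup.normalizer S), (y : G) ∈ S → y ≠ 1 →
      Cfsg.indFun (Subgroup.normalizer S) (χ j) y = χ j y :=
    fun j y hy hy1 => indFun_ti S hTI (χ j) (hcf j) (hvan j) y hy hy1
  have hgram : ∀ i j, i ≠ i₀ → j ≠ i₀ →
      Cfsg.classInner (τ i) (τ j) = if i = j then 2 else 1 := by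
    intro i j hi hj
    have hτj : Cfsg.IsClassFunction G (τ j) := Iso.gen_classFun (hgen j)
    have e1 : Cfsg.classInner (τ i) (τ j) =
        Cfsg.classInner (χ i - χ i₀) (fun h : Subgroup.normalizer S => τ j h) := by
      show Cfsg.classInner (Cfsg.indFun (Subgroup.normalizer S) (χ i) -
        Cfsg.indFun (Subgroup.normalizer S) (χ i₀)) (τ j) = _
      rw [classInner_sub_left, frobenius _ (χ i) _ hτj, frobenius _ (χ i₀) _ hτj,
        ← classInner_sub_left]
    have e2 : Cfsg.classInner (χ i - χ i₀) (fun h : Subgroup.normalizer S => τ j h) =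
        Cfsg.classInner (χ i - χ i₀) (χ j - χ i₀) := by
      unfold Cfsg.classInner
      congr 1
      refine Finset.sum_congr rfl (fun y _ => ?_)
      show (χ i - χ i₀) y * conj (τ j (y : G)) = (χ i - χ i₀) y * conj ((χ j - χ i₀) y)
      by_cases hy : (y : G) ∈ S
      · by_cases hy1 : y = 1
        · subst hy1
          have h5 : (χ i - χ i₀) 1 = 0 := by
            rw [Pi.sub_apply, hdeg i i₀, sub_self]
          rw [h5, zero_mul, zero_mul]
        · have h5 : τ j (y : G) = (χ j - χ i₀) y := by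
            show Cfsg.indFun (Subgroup.normalizer S) (χ j) y -
              Cfsg.indFun (Subgroup.normalizer S) (χ i₀) y = _
            rw [hres j y hy hy1, hres i₀ y hy hy1]
            rfl
          rw [h5]
      · have h5 : (χ i - χ i₀) y = 0 := by
          rw [Pi.sub_apply, hvan i y hy, hvan i₀ y hy, sub_self]
        rw [h5, zero_mul, zero_mul]
    rw [e1, e2, classInner_sub_left, classInner_sub_right, classInner_sub_right,
      irr_orthonormal (hirr i) (hirr j), irr_orthonormal (hirr i) (hirr i₀),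
      irr_orthonormal (hirr i₀) (hirr j), irr_orthonormal (hirr i₀) (hirr i₀)]
    have h1 : χ i ≠ χ i₀ := fun h => hi (hinj h)
    have h2 : χ i₀ ≠ χ j := fun h => hj (hinj h).symm
    rw [if_neg h1, if_neg h2, if_pos rfl]
    by_cases hij : i = j
    · subst hij
      rw [if_pos rfl, if_pos rfl]
      norm_num
    · have h3 : χ i ≠ χ j := fun h => hij (hinj h)
      rw [if_neg h3, if_neg hij]
      norm_num
  obtain ⟨ε, hε, μ, hμ, hμinj, hform⟩ := Iso.main n i₀ τ h0 hgen hone hgram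
  refine ⟨ε, hε, μ, hμ, hμinj, ?_⟩
  intro i j
  have hi := hform i
  have hj := hform j
  have h7 : Cfsg.indFun (Subgroup.normalizer S) (χ i) -
      Cfsg.indFun (Subgroup.normalizer S) (χ j) = τ i - τ j := by
    show _ = (Cfsg.indFun (Subgroup.normalizer S) (χ i) -
      Cfsg.indFun (Subgroup.normalizer S) (χ i₀)) -
      (Cfsg.indFun (Subgroup.normalizer S) (χ j) - Cfsg.indFun (Subgroup.normalizer S) (χ i₀))
    abel
  rw [h7, hi, hj, ← smul_sub]
  congr 1
  abel

end Cfsg.Agent.Lib.Helper1.Exc
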