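import Mathlib
import Cfsg.Agent.Lib.Helper1.Frob

namespace Cfsg.Agent.Lib.Helper1.Frob

open Subgroup
open scoped commutatorElement

universe u_1

variable {G : Type u_1} [Group G] [Finite G] {p : ℕ} [Fact p.Prime]

noncomputable def conjPerm (Q : Subgroup G) (g : G) (hg : g ∈ normalizer (Q : Set G)) :
    Equiv.Perm Q where
  toFun q := ⟨g * q * g⁻¹, (Subgroup.mem_normalizer_iff.1 hg q).1 q.2⟩
  invFun q := ⟨g⁻¹ * q * g, by
    have := (Subgroup.mem_normalizer_iff.1 (inv_mem hg) q).1 q.2
    simpa using this⟩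
  left_inv q := by
    apply Subtype.ext
    simp only
    group
  right_inv q := by
    apply Subtype.ext
    simp only
    group

theorem conjPerm_pow (Q : Subgroup G) (g : G) (hg : g ∈ normalizer (Q : Set G)) (k : ℕ)
    (q : Q) : (((conjPerm Q g hg) ^ k) q : G) = g ^ k * q * (g ^ k)⁻¹ := by
  induction k generalizing q with
  | zero => simp
  | succ k ih =>
    rw [pow_succ, Equiv.Perm.mul_apply, ih]
    simp only [conjPerm, Equiv.coe_fn_mk]
    rw [pow_succ]
    group

theorem centralizes_of_small (Q : Subgroup G) (hQ8 : Nat.card Q ∣ 8) (g : G)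
    (hg : g ∈ normalizer (Q : Set G)) (hodd : (orderOf g).Coprime 2)
    (h3 : 4 ∣ Nat.card Q → ¬ 3 ∣ orderOf g) (h7 : 8 ∣ Nat.card Q → ¬ 7 ∣ orderOf g) :
    g ∈ centralizer (Q : Set G) := by
  classical
  haveI : Fintype Q := Fintype.ofFinite Q
  set σ := conjPerm Q g hg with hσ
  have hσm : σ ^ orderOf g = 1 := by
    ext q
    rw [conjPerm_pow, pow_orderOf_eq_one]
    simp
  have hd1 : orderOf σ ∣ orderOf g := orderOf_dvd_of_pow_eq_one hσm
  have hd2 : orderOf σ ∣ (Fintype.card Q).factorial := by
    rw [← Fintype.card_perm]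
    exact orderOf_dvd_card
  have hcard : Fintype.card Q = Nat.card Q := Nat.card_eq_fintype_card.symm
  have hc2 : (orderOf σ).Coprime 2 := Nat.Coprime.coprime_dvd_left hd1 hodd
  have hle : Nat.card Q ≤ 8 := Nat.le_of_dvd (by norm_num) hQ8
  have hpos : 0 < Nat.card Q := Nat.card_pos
  have hd5 : orderOf σ ∣ 5 := by
    rw [hcard] at hd2
    have hcases : Nat.card Q = 1 ∨ Nat.card Q = 2 ∨ Nat.card Q = 4 ∨ Nat.card Q = 8 := by
      interval_cases (Nat.card Q) <;> simp_all
    rcases hcases with h | h | h | h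
    · rw [h] at hd2
      have : orderOf σ ∣ 1 := by simpa using hd2
      exact dvd_trans this (one_dvd _)
    · rw [h] at hd2
      have h2 : orderOf σ ∣ 2 := by simpa using hd2
      have : orderOf σ = 1 := Nat.Coprime.eq_one_of_dvd hc2 h2
      rw [this]
      exact one_dvd _
    · rw [h] at hd2
      have h24 : orderOf σ ∣ 8 * 3 := by
        have : (4 : ℕ).factorial = 8 * 3 := by decide
        rw [← this]
        exact hd2
      have hc3 : (orderOf σ).Coprime 3 := by
        apply Nat.Coprime.symm
        rw [Nat.Prime.coprime_iff_not_dvd (by norm_num)]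
        intro h3'
        exact h3 (by rw [h]) (dvd_trans h3' hd1)
      have hc8 : (orderOf σ).Coprime 8 := by
        have : (8 : ℕ) = 2 ^ 3 := by norm_num
        rw [this]
        exact Nat.Coprime.pow_right _ hc2
      have h3'' : orderOf σ ∣ 3 := (Nat.Coprime.dvd_mul_left hc8).1 h24
      have : orderOf σ = 1 := Nat.Coprime.eq_one_of_dvd hc3 h3''
      rw [this]
      exact one_dvd _
    · rw [h] at hd2
      have h8f : orderOf σ ∣ 128 * (9 * (7 * 5)) := by
        have : (8 : ℕ).factorial = 128 * (9 * (7 * 5)) := by decide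
        rw [← this]
        exact hd2
      have hc3 : (orderOf σ).Coprime 3 := by
        apply Nat.Coprime.symm
        rw [Nat.Prime.coprime_iff_not_dvd (by norm_num)]
        intro h3'
        exact h3 (by rw [h]; norm_num) (dvd_trans h3' hd1)
      have hc7 : (orderOf σ).Coprime 7 := by
        apply Nat.Coprime.symm
        rw [Nat.Prime.coprime_iff_not_dvd (by norm_num)]
        intro h7'
        exact h7 (by rw [h]) (dvd_trans h7' hd1)
      have hc128 : (orderOf σ).Coprime 128 := by
        have : (128 : ℕ) = 2 ^ 7 := by norm_num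
        rw [this]
        exact Nat.Coprime.pow_right _ hc2
      have hc9 : (orderOf σ).Coprime 9 := by
        have : (9 : ℕ) = 3 ^ 2 := by norm_num
        rw [this]
        exact Nat.Coprime.pow_right _ hc3
      have e1 := (Nat.Coprime.dvd_mul_left hc128).1 h8f
      have e2 := (Nat.Coprime.dvd_mul_left hc9).1 e1
      exact (Nat.Coprime.dvd_mul_left hc7).1 e2
  have hσ5 : σ ^ 5 ^ 1 = 1 := by
    rw [pow_one]
    exact orderOf_dvd_iff_pow_eq_one.1 hd5
  haveI : Fact (Nat.Prime 5) := ⟨by norm_num⟩
  have hmod := Equiv.Perm.card_compl_support_modEq (p := 5) (n := 1) hσ5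
  set F : Subgroup Q := (centralizer ({g} : Set G)).subgroupOf Q with hF
  have hFmem : ∀ q : Q, q ∈ F ↔ q ∈ σ.supportᶜ := by
    intro q
    rw [Finset.mem_compl, Equiv.Perm.notMem_support, hF, Subgroup.mem_subgroupOf,
      Subgroup.mem_centralizer_singleton_iff]
    constructor
    · intro h
      apply Subtype.ext
      show g * (q : G) * g⁻¹ = q
      rw [← h]
      group
    · intro h
      have h' : g * (q : G) * g⁻¹ = q := congrArg Subtype.val h
      calc (q : G) * g = (g * (q : G) * g⁻¹) * g := by rw [h']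
        _ = g * (q : G) := by group
  have hFcard : Nat.card F = σ.supportᶜ.card := by
    rw [Nat.card_eq_fintype_card]
    exact Fintype.card_of_subtype _ (fun q => (hFmem q).symm)
  rw [← hFcard, hcard] at hmod
  have hFdvd : Nat.card F ∣ Nat.card Q := Subgroup.card_subgroup_dvd_card F
  have hFle : Nat.card F ≤ Nat.card Q := Nat.le_of_dvd hpos hFdvd
  have hFpos : 0 < Nat.card F := Nat.card_pos
  have hFeq : Nat.card F = Nat.card Q := by
    have hcases : Nat.card Q = 1 ∨ Nat.card Q = 2 ∨ Nat.card Q = 4 ∨ Nat.card Q = 8 := by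
      interval_cases (Nat.card Q) <;> simp_all
    rcases hcases with h | h | h | h <;> rw [h] at hmod hFdvd hFle ⊢ <;>
      interval_cases (Nat.card F) <;> first | rfl | (exfalso; revert hmod; decide) | (exfalso; revert hFdvd; decide)
  have hFtop : F = ⊤ := (Subgroup.card_eq_iff_eq_top F).1 hFeq
  rw [Subgroup.mem_centralizer_iff]
  intro q hq
  have hqF : (⟨q, hq⟩ : Q) ∈ F := by
    rw [hFtop]
    trivial
  rw [hF, Subgroup.mem_subgroupOf, Subgroup.mem_centralizer_singleton_iff] at hqF
  exact hqF


end Cfsg.Agent.Lib.Helper1.Frob
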