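import Mathlib

set_option autoImplicit false
open Pointwise

namespace Cfsg.Agent.Lib.Helper1

theorem exists_prime_fixed_of_not_le {G : Type*} [Group G] [Finite G] {p : ℕ} [Fact p.Prime]
    (P : Sylow p G)
    (hab : (P : Subgroup G) ≤ Subgroup.centralizer ((P : Subgroup G) : Set G))
    (h : ¬ Subgroup.normalizer ((P : Subgroup G) : Set G) ≤
      Subgroup.centralizer ((P : Subgroup G) : Set G)) :
    ∃ q : ℕ, q.Prime ∧ q ≠ p ∧ q ∣ Nat.card G ∧
      ∃ F : Subgroup (P : Subgroup G), F ≠ ⊤ ∧ q ∣ (Nat.card (P : Subgroup G) - Nat.card F) := by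
  classical
  have hker := Subgroup.normalizerMonoidHom_ker (P : Subgroup G)
  have hm1 : Nat.card (P : Subgroup G).normalizerMonoidHom.range ≠ 1 := by
    intro h1
    apply h
    intro n hn
    have h2 : (P : Subgroup G).normalizerMonoidHom.range = ⊥ := Subgroup.card_eq_one.mp h1
    have h3 : (P : Subgroup G).normalizerMonoidHom ⟨n, hn⟩ ∈
        (P : Subgroup G).normalizerMonoidHom.range := ⟨_, rfl⟩
    rw [h2, Subgroup.mem_bot] at h3
    have h4 : (⟨n, hn⟩ : Subgroup.normalizer ((P : Subgroup G) : Set G)) ∈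
        (P : Subgroup G).normalizerMonoidHom.ker := MonoidHom.mem_ker.mpr h3
    rw [hker, Subgroup.mem_subgroupOf] at h4
    exact h4
  obtain ⟨q, hq, hqd⟩ := Nat.exists_prime_and_dvd hm1
  have hidx : Nat.card (P : Subgroup G).normalizerMonoidHom.range ∣ (P : Subgroup G).index := by
    rw [← Subgroup.index_ker, hker]
    have h1 : (Subgroup.centralizer ((P : Subgroup G) : Set G)).relIndex
        (Subgroup.normalizer ((P : Subgroup G) : Set G)) ∣
        (P : Subgroup G).relIndex (Subgroup.normalizer ((P : Subgroup G) : Set G)) :=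
      Subgroup.relIndex_dvd_of_le_left _ hab
    exact h1.trans (Subgroup.relIndex_dvd_index_of_le Subgroup.le_normalizer)
  have hqidx : q ∣ (P : Subgroup G).index := hqd.trans hidx
  have : Fact q.Prime := ⟨hq⟩
  refine ⟨q, hq, ?_, hqidx.trans (Subgroup.index_dvd_card _), ?_⟩
  · rintro rfl
    exact P.not_dvd_index hqidx
  obtain ⟨α, hα⟩ := exists_prime_orderOf_dvd_card' (G := (P : Subgroup G).normalizerMonoidHom.range) q hqd
  have hαo : orderOf (α : MulAut (P : Subgroup G)) = q := by rw [Subgroup.orderOf_coe]; exact hα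
  obtain ⟨F, hF⟩ : ∃ F : Subgroup (P : Subgroup G), ∀ t, t ∈ F ↔ (α : MulAut (P : Subgroup G)) t = t := by
    refine ⟨{ carrier := {t | (α : MulAut (P : Subgroup G)) t = t}
              mul_mem' := ?_
              one_mem' := map_one _
              inv_mem' := ?_ }, fun t => Iff.rfl⟩
    · intro a b ha hb
      show (α : MulAut (P : Subgroup G)) (a * b) = a * b
      have ha' : (α : MulAut (P : Subgroup G)) a = a := ha
      have hb' : (α : MulAut (P : Subgroup G)) b = b := hb
      rw [map_mul, ha', hb']
    · intro a ha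
      show (α : MulAut (P : Subgroup G)) a⁻¹ = a⁻¹
      have ha' : (α : MulAut (P : Subgroup G)) a = a := ha
      rw [map_inv, ha']
  refine ⟨F, ?_, ?_⟩
  · intro htop
    have h1 : (α : MulAut (P : Subgroup G)) = 1 := by
      ext t
      have h2 := (hF t).mp (by rw [htop]; exact Subgroup.mem_top t)
      rw [h2]
      rfl
    rw [h1, orderOf_one] at hαo
    exact hq.one_lt.ne hαo
  · have : Fintype (P : Subgroup G) := Fintype.ofFinite _
    have hσ : (MulAut.toPerm (P : Subgroup G) (α : MulAut (P : Subgroup G))) ^ q ^ 1 = 1 := by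
      rw [pow_one, ← map_pow, ← hαo, pow_orderOf_eq_one, map_one]
    have hmod := Equiv.Perm.card_compl_support_modEq hσ
    have hcardF : Nat.card F =
        (MulAut.toPerm (P : Subgroup G) (α : MulAut (P : Subgroup G))).supportᶜ.card := by
      rw [Nat.card_eq_fintype_card, Fintype.card_subtype]
      congr 1
      ext t
      simp only [Finset.mem_filter, Finset.mem_univ, true_and, Finset.mem_compl,
        Equiv.Perm.mem_support, not_not]
      exact hF t
    rw [← hcardF, ← Nat.card_eq_fintype_card] at hmod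
    have hle : Nat.card F ≤ Nat.card (P : Subgroup G) := Subgroup.card_le_card_group F
    exact (Nat.modEq_iff_dvd' hle).mp hmod

end Cfsg.Agent.Lib.Helper1
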