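import Mathlib
import Cfsg.Prelude.Def_Sporadic_a

set_option autoImplicit false

namespace Cfsg.Agent.Lib.Helper1.Golay

open Cfsg
open scoped Pointwise

theorem support_comp_symm (σ : Equiv.Perm GolayPt) (w : GolayPt → ZMod 2) :
    support₂ (w ∘ σ.symm) = (support₂ w).image σ := by
  ext a
  simp only [support₂, Finset.mem_filter, Finset.mem_univ, true_and, Finset.mem_image,
    Function.comp]
  constructor
  · intro h
    exact ⟨σ.symm a, h, by simp⟩
  · rintro ⟨b, hb, rfl⟩
    simpa using hb

theorem one_mem_golay : (1 : GolayPt → ZMod 2) ∈ golayCode :=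
  Submodule.subset_span (Or.inr rfl)

theorem qrWord_mem_golay (t : ZMod 23) : qrWord t ∈ golayCode :=
  Submodule.subset_span (Or.inl ⟨t, rfl⟩)

theorem comp_mem_golay (σ : Equiv.Perm GolayPt)
    (h : ∀ t : ZMod 23, qrWord t ∘ σ.symm ∈ golayCode)
    (w : GolayPt → ZMod 2) (hw : w ∈ golayCode) : w ∘ σ.symm ∈ golayCode := by
  have hle : (Submodule.span (ZMod 2) (Set.range qrWord ∪ {1})).map
      (LinearMap.funLeft (ZMod 2) (ZMod 2) σ.symm) ≤ golayCode := by
    rw [Submodule.map_span_le]
    rintro m (⟨t, rfl⟩ | hm)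
    · exact h t
    · rw [Set.mem_singleton_iff] at hm
      subst hm
      exact one_mem_golay
  exact hle ⟨w, hw, rfl⟩

theorem mem_M24_of_qrWord (σ : Equiv.Perm GolayPt)
    (h : ∀ t : ZMod 23, qrWord t ∘ σ.symm ∈ golayCode) : σ ∈ M24 := by
  show σ ∈ MulAction.stabilizer (Equiv.Perm GolayPt)
    (supports (golayCode : Set (GolayPt → ZMod 2)))
  rw [MulAction.mem_stabilizer_set_iff_smul_set_subset (Set.toFinite _)]
  rintro b ⟨c, ⟨w, hw, rfl⟩, rfl⟩
  refine ⟨w ∘ σ.symm, comp_mem_golay σ h w hw, ?_⟩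
  rw [support_comp_symm]
  rfl

theorem translate_mem_M24 : Equiv.optionCongr (Equiv.addRight (1 : ZMod 23)) ∈ M24 := by
  apply mem_M24_of_qrWord
  intro t
  have e : qrWord t ∘ (Equiv.optionCongr (Equiv.addRight (1 : ZMod 23))).symm =
      qrWord (t + 1) := by
    funext p
    cases p with
    | none => rfl
    | some x =>
      show (if ∃ r : ZMod 23, x + -1 = r ^ 2 + t then (1 : ZMod 2) else 0) =
        (if ∃ r : ZMod 23, x = r ^ 2 + (t + 1) then (1 : ZMod 2) else 0)
      apply if_congr _ rfl rfl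
      constructor
      · rintro ⟨r, hr⟩
        exact ⟨r, by linear_combination hr⟩
      · rintro ⟨r, hr⟩
        exact ⟨r, by linear_combination hr⟩
  rw [e]
  exact qrWord_mem_golay _

theorem square_mul_mem_M24 (u : (ZMod 23)ˣ) (hu : IsSquare u) :
    Equiv.optionCongr (Units.mulLeft u) ∈ M24 := by
  apply mem_M24_of_qrWord
  intro t
  obtain ⟨v, hv⟩ := hu
  have e : qrWord t ∘ (Equiv.optionCongr (Units.mulLeft u)).symm =
      qrWord ((u : ZMod 23) * t) := by
    funext p
    cases p with
    | none => rfl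
    | some x =>
      show (if ∃ r : ZMod 23, ((u⁻¹ : (ZMod 23)ˣ) : ZMod 23) * x = r ^ 2 + t
          then (1 : ZMod 2) else 0) =
        (if ∃ r : ZMod 23, x = r ^ 2 + (u : ZMod 23) * t then (1 : ZMod 2) else 0)
      apply if_congr _ rfl rfl
      have hu1 : (u : ZMod 23) * ((u⁻¹ : (ZMod 23)ˣ) : ZMod 23) = 1 := by
        rw [← Units.val_mul, mul_inv_cancel, Units.val_one]
      have hu2 : (u : ZMod 23) = (v : ZMod 23) * (v : ZMod 23) := by
        rw [hv, Units.val_mul]
      have hv1 : (v : ZMod 23) * ((v⁻¹ : (ZMod 23)ˣ) : ZMod 23) = 1 := by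
        rw [← Units.val_mul, mul_inv_cancel, Units.val_one]
      constructor
      · rintro ⟨r, hr⟩
        refine ⟨(v : ZMod 23) * r, ?_⟩
        linear_combination (u : ZMod 23) * hr - x * hu1 + r ^ 2 * hu2
      · rintro ⟨r, hr⟩
        refine ⟨((v⁻¹ : (ZMod 23)ˣ) : ZMod 23) * r, ?_⟩
        have hvi : ((u⁻¹ : (ZMod 23)ˣ) : ZMod 23) =
            ((v⁻¹ : (ZMod 23)ˣ) : ZMod 23) * ((v⁻¹ : (ZMod 23)ˣ) : ZMod 23) := by
          rw [hv, mul_inv_rev, Units.val_mul]
        have hu3 : ((u⁻¹ : (ZMod 23)ˣ) : ZMod 23) * (u : ZMod 23) = 1 := by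
          rw [← Units.val_mul, inv_mul_cancel, Units.val_one]
        linear_combination ((u⁻¹ : (ZMod 23)ˣ) : ZMod 23) * hr + t * hu3 + r ^ 2 * hvi
  rw [e]
  exact qrWord_mem_golay _

set_option maxRecDepth 100000 in
theorem qr_orth : ∀ s t : ZMod 23, ∑ i : GolayPt, qrWord s i * qrWord t i = 0 := by decide

set_option maxRecDepth 100000 in
theorem qr_orth_one : ∀ s : ZMod 23, ∑ i : GolayPt, qrWord s i * (1 : GolayPt → ZMod 2) i = 0 := by
  decide

theorem one_orth_one : ∑ i : GolayPt, (1 : GolayPt → ZMod 2) i * (1 : GolayPt → ZMod 2) i = 0 := by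
  decide

theorem gen_orth (g : GolayPt → ZMod 2) (hg : g ∈ Set.range qrWord ∪ {1})
    (w : GolayPt → ZMod 2) (hw : w ∈ golayCode) : ∑ i, g i * w i = 0 := by
  unfold golayCode at hw
  induction hw using Submodule.span_induction with
  | mem x hx =>
    rcases hg with ⟨s, rfl⟩ | hg
    · rcases hx with ⟨t, rfl⟩ | hx
      · exact qr_orth s t
      · rw [Set.mem_singleton_iff] at hx
        subst hx
        exact qr_orth_one s
    · rw [Set.mem_singleton_iff] at hg
      subst hg
      rcases hx with ⟨t, rfl⟩ | hx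
      · have h := qr_orth_one t
        simp only [mul_comm] at h ⊢
        exact h
      · rw [Set.mem_singleton_iff] at hx
        subst hx
        exact one_orth_one
  | zero => simp
  | add x y hx hy ihx ihy =>
    simp only [Pi.add_apply, mul_add, Finset.sum_add_distrib, ihx, ihy, add_zero]
  | smul a x hx ih =>
    simp only [Pi.smul_apply, smul_eq_mul, mul_left_comm, ← Finset.mul_sum, ih, mul_zero]

theorem golay_self_orth (v w : GolayPt → ZMod 2) (hv : v ∈ golayCode) (hw : w ∈ golayCode) :
    ∑ i, v i * w i = 0 := by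
  unfold golayCode at hv
  induction hv using Submodule.span_induction with
  | mem x hx => exact gen_orth x hx w hw
  | zero => simp
  | add x y hx hy ihx ihy =>
    simp only [Pi.add_apply, add_mul, Finset.sum_add_distrib, ihx, ihy, add_zero]
  | smul a x hx ih =>
    simp only [Pi.smul_apply, smul_eq_mul, mul_assoc, ← Finset.mul_sum, ih, mul_zero]

def dotL : (GolayPt → ZMod 2) →ₗ[ZMod 2] Module.Dual (ZMod 2) (GolayPt → ZMod 2) :=
  LinearMap.mk₂ (ZMod 2) (fun v w => ∑ i, v i * w i)
    (fun a b w => by simp only [Pi.add_apply, add_mul, Finset.sum_add_distrib])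
    (fun c v w => by simp only [Pi.smul_apply, smul_eq_mul, mul_assoc, Finset.mul_sum])
    (fun v a b => by simp only [Pi.add_apply, mul_add, Finset.sum_add_distrib])
    (fun c v w => by simp only [Pi.smul_apply, smul_eq_mul, Finset.mul_sum, mul_left_comm])

theorem dotL_apply (v w : GolayPt → ZMod 2) : dotL v w = ∑ i, v i * w i := rfl

theorem dotL_injective : Function.Injective dotL := by
  rw [injective_iff_map_eq_zero]
  intro v hv
  funext i
  have h1 : dotL v (Pi.single i 1) = 0 := by rw [hv]; rfl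
  rw [dotL_apply] at h1
  simpa [Pi.single_apply] using h1

theorem finrank_golay_le : Module.finrank (ZMod 2) golayCode ≤ 12 := by
  have h1 := Subspace.finrank_add_finrank_dualAnnihilator_eq (K := ZMod 2) golayCode
  have h2 : Module.finrank (ZMod 2) golayCode ≤
      Module.finrank (ZMod 2) golayCode.dualAnnihilator := by
    apply LinearMap.finrank_le_finrank_of_injective
      (f := (dotL.comp golayCode.subtype).codRestrict golayCode.dualAnnihilator (fun c => by
        rw [Submodule.mem_dualAnnihilator]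
        intro w hw
        exact golay_self_orth c.1 w c.2 hw))
    intro a b hab
    have h3 := congrArg Subtype.val hab
    simp only [LinearMap.codRestrict_apply, LinearMap.comp_apply, Submodule.subtype_apply] at h3
    exact Subtype.ext (dotL_injective h3)
  rw [Module.finrank_fintype_fun_eq_card, Fintype.card_option, ZMod.card] at h1
  omega

def gen12 (j : Fin 12) : GolayPt → ZMod 2 :=
  if j.val < 11 then qrWord ((j.val : ℕ) : ZMod 23) else 1

def pt12 (k : Fin 12) : GolayPt :=
  if k.val = 0 then none else some (((k.val - 1 : ℕ)) : ZMod 23)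

def M12 : Matrix (Fin 12) (Fin 12) (ZMod 2) := fun j k => gen12 j (pt12 k)

def N12 : Matrix (Fin 12) (Fin 12) (ZMod 2) :=
  !![1, 0, 1, 0, 0, 1, 0, 0, 0, 1, 1, 1;
     0, 0, 1, 1, 0, 0, 0, 1, 0, 0, 0, 0;
     0, 0, 0, 1, 1, 0, 0, 0, 1, 0, 0, 0;
     0, 0, 1, 1, 1, 1, 0, 1, 0, 1, 0, 0;
     0, 0, 0, 1, 1, 1, 1, 0, 1, 0, 1, 0;
     1, 1, 1, 1, 1, 0, 0, 1, 0, 0, 0, 0;
     0, 1, 0, 0, 1, 1, 0, 1, 1, 0, 0, 0;
     0, 0, 0, 1, 0, 1, 1, 1, 1, 1, 0, 0;
     0, 0, 0, 0, 1, 0, 1, 1, 1, 1, 1, 0;
     1, 1, 0, 0, 0, 0, 1, 0, 1, 0, 1, 0;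
     1, 0, 1, 0, 0, 1, 1, 0, 0, 0, 0, 0;
     0, 1, 1, 0, 0, 0, 1, 0, 0, 0, 0, 0]

set_option maxRecDepth 100000 in
theorem M12_mul_N12 : M12 * N12 = 1 := by decide

theorem gen12_mem (j : Fin 12) : gen12 j ∈ golayCode := by
  unfold gen12
  split_ifs
  · exact qrWord_mem_golay _
  · exact one_mem_golay

theorem finrank_golay_ge : 12 ≤ Module.finrank (ZMod 2) golayCode := by
  have hinj : Function.Injective ((Fintype.linearCombination (ZMod 2) gen12).codRestrict golayCode
      (fun c => by
        rw [Fintype.linearCombination_apply]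
        exact Submodule.sum_mem _ (fun j _ => Submodule.smul_mem _ _ (gen12_mem j)))) := by
    rw [injective_iff_map_eq_zero]
    intro c hc
    have h1 := congrArg Subtype.val hc
    simp only [LinearMap.codRestrict_apply, Fintype.linearCombination_apply] at h1
    have h2 : Matrix.vecMul c M12 = 0 := by
      funext k
      have h3 := congrFun h1 (pt12 k)
      simp only [Finset.sum_apply, Pi.smul_apply, smul_eq_mul] at h3
      exact h3
    have h4 : Matrix.vecMul (Matrix.vecMul c M12) N12 = c := by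
      rw [Matrix.vecMul_vecMul, M12_mul_N12, Matrix.vecMul_one]
    rw [← h4, h2, Matrix.zero_vecMul]
  have h5 := LinearMap.finrank_le_finrank_of_injective hinj
  rw [Module.finrank_fin_fun] at h5
  exact h5

theorem finrank_golay : Module.finrank (ZMod 2) golayCode = 12 :=
  le_antisymm finrank_golay_le finrank_golay_ge

theorem mem_golay_of_orth (w : GolayPt → ZMod 2)
    (h1 : ∀ s : ZMod 23, ∑ i, w i * qrWord s i = 0) (h2 : ∑ i, w i * (1 : GolayPt → ZMod 2) i = 0) :
    w ∈ golayCode := by
  have hle : golayCode ≤ golayCode.dualAnnihilator.comap dotL := by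
    intro c hc
    rw [Submodule.mem_comap, Submodule.mem_dualAnnihilator]
    intro d hd
    exact golay_self_orth c d hc hd
  have hfin : Module.finrank (ZMod 2) (golayCode.dualAnnihilator.comap dotL) ≤
      Module.finrank (ZMod 2) golayCode := by
    have h3 := Subspace.finrank_add_finrank_dualAnnihilator_eq (K := ZMod 2) golayCode
    rw [Module.finrank_fintype_fun_eq_card, Fintype.card_option, ZMod.card, finrank_golay] at h3
    have h4 : Module.finrank (ZMod 2) (golayCode.dualAnnihilator.comap dotL) ≤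
        Module.finrank (ZMod 2) golayCode.dualAnnihilator := by
      apply LinearMap.finrank_le_finrank_of_injective
        (f := dotL.restrict (p := golayCode.dualAnnihilator.comap dotL)
          (q := golayCode.dualAnnihilator) (fun x hx => hx))
      intro a b hab
      have h5 := congrArg Subtype.val hab
      rw [LinearMap.coe_restrict_apply, LinearMap.coe_restrict_apply] at h5
      exact Subtype.ext (dotL_injective h5)
    rw [finrank_golay]
    omega
  have heq := Submodule.eq_of_le_of_finrank_le hle hfin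
  rw [heq, Submodule.mem_comap, Submodule.mem_dualAnnihilator]
  intro c hc
  rw [dotL_apply]
  unfold golayCode at hc
  induction hc using Submodule.span_induction with
  | mem x hx =>
    rcases hx with ⟨t, rfl⟩ | hx
    · exact h1 t
    · rw [Set.mem_singleton_iff] at hx
      subst hx
      exact h2
  | zero => simp
  | add x y hx hy ihx ihy =>
    simp only [Pi.add_apply, mul_add, Finset.sum_add_distrib, ihx, ihy, add_zero]
  | smul a x hx ih =>
    simp only [Pi.smul_apply, smul_eq_mul, mul_left_comm, ← Finset.mul_sum, ih, mul_zero]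

theorem mem_M24_of_qrWord' (σ : Equiv.Perm GolayPt)
    (h : ∀ t : ZMod 23, qrWord t ∘ σ ∈ golayCode) : σ ∈ M24 := by
  have h1 : σ⁻¹ ∈ M24 := mem_M24_of_qrWord σ⁻¹ h
  have h2 := M24.inv_mem h1
  rwa [inv_inv] at h2

set_option maxRecDepth 100000 in
theorem projInv_orth : ∀ t s : ZMod 23,
    ∑ i : GolayPt, qrWord t (projInvFun i) * qrWord s i = 0 := by decide

set_option maxRecDepth 100000 in
theorem projInv_orth_one : ∀ t : ZMod 23,
    ∑ i : GolayPt, qrWord t (projInvFun i) * (1 : GolayPt → ZMod 2) i = 0 := by decide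

theorem projInv_mem_M24 : projInv ∈ M24 := by
  apply mem_M24_of_qrWord'
  intro t
  exact mem_golay_of_orth _ (projInv_orth t) (projInv_orth_one t)

set_option maxRecDepth 100000 in
theorem cubeTwist_orth : ∀ t s : ZMod 23,
    ∑ i : GolayPt, qrWord t (cubeTwistFun i) * qrWord s i = 0 := by decide

set_option maxRecDepth 100000 in
theorem cubeTwist_orth_one : ∀ t : ZMod 23,
    ∑ i : GolayPt, qrWord t (cubeTwistFun i) * (1 : GolayPt → ZMod 2) i = 0 := by decide

theorem cubeTwist_mem_M24 : cubeTwist ∈ M24 := by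
  apply mem_M24_of_qrWord'
  intro t
  exact mem_golay_of_orth _ (cubeTwist_orth t) (cubeTwist_orth_one t)

end Cfsg.Agent.Lib.Helper1.Golay
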