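import Cfsg.Agent.Lib.Helper1.LeechA

set_option autoImplicit false

namespace Cfsg.Agent.Lib.Helper1.G23

open Cfsg Cfsg.Agent.Lib.Helper1.Leech

/-- the punctured word -/
def pu (k : ℕ) : ZMod 23 → ZMod 2 := fun x => cw k (some x)

def wtP (k : ℕ) : ℕ := popcA 23 (X k / 2)

/-- the punctured code as a set -/
def PS : Set (ZMod 23 → ZMod 2) := {u | ∃ w ∈ golayCode, ∀ x : ZMod 23, u x = w (some x)}

theorem mem_PS_iff (u : ZMod 23 → ZMod 2) : u ∈ PS ↔ ∃ k < 4096, u = pu k := by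
  constructor
  · rintro ⟨w, hw, hu⟩
    obtain ⟨k, hk, rfl⟩ := (mem_golay_iff w).mp hw
    exact ⟨k, hk, funext hu⟩
  · rintro ⟨k, hk, rfl⟩
    exact ⟨cw k, (mem_golay_iff _).mpr ⟨k, hk, rfl⟩, fun x => rfl⟩

theorem ham_pu (k : ℕ) : hammingNorm (pu k) = wtP k := by
  unfold wtP
  rw [popcA_eq]
  have h1 : hammingNorm (pu k) =
      (Finset.univ.filter (fun x : ZMod 23 => (X k).testBit (x.val + 1) = true)).card := by
    unfold hammingNorm
    congr 1
    ext x
    simp only [Finset.mem_filter, Finset.mem_univ, true_and]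
    show (if (X k).testBit (x.val + 1) = true then (1 : ZMod 2) else 0) ≠ 0 ↔ _
    by_cases h : (X k).testBit (x.val + 1) = true
    · simp [h]
    · simp [h]
  rw [h1, Finset.card_filter]
  have h2 := Fin.sum_univ_eq_sum_range
    (fun b => if (X k / 2).testBit b = true then 1 else 0) 23
  rw [← h2]
  apply Finset.sum_congr rfl
  intro x _
  rw [Nat.testBit_div_two]
  rfl

set_option maxRecDepth 100000 in
theorem wtP_min : ∀ k < 4096, k = 0 ∨ 7 ≤ wtP k := by decide +kernel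

theorem sub_mem_PS (u u' : ZMod 23 → ZMod 2) (hu : u ∈ PS) (hu' : u' ∈ PS) : u - u' ∈ PS := by
  obtain ⟨w, hw, h⟩ := hu
  obtain ⟨w', hw', h'⟩ := hu'
  exact ⟨w - w', golayCode.sub_mem hw hw', fun x => by
    rw [Pi.sub_apply, Pi.sub_apply, h, h']⟩

theorem cw_zero : cw 0 = 0 := by
  funext i
  show (if (X 0).testBit (idx i) = true then (1 : ZMod 2) else 0) = 0
  have : X 0 = 0 := by decide
  rw [this]
  simp

theorem PS_min (u : ZMod 23 → ZMod 2) (hu : u ∈ PS) (h0 : u ≠ 0) : 7 ≤ hammingNorm u := by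
  obtain ⟨k, hk, rfl⟩ := (mem_PS_iff u).mp hu
  rw [ham_pu]
  rcases wtP_min k hk with rfl | h
  · exfalso
    apply h0
    funext x
    show cw 0 (some x) = 0
    rw [cw_zero]
    rfl
  · exact h

theorem pu_inj (k k' : ℕ) (hk : k < 4096) (hk' : k' < 4096) (h : pu k = pu k') : k = k' := by
  apply cw_inj k k' hk hk'
  have hmem : cw k - cw k' ∈ golayCode :=
    golayCode.sub_mem ((mem_golay_iff _).mpr ⟨k, hk, rfl⟩) ((mem_golay_iff _).mpr ⟨k', hk', rfl⟩)
  obtain ⟨k'', hk'', hk''e⟩ := (mem_golay_iff _).mp hmem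
  have hz : pu k'' = 0 := by
    funext x
    show cw k'' (some x) = 0
    rw [← hk''e, Pi.sub_apply]
    have := congrFun h x
    show cw k (some x) - cw k' (some x) = 0
    rw [sub_eq_zero]
    exact this
  have hw : wtP k'' = 0 := by
    rw [← ham_pu, hz]
    exact hammingNorm_eq_zero.mpr rfl
  have hk0 : k'' = 0 := by
    rcases wtP_min k'' hk'' with h0 | h7
    · exact h0
    · omega
  rw [hk0, cw_zero] at hk''e
  exact sub_eq_zero.mp hk''e

def cntP (v : ℕ) : ℕ → ℕ
  | 0 => 0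
  | n+1 => cntP v n + if wtP n = v then 1 else 0

theorem cntP_eq (v : ℕ) : ∀ n, cntP v n =
    ((Finset.range n).filter (fun k => wtP k = v)).card := by
  intro n
  induction n with
  | zero => rfl
  | succ n ih =>
    rw [Finset.range_add_one, Finset.filter_insert]
    by_cases h : wtP n = v
    · rw [if_pos h, Finset.card_insert_of_notMem (by simp), ← ih]
      simp [cntP, h]
    · rw [if_neg h, ← ih]
      simp [cntP, h]

theorem cntP_vals : cntP 7 4096 = 253 ∧ cntP 8 4096 = 506 ∧ cntP 11 4096 = 1288 ∧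
    cntP 12 4096 = 1288 ∧ cntP 15 4096 = 506 ∧ cntP 16 4096 = 253 := by decide +kernel

theorem PS_eq : PS = ↑((Finset.range 4096).image pu) := by
  ext u
  rw [mem_PS_iff, Finset.coe_image]
  constructor
  · rintro ⟨k, hk, rfl⟩
    exact ⟨k, Finset.mem_coe.mpr (Finset.mem_range.mpr hk), rfl⟩
  · rintro ⟨k, hk, rfl⟩
    exact ⟨k, Finset.mem_range.mp (Finset.mem_coe.mp hk), rfl⟩

theorem pu_injOn : Set.InjOn pu ↑(Finset.range 4096) := by
  intro k hk k' hk' h
  exact pu_inj k k' (Finset.mem_range.mp (Finset.mem_coe.mp hk))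
    (Finset.mem_range.mp (Finset.mem_coe.mp hk')) h

theorem PS_ncard : PS.ncard = 4096 := by
  rw [PS_eq, Set.ncard_coe_finset, Finset.card_image_of_injOn pu_injOn, Finset.card_range]

theorem PS_wt_ncard (v : ℕ) : {u : ZMod 23 → ZMod 2 | u ∈ PS ∧ hammingNorm u = v}.ncard
    = cntP v 4096 := by
  have h : {u : ZMod 23 → ZMod 2 | u ∈ PS ∧ hammingNorm u = v}
      = ↑(((Finset.range 4096).filter (fun k => wtP k = v)).image pu) := by
    ext u
    rw [Finset.coe_image]
    constructor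
    · rintro ⟨hu, hv⟩
      obtain ⟨k, hk, rfl⟩ := (mem_PS_iff u).mp hu
      refine ⟨k, ?_, rfl⟩
      rw [Finset.mem_coe, Finset.mem_filter, Finset.mem_range]
      exact ⟨hk, by rw [← ham_pu]; exact hv⟩
    · rintro ⟨k, hk, rfl⟩
      rw [Finset.mem_coe, Finset.mem_filter, Finset.mem_range] at hk
      exact ⟨(mem_PS_iff _).mpr ⟨k, hk.1, rfl⟩, by rw [ham_pu]; exact hk.2⟩
  rw [h, Set.ncard_coe_finset, Finset.card_image_of_injOn, cntP_eq]
  exact pu_injOn.mono (Finset.coe_subset.mpr (Finset.filter_subset _ _))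

end Cfsg.Agent.Lib.Helper1.G23
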