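import Mathlib

set_option autoImplicit false

namespace Cfsg.Agent.Lib.Helper1.HamC

open Finset

variable {ι : Type*} [Fintype ι] [DecidableEq ι]

def supp (v : ι → ZMod 2) : Finset ι := Finset.univ.filter (fun i => v i ≠ 0)

def indic (s : Finset ι) : ι → ZMod 2 := fun i => if i ∈ s then 1 else 0

omit [DecidableEq ι] in
theorem mem_supp (v : ι → ZMod 2) (i : ι) : i ∈ supp v ↔ v i ≠ 0 := by
  simp [supp]

theorem supp_indic (s : Finset ι) : supp (indic s) = s := by
  ext i
  rw [mem_supp]
  unfold indic
  by_cases h : i ∈ s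
  · simp [h]
  · simp [h]

theorem zmod2_cases : ∀ a : ZMod 2, a = 0 ∨ a = 1 := by decide

theorem indic_supp (v : ι → ZMod 2) : indic (supp v) = v := by
  funext i
  unfold indic
  by_cases h : i ∈ supp v
  · rw [if_pos h]
    rw [mem_supp] at h
    rcases zmod2_cases (v i) with h0 | h1
    · exact absurd h0 h
    · exact h1.symm
  · rw [if_neg h]
    rw [mem_supp, not_not] at h
    exact h.symm

omit [DecidableEq ι] in
theorem ham_eq (v : ι → ZMod 2) : hammingNorm v = (supp v).card := by
  unfold hammingNorm supp
  congr 1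

theorem card_ham_eq (j : ℕ) :
    (Finset.univ.filter (fun v : ι → ZMod 2 => hammingNorm v = j)).card
      = (Fintype.card ι).choose j := by
  rw [← Finset.card_univ (α := ι), ← Finset.card_powersetCard]
  refine Finset.card_bij' (fun v _ => supp v) (fun s _ => indic s) ?_ ?_ ?_ ?_
  · intro v hv
    rw [mem_filter] at hv
    rw [mem_powersetCard]
    exact ⟨subset_univ _, by rw [← ham_eq]; exact hv.2⟩
  · intro s hs
    rw [mem_powersetCard] at hs
    rw [mem_filter]
    exact ⟨mem_univ _, by rw [ham_eq, supp_indic]; exact hs.2⟩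
  · intro v _
    exact indic_supp v
  · intro s _
    exact supp_indic s

theorem card_ham_le (m : ℕ) :
    (Finset.univ.filter (fun v : ι → ZMod 2 => hammingNorm v ≤ m)).card
      = ∑ j ∈ Finset.range (m + 1), (Fintype.card ι).choose j := by
  rw [Finset.card_eq_sum_card_fiberwise (f := fun v : ι → ZMod 2 => hammingNorm v)
    (t := Finset.range (m + 1))]
  · apply Finset.sum_congr rfl
    intro j hj
    rw [mem_range] at hj
    rw [← card_ham_eq j]
    congr 1
    ext v
    simp only [mem_filter, mem_univ, true_and]
    constructor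
    · rintro ⟨-, h⟩
      exact h
    · intro h
      exact ⟨by omega, h⟩
  · intro v hv
    rw [Finset.mem_coe, mem_filter] at hv
    show hammingNorm v ∈ (↑(Finset.range (m + 1)) : Set ℕ)
    rw [Finset.mem_coe, mem_range]
    omega

/-- ball of radius `m` around `c` has the same size as the ball around zero -/
theorem card_ball (c : ι → ZMod 2) (m : ℕ) :
    (Finset.univ.filter (fun u : ι → ZMod 2 => hammingDist u c ≤ m)).card
      = ∑ j ∈ Finset.range (m + 1), (Fintype.card ι).choose j := by
  rw [← card_ham_le m]
  refine Finset.card_bij' (fun u _ => -u + c) (fun v _ => c - v) ?_ ?_ ?_ ?_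
  · intro u hu
    rw [mem_filter] at hu
    rw [mem_filter]
    exact ⟨mem_univ _, by rw [← hammingDist_eq_hammingNorm]; exact hu.2⟩
  · intro v hv
    rw [mem_filter] at hv
    rw [mem_filter]
    refine ⟨mem_univ _, ?_⟩
    rw [hammingDist_eq_hammingNorm]
    have : -(c - v) + c = v := by abel
    rw [this]
    exact hv.2
  · intro u _
    show c - (-u + c) = u
    abel
  · intro v _
    show -(c - v) + c = v
    abel

end Cfsg.Agent.Lib.Helper1.HamC
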