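import Cfsg.Agent.Lib.Helper1.LeechA
import Cfsg.Agent.Lib.Helper1.HamCount

set_option autoImplicit false

namespace Cfsg.Agent.Lib.Helper1.GCos

open Cfsg Cfsg.Agent.Lib.Helper1.Leech Cfsg.Agent.Lib.Helper1.HamC

theorem fiber_one {V Q : Type*} [DecidableEq Q] (W W3 : Finset V) (π : V → Q)
    (hW3 : W3 ⊆ W)
    (hinj : ∀ v ∈ W3, ∀ v' ∈ W, π v = π v' → v = v')
    (q : Q) (v₀ : V) (hv₀ : v₀ ∈ W3) (hq : π v₀ = q) :
    (W.filter (fun v => π v = q)).card = 1 := by
  rw [Finset.card_eq_one]
  refine ⟨v₀, ?_⟩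
  ext v
  rw [Finset.mem_filter, Finset.mem_singleton]
  constructor
  · rintro ⟨hv, hvq⟩
    exact (hinj v₀ hv₀ v hv (hq.trans hvq.symm)).symm
  · rintro rfl
    exact ⟨hW3 hv₀, hq⟩

theorem count_lemma {V Q : Type*} [Fintype Q] [DecidableEq Q] (W W3 : Finset V) (π : V → Q)
    (hW3 : W3 ⊆ W)
    (hinj : ∀ v ∈ W3, ∀ v' ∈ W, π v = π v' → v = v')
    (h6 : ∀ q, (∀ v ∈ W3, π v ≠ q) → (W.filter (fun v => π v = q)).card ≤ 6)
    (hcard : W.card + 5 * W3.card = 6 * Fintype.card Q) :
    ∀ q, (∀ v ∈ W3, π v ≠ q) → (W.filter (fun v => π v = q)).card = 6 := by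
  intro q₀ hq₀
  by_contra hne
  have hlt : (W.filter (fun v => π v = q₀)).card ≤ 5 := by
    have := h6 q₀ hq₀
    omega
  have hsum : W.card = ∑ q ∈ (Finset.univ : Finset Q), (W.filter (fun v => π v = q)).card :=
    Finset.card_eq_sum_card_fiberwise (fun v _ => Finset.mem_coe.mpr (Finset.mem_univ _))
  have hA : (W3.image π).card = W3.card := by
    apply Finset.card_image_of_injOn
    intro v hv v' hv' h
    exact hinj v (Finset.mem_coe.mp hv) v' (hW3 (Finset.mem_coe.mp hv')) h
  have hsplit := Finset.sum_sdiff (Finset.subset_univ (W3.image π))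
    (f := fun q => (W.filter (fun v => π v = q)).card)
  have hAsum : ∑ q ∈ W3.image π, (W.filter (fun v => π v = q)).card = W3.card := by
    rw [Finset.sum_congr rfl (g := fun _ => 1), Finset.sum_const, smul_eq_mul, mul_one, hA]
    intro q hq
    rw [Finset.mem_image] at hq
    obtain ⟨v₀, hv₀, hq⟩ := hq
    exact fiber_one W W3 π hW3 hinj q v₀ hv₀ hq
  have hq₀mem : q₀ ∈ Finset.univ \ W3.image π := by
    rw [Finset.mem_sdiff, Finset.mem_image]
    refine ⟨Finset.mem_univ _, ?_⟩
    rintro ⟨v, hv, hvq⟩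
    exact hq₀ v hv hvq
  have hcardc : (Finset.univ \ W3.image π).card = Fintype.card Q - W3.card := by
    rw [Finset.card_sdiff_of_subset (Finset.subset_univ _), Finset.card_univ, hA]
  have hle : W3.card ≤ Fintype.card Q := by
    rw [← hA]
    exact Finset.card_le_univ _
  have herase := Finset.add_sum_erase (Finset.univ \ W3.image π)
    (fun q => (W.filter (fun v => π v = q)).card) hq₀mem
  have hbound : ∑ q ∈ (Finset.univ \ W3.image π).erase q₀, (W.filter (fun v => π v = q)).card
      ≤ ((Finset.univ \ W3.image π).erase q₀).card • 6 := by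
    apply Finset.sum_le_card_nsmul
    intro q hq
    rw [Finset.mem_erase, Finset.mem_sdiff, Finset.mem_image] at hq
    apply h6
    intro v hv hvq
    exact hq.2.2 ⟨v, hv, hvq⟩
  rw [Finset.card_erase_of_mem hq₀mem, hcardc, smul_eq_mul] at hbound
  have hpos : 1 ≤ Fintype.card Q - W3.card := by
    rw [← hcardc]
    exact Finset.card_pos.mpr ⟨q₀, hq₀mem⟩
  rw [hAsum] at hsplit
  have h7 : (Fintype.card Q - W3.card - 1) * 6 + 6 = (Fintype.card Q - W3.card) * 6 := by
    obtain ⟨m, hm⟩ : ∃ m, Fintype.card Q - W3.card = m + 1 := ⟨Fintype.card Q - W3.card - 1, by omega⟩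
    rw [hm]
    have : m + 1 - 1 = m := by omega
    rw [this]
    ring
  omega

abbrev V := GolayPt → ZMod 2

theorem ham_cw (k : ℕ) : hammingNorm (cw k) = wtN k := by
  rw [← card_S]
  unfold hammingNorm S
  congr 1
  ext i
  simp only [Finset.mem_filter, Finset.mem_univ, true_and]
  show (if (X k).testBit (idx i) = true then (1 : ZMod 2) else 0) ≠ 0 ↔ _
  by_cases h : (X k).testBit (idx i) = true
  · simp [h]
  · simp [h]

theorem golay_min (c : V) (hc : c ∈ golayCode) (h0 : c ≠ 0) : 8 ≤ hammingNorm c := by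
  obtain ⟨k, hk, rfl⟩ := (mem_golay_iff c).mp hc
  have hne : hammingNorm (cw k) ≠ 0 := fun h => h0 (hammingNorm_eq_zero.mp h)
  rw [ham_cw] at hne ⊢
  rcases wt_vals k hk with h | h | h | h | h <;> omega

theorem card_golay : Nat.card golayCode = 4096 := by
  show Nat.card ↥(golayCode : Set V) = 4096
  rw [Nat.card_coe_set_eq]
  have h : (golayCode : Set V) = ↑((Finset.range 4096).image cw) := by
    ext w
    rw [SetLike.mem_coe, mem_golay_iff, Finset.coe_image]
    constructor
    · rintro ⟨k, hk, rfl⟩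
      exact ⟨k, Finset.mem_coe.mpr (Finset.mem_range.mpr hk), rfl⟩
    · rintro ⟨k, hk, rfl⟩
      exact ⟨k, Finset.mem_range.mp (Finset.mem_coe.mp hk), rfl⟩
  rw [h, Set.ncard_coe_finset, Finset.card_image_of_injOn, Finset.card_range]
  intro k hk k' hk' h
  exact cw_inj k k' (Finset.mem_range.mp (Finset.mem_coe.mp hk))
    (Finset.mem_range.mp (Finset.mem_coe.mp hk')) h

theorem card_V : Nat.card V = 2 ^ 24 := by
  rw [Nat.card_eq_fintype_card, Fintype.card_pi]
  simp

theorem card_quot : Nat.card (V ⧸ golayCode) = 4096 := by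
  have h := Submodule.card_eq_card_quotient_mul_card (golayCode : Submodule (ZMod 2) V)
  rw [card_V, card_golay] at h
  have h2 : (2 : ℕ) ^ 24 = 4096 * 4096 := by norm_num
  rw [h2] at h
  exact (Nat.eq_of_mul_eq_mul_left (by norm_num) h).symm

theorem wt_sub_le (v v' : V) : hammingNorm (v - v') ≤ hammingNorm v + hammingNorm v' := by
  have h1 := hammingDist_triangle v' 0 v
  rw [hammingDist_zero_right, hammingDist_zero_left, hammingDist_eq_hammingNorm] at h1
  have h2 : -v' + v = v - v' := by abel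
  rw [h2] at h1
  omega

theorem supp_disj (v v' : V) (h4 : hammingNorm v = 4) (h4' : hammingNorm v' = 4)
    (h8 : 8 ≤ hammingNorm (v - v')) : Disjoint (supp v) (supp v') := by
  rw [ham_eq] at h4 h4' h8
  have hsub : supp (v - v') ⊆ (supp v ∪ supp v') \ (supp v ∩ supp v') := by
    intro i hi
    rw [mem_supp, Pi.sub_apply] at hi
    rw [Finset.mem_sdiff, Finset.mem_union, Finset.mem_inter, mem_supp, mem_supp]
    rcases zmod2_cases (v i) with h0 | h1 <;> rcases zmod2_cases (v' i) with h0' | h1'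
    · rw [h0, h0'] at hi; exact absurd rfl hi
    · rw [h0, h1']; decide
    · rw [h1, h0']; decide
    · rw [h1, h1'] at hi; exact absurd (by decide) hi
  have h1 := Finset.card_le_card hsub
  rw [Finset.card_sdiff_of_subset
    (Finset.inter_subset_left.trans Finset.subset_union_left)] at h1
  have h2 := Finset.card_union_add_card_inter (supp v) (supp v')
  rw [Finset.disjoint_iff_inter_eq_empty, ← Finset.card_eq_zero]
  omega

theorem card_pt : Fintype.card GolayPt = 24 := by
  rw [Fintype.card_option, ZMod.card]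

theorem fib_le_six (F : Finset V) (h4 : ∀ v ∈ F, hammingNorm v = 4)
    (hd : ∀ v ∈ F, ∀ v' ∈ F, v ≠ v' → Disjoint (supp v) (supp v')) : F.card ≤ 6 := by
  have h1 : (F.biUnion supp).card = ∑ v ∈ F, (supp v).card := by
    apply Finset.card_biUnion
    intro v hv v' hv' hne
    exact hd v (Finset.mem_coe.mp hv) v' (Finset.mem_coe.mp hv') hne
  rw [Finset.sum_congr rfl (g := fun _ => 4), Finset.sum_const, smul_eq_mul] at h1
  · have h2 := Finset.card_le_univ (F.biUnion supp)
    rw [card_pt] at h2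
    omega
  · intro v hv
    rw [← ham_eq]
    exact h4 v hv

end Cfsg.Agent.Lib.Helper1.GCos
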