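import Cfsg.Agent.Lib.Helper9.M12
import Cfsg.Agent.Lib.Helper9.M24Oct
import Cfsg.Agent.Lib.Helper1.GolayCoset

set_option autoImplicit false

namespace Cfsg.Agent.Lib.Helper1.GStab

open Cfsg Cfsg.Agent.Lib.Helper9.Leech Cfsg.Agent.S5393
open Cfsg.Agent.Lib.Helper1.HamC
open scoped Pointwise

/-- embedding of Fin 5 with two prescribed values inside a big set -/
theorem emb5 (E : Finset GolayPt) (hE : 5 ≤ E.card) (a b : GolayPt) (ha : a ∈ E) (hb : b ∈ E)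
    (hab : a ≠ b) : ∃ x : Fin 5 ↪ GolayPt, x 0 = a ∧ x 1 = b ∧ ∀ i, x i ∈ E := by
  have h3 : 3 ≤ ((E.erase a).erase b).card := by
    rw [Finset.card_erase_of_mem (Finset.mem_erase.mpr ⟨hab.symm, hb⟩),
      Finset.card_erase_of_mem ha]
    omega
  obtain ⟨s, hs, hs3⟩ := Finset.exists_subset_card_eq h3
  obtain ⟨c, d, e, hcd, hce, hde, rfl⟩ := Finset.card_eq_three.mp hs3
  have hc := hs (by simp : c ∈ ({c, d, e} : Finset GolayPt))
  have hd := hs (by simp : d ∈ ({c, d, e} : Finset GolayPt))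
  have he := hs (by simp : e ∈ ({c, d, e} : Finset GolayPt))
  rw [Finset.mem_erase, Finset.mem_erase] at hc hd he
  have hnd : [a, b, c, d, e].Nodup := by
    simp [hab, Ne.symm hc.2.1, Ne.symm hd.2.1, Ne.symm he.2.1, Ne.symm hc.1, Ne.symm hd.1,
      Ne.symm he.1, hcd, hce, hde]
  have hofn : List.ofFn ![a, b, c, d, e] = [a, b, c, d, e] := rfl
  refine ⟨⟨![a, b, c, d, e], List.nodup_ofFn.mp (hofn ▸ hnd)⟩, rfl, rfl, ?_⟩
  intro i
  fin_cases i
  · exact ha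
  · exact hb
  · exact hc.2.2
  · exact hd.2.2
  · exact he.2.2

theorem oct_trans2 (o : Finset GolayPt) (ho : o ∈ octads) (a b a' b' : GolayPt) (ha : a ∈ o)
    (hb : b ∈ o) (hab : a ≠ b) (ha' : a' ∈ o) (hb' : b' ∈ o) (hab' : a' ≠ b') :
    ∃ σ ∈ M24, σ • o = o ∧ σ a = a' ∧ σ b = b' := by
  have hc : o.card = 8 := ho.2
  obtain ⟨x, hx0, hx1, hx⟩ := emb5 o (by omega) a b ha hb hab
  obtain ⟨y, hy0, hy1, hy⟩ := emb5 o (by omega) a' b' ha' hb' hab'
  obtain ⟨g, hg, hgxy⟩ := five_trans x y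
  refine ⟨g, hg, ?_, by rw [← hx0, hgxy, hy0], by rw [← hx1, hgxy, hy1]⟩
  have hs : (Finset.univ.image y).card = 5 := by
    rw [Finset.card_image_of_injective _ y.injective, Finset.card_univ, Fintype.card_fin]
  apply octad_unique (g • o) o (Finset.univ.image y) (octads_smul g hg o ho) ho hs
  · intro p hp
    rw [Finset.mem_image] at hp
    obtain ⟨i, -, rfl⟩ := hp
    rw [← hgxy i]
    exact Finset.smul_mem_smul_finset (hx i)
  · intro p hp
    rw [Finset.mem_image] at hp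
    obtain ⟨i, -, rfl⟩ := hp
    exact hy i

theorem dod_trans2 (d : Finset GolayPt) (hd : d ∈ dodecads) (a b a' b' : GolayPt) (ha : a ∈ d)
    (hb : b ∈ d) (hab : a ≠ b) (ha' : a' ∈ d) (hb' : b' ∈ d) (hab' : a' ≠ b') :
    ∃ σ ∈ M24, σ • d = d ∧ σ a = a' ∧ σ b = b' := by
  have hc : d.card = 12 := hd.2
  obtain ⟨x, hx0, hx1, hx⟩ := emb5 d (by omega) a b ha hb hab
  obtain ⟨y, hy0, hy1, hy⟩ := emb5 d (by omega) a' b' ha' hb' hab'
  obtain ⟨g, hg, hgd, hgxy⟩ := m12_trans_d d hd x y hx hy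
  exact ⟨g, hg, hgd, by rw [← hx0, hgxy, hy0], by rw [← hx1, hgxy, hy1]⟩

theorem compl_cover : ∀ j < 24, j ∈ octPts ∨ j ∈ orbL 5 := by decide +kernel

theorem oct_compl_trans (o : Finset GolayPt) (ho : o ∈ octads) (a b : GolayPt) (ha : a ∉ o)
    (hb : b ∉ o) : ∃ σ ∈ M24, (∀ p ∈ o, σ p = p) ∧ σ a = b := by
  obtain ⟨τ, hτ, -, hmem⟩ := oct_to_octO o ho
  have key : ∀ c : GolayPt, c ∉ o →
      ∃ g ∈ ptStab (octPts.map ptOf), g (ptOf 4) = τ⁻¹ c := by
    intro c hc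
    have h1 : idx (τ⁻¹ c) ∈ orbL 5 := by
      rcases compl_cover (idx (τ⁻¹ c)) (idx_lt _) with h | h
      · exfalso
        apply hc
        rw [hmem, List.mem_map]
        refine ⟨τ⁻¹ c, ?_, ?_⟩
        · rw [List.mem_map]
          exact ⟨idx (τ⁻¹ c), h, ptOf_idx _⟩
        · exact τ.apply_symm_apply c
      · exact h
    obtain ⟨g, hg, hg4, -⟩ := octFix_spec _ h1
    exact ⟨g, hg, by rw [hg4, ptOf_idx]⟩
  obtain ⟨ga, hga, hga4⟩ := key a ha
  obtain ⟨gb, hgb, hgb4⟩ := key b hb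
  have hh : gb * ga⁻¹ ∈ ptStab (octPts.map ptOf) := Subgroup.mul_mem _ hgb (inv_mem hga)
  rw [mem_ptStab] at hh
  refine ⟨τ * (gb * ga⁻¹) * τ⁻¹,
    Subgroup.mul_mem _ (Subgroup.mul_mem _ hτ hh.1) (inv_mem hτ), ?_, ?_⟩
  · intro p hp
    rw [hmem, List.mem_map] at hp
    obtain ⟨q, hq, rfl⟩ := hp
    rw [Equiv.Perm.mul_apply, Equiv.Perm.mul_apply]
    have h1 : τ⁻¹ (τ q) = q := τ.symm_apply_apply q
    rw [h1, hh.2 q hq]
  · rw [Equiv.Perm.mul_apply, Equiv.Perm.mul_apply, Equiv.Perm.mul_apply]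
    have h1 : ga⁻¹ (τ⁻¹ a) = ptOf 4 := by
      rw [← hga4]
      exact ga.symm_apply_apply _
    rw [h1, hgb4]
    exact τ.apply_symm_apply b

/-- stabilizing a finset, pointwise formulation -/
def StabP (σ : Equiv.Perm GolayPt) (E : Finset GolayPt) : Prop := ∀ p, σ p ∈ E ↔ p ∈ E

theorem stabP_of_smul (σ : Equiv.Perm GolayPt) (E : Finset GolayPt) (h : σ • E = E) :
    StabP σ E := by
  intro p
  constructor
  · intro hp
    rw [← h] at hp
    obtain ⟨q, hq, hqp⟩ := Finset.mem_smul_finset.mp hp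
    have h2 : q = p := σ.injective hqp
    exact h2 ▸ hq
  · intro hp
    have h2 : σ • p ∈ σ • E := Finset.smul_mem_smul_finset hp
    rw [h] at h2
    exact h2

theorem stabP_of_fix (σ : Equiv.Perm GolayPt) (E : Finset GolayPt) (h : ∀ p ∈ E, σ p = p) :
    StabP σ E := by
  intro p
  constructor
  · intro hp
    have h2 : σ p = p := σ.injective (h (σ p) hp)
    rw [h2] at hp
    exact hp
  · intro hp
    rw [h p hp]
    exact hp

theorem stabP_compl (σ : Equiv.Perm GolayPt) (E : Finset GolayPt) (h : StabP σ E) :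
    StabP σ Eᶜ := by
  intro p
  rw [Finset.mem_compl, Finset.mem_compl, h p]

theorem stabP_of_compl (σ : Equiv.Perm GolayPt) (E : Finset GolayPt) (h : StabP σ Eᶜ) :
    StabP σ E := by
  have := stabP_compl σ Eᶜ h
  rwa [compl_compl] at this

/-- permutation action on words -/
def pa (σ : Equiv.Perm GolayPt) (v : GolayPt → ZMod 2) : GolayPt → ZMod 2 :=
  fun p => v (σ.symm p)

theorem pa_sub (σ : Equiv.Perm GolayPt) (x y : GolayPt → ZMod 2) :
    pa σ (x - y) = pa σ x - pa σ y := rfl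

theorem pa_mem (σ : Equiv.Perm GolayPt) (hσ : σ ∈ M24) (x : GolayPt → ZMod 2)
    (hx : x ∈ golayCode) : pa σ x ∈ golayCode :=
  act_mem_of_M24 σ hσ x hx

theorem supp_pa (σ : Equiv.Perm GolayPt) (v : GolayPt → ZMod 2) :
    supp (pa σ v) = (supp v).image σ :=
  Cfsg.Agent.Lib.Helper1.Golay.support_comp_symm σ v

theorem ham_pa (σ : Equiv.Perm GolayPt) (v : GolayPt → ZMod 2) :
    hammingNorm (pa σ v) = hammingNorm v := by
  rw [ham_eq, ham_eq, supp_pa, Finset.card_image_of_injective _ σ.injective]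

theorem supp_inj (u v : GolayPt → ZMod 2) (h : supp u = supp v) : u = v := by
  rw [← indic_supp u, ← indic_supp v, h]

theorem pa_fix (σ : Equiv.Perm GolayPt) (u : GolayPt → ZMod 2) (h : StabP σ (supp u)) :
    pa σ u = u := by
  apply supp_inj
  rw [supp_pa]
  ext p
  rw [Finset.mem_image]
  constructor
  · rintro ⟨q, hq, rfl⟩
    exact (h q).mpr hq
  · intro hp
    refine ⟨σ.symm p, ?_, σ.apply_symm_apply p⟩
    have := h (σ.symm p)
    rw [σ.apply_symm_apply] at this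
    exact this.mp hp

/-- the abstract "no invariant leader structure" lemma -/
theorem no_inv (Gp : Equiv.Perm GolayPt → Prop) (Z : Finset GolayPt) (hZ : 5 ≤ Z.card)
    (hT : ∀ a b a' b', a ∈ Z → b ∈ Z → a' ∈ Z → b' ∈ Z → a ≠ b → a' ≠ b' →
      ∃ σ, Gp σ ∧ σ a = a' ∧ σ b = b')
    (hC : Zᶜ = ∅ ∨
      (5 ≤ Zᶜ.card ∧ ∀ a b a' b', a ∈ Zᶜ → b ∈ Zᶜ → a' ∈ Zᶜ → b' ∈ Zᶜ → a ≠ b → a' ≠ b' →
        ∃ σ, Gp σ ∧ σ a = a' ∧ σ b = b') ∨
      (5 ≤ Zᶜ.card ∧ ∀ a b, a ∉ Z → b ∉ Z → ∃ σ, Gp σ ∧ (∀ p ∈ Z, σ p = p) ∧ σ a = b)) :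
    (¬ ∃ s : Finset GolayPt, s.Nonempty ∧ s.card ≤ 3 ∧ ∀ σ, Gp σ → s.image σ = s) ∧
    (¬ ∃ Tet : Finset GolayPt → Prop, (∀ t, Tet t → t.card = 4) ∧
      (∀ t t', Tet t → Tet t' → t ≠ t' → Disjoint t t') ∧ (∀ p, ∃ t, Tet t ∧ p ∈ t) ∧
      (∀ σ, Gp σ → ∀ t, Tet t → Tet (t.image σ))) := by
  constructor
  · rintro ⟨s, ⟨a, has⟩, hs3, hinv⟩
    have move : ∀ σ, Gp σ → σ a ∈ s := by
      intro σ hσ
      rw [← hinv σ hσ]
      exact Finset.mem_image_of_mem _ has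
    by_cases haZ : a ∈ Z
    · obtain ⟨b, hbZ, hbs⟩ := Finset.exists_mem_notMem_of_card_lt_card
        (s := s) (t := Z) (by omega)
      have hab : a ≠ b := fun h => hbs (h ▸ has)
      obtain ⟨σ, hσ, h1, -⟩ := hT a b b a haZ hbZ hbZ haZ hab hab.symm
      exact hbs (h1 ▸ move σ hσ)
    · have haZ' : a ∈ Zᶜ := Finset.mem_compl.mpr haZ
      rcases hC with h0 | ⟨h5, hT'⟩ | ⟨h5, hF⟩
      · rw [h0] at haZ'
        exact absurd haZ' (Finset.notMem_empty a)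
      · obtain ⟨b, hbZ, hbs⟩ := Finset.exists_mem_notMem_of_card_lt_card
          (s := s) (t := Zᶜ) (by omega)
        have hab : a ≠ b := fun h => hbs (h ▸ has)
        obtain ⟨σ, hσ, h1, -⟩ := hT' a b b a haZ' hbZ hbZ haZ' hab hab.symm
        exact hbs (h1 ▸ move σ hσ)
      · obtain ⟨b, hbZ, hbs⟩ := Finset.exists_mem_notMem_of_card_lt_card
          (s := s) (t := Zᶜ) (by omega)
        obtain ⟨σ, hσ, -, h1⟩ := hF a b haZ (Finset.mem_compl.mp hbZ)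
        exact hbs (h1 ▸ move σ hσ)
  · rintro ⟨Tet, h4, hdisj, hcov, hinv⟩
    -- a tetrad is preserved by an element fixing one of its points
    have hfixT : ∀ σ, Gp σ → ∀ t, Tet t → ∀ a, a ∈ t → σ a = a → ∀ x, x ∈ t → σ x ∈ t := by
      intro σ hσ t ht a hat hσa x hxt
      have h1 := hinv σ hσ t ht
      have h2 : t.image σ = t := by
        by_contra hne
        have h3 := hdisj _ _ h1 ht hne
        rw [Finset.disjoint_left] at h3
        exact h3 (hσa ▸ Finset.mem_image_of_mem σ hat) hat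
      rw [← h2]
      exact Finset.mem_image_of_mem σ hxt
    have Y : ∀ (Z' : Finset GolayPt), 5 ≤ Z'.card →
        (∀ a b a' b', a ∈ Z' → b ∈ Z' → a' ∈ Z' → b' ∈ Z' → a ≠ b → a' ≠ b' →
          ∃ σ, Gp σ ∧ σ a = a' ∧ σ b = b') →
        ∀ t, Tet t → ∀ a b, a ∈ t → b ∈ t → a ∈ Z' → b ∈ Z' → a = b := by
      intro Z' hZ' hT' t ht a b hat hbt haZ hbZ
      by_contra hab
      obtain ⟨c, hcZ, hct⟩ := Finset.exists_mem_notMem_of_card_lt_card
        (s := t) (t := Z') (by rw [h4 t ht]; omega)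
      have hac : a ≠ c := fun h => hct (h ▸ hat)
      obtain ⟨σ, hσ, h1, h2⟩ := hT' a b a c haZ hbZ haZ hcZ hab hac
      exact hct (h2 ▸ hfixT σ hσ t ht a hat h1 b hbt)
    have hZne : Z.Nonempty := Finset.card_pos.mp (by omega)
    obtain ⟨a, haZ⟩ := hZne
    obtain ⟨t, ht, hat⟩ := hcov a
    have hcard := h4 t ht
    have hout : ∀ x, x ∈ t → x ≠ a → x ∈ Zᶜ := by
      intro x hxt hxa
      rw [Finset.mem_compl]
      intro hxZ
      exact hxa (Y Z hZ hT t ht x a hxt hat hxZ haZ)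
    have h3 : 1 < (t.erase a).card := by
      rw [Finset.card_erase_of_mem hat]
      omega
    obtain ⟨x, hx, x', hx', hxx'⟩ := Finset.one_lt_card.mp h3
    rw [Finset.mem_erase] at hx hx'
    have hxZ := hout x hx.2 hx.1
    have hxZ' := hout x' hx'.2 hx'.1
    rcases hC with h0 | ⟨h5, hT'⟩ | ⟨h5, hF⟩
    · rw [h0] at hxZ
      exact absurd hxZ (Finset.notMem_empty x)
    · exact hxx' (Y Zᶜ h5 hT' t ht x x' hx.2 hx'.2 hxZ hxZ')
    · obtain ⟨c, hcZ, hct⟩ := Finset.exists_mem_notMem_of_card_lt_card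
        (s := t) (t := Zᶜ) (by rw [hcard]; omega)
      obtain ⟨σ, hσ, hfix, h1⟩ := hF x c (Finset.mem_compl.mp hxZ) (Finset.mem_compl.mp hcZ)
      exact hct (h1 ▸ hfixT σ hσ t ht a hat (hfix a haZ) x hx.2)

end Cfsg.Agent.Lib.Helper1.GStab
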