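import Cfsg.Agent.Lib.Helper1.GolayStab
import Cfsg.Agent.S1635

set_option autoImplicit false

namespace Cfsg.Agent.Lib.Helper1.GStab

open Cfsg Cfsg.Agent.Lib.Helper9.Leech Cfsg.Agent.S5393
open Cfsg.Agent.Lib.Helper1.HamC
open scoped Pointwise

theorem golay_wt (c : GolayPt → ZMod 2) (hc : c ∈ golayCode) :
    hammingNorm c = 0 ∨ hammingNorm c = 8 ∨ hammingNorm c = 12 ∨ hammingNorm c = 16 ∨
      hammingNorm c = 24 := by
  obtain ⟨k, hk, rfl⟩ := (Cfsg.Agent.Lib.Helper1.Leech.mem_golay_iff c).mp hc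
  rw [GCos.ham_cw]
  exact Cfsg.Agent.Lib.Helper1.Leech.wt_vals k hk

theorem supp_one_add (u : GolayPt → ZMod 2) : supp (1 + u) = (supp u)ᶜ := by
  ext p
  rw [Finset.mem_compl, mem_supp, mem_supp, Pi.add_apply, Pi.one_apply]
  rcases zmod2_cases (u p) with h | h <;> rw [h] <;> decide

theorem one_add_mem (u : GolayPt → ZMod 2) (hu : u ∈ golayCode) : 1 + u ∈ golayCode :=
  golayCode.add_mem Cfsg.Agent.Lib.Helper1.Golay.one_mem_golay hu

theorem supp_mem_words (u : GolayPt → ZMod 2) (hu : u ∈ golayCode) (k : ℕ)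
    (hk : (supp u).card = k) :
    supp u ∈ wordsOfWeight (golayCode : Set (GolayPt → ZMod 2)) k :=
  ⟨⟨u, hu, rfl⟩, hk⟩

theorem card_compl' (s : Finset GolayPt) : sᶜ.card = 24 - s.card := by
  rw [Finset.card_compl, GCos.card_pt]

theorem cells (u : GolayPt → ZMod 2) (hu : u ∈ golayCode) :
    ∃ Z : Finset GolayPt, 5 ≤ Z.card ∧
      (∀ a b a' b', a ∈ Z → b ∈ Z → a' ∈ Z → b' ∈ Z → a ≠ b → a' ≠ b' →
        ∃ σ, (σ ∈ M24 ∧ StabP σ (supp u)) ∧ σ a = a' ∧ σ b = b') ∧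
      (Zᶜ = ∅ ∨
      (5 ≤ Zᶜ.card ∧ ∀ a b a' b', a ∈ Zᶜ → b ∈ Zᶜ → a' ∈ Zᶜ → b' ∈ Zᶜ → a ≠ b → a' ≠ b' →
        ∃ σ, (σ ∈ M24 ∧ StabP σ (supp u)) ∧ σ a = a' ∧ σ b = b') ∨
      (5 ≤ Zᶜ.card ∧ ∀ a b, a ∉ Z → b ∉ Z →
        ∃ σ, (σ ∈ M24 ∧ StabP σ (supp u)) ∧ (∀ p ∈ Z, σ p = p) ∧ σ a = b)) := by
  have hwt := golay_wt u hu
  rw [ham_eq] at hwt
  have triv : (∀ σ : Equiv.Perm GolayPt, StabP σ (supp u)) →
      ∃ Z : Finset GolayPt, 5 ≤ Z.card ∧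
      (∀ a b a' b', a ∈ Z → b ∈ Z → a' ∈ Z → b' ∈ Z → a ≠ b → a' ≠ b' →
        ∃ σ, (σ ∈ M24 ∧ StabP σ (supp u)) ∧ σ a = a' ∧ σ b = b') ∧
      (Zᶜ = ∅ ∨
      (5 ≤ Zᶜ.card ∧ ∀ a b a' b', a ∈ Zᶜ → b ∈ Zᶜ → a' ∈ Zᶜ → b' ∈ Zᶜ → a ≠ b → a' ≠ b' →
        ∃ σ, (σ ∈ M24 ∧ StabP σ (supp u)) ∧ σ a = a' ∧ σ b = b') ∨
      (5 ≤ Zᶜ.card ∧ ∀ a b, a ∉ Z → b ∉ Z →
        ∃ σ, (σ ∈ M24 ∧ StabP σ (supp u)) ∧ (∀ p ∈ Z, σ p = p) ∧ σ a = b)) := by
    intro hall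
    refine ⟨Finset.univ, by rw [Finset.card_univ, GCos.card_pt]; norm_num, ?_,
      Or.inl Finset.compl_univ⟩
    intro a b a' b' _ _ _ _ hab hab'
    obtain ⟨g, hg, h1, h2⟩ := trans2 a b a' b' hab hab'
    exact ⟨g, ⟨hg, hall g⟩, h1, h2⟩
  have octcase : ∀ O : Finset GolayPt, O ∈ octads → (supp u = O ∨ supp u = Oᶜ) →
      ∃ Z : Finset GolayPt, 5 ≤ Z.card ∧
      (∀ a b a' b', a ∈ Z → b ∈ Z → a' ∈ Z → b' ∈ Z → a ≠ b → a' ≠ b' →
        ∃ σ, (σ ∈ M24 ∧ StabP σ (supp u)) ∧ σ a = a' ∧ σ b = b') ∧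
      (Zᶜ = ∅ ∨
      (5 ≤ Zᶜ.card ∧ ∀ a b a' b', a ∈ Zᶜ → b ∈ Zᶜ → a' ∈ Zᶜ → b' ∈ Zᶜ → a ≠ b → a' ≠ b' →
        ∃ σ, (σ ∈ M24 ∧ StabP σ (supp u)) ∧ σ a = a' ∧ σ b = b') ∨
      (5 ≤ Zᶜ.card ∧ ∀ a b, a ∉ Z → b ∉ Z →
        ∃ σ, (σ ∈ M24 ∧ StabP σ (supp u)) ∧ (∀ p ∈ Z, σ p = p) ∧ σ a = b)) := by
    intro O hO hD
    have hst : ∀ σ : Equiv.Perm GolayPt, StabP σ O → StabP σ (supp u) := by
      intro σ h
      rcases hD with h1 | h1
      · rw [h1]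
        exact h
      · rw [h1]
        exact stabP_compl σ O h
    have hOc : O.card = 8 := hO.2
    refine ⟨O, by omega, ?_, Or.inr (Or.inr ⟨by rw [card_compl', hOc]; norm_num, ?_⟩)⟩
    · intro a b a' b' ha hb ha' hb' hab hab'
      obtain ⟨σ, hσ, h0, h1, h2⟩ := oct_trans2 O hO a b a' b' ha hb hab ha' hb' hab'
      exact ⟨σ, ⟨hσ, hst σ (stabP_of_smul σ O h0)⟩, h1, h2⟩
    · intro a b ha hb
      obtain ⟨σ, hσ, h0, h1⟩ := oct_compl_trans O hO a b ha hb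
      exact ⟨σ, ⟨hσ, hst σ (stabP_of_fix σ O h0)⟩, h0, h1⟩
  rcases hwt with h | h | h | h | h
  · apply triv
    intro σ p
    rw [Finset.card_eq_zero.mp h]
    simp
  · exact octcase (supp u) (supp_mem_words u hu 8 h) (Or.inl rfl)
  · have hd : supp u ∈ dodecads := supp_mem_words u hu 12 h
    have hd' : (supp u)ᶜ ∈ dodecads := by
      rw [← supp_one_add]
      apply supp_mem_words (1 + u) (one_add_mem u hu) 12
      rw [supp_one_add, card_compl', h]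
    refine ⟨supp u, by omega, ?_, Or.inr (Or.inl ⟨by rw [card_compl', h]; norm_num, ?_⟩)⟩
    · intro a b a' b' ha hb ha' hb' hab hab'
      obtain ⟨σ, hσ, h0, h1, h2⟩ := dod_trans2 _ hd a b a' b' ha hb hab ha' hb' hab'
      exact ⟨σ, ⟨hσ, stabP_of_smul σ _ h0⟩, h1, h2⟩
    · intro a b a' b' ha hb ha' hb' hab hab'
      obtain ⟨σ, hσ, h0, h1, h2⟩ := dod_trans2 _ hd' a b a' b' ha hb hab ha' hb' hab'
      exact ⟨σ, ⟨hσ, stabP_of_compl σ _ (stabP_of_smul σ _ h0)⟩, h1, h2⟩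
  · have hO : (supp u)ᶜ ∈ octads := by
      rw [← supp_one_add]
      apply supp_mem_words (1 + u) (one_add_mem u hu) 8
      rw [supp_one_add, card_compl', h]
    exact octcase (supp u)ᶜ hO (Or.inr (compl_compl _).symm)
  · apply triv
    intro σ p
    have : supp u = Finset.univ := Finset.eq_univ_of_card _ (by rw [h, GCos.card_pt])
    rw [this]
    simp

theorem supp_zero : supp (0 : GolayPt → ZMod 2) = ∅ := by
  ext p
  rw [mem_supp]
  simp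

theorem main (u : GolayPt → ZMod 2) (hu : u ∈ golayCode) (w : GolayPt → ZMod 2)
    (hw : w ∉ golayCode) : ∃ σ ∈ M24, pa σ u = u ∧ pa σ w - w ∉ golayCode := by
  by_contra hcon
  push Not at hcon
  obtain ⟨Z, hZ5, hT, hC⟩ := cells u hu
  obtain ⟨hno1, hno2⟩ := no_inv (fun σ => σ ∈ M24 ∧ StabP σ (supp u)) Z hZ5 hT hC
  have hL : ∀ σ, (σ ∈ M24 ∧ StabP σ (supp u)) → ∀ v, hammingNorm v ≤ 4 → w - v ∈ golayCode →
      (hammingNorm (pa σ v) ≤ 4 ∧ w - pa σ v ∈ golayCode) := by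
    rintro σ ⟨hσ, hσu⟩ v hv4 hv
    refine ⟨by rw [ham_pa]; exact hv4, ?_⟩
    have h1 := hcon σ hσ (pa_fix σ u hσu)
    have h2 := pa_mem σ hσ (w - v) hv
    have h3 : w - pa σ v = pa σ (w - v) - (pa σ w - w) := by
      rw [pa_sub]
      abel
    rw [h3]
    exact golayCode.sub_mem h2 h1
  by_cases hex : ∃ v₀ : GolayPt → ZMod 2, hammingNorm v₀ ≤ 3 ∧ w - v₀ ∈ golayCode
  · obtain ⟨v₀, hv3, hv₀⟩ := hex
    apply hno1
    refine ⟨supp v₀, ?_, by rw [← ham_eq]; exact hv3, ?_⟩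
    · rw [Finset.nonempty_iff_ne_empty]
      intro h0
      apply hw
      have h00 : v₀ = 0 := by
        apply supp_inj
        rw [h0, supp_zero]
      rw [h00, sub_zero] at hv₀
      exact hv₀
    · intro σ hσ
      obtain ⟨h4, hm⟩ := hL σ hσ v₀ (by omega) hv₀
      have heq : pa σ v₀ = v₀ := by
        by_contra hne
        have hmem : pa σ v₀ - v₀ ∈ golayCode := by
          have h5 : pa σ v₀ - v₀ = (w - v₀) - (w - pa σ v₀) := by abel
          rw [h5]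
          exact golayCode.sub_mem hv₀ hm
        have h8 := GCos.golay_min _ hmem (sub_ne_zero.mpr hne)
        have h7 := GCos.wt_sub_le (pa σ v₀) v₀
        omega
      rw [← supp_pa, heq]
  · push Not at hex
    have hw4 : ∀ v : GolayPt → ZMod 2, hammingNorm v ≤ 4 → w - v ∈ golayCode →
        hammingNorm v = 4 := by
      intro v h4 hv
      by_contra hne
      exact hex v (by omega) hv
    have hdj : ∀ v v' : GolayPt → ZMod 2, hammingNorm v ≤ 4 → w - v ∈ golayCode →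
        hammingNorm v' ≤ 4 → w - v' ∈ golayCode → v ≠ v' → Disjoint (supp v) (supp v') := by
      intro v v' h4 hv h4' hv' hvv
      apply GCos.supp_disj v v' (hw4 v h4 hv) (hw4 v' h4' hv')
      apply GCos.golay_min _ _ (sub_ne_zero.mpr hvv)
      have h5 : v - v' = (w - v') - (w - v) := by abel
      rw [h5]
      exact golayCode.sub_mem hv' hv
    apply hno2
    refine ⟨fun t => ∃ v : GolayPt → ZMod 2, hammingNorm v ≤ 4 ∧ w - v ∈ golayCode ∧ supp v = t,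
      ?_, ?_, ?_, ?_⟩
    · rintro t ⟨v, h4, hv, rfl⟩
      rw [← ham_eq]
      exact hw4 v h4 hv
    · rintro t t' ⟨v, h4, hv, rfl⟩ ⟨v', h4', hv', rfl⟩ hne
      exact hdj v v' h4 hv h4' hv' (fun h => hne (by rw [h]))
    · intro p
      have hfin : ({v : GolayPt → ZMod 2 | hammingNorm v ≤ 4 ∧ w - v ∈ golayCode}).Finite :=
        Set.toFinite _
      have h6 : hfin.toFinset.card = 6 := by
        rw [← Set.ncard_eq_toFinset_card _ hfin]
        rcases Cfsg.Agent.S1635.result w with ⟨-, v, hv3, hv⟩ | ⟨h, -⟩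
        · exact absurd hv (hex v hv3)
        · exact h
      have hmemF : ∀ v, v ∈ hfin.toFinset ↔ (hammingNorm v ≤ 4 ∧ w - v ∈ golayCode) := by
        intro v
        rw [Set.Finite.mem_toFinset]
        rfl
      have hcb : (hfin.toFinset.biUnion supp).card = ∑ v ∈ hfin.toFinset, (supp v).card := by
        apply Finset.card_biUnion
        intro v hv v' hv' hne
        have h1 := (hmemF v).mp (Finset.mem_coe.mp hv)
        have h2 := (hmemF v').mp (Finset.mem_coe.mp hv')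
        exact hdj v v' h1.1 h1.2 h2.1 h2.2 hne
      rw [Finset.sum_congr rfl (g := fun _ => 4), Finset.sum_const, h6] at hcb
      · have huniv : hfin.toFinset.biUnion supp = Finset.univ :=
          Finset.eq_univ_of_card _ (by rw [hcb, GCos.card_pt]; rfl)
        have hp := (Finset.eq_univ_iff_forall.mp huniv) p
        rw [Finset.mem_biUnion] at hp
        obtain ⟨v, hv, hpv⟩ := hp
        have h1 := (hmemF v).mp hv
        exact ⟨supp v, ⟨v, h1.1, h1.2, rfl⟩, hpv⟩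
      · intro v hv
        have h1 := (hmemF v).mp hv
        rw [← ham_eq]
        exact hw4 v h1.1 h1.2
    · rintro σ hσ t ⟨v, h4, hv, rfl⟩
      obtain ⟨h4', hm⟩ := hL σ hσ v h4 hv
      exact ⟨pa σ v, h4', hm, supp_pa σ v⟩

end Cfsg.Agent.Lib.Helper1.GStab
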