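import Mathlib

set_option autoImplicit false

namespace Cfsg.Agent.Lib.Helper1.Herm

variable {F : Type*} [Field F] [Fintype F] {q : ℕ}

theorem two_le_q (hF : Fintype.card F = q ^ 2) : 2 ≤ q := by
  have h1 : 1 < Fintype.card F := Fintype.one_lt_card
  rw [hF] at h1
  by_contra h
  have h2 : q ≤ 1 := by omega
  have h3 : q ^ 2 ≤ 1 ^ 2 := Nat.pow_le_pow_left h2 2
  omega

theorem exists_frob (hF : Fintype.card F = q ^ 2) : ∃ σ : F →+* F, ∀ x, σ x = x ^ q := by
  obtain ⟨p, hp⟩ := CharP.exists F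
  haveI := hp
  haveI : Fact p.Prime := ⟨CharP.char_is_prime F p⟩
  obtain ⟨n, hpr, hn⟩ := FiniteField.card F p
  have hdvd : q ∣ p ^ (n : ℕ) := by
    rw [← hn, hF]
    exact dvd_pow_self q (by norm_num)
  obtain ⟨k, -, hk⟩ := (Nat.dvd_prime_pow hpr).1 hdvd
  exact ⟨iterateFrobenius F p k, fun x => by rw [iterateFrobenius_def, hk]⟩

theorem pow_q_pow_q (hF : Fintype.card F = q ^ 2) (x : F) : (x ^ q) ^ q = x := by
  rw [← pow_mul, ← sq, ← hF, FiniteField.pow_card]

theorem norm_fix (hF : Fintype.card F = q ^ 2) (x : F) : (x ^ (q + 1)) ^ q = x ^ (q + 1) := by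
  rw [← pow_mul, add_mul, one_mul, pow_add, ← sq, ← hF, FiniteField.pow_card, pow_succ, mul_comm]

theorem card_units_sq (hF : Fintype.card F = q ^ 2) : Nat.card Fˣ = q ^ 2 - 1 := by
  rw [Nat.card_units, Nat.card_eq_fintype_card, hF]

theorem sq_sub_one (hq : 1 ≤ q) : q ^ 2 - 1 = (q - 1) * (q + 1) := by
  obtain ⟨m, rfl⟩ : ∃ m, q = m + 1 := ⟨q - 1, by omega⟩
  rw [Nat.add_sub_cancel, Nat.sub_eq_iff_eq_add (Nat.one_le_pow _ _ (by omega))]
  ring

theorem card_ker_norm (hF : Fintype.card F = q ^ 2) :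
    Nat.card (powMonoidHom (q + 1) : Fˣ →* Fˣ).ker = q + 1 := by
  have hq := two_le_q hF
  rw [IsCyclic.card_powMonoidHom_ker, card_units_sq hF, sq_sub_one (by omega)]
  exact Nat.gcd_eq_right (Dvd.intro_left _ rfl)

theorem card_ker_fix (hF : Fintype.card F = q ^ 2) :
    Nat.card (powMonoidHom (q - 1) : Fˣ →* Fˣ).ker = q - 1 := by
  have hq := two_le_q hF
  rw [IsCyclic.card_powMonoidHom_ker, card_units_sq hF, sq_sub_one (by omega)]
  exact Nat.gcd_eq_right (Dvd.intro _ rfl)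

theorem range_norm (hF : Fintype.card F = q ^ 2) :
    (powMonoidHom (q + 1) : Fˣ →* Fˣ).range = (powMonoidHom (q - 1) : Fˣ →* Fˣ).ker := by
  have hq := two_le_q hF
  have hle : (powMonoidHom (q + 1) : Fˣ →* Fˣ).range ≤ (powMonoidHom (q - 1) : Fˣ →* Fˣ).ker := by
    rintro _ ⟨y, rfl⟩
    rw [MonoidHom.mem_ker, powMonoidHom_apply, powMonoidHom_apply, ← pow_mul, mul_comm,
      ← sq_sub_one (by omega), ← card_units_sq hF]
    exact pow_card_eq_one'
  apply Subgroup.eq_of_le_of_card_ge hle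
  have h1 := Subgroup.card_eq_card_quotient_mul_card_subgroup
    (powMonoidHom (q + 1) : Fˣ →* Fˣ).ker
  rw [Nat.card_congr (QuotientGroup.quotientKerEquivRange
    (powMonoidHom (q + 1) : Fˣ →* Fˣ)).toEquiv, card_ker_norm hF, card_units_sq hF,
    sq_sub_one (by omega)] at h1
  have h2 : Nat.card (powMonoidHom (q + 1) : Fˣ →* Fˣ).range = q - 1 :=
    (Nat.eq_of_mul_eq_mul_right (by omega) h1).symm
  rw [card_ker_fix hF, h2]

theorem norm_surj (hF : Fintype.card F = q ^ 2) (c : F) (hc0 : c ≠ 0) (hc : c ^ q = c) :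
    ∃ x : F, x ≠ 0 ∧ x ^ (q + 1) = c := by
  have hq := two_le_q hF
  have h1 : Units.mk0 c hc0 ∈ (powMonoidHom (q - 1) : Fˣ →* Fˣ).ker := by
    rw [MonoidHom.mem_ker, powMonoidHom_apply]
    apply Units.ext
    rw [Units.val_pow_eq_pow_val, Units.val_mk0, Units.val_one]
    have h2 : c * c ^ (q - 1) = c * 1 := by
      rw [← pow_succ', mul_one, Nat.sub_add_cancel (by omega), hc]
    exact mul_left_cancel₀ hc0 h2
  rw [← range_norm hF] at h1
  obtain ⟨y, hy⟩ := h1
  refine ⟨(y : F), y.ne_zero, ?_⟩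
  have := congrArg Units.val hy
  rwa [powMonoidHom_apply, Units.val_pow_eq_pow_val, Units.val_mk0] at this

theorem card_fix (hF : Fintype.card F = q ^ 2) :
    Nat.card {c : F // c ≠ 0 ∧ c ^ q = c} = q - 1 := by
  have hq := two_le_q hF
  rw [← card_ker_fix hF]
  refine Nat.card_congr
    { toFun := fun c => ⟨Units.mk0 c.1 c.2.1, ?_⟩
      invFun := fun u => ⟨(u.1 : F), u.1.ne_zero, ?_⟩
      left_inv := fun c => rfl
      right_inv := fun u => Subtype.ext (Units.ext rfl) }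
  · rw [MonoidHom.mem_ker, powMonoidHom_apply]
    apply Units.ext
    rw [Units.val_pow_eq_pow_val, Units.val_mk0, Units.val_one]
    have h2 : c.1 * c.1 ^ (q - 1) = c.1 * 1 := by
      rw [← pow_succ', mul_one, Nat.sub_add_cancel (by omega), c.2.2]
    exact mul_left_cancel₀ c.2.1 h2
  · have h1 := u.2
    rw [MonoidHom.mem_ker, powMonoidHom_apply] at h1
    have h2 := congrArg Units.val h1
    rw [Units.val_pow_eq_pow_val, Units.val_one] at h2
    have h3 : ((u.1 : Fˣ) : F) ^ ((q - 1) + 1) = ((u.1 : Fˣ) : F) := by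
      rw [pow_succ, h2, one_mul]
    rwa [Nat.sub_add_cancel (by omega)] at h3

noncomputable def cnt (q n : ℕ) (c : F) : ℕ :=
  Nat.card {v : Fin n → F // ∑ i, v i ^ (q + 1) = c}

theorem cnt_total (q n : ℕ) : ∑ c : F, cnt q n c = Fintype.card F ^ n := by
  have h := Nat.card_congr (Equiv.sigmaFiberEquiv (fun v : Fin n → F => ∑ i, v i ^ (q + 1)))
  rw [Nat.card_sigma] at h
  unfold cnt
  rw [h, Nat.card_eq_fintype_card, Fintype.card_fun, Fintype.card_fin]

theorem cnt_scale (q n : ℕ) (l : F) (hl : l ≠ 0) (c : F) :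
    cnt q n (l ^ (q + 1) * c) = cnt q n c := by
  unfold cnt
  refine Nat.card_congr
    { toFun := fun v => ⟨fun i => l⁻¹ * v.1 i, ?_⟩
      invFun := fun v => ⟨fun i => l * v.1 i, ?_⟩
      left_inv := fun v => Subtype.ext (funext fun i => mul_inv_cancel_left₀ hl _)
      right_inv := fun v => Subtype.ext (funext fun i => inv_mul_cancel_left₀ hl _) }
  · have h1 := v.2
    simp only [mul_pow]
    rw [← Finset.mul_sum, h1, ← mul_assoc, ← mul_pow, inv_mul_cancel₀ hl, one_pow, one_mul]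
  · simp only [mul_pow]
    rw [← Finset.mul_sum, v.2]

theorem cnt_fix (hF : Fintype.card F = q ^ 2) (n : ℕ) (c : F) (h : cnt q n c ≠ 0) : c ^ q = c := by
  obtain ⟨σ, hσ⟩ := exists_frob hF
  have hne : Nonempty {v : Fin n → F // ∑ i, v i ^ (q + 1) = c} := by
    by_contra hne
    rw [not_nonempty_iff] at hne
    exact h Nat.card_of_isEmpty
  obtain ⟨v, hv⟩ := hne
  rw [← hv, ← hσ, map_sum]
  exact Finset.sum_congr rfl (fun i _ => by rw [hσ, norm_fix hF])

theorem cnt_norm (hF : Fintype.card F = q ^ 2) (n : ℕ) (c : F) (hc0 : c ≠ 0) (hc : c ^ q = c) :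
    cnt q n c = cnt q n (1 : F) := by
  obtain ⟨x, hx0, hx⟩ := norm_surj hF c hc0 hc
  have h1 := cnt_scale q n x hx0 1
  rwa [mul_one, hx] at h1

theorem cnt_succ (q n : ℕ) (c : F) :
    cnt q (n + 1) c = ∑ x : F, cnt q n (c - x ^ (q + 1)) := by
  unfold cnt
  rw [← Nat.card_sigma]
  refine Nat.card_congr
    { toFun := fun v => ⟨v.1 0, ⟨Fin.tail v.1, ?_⟩⟩
      invFun := fun p => ⟨Fin.cons p.1 p.2.1, ?_⟩
      left_inv := fun v => Subtype.ext (Fin.cons_self_tail v.1)
      right_inv := fun p => ?_ }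
  · have h1 := v.2
    rw [Fin.sum_univ_succ] at h1
    rw [eq_sub_iff_add_eq']
    exact h1
  · rw [Fin.sum_univ_succ]
    simp only [Fin.cons_zero, Fin.cons_succ]
    rw [p.2.2]
    ring
  · obtain ⟨x, w, hw⟩ := p
    rfl

theorem rel1 (hF : Fintype.card F = q ^ 2) (n : ℕ) :
    cnt q n (0 : F) + (q - 1) * cnt q n (1 : F) = q ^ (2 * n) := by
  classical
  have h := cnt_total (F := F) q n
  rw [hF, ← pow_mul] at h
  rw [← h]
  have hg : ∀ c : F, cnt q n c =
      if c = 0 then cnt q n (0 : F) else if c ^ q = c then cnt q n (1 : F) else 0 := by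
    intro c
    split_ifs with h0 h1
    · rw [h0]
    · exact cnt_norm hF n c h0 h1
    · by_contra hne
      exact h1 (cnt_fix hF n c hne)
  rw [Finset.sum_congr rfl (fun c _ => hg c)]
  have hcard : (Finset.univ.filter (fun c : F => ¬ c = 0 ∧ c ^ q = c)).card = q - 1 := by
    rw [← card_fix hF, Nat.card_eq_fintype_card, Fintype.card_subtype]
  have hcard0 : (Finset.univ.filter (fun c : F => c = 0)).card = 1 := by
    rw [Finset.card_eq_one]
    exact ⟨0, by ext x; simp⟩
  simp only [Finset.sum_ite, Finset.filter_filter, Finset.sum_const, smul_eq_mul,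
    one_mul, hcard, hcard0, mul_zero, add_zero]

theorem rel2 (hF : Fintype.card F = q ^ 2) (n : ℕ) :
    cnt q (n + 1) (0 : F) = cnt q n (0 : F) + (q ^ 2 - 1) * cnt q n (1 : F) := by
  classical
  rw [cnt_succ]
  have hg : ∀ x : F, cnt q n (0 - x ^ (q + 1)) =
      if x = 0 then cnt q n (0 : F) else cnt q n (1 : F) := by
    intro x
    split_ifs with h0
    · rw [h0, zero_pow (by omega), sub_zero]
    · apply cnt_norm hF
      · rw [zero_sub, neg_ne_zero]
        exact pow_ne_zero _ h0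
      · obtain ⟨σ, hσ⟩ := exists_frob hF
        rw [← hσ, zero_sub, map_neg, hσ, norm_fix hF]
  rw [Finset.sum_congr rfl (fun x _ => hg x)]
  have hcard : (Finset.univ.filter (fun c : F => ¬ c = 0)).card = q ^ 2 - 1 := by
    rw [Finset.filter_ne', Finset.card_erase_of_mem (Finset.mem_univ _), Finset.card_univ, hF]
  have hcard0 : (Finset.univ.filter (fun c : F => c = 0)).card = 1 := by
    rw [Finset.card_eq_one]
    exact ⟨0, by ext x; simp⟩
  simp only [Finset.sum_ite, Finset.sum_const, smul_eq_mul, one_mul, hcard, hcard0]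

theorem cnt_zero_zero (q : ℕ) : cnt q 0 (0 : F) = 1 := by
  unfold cnt
  haveI : Unique {v : Fin 0 → F // ∑ i, v i ^ (q + 1) = 0} :=
    ⟨⟨⟨0, by simp⟩⟩, fun v => Subtype.ext (Subsingleton.elim _ _)⟩
  exact Nat.card_unique

theorem solveZ (hF : Fintype.card F = q ^ 2) (n : ℕ) :
    (q : ℤ) * (cnt q n (0 : F) : ℤ) = (q : ℤ) ^ (2 * n) + (-1) ^ n * (q : ℤ) ^ n * ((q : ℤ) - 1) := by
  have hq := two_le_q hF
  induction n with
  | zero =>
    rw [cnt_zero_zero]
    simp
  | succ n ih =>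
    have h1 := rel1 hF n
    have h2 := rel2 hF n
    have hq2 : 1 ≤ q ^ 2 := Nat.one_le_pow _ _ (by omega)
    zify [hq2, show 1 ≤ q by omega] at h1 h2
    rw [h2]
    linear_combination (q : ℤ) * ((q : ℤ) + 1) * h1 + (-(q : ℤ)) * ih

theorem solveU (hF : Fintype.card F = q ^ 2) (n : ℕ) :
    (q : ℤ) * (cnt q n (1 : F) : ℤ) = (q : ℤ) ^ n * ((q : ℤ) ^ n - (-1) ^ n) := by
  have hq := two_le_q hF
  have h1 := rel1 hF n
  have h0 := solveZ hF n
  zify [show 1 ≤ q by omega] at h1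
  have hq1 : ((q : ℤ) - 1) ≠ 0 := by
    have : (2 : ℤ) ≤ (q : ℤ) := by exact_mod_cast hq
    linarith
  apply mul_left_cancel₀ hq1
  linear_combination (q : ℤ) * h1 - h0

theorem card_zero (hF : Fintype.card F = q ^ 2) (n : ℕ) :
    cnt q n (0 : F) = (if Even n then (q ^ n - 1) * (q ^ (n - 1) + 1)
      else (q ^ n + 1) * (q ^ (n - 1) - 1)) + 1 := by
  have hq := two_le_q hF
  have h0 := solveZ hF n
  rcases n with _ | m
  · rw [cnt_zero_zero]
    simp
  · have hq0 : (0 : ℤ) < (q : ℤ) := by exact_mod_cast (show 0 < q by omega)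
    have h1 : 1 ≤ q ^ (m + 1) := Nat.one_le_pow _ _ (by omega)
    have h2 : 1 ≤ q ^ m := Nat.one_le_pow _ _ (by omega)
    rw [Nat.add_sub_cancel]
    split_ifs with he
    · have hs : (-1 : ℤ) ^ (m + 1) = 1 := he.neg_one_pow
      rw [hs] at h0
      apply Nat.cast_injective (R := ℤ)
      apply mul_left_cancel₀ hq0.ne'
      rw [h0]
      push_cast [h1]
      ring
    · have hs : (-1 : ℤ) ^ (m + 1) = -1 := (Nat.not_even_iff_odd.1 he).neg_one_pow
      rw [hs] at h0
      apply Nat.cast_injective (R := ℤ)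
      apply mul_left_cancel₀ hq0.ne'
      rw [h0]
      push_cast [h2]
      ring

theorem card_one (hF : Fintype.card F = q ^ 2) (n : ℕ) :
    cnt q n (1 : F) = (if Even n then q ^ (n - 1) * (q ^ n - 1)
      else q ^ (n - 1) * (q ^ n + 1)) := by
  have hq := two_le_q hF
  have h0 := solveU hF n
  have hq0 : (0 : ℤ) < (q : ℤ) := by exact_mod_cast (show 0 < q by omega)
  rcases n with _ | m
  · have : (cnt q 0 (1 : F) : ℤ) = 0 := by
      apply mul_left_cancel₀ hq0.ne'
      rw [h0]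
      simp
    have h3 : cnt q 0 (1 : F) = 0 := by exact_mod_cast this
    rw [h3]
    simp
  · have h1 : 1 ≤ q ^ (m + 1) := Nat.one_le_pow _ _ (by omega)
    rw [Nat.add_sub_cancel]
    split_ifs with he
    · have hs : (-1 : ℤ) ^ (m + 1) = 1 := he.neg_one_pow
      rw [hs] at h0
      apply Nat.cast_injective (R := ℤ)
      apply mul_left_cancel₀ hq0.ne'
      rw [h0]
      push_cast [h1]
      ring
    · have hs : (-1 : ℤ) ^ (m + 1) = -1 := (Nat.not_even_iff_odd.1 he).neg_one_pow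
      rw [hs] at h0
      apply Nat.cast_injective (R := ℤ)
      apply mul_left_cancel₀ hq0.ne'
      rw [h0]
      push_cast
      ring

end Cfsg.Agent.Lib.Helper1.Herm
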