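import Mathlib
import Cfsg.Prelude.Def_LieClassical
import Cfsg.Agent.Lib.Helper1.Herm

set_option autoImplicit false

namespace Cfsg.Agent.Lib.Helper1.Herm

open Matrix

section forms

variable {F : Type*} [Field F] {q : ℕ} {ι : Type} [Fintype ι]

def hf (ι : Type) [Fintype ι] (q : ℕ) (u v : ι → F) : F := ∑ i, u i * v i ^ q

theorem hf_eq (σ : F →+* F) (hσ : ∀ x, σ x = x ^ q) (u v : ι → F) :
    hf ι q u v = ∑ i, u i * σ (v i) := by
  unfold hf
  exact Finset.sum_congr rfl (fun i _ => by rw [hσ])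

theorem hf_sub_left (u u' v : ι → F) : hf ι q (u - u') v = hf ι q u v - hf ι q u' v := by
  unfold hf
  rw [← Finset.sum_sub_distrib]
  exact Finset.sum_congr rfl (fun i _ => by rw [Pi.sub_apply, sub_mul])

theorem hf_smul_left (a : F) (u v : ι → F) : hf ι q (a • u) v = a * hf ι q u v := by
  unfold hf
  rw [Finset.mul_sum]
  exact Finset.sum_congr rfl (fun i _ => by rw [Pi.smul_apply, smul_eq_mul, mul_assoc])

theorem hf_zero_left (v : ι → F) : hf ι q 0 v = 0 := by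
  unfold hf
  simp

theorem hf_smul_right (a : F) (u v : ι → F) : hf ι q u (a • v) = a ^ q * hf ι q u v := by
  unfold hf
  rw [Finset.mul_sum]
  exact Finset.sum_congr rfl (fun i _ => by rw [Pi.smul_apply, smul_eq_mul, mul_pow]; ring)

theorem hf_sub_right (σ : F →+* F) (hσ : ∀ x, σ x = x ^ q) (u v v' : ι → F) :
    hf ι q u (v - v') = hf ι q u v - hf ι q u v' := by
  rw [hf_eq σ hσ, hf_eq σ hσ, hf_eq σ hσ, ← Finset.sum_sub_distrib]
  exact Finset.sum_congr rfl (fun i _ => by rw [Pi.sub_apply, map_sub, mul_sub])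

theorem hf_conj (σ : F →+* F) (hσ : ∀ x, σ x = x ^ q) (hσ2 : ∀ x, σ (σ x) = x) (u v : ι → F) :
    (hf ι q u v) ^ q = hf ι q v u := by
  rw [← hσ, hf_eq σ hσ, hf_eq σ hσ, map_sum]
  exact Finset.sum_congr rfl (fun i _ => by rw [map_mul, hσ2, mul_comm])

theorem hf_single_right [DecidableEq ι] (σ : F →+* F) (hσ : ∀ x, σ x = x ^ q) (x : ι → F) (i : ι) :
    hf ι q x (Pi.single i 1) = x i := by
  rw [hf_eq σ hσ]
  rw [Finset.sum_eq_single i]
  · rw [Pi.single_eq_same, map_one, mul_one]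
  · intro j _ hji
    rw [Pi.single_eq_of_ne hji, map_zero, mul_zero]
  · intro h
    exact absurd (Finset.mem_univ i) h

def IsIso (ι : Type) [Fintype ι] (q : ℕ) (M : Matrix ι ι F) : Prop :=
  ∀ x y, hf ι q (M *ᵥ x) (M *ᵥ y) = hf ι q x y

def gu (ι : Type) [Fintype ι] [DecidableEq ι] (F : Type*) [Field F] (q : ℕ) : Subgroup (GL ι F) :=
  Cfsg.preserving (Units.coeHom (Matrix ι ι F)) (hf ι q)

theorem mem_gu [DecidableEq ι] (g : GL ι F) :
    g ∈ gu ι F q ↔ IsIso ι q (g : Matrix ι ι F) := Iff.rfl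

theorem GU_eq (n : ℕ) : Cfsg.GU n F q = gu (Fin n) F q := rfl

theorem iso_injective [DecidableEq ι] (σ : F →+* F) (hσ : ∀ x, σ x = x ^ q) (M : Matrix ι ι F)
    (h : IsIso ι q M) : Function.Injective M.mulVec := by
  intro x x' hxx
  have h1 : M *ᵥ (x - x') = 0 := by
    rw [Matrix.mulVec_sub]
    exact sub_eq_zero.2 hxx
  have h2 : x - x' = 0 := by
    funext i
    have h3 := h (x - x') (Pi.single i 1)
    rw [h1, hf_zero_left, hf_single_right σ hσ] at h3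
    exact h3.symm
  exact sub_eq_zero.1 h2

theorem exists_gu [DecidableEq ι] (σ : F →+* F) (hσ : ∀ x, σ x = x ^ q) (M : Matrix ι ι F)
    (h : IsIso ι q M) : ∃ g : GL ι F, g ∈ gu ι F q ∧ (g : Matrix ι ι F) = M := by
  have hu : IsUnit M := Matrix.mulVec_injective_iff_isUnit.1 (iso_injective σ hσ M h)
  refine ⟨hu.unit, ?_, hu.unit_spec⟩
  rw [mem_gu, hu.unit_spec]
  exact h

def rm [DecidableEq ι] (q : ℕ) (u : ι → F) (c : F) : Matrix ι ι F :=
  1 - Matrix.of (fun i j => c * u i * u j ^ q)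

theorem rm_mulVec [DecidableEq ι] (u : ι → F) (c : F) (x : ι → F) :
    rm q u c *ᵥ x = x - (c * hf ι q x u) • u := by
  funext i
  rw [rm, Matrix.sub_mulVec, Matrix.one_mulVec]
  simp only [Pi.sub_apply, Pi.smul_apply, smul_eq_mul, Matrix.mulVec, dotProduct, Matrix.of_apply,
    hf]
  congr 1
  rw [Finset.mul_sum, Finset.sum_mul]
  exact Finset.sum_congr rfl (fun j _ => by ring)

theorem rm_iso [DecidableEq ι] (σ : F →+* F) (hσ : ∀ x, σ x = x ^ q) (hσ2 : ∀ x, σ (σ x) = x)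
    (u : ι → F) (c : F) (hc : c + c ^ q = c ^ (q + 1) * hf ι q u u) : IsIso ι q (rm q u c) := by
  intro x y
  rw [rm_mulVec, rm_mulVec, hf_sub_left, hf_sub_right σ hσ, hf_sub_right σ hσ, hf_smul_left,
    hf_smul_left, hf_smul_right, hf_smul_right, mul_pow, hf_conj σ hσ hσ2 y u]
  have e : c ^ (q + 1) = c ^ q * c := pow_succ c q
  rw [e] at hc
  linear_combination (-(hf ι q x u * hf ι q u y)) * hc

theorem smul_iso [DecidableEq ι] (l : F) (hl : l ^ (q + 1) = 1) :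
    IsIso ι q (l • (1 : Matrix ι ι F)) := by
  intro x y
  rw [Matrix.smul_mulVec, Matrix.smul_mulVec, Matrix.one_mulVec, Matrix.one_mulVec, hf_smul_left,
    hf_smul_right, ← mul_assoc, ← pow_succ', hl, one_mul]

theorem iso_mul [DecidableEq ι] (M N : Matrix ι ι F) (hM : IsIso ι q M) (hN : IsIso ι q N) :
    IsIso ι q (M * N) := by
  intro x y
  rw [← Matrix.mulVec_mulVec, ← Matrix.mulVec_mulVec, hM, hN]

theorem exists_iso_of_ne_one [DecidableEq ι] (σ : F →+* F) (hσ : ∀ x, σ x = x ^ q)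
    (hσ2 : ∀ x, σ (σ x) = x) (v w : ι → F) (hv : hf ι q v v = 1) (hw : hf ι q w w = 1)
    (hvw : hf ι q v w ≠ 1) : ∃ M : Matrix ι ι F, IsIso ι q M ∧ M *ᵥ v = w := by
  have ht : 1 - hf ι q v w ≠ 0 := sub_ne_zero.2 (Ne.symm hvw)
  have htq : (1 - hf ι q v w) ^ q = 1 - hf ι q w v := by
    rw [← hσ, map_sub, map_one, hσ, hf_conj σ hσ hσ2]
  have htq0 : 1 - hf ι q w v ≠ 0 := by
    rw [← htq]
    exact pow_ne_zero _ ht
  have h1 : hf ι q v (v - w) = 1 - hf ι q v w := by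
    rw [hf_sub_right σ hσ, hv]
  have h2 : hf ι q (v - w) (v - w) = (1 - hf ι q v w) + (1 - hf ι q w v) := by
    rw [hf_sub_left, hf_sub_right σ hσ, hf_sub_right σ hσ, hv, hw]
    ring
  refine ⟨rm q (v - w) (1 - hf ι q v w)⁻¹, rm_iso σ hσ hσ2 _ _ ?_, ?_⟩
  · rw [h2, pow_succ, inv_pow, htq]
    field_simp
    ring
  · rw [rm_mulVec, h1, inv_mul_cancel₀ ht, one_smul]
    abel

theorem exists_norm_one_ne_one [Fintype F] (hF : Fintype.card F = q ^ 2) :
    ∃ l : F, l ^ (q + 1) = 1 ∧ l ≠ 1 := by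
  have hq := two_le_q hF
  have h1 := card_ker_norm hF
  have h2 : (powMonoidHom (q + 1) : Fˣ →* Fˣ).ker ≠ ⊥ := by
    intro hbot
    rw [hbot, Subgroup.card_bot] at h1
    omega
  obtain ⟨l, hl1⟩ := (Subgroup.ne_bot_iff_exists_ne_one).1 h2
  refine ⟨((l : Fˣ) : F), ?_, ?_⟩
  · have h3 := l.2
    rw [MonoidHom.mem_ker, powMonoidHom_apply] at h3
    have h4 := congrArg Units.val h3
    rwa [Units.val_pow_eq_pow_val, Units.val_one] at h4
  · intro h5
    apply hl1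
    apply Subtype.ext
    apply Units.ext
    exact h5

theorem gu_transitive [DecidableEq ι] [Fintype F] (hF : Fintype.card F = q ^ 2) (v w : ι → F)
    (hv : hf ι q v v = 1) (hw : hf ι q w w = 1) :
    ∃ g : GL ι F, g ∈ gu ι F q ∧ (g : Matrix ι ι F) *ᵥ v = w := by
  obtain ⟨σ, hσ⟩ := exists_frob hF
  have hσ2 : ∀ x, σ (σ x) = x := fun x => by rw [hσ, hσ, pow_q_pow_q hF]
  have key : ∃ M : Matrix ι ι F, IsIso ι q M ∧ M *ᵥ v = w := by
    by_cases hvw : hf ι q v w = 1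
    · obtain ⟨l, hl, hl1⟩ := exists_norm_one_ne_one hF
      have hv' : hf ι q (l • v) (l • v) = 1 := by
        rw [hf_smul_left, hf_smul_right, ← mul_assoc, ← pow_succ', hl, one_mul, hv]
      have hvw' : hf ι q (l • v) w ≠ 1 := by
        rw [hf_smul_left, hvw, mul_one]
        exact hl1
      obtain ⟨M, hM, hMv⟩ := exists_iso_of_ne_one σ hσ hσ2 (l • v) w hv' hw hvw'
      refine ⟨M * (l • (1 : Matrix ι ι F)), iso_mul _ _ hM (smul_iso l hl), ?_⟩
      rw [← Matrix.mulVec_mulVec, Matrix.smul_mulVec, Matrix.one_mulVec, hMv]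
    · exact exists_iso_of_ne_one σ hσ hσ2 v w hv hw hvw
  obtain ⟨M, hM, hMv⟩ := key
  obtain ⟨g, hg, hgM⟩ := exists_gu σ hσ M hM
  exact ⟨g, hg, by rw [hgM, hMv]⟩

end forms

section stab

variable {F : Type*} [Field F] {q : ℕ} {ι : Type} [Fintype ι] [DecidableEq ι]

theorem hf_sum (x y : Unit ⊕ ι → F) :
    hf (Unit ⊕ ι) q x y =
      x (Sum.inl ()) * y (Sum.inl ()) ^ q + hf ι q (x ∘ Sum.inr) (y ∘ Sum.inr) := by
  unfold hf
  rw [Fintype.sum_sum_type, Fintype.sum_unique]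
  rfl

def e0 : Unit ⊕ ι → F := Sum.elim (fun _ => 1) (fun _ => 0)

theorem hf_e0_left (z : Unit ⊕ ι → F) : hf (Unit ⊕ ι) q e0 z = z (Sum.inl ()) ^ q := by
  rw [hf_sum]
  have h1 : (e0 : Unit ⊕ ι → F) ∘ Sum.inr = 0 := rfl
  rw [h1, hf_zero_left, add_zero]
  simp [e0]

theorem hf_e0_e0 : hf (Unit ⊕ ι) q (e0 : Unit ⊕ ι → F) e0 = 1 := by
  rw [hf_e0_left]
  simp [e0]

def blkM (A : Matrix ι ι F) : Matrix (Unit ⊕ ι) (Unit ⊕ ι) F := Matrix.fromBlocks 1 0 0 A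

theorem blkM_mulVec (A : Matrix ι ι F) (x : Unit ⊕ ι → F) :
    blkM A *ᵥ x = Sum.elim (x ∘ Sum.inl) (A *ᵥ (x ∘ Sum.inr)) := by
  rw [blkM, Matrix.fromBlocks_mulVec]
  simp

theorem blkM_iso (A : Matrix ι ι F) (hA : IsIso ι q A) : IsIso (Unit ⊕ ι) q (blkM A) := by
  intro x y
  rw [blkM_mulVec, blkM_mulVec, hf_sum, hf_sum]
  simp only [Sum.elim_inl, Function.comp_apply, Sum.elim_comp_inr]
  rw [hA]

theorem blkM_e0 (A : Matrix ι ι F) : blkM A *ᵥ (e0 : Unit ⊕ ι → F) = e0 := by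
  rw [blkM_mulVec]
  have h1 : (e0 : Unit ⊕ ι → F) ∘ Sum.inr = 0 := rfl
  rw [h1, Matrix.mulVec_zero]
  rfl

def blk (A : GL ι F) : GL (Unit ⊕ ι) F :=
  ⟨blkM (A : Matrix ι ι F), blkM ((A⁻¹ : GL ι F) : Matrix ι ι F),
    by simp [blkM, Matrix.fromBlocks_multiply, Matrix.fromBlocks_one],
    by simp [blkM, Matrix.fromBlocks_multiply, Matrix.fromBlocks_one]⟩

theorem blk_val (A : GL ι F) :
    ((blk A : GL (Unit ⊕ ι) F) : Matrix (Unit ⊕ ι) (Unit ⊕ ι) F) = blkM (A : Matrix ι ι F) := rfl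

theorem stab_form (σ : F →+* F) (hσ : ∀ x, σ x = x ^ q) (hσ2 : ∀ x, σ (σ x) = x)
    (g : GL (Unit ⊕ ι) F) (hg : g ∈ gu (Unit ⊕ ι) F q)
    (hfix : (g : Matrix (Unit ⊕ ι) (Unit ⊕ ι) F) *ᵥ e0 = e0) :
    ∃ A : GL ι F, A ∈ gu ι F q ∧ g = blk A := by
  have hcol : ∀ i, (g : Matrix (Unit ⊕ ι) (Unit ⊕ ι) F) i (Sum.inl ()) = (e0 : Unit ⊕ ι → F) i := by
    intro i
    have h1 : (e0 : Unit ⊕ ι → F) = Pi.single (Sum.inl ()) 1 := by
      funext j
      rcases j with j | j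
      · simp [e0]
      · simp [e0]
    have h2 := congrFun hfix i
    rw [h1, Matrix.mulVec_single_one] at h2
    rw [h1]
    exact h2
  have hrow : ∀ y : Unit ⊕ ι → F,
      ((g : Matrix (Unit ⊕ ι) (Unit ⊕ ι) F) *ᵥ y) (Sum.inl ()) = y (Sum.inl ()) := by
    intro y
    have h1 := hg e0 y
    change hf (Unit ⊕ ι) q ((g : Matrix (Unit ⊕ ι) (Unit ⊕ ι) F) *ᵥ e0)
      ((g : Matrix (Unit ⊕ ι) (Unit ⊕ ι) F) *ᵥ y) = hf (Unit ⊕ ι) q e0 y at h1
    rw [hfix, hf_e0_left, hf_e0_left, ← hσ, ← hσ] at h1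
    have h2 := congrArg σ h1
    rwa [hσ2, hσ2] at h2
  have hM : (g : Matrix (Unit ⊕ ι) (Unit ⊕ ι) F) =
      blkM ((g : Matrix (Unit ⊕ ι) (Unit ⊕ ι) F).toBlocks₂₂) := by
    ext i j
    rcases i with i | i <;> rcases j with j | j
    · rw [hcol]
      simp [blkM, e0]
    · have h1 := hrow (Pi.single (Sum.inr j) 1)
      rw [Matrix.mulVec_single_one] at h1
      simp only [blkM, Matrix.fromBlocks_apply₁₂, Matrix.zero_apply]
      simpa using h1
    · rw [hcol]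
      simp [blkM, e0]
    · simp [blkM, Matrix.toBlocks₂₂]
  have hD : IsIso ι q ((g : Matrix (Unit ⊕ ι) (Unit ⊕ ι) F).toBlocks₂₂) := by
    intro x y
    have h1 := hg (Sum.elim 0 x) (Sum.elim 0 y)
    change hf (Unit ⊕ ι) q ((g : Matrix (Unit ⊕ ι) (Unit ⊕ ι) F) *ᵥ (Sum.elim 0 x))
      ((g : Matrix (Unit ⊕ ι) (Unit ⊕ ι) F) *ᵥ (Sum.elim 0 y)) =
        hf (Unit ⊕ ι) q (Sum.elim 0 x) (Sum.elim 0 y) at h1
    rw [hM, blkM_mulVec, blkM_mulVec, hf_sum, hf_sum] at h1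
    simpa using h1
  obtain ⟨A, hA, hAD⟩ := exists_gu σ hσ _ hD
  refine ⟨A, hA, ?_⟩
  apply Units.ext
  rw [blk_val, hAD]
  exact hM

theorem orbit_e0 [Fintype F] (hF : Fintype.card F = q ^ 2) :
    MulAction.orbit (gu (Unit ⊕ ι) F q) (e0 : Unit ⊕ ι → F) =
      {v | hf (Unit ⊕ ι) q v v = 1} := by
  ext v
  constructor
  · rintro ⟨g, rfl⟩
    have h1 := g.2 e0 e0
    change hf (Unit ⊕ ι) q (((g : GL (Unit ⊕ ι) F) : Matrix (Unit ⊕ ι) (Unit ⊕ ι) F) *ᵥ e0)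
      (((g : GL (Unit ⊕ ι) F) : Matrix (Unit ⊕ ι) (Unit ⊕ ι) F) *ᵥ e0) =
        hf (Unit ⊕ ι) q e0 e0 at h1
    rw [hf_e0_e0] at h1
    exact h1
  · intro hv
    obtain ⟨g, hg, hgv⟩ := gu_transitive hF (e0 : Unit ⊕ ι → F) v hf_e0_e0 hv
    exact ⟨⟨g, hg⟩, hgv⟩

theorem card_gu_succ [Fintype F] (hF : Fintype.card F = q ^ 2) :
    Nat.card (gu (Unit ⊕ ι) F q) =
      Nat.card {v : Unit ⊕ ι → F // hf (Unit ⊕ ι) q v v = 1} * Nat.card (gu ι F q) := by
  obtain ⟨σ, hσ⟩ := exists_frob hF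
  have hσ2 : ∀ x, σ (σ x) = x := fun x => by rw [hσ, hσ, pow_q_pow_q hF]
  have h1 := Subgroup.card_mul_index
    (MulAction.stabilizer (gu (Unit ⊕ ι) F q) (e0 : Unit ⊕ ι → F))
  rw [MulAction.index_stabilizer, orbit_e0 hF, ← Nat.card_coe_set_eq] at h1
  have h2 : Nat.card (gu ι F q) =
      Nat.card (MulAction.stabilizer (gu (Unit ⊕ ι) F q) (e0 : Unit ⊕ ι → F)) := by
    refine Nat.card_eq_of_bijective
      (fun A => ⟨⟨blk A.1, (mem_gu _).2 (blkM_iso _ ((mem_gu _).1 A.2))⟩, blkM_e0 _⟩) ⟨?_, ?_⟩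
    · intro A A' hAA
      have h3 := congrArg (fun s : MulAction.stabilizer (gu (Unit ⊕ ι) F q)
        (e0 : Unit ⊕ ι → F) => (((s : gu (Unit ⊕ ι) F q) : GL (Unit ⊕ ι) F) :
          Matrix (Unit ⊕ ι) (Unit ⊕ ι) F)) hAA
      change blkM _ = blkM _ at h3
      rw [blkM, blkM, Matrix.fromBlocks_inj] at h3
      exact Subtype.ext (Units.ext h3.2.2.2)
    · intro s
      obtain ⟨A, hA, hAs⟩ := stab_form σ hσ hσ2 s.1.1 s.1.2 s.2
      exact ⟨⟨A, hA⟩, Subtype.ext (Subtype.ext hAs.symm)⟩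
  rw [← h1, h2, mul_comm]
  rfl

end stab

section reindex

variable {F : Type*} [Field F] {q : ℕ} {ι ι' : Type} [Fintype ι] [DecidableEq ι] [Fintype ι']
  [DecidableEq ι']

theorem hf_comp (e : ι ≃ ι') (a b : ι' → F) : hf ι q (a ∘ e) (b ∘ e) = hf ι' q a b := by
  unfold hf
  exact Equiv.sum_comp e (fun i => a i * b i ^ q)

theorem iso_reindex (e : ι ≃ ι') (M : Matrix ι ι F) :
    IsIso ι' q (Matrix.reindex e e M) ↔ IsIso ι q M := by
  have hmv : ∀ x : ι' → F, Matrix.reindex e e M *ᵥ x = (M *ᵥ (x ∘ e)) ∘ e.symm := by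
    intro x
    rw [Matrix.reindex_apply, Matrix.submatrix_mulVec_equiv]
    rfl
  constructor
  · intro h x y
    have h1 := h (x ∘ e.symm) (y ∘ e.symm)
    rw [hmv, hmv, ← hf_comp e, ← hf_comp e (x ∘ e.symm)] at h1
    have e1 : ∀ z : ι → F, (z ∘ e.symm) ∘ e = z := fun z => by
      funext i
      simp
    rw [e1, e1, e1, e1] at h1
    exact h1
  · intro h x y
    rw [hmv, hmv, ← hf_comp e, ← hf_comp e x y]
    have e1 : ∀ z : ι → F, (z ∘ e.symm) ∘ e = z := fun z => by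
      funext i
      simp
    rw [e1, e1]
    exact h (x ∘ e) (y ∘ e)

theorem card_gu_congr (e : ι ≃ ι') : Nat.card (gu ι F q) = Nat.card (gu ι' F q) := by
  refine Nat.card_congr (Equiv.subtypeEquiv
    (Units.mapEquiv (Matrix.reindexAlgEquiv F F e).toMulEquiv).toEquiv ?_)
  intro g
  change IsIso ι q (g : Matrix ι ι F) ↔ IsIso ι' q (Matrix.reindex e e (g : Matrix ι ι F))
  exact (iso_reindex e _).symm

theorem card_norm_congr (e : ι ≃ ι') :
    Nat.card {v : ι → F // hf ι q v v = 1} = Nat.card {v : ι' → F // hf ι' q v v = 1} := by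
  refine Nat.card_congr (Equiv.subtypeEquiv (Equiv.arrowCongr e (Equiv.refl F)) ?_)
  intro v
  rw [← hf_comp e]
  have e1 : (Equiv.arrowCongr e (Equiv.refl F) v) ∘ e = v := by
    funext i
    simp [Equiv.arrowCongr]
  rw [e1]

end reindex

section final

variable {F : Type*} [Field F] [Fintype F] {q : ℕ}

theorem card_GU_succ (hF : Fintype.card F = q ^ 2) (n : ℕ) :
    Nat.card (Cfsg.GU (n + 1) F q) = cnt q (n + 1) (1 : F) * Nat.card (Cfsg.GU n F q) := by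
  have e : Unit ⊕ Fin n ≃ Fin (n + 1) := Fintype.equivOfCardEq (by simp [add_comm])
  rw [GU_eq, GU_eq, ← card_gu_congr e, card_gu_succ hF, card_norm_congr e]
  congr 1
  unfold cnt
  refine Nat.card_congr (Equiv.subtypeEquivRight (fun v => ?_))
  have h1 : hf (Fin (n + 1)) q v v = ∑ i, v i ^ (q + 1) :=
    Finset.sum_congr rfl (fun i _ => (pow_succ' _ _).symm)
  rw [h1]

theorem card_GU (hF : Fintype.card F = q ^ 2) (n : ℕ) :
    Nat.card (Cfsg.GU n F q) = q ^ (n * (n - 1) / 2) *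
      ∏ i ∈ Finset.range n, (if Even i then q ^ (i + 1) + 1 else q ^ (i + 1) - 1) := by
  induction n with
  | zero =>
    haveI : Subsingleton (GL (Fin 0) F) := ⟨fun a b => Units.ext (Subsingleton.elim _ _)⟩
    rw [Nat.card_of_subsingleton (1 : Cfsg.GU 0 F q)]
    simp
  | succ n ih =>
    rw [card_GU_succ hF, ih, card_one hF, Finset.prod_range_succ, Nat.triangle_succ, pow_add,
      Nat.add_sub_cancel]
    by_cases he : Even n
    · have he' : ¬ Even (n + 1) := by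
        rw [Nat.even_add_one]
        exact not_not.2 he
      rw [if_neg he', if_pos he]
      ring
    · have he' : Even (n + 1) := by
        rw [Nat.even_add_one]
        exact he
      rw [if_pos he', if_neg he]
      ring

end final

end Cfsg.Agent.Lib.Helper1.Herm
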