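import Mathlib
import Cfsg.Prelude.Def_LieClassical
import Cfsg.Agent.Lib.Helper1.HermGU

set_option autoImplicit false

namespace Cfsg.Agent.Lib.Helper1.Herm

open Matrix

section dets

variable {F : Type*} [Field F] {q : ℕ} {ι : Type} [Fintype ι] [DecidableEq ι]

theorem iso_gram (σ : F →+* F) (hσ : ∀ x, σ x = x ^ q) (M : Matrix ι ι F) (h : IsIso ι q M) :
    Mᵀ * M.map σ = 1 := by
  ext i j
  have h1 := h (Pi.single i 1) (Pi.single j 1)
  rw [hf_single_right σ hσ, Matrix.mulVec_single_one, Matrix.mulVec_single_one, hf_eq σ hσ] at h1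
  rw [Matrix.mul_apply, Matrix.one_apply]
  have h2 : (Pi.single i (1 : F) : ι → F) j = if i = j then 1 else 0 := by
    rw [Pi.single_apply]
    by_cases hij : i = j
    · rw [if_pos hij, if_pos hij.symm]
    · rw [if_neg hij, if_neg (fun h => hij h.symm)]
  rw [← h2, ← h1]
  rfl

theorem iso_det (σ : F →+* F) (hσ : ∀ x, σ x = x ^ q) (M : Matrix ι ι F) (h : IsIso ι q M) :
    M.det ^ (q + 1) = 1 := by
  have h1 := congrArg Matrix.det (iso_gram σ hσ M h)
  rw [Matrix.det_mul, Matrix.det_transpose, Matrix.det_one, ← RingHom.mapMatrix_apply,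
    ← RingHom.map_det, hσ] at h1
  rw [pow_succ']
  exact h1

theorem diag_iso (d : ι → F) (hd : ∀ i, d i ^ (q + 1) = 1) : IsIso ι q (Matrix.diagonal d) := by
  intro x y
  unfold hf
  refine Finset.sum_congr rfl (fun i _ => ?_)
  rw [Matrix.mulVec_diagonal, Matrix.mulVec_diagonal, mul_pow]
  have h1 := hd i
  rw [pow_succ'] at h1
  linear_combination (x i * y i ^ q) * h1

theorem exists_gu_det [Nonempty ι] (σ : F →+* F) (hσ : ∀ x, σ x = x ^ q) (l : F)
    (hl : l ^ (q + 1) = 1) :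
    ∃ g : GL ι F, g ∈ gu ι F q ∧ (g : Matrix ι ι F).det = l := by
  obtain ⟨i0⟩ := ‹Nonempty ι›
  have hd : ∀ i, (Function.update (fun _ : ι => (1 : F)) i0 l) i ^ (q + 1) = 1 := by
    intro i
    by_cases hi : i = i0
    · rw [hi, Function.update_self, hl]
    · rw [Function.update_of_ne hi, one_pow]
  obtain ⟨g, hg, hgM⟩ := exists_gu σ hσ _ (diag_iso _ hd)
  refine ⟨g, hg, ?_⟩
  rw [hgM, Matrix.det_diagonal, Finset.prod_update_of_mem (Finset.mem_univ i0)]
  simp

end dets

section su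

variable {F : Type*} [Field F] [Fintype F] {q : ℕ}

theorem range_det (hF : Fintype.card F = q ^ 2) (n : ℕ) (hn : 1 ≤ n) :
    (Matrix.GeneralLinearGroup.det.comp (Cfsg.GU n F q).subtype).range =
      (powMonoidHom (q + 1) : Fˣ →* Fˣ).ker := by
  obtain ⟨σ, hσ⟩ := exists_frob hF
  haveI : Nonempty (Fin n) := ⟨⟨0, hn⟩⟩
  ext u
  rw [MonoidHom.mem_ker, powMonoidHom_apply]
  constructor
  · rintro ⟨g, rfl⟩
    apply Units.ext
    rw [Units.val_pow_eq_pow_val, Units.val_one]
    exact iso_det σ hσ _ g.2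
  · intro hu
    have hu' : (u : F) ^ (q + 1) = 1 := by
      have := congrArg Units.val hu
      rwa [Units.val_pow_eq_pow_val, Units.val_one] at this
    obtain ⟨g, hg, hdet⟩ := exists_gu_det (ι := Fin n) σ hσ (u : F) hu'
    refine ⟨⟨g, hg⟩, ?_⟩
    apply Units.ext
    exact hdet

theorem card_ker_det (n : ℕ) :
    Nat.card (Matrix.GeneralLinearGroup.det.comp (Cfsg.GU n F q).subtype).ker =
      Nat.card (Cfsg.SU n F q) := by
  symm
  refine Nat.card_eq_of_bijective
    (fun s => ⟨⟨Matrix.SpecialLinearGroup.toGL s.1, s.2⟩, ?_⟩) ⟨?_, ?_⟩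
  · rw [MonoidHom.mem_ker]
    apply Units.ext
    exact s.1.2
  · intro s s' hss
    have h1 := congrArg (fun k : (Matrix.GeneralLinearGroup.det.comp
      (Cfsg.GU n F q).subtype).ker => (((k : Cfsg.GU n F q) : GL (Fin n) F) :
        Matrix (Fin n) (Fin n) F)) hss
    exact Subtype.ext (Subtype.ext h1)
  · intro k
    have hk := k.2
    rw [MonoidHom.mem_ker] at hk
    have hdet : (((k : Cfsg.GU n F q) : GL (Fin n) F) : Matrix (Fin n) (Fin n) F).det = 1 :=
      congrArg Units.val hk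
    refine ⟨⟨⟨_, hdet⟩, k.1.2⟩, ?_⟩
    apply Subtype.ext
    apply Subtype.ext
    apply Units.ext
    rfl

theorem card_SU (hF : Fintype.card F = q ^ 2) (n : ℕ) (hn : 1 ≤ n) :
    (q + 1) * Nat.card (Cfsg.SU n F q) = Nat.card (Cfsg.GU n F q) := by
  have h1 := Subgroup.card_eq_card_quotient_mul_card_subgroup
    (Matrix.GeneralLinearGroup.det.comp (Cfsg.GU n F q).subtype).ker
  rw [Nat.card_congr (QuotientGroup.quotientKerEquivRange
    (Matrix.GeneralLinearGroup.det.comp (Cfsg.GU n F q).subtype)).toEquiv, range_det hF n hn,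
    card_ker_norm hF, card_ker_det] at h1
  exact h1.symm

end su

end Cfsg.Agent.Lib.Helper1.Herm
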