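import Mathlib
import Cfsg.Prelude.Def_LieClassical
import Cfsg.Agent.Lib.Helper1.HermSU

set_option autoImplicit false

namespace Cfsg.Agent.Lib.Helper1.Herm

open Matrix

section center

variable {F : Type*} [Field F] [Fintype F] {q : ℕ}

theorem exists_norm_one_sq_ne (hF : Fintype.card F = q ^ 2) :
    ∃ l : F, l ^ (q + 1) = 1 ∧ l ^ 2 ≠ 1 := by
  have hq := two_le_q hF
  by_contra hcon
  simp only [not_exists, not_and, not_not] at hcon
  have hle : (powMonoidHom (q + 1) : Fˣ →* Fˣ).ker ≤ (powMonoidHom 2 : Fˣ →* Fˣ).ker := by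
    intro l hl
    rw [MonoidHom.mem_ker, powMonoidHom_apply] at hl ⊢
    have h1 := congrArg Units.val hl
    rw [Units.val_pow_eq_pow_val, Units.val_one] at h1
    apply Units.ext
    rw [Units.val_pow_eq_pow_val, Units.val_one]
    exact hcon _ h1
  have h2 := Subgroup.card_le_of_le hle
  rw [card_ker_norm hF, IsCyclic.card_powMonoidHom_ker] at h2
  have h3 : Nat.gcd (Nat.card Fˣ) 2 ≤ 2 := Nat.gcd_le_right _ (by norm_num)
  omega

theorem center_comm (n : ℕ) (z : Cfsg.SU n F q) (hz : z ∈ Subgroup.center (Cfsg.SU n F q))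
    (M : Matrix (Fin n) (Fin n) F) (hdet : M.det = 1) (hiso : IsIso (Fin n) q M) :
    (z.1 : Matrix (Fin n) (Fin n) F) * M = M * (z.1 : Matrix (Fin n) (Fin n) F) := by
  have h1 := Subgroup.mem_center_iff.1 hz ⟨⟨M, hdet⟩, hiso⟩
  have h2 := congrArg (fun s : Cfsg.SU n F q => (s.1 : Matrix (Fin n) (Fin n) F)) h1
  exact h2.symm

theorem center_offdiag (hF : Fintype.card F = q ^ 2) (n : ℕ) (z : Cfsg.SU n F q)
    (hz : z ∈ Subgroup.center (Cfsg.SU n F q)) (a b : Fin n) (hab : a ≠ b) :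
    (z.1 : Matrix (Fin n) (Fin n) F) a b = 0 := by
  obtain ⟨l, hl, hl2⟩ := exists_norm_one_sq_ne hF
  have hl0 : l ≠ 0 := by
    rintro rfl
    rw [zero_pow (by omega)] at hl
    exact zero_ne_one hl
  have hd1 : ∀ i, (Function.update (fun _ : Fin n => (1 : F)) a l) i ^ (q + 1) = 1 := by
    intro i
    by_cases hi : i = a
    · rw [hi, Function.update_self, hl]
    · rw [Function.update_of_ne hi, one_pow]
  have hd2 : ∀ i, (Function.update (fun _ : Fin n => (1 : F)) b l⁻¹) i ^ (q + 1) = 1 := by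
    intro i
    by_cases hi : i = b
    · rw [hi, Function.update_self, inv_pow, hl, inv_one]
    · rw [Function.update_of_ne hi, one_pow]
  have hdet : (Matrix.diagonal (Function.update (fun _ : Fin n => (1 : F)) a l) *
      Matrix.diagonal (Function.update (fun _ : Fin n => (1 : F)) b l⁻¹)).det = 1 := by
    rw [Matrix.det_mul, Matrix.det_diagonal, Matrix.det_diagonal,
      Finset.prod_update_of_mem (Finset.mem_univ a), Finset.prod_update_of_mem (Finset.mem_univ b)]
    simp [hl0]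
  have h1 := center_comm n z hz _ hdet (iso_mul _ _ (diag_iso _ hd1) (diag_iso _ hd2))
  rw [Matrix.diagonal_mul_diagonal] at h1
  have h2 := congrFun (congrFun h1 a) b
  rw [Matrix.mul_diagonal, Matrix.diagonal_mul, Function.update_self,
    Function.update_of_ne hab.symm, Function.update_self, Function.update_of_ne hab] at h2
  have h3 : (z.1 : Matrix (Fin n) (Fin n) F) a b * (l⁻¹ - l) = 0 := by
    linear_combination h2
  rcases mul_eq_zero.1 h3 with h4 | h4
  · exact h4
  · exfalso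
    apply hl2
    have h5 : l⁻¹ = l := sub_eq_zero.1 h4
    rw [sq]
    nth_rewrite 1 [← h5]
    exact inv_mul_cancel₀ hl0

theorem center_diag (hF : Fintype.card F = q ^ 2) (n : ℕ) (z : Cfsg.SU n F q)
    (hz : z ∈ Subgroup.center (Cfsg.SU n F q)) (i j : Fin n) (hij : i ≠ j) :
    (z.1 : Matrix (Fin n) (Fin n) F) j j = (z.1 : Matrix (Fin n) (Fin n) F) i i := by
  obtain ⟨σ, hσ⟩ := exists_frob hF
  have hsi : ∀ k : Fin n, hf (Fin n) q (Pi.single k (1 : F)) (Pi.single k 1) = 1 := by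
    intro k
    rw [hf_single_right σ hσ, Pi.single_eq_same]
  obtain ⟨g, hg, hgv⟩ := gu_transitive hF (Pi.single i (1 : F)) (Pi.single j 1) (hsi i) (hsi j)
  have hδ := iso_det σ hσ _ ((mem_gu g).1 hg)
  have hδ0 : (g : Matrix (Fin n) (Fin n) F).det ≠ 0 := by
    intro h0
    rw [h0, zero_pow (by omega)] at hδ
    exact zero_ne_one hδ
  have hd1 : ∀ k, (Function.update (fun _ : Fin n => (1 : F)) i
      ((g : Matrix (Fin n) (Fin n) F).det)⁻¹) k ^ (q + 1) = 1 := by
    intro k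
    by_cases hk : k = i
    · rw [hk, Function.update_self, inv_pow, hδ, inv_one]
    · rw [Function.update_of_ne hk, one_pow]
  have hdet : ((g : Matrix (Fin n) (Fin n) F) * Matrix.diagonal (Function.update
      (fun _ : Fin n => (1 : F)) i ((g : Matrix (Fin n) (Fin n) F).det)⁻¹)).det = 1 := by
    rw [Matrix.det_mul, Matrix.det_diagonal, Finset.prod_update_of_mem (Finset.mem_univ i)]
    simp [hδ0]
  have h1 := center_comm n z hz _ hdet (iso_mul _ _ ((mem_gu g).1 hg) (diag_iso _ hd1))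
  have h2 := congrFun (congrFun h1 j) i
  have hgji : (g : Matrix (Fin n) (Fin n) F) j i = 1 := by
    have h3 := congrFun hgv j
    rw [Matrix.mulVec_single_one, Pi.single_eq_same] at h3
    exact h3
  have hM : ((g : Matrix (Fin n) (Fin n) F) * Matrix.diagonal (Function.update
      (fun _ : Fin n => (1 : F)) i ((g : Matrix (Fin n) (Fin n) F).det)⁻¹)) j i =
        ((g : Matrix (Fin n) (Fin n) F).det)⁻¹ := by
    rw [Matrix.mul_diagonal, Function.update_self, hgji, one_mul]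
  rw [Matrix.mul_apply, Matrix.mul_apply, Finset.sum_eq_single j, Finset.sum_eq_single i, hM] at h2
  · have h4 : ((z.1 : Matrix (Fin n) (Fin n) F) j j - (z.1 : Matrix (Fin n) (Fin n) F) i i) *
        ((g : Matrix (Fin n) (Fin n) F).det)⁻¹ = 0 := by
      linear_combination h2
    rcases mul_eq_zero.1 h4 with h5 | h5
    · exact sub_eq_zero.1 h5
    · exact absurd h5 (inv_ne_zero hδ0)
  · intro k _ hk
    rw [center_offdiag hF n z hz k i hk, mul_zero]
  · intro h
    exact absurd (Finset.mem_univ i) h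
  · intro k _ hk
    rw [center_offdiag hF n z hz j k hk.symm, zero_mul]
  · intro h
    exact absurd (Finset.mem_univ j) h

theorem center_scalar (hF : Fintype.card F = q ^ 2) (n : ℕ) (hn : 1 ≤ n) (z : Cfsg.SU n F q)
    (hz : z ∈ Subgroup.center (Cfsg.SU n F q)) :
    (z.1 : Matrix (Fin n) (Fin n) F) =
      ((z.1 : Matrix (Fin n) (Fin n) F) ⟨0, hn⟩ ⟨0, hn⟩) • (1 : Matrix (Fin n) (Fin n) F) := by
  ext a b
  rw [Matrix.smul_apply, Matrix.one_apply, smul_eq_mul]
  by_cases hab : a = b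
  · rw [if_pos hab, mul_one, ← hab]
    by_cases ha : a = ⟨0, hn⟩
    · rw [ha]
    · exact center_diag hF n z hz ⟨0, hn⟩ a (fun h => ha h.symm)
  · rw [if_neg hab, mul_zero]
    exact center_offdiag hF n z hz a b hab

theorem card_center_SU (hF : Fintype.card F = q ^ 2) (n : ℕ) (hn : 1 ≤ n) :
    Nat.card (Subgroup.center (Cfsg.SU n F q)) = Nat.gcd n (q + 1) := by
  have hq := two_le_q hF
  have hcard : Nat.card (powMonoidHom (Nat.gcd n (q + 1)) : Fˣ →* Fˣ).ker = Nat.gcd n (q + 1) := by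
    rw [IsCyclic.card_powMonoidHom_ker, card_units_sq hF, sq_sub_one (by omega)]
    exact Nat.gcd_eq_right ((Nat.gcd_dvd_right n (q + 1)).trans (Dvd.intro_left _ rfl))
  rw [← hcard]
  symm
  have hpow : ∀ l : (powMonoidHom (Nat.gcd n (q + 1)) : Fˣ →* Fˣ).ker,
      ((l : Fˣ) : F) ^ n = 1 ∧ ((l : Fˣ) : F) ^ (q + 1) = 1 := by
    intro l
    have h1 := l.2
    rw [MonoidHom.mem_ker, powMonoidHom_apply] at h1
    have h2 := congrArg Units.val h1
    rw [Units.val_pow_eq_pow_val, Units.val_one] at h2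
    constructor
    · obtain ⟨k, hk⟩ := Nat.gcd_dvd_left n (q + 1)
      nth_rewrite 2 [hk]
      rw [pow_mul, h2, one_pow]
    · obtain ⟨k, hk⟩ := Nat.gcd_dvd_right n (q + 1)
      nth_rewrite 2 [hk]
      rw [pow_mul, h2, one_pow]
  have hdet : ∀ l : (powMonoidHom (Nat.gcd n (q + 1)) : Fˣ →* Fˣ).ker,
      (((l : Fˣ) : F) • (1 : Matrix (Fin n) (Fin n) F)).det = 1 := by
    intro l
    rw [Matrix.det_smul, Matrix.det_one, mul_one, Fintype.card_fin]
    exact (hpow l).1
  refine Nat.card_eq_of_bijective (fun l => ⟨⟨⟨((l : Fˣ) : F) • (1 : Matrix (Fin n) (Fin n) F),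
    hdet l⟩, smul_iso _ (hpow l).2⟩, ?_⟩) ⟨?_, ?_⟩
  · rw [Subgroup.mem_center_iff]
    intro g
    apply Subtype.ext
    apply Subtype.ext
    change (g.1 : Matrix (Fin n) (Fin n) F) * (((l : Fˣ) : F) • (1 : Matrix (Fin n) (Fin n) F)) =
      (((l : Fˣ) : F) • (1 : Matrix (Fin n) (Fin n) F)) * (g.1 : Matrix (Fin n) (Fin n) F)
    rw [Matrix.mul_smul, Matrix.smul_mul, mul_one, one_mul]
  · intro l l' hll
    have h1 := congrArg (fun s : Subgroup.center (Cfsg.SU n F q) =>
      ((s : Cfsg.SU n F q).1 : Matrix (Fin n) (Fin n) F) ⟨0, hn⟩ ⟨0, hn⟩) hll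
    change (((l : Fˣ) : F) • (1 : Matrix (Fin n) (Fin n) F)) ⟨0, hn⟩ ⟨0, hn⟩ =
      (((l' : Fˣ) : F) • (1 : Matrix (Fin n) (Fin n) F)) ⟨0, hn⟩ ⟨0, hn⟩ at h1
    rw [Matrix.smul_apply, Matrix.smul_apply, Matrix.one_apply_eq, smul_eq_mul, smul_eq_mul,
      mul_one, mul_one] at h1
    exact Subtype.ext (Units.ext h1)
  · intro z
    have hs := center_scalar hF n hn z.1 z.2
    have hdz := z.1.1.2
    have hiz : IsIso (Fin n) q (z.1.1 : Matrix (Fin n) (Fin n) F) := z.1.2
    rw [hs, Matrix.det_smul, Matrix.det_one, mul_one, Fintype.card_fin] at hdz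
    have hl0 : (z.1.1 : Matrix (Fin n) (Fin n) F) ⟨0, hn⟩ ⟨0, hn⟩ ≠ 0 := by
      intro h0
      rw [h0, zero_pow (by omega)] at hdz
      exact zero_ne_one hdz
    obtain ⟨σ, hσ⟩ := exists_frob hF
    have hq1 : ((z.1.1 : Matrix (Fin n) (Fin n) F) ⟨0, hn⟩ ⟨0, hn⟩) ^ (q + 1) = 1 := by
      have h1 := hiz (Pi.single ⟨0, hn⟩ 1) (Pi.single ⟨0, hn⟩ 1)
      rw [hs, Matrix.smul_mulVec, Matrix.one_mulVec, hf_smul_left, hf_smul_right,
        hf_single_right σ hσ, Pi.single_eq_same, mul_one, ← pow_succ'] at h1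
      exact h1
    have hmem : Units.mk0 _ hl0 ∈ (powMonoidHom (Nat.gcd n (q + 1)) : Fˣ →* Fˣ).ker := by
      rw [MonoidHom.mem_ker, powMonoidHom_apply, ← orderOf_dvd_iff_pow_eq_one]
      apply Nat.dvd_gcd
      · rw [orderOf_dvd_iff_pow_eq_one]
        apply Units.ext
        rw [Units.val_pow_eq_pow_val, Units.val_mk0, Units.val_one]
        exact hdz
      · rw [orderOf_dvd_iff_pow_eq_one]
        apply Units.ext
        rw [Units.val_pow_eq_pow_val, Units.val_mk0, Units.val_one]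
        exact hq1
    refine ⟨⟨Units.mk0 _ hl0, hmem⟩, ?_⟩
    apply Subtype.ext
    apply Subtype.ext
    apply Subtype.ext
    exact hs.symm

theorem card_PSU (hF : Fintype.card F = q ^ 2) (n : ℕ) (hn : 1 ≤ n) :
    Nat.gcd n (q + 1) * ((q + 1) * Nat.card (Cfsg.PSU n F q)) = Nat.card (Cfsg.GU n F q) := by
  have h1 := Subgroup.card_eq_card_quotient_mul_card_subgroup (Subgroup.center (Cfsg.SU n F q))
  rw [card_center_SU hF n hn] at h1
  rw [← card_SU hF n hn, h1]
  ring

end center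

end Cfsg.Agent.Lib.Helper1.Herm
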