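import Cfsg.Prelude.Def_SporadicCombinatorics

set_option autoImplicit false

namespace Cfsg.Agent.Lib.Helper1.Hexa

open Cfsg

/-- the model of the field with four elements: `(a, b)` stands for `a + b ω` -/
abbrev M : Type := ZMod 2 × ZMod 2

/-- multiplication in the model -/
def mmul (p q : M) : M := (p.1 * q.1 + p.2 * q.2, p.1 * q.2 + p.2 * q.1 + p.2 * q.2)

/-- the model generators -/
def m1 : Fin 6 → M := ![(0, 1), (1, 1), (1, 1), (0, 1), (1, 1), (0, 1)]
def m2 : Fin 6 → M := ![(1, 1), (0, 1), (0, 1), (1, 1), (1, 1), (0, 1)]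
def m3 : Fin 6 → M := ![(1, 1), (0, 1), (1, 1), (0, 1), (0, 1), (1, 1)]

/-- the model code words -/
def wm (c : M × M × M) : Fin 6 → M :=
  fun j => mmul c.1 (m1 j) + mmul c.2.1 (m2 j) + mmul c.2.2 (m3 j)

/-- the model weight -/
def wt (w : Fin 6 → M) : ℕ := (Finset.univ.filter fun i => w i ≠ 0).card

theorem wm_inj : ∀ c c' : M × M × M, wm c = wm c' → c = c' := by decide +kernel

theorem wm_wt : ∀ c : M × M × M, wm c ≠ 0 → wt (wm c) = 4 ∨ wt (wm c) = 6 := by decide +kernel

theorem cnt4 : (Finset.univ.filter fun c : M × M × M => wt (wm c) = 4).card = 45 := by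
  decide +kernel

theorem cnt6 : (Finset.univ.filter fun c : M × M × M => wt (wm c) = 6).card = 18 := by
  decide +kernel

theorem two_eq_zero {F : Type*} [Field F] [Fintype F] (hF : Fintype.card F = 4) : (2 : F) = 0 := by
  have h2 := FiniteField.pow_card (2 : F)
  have h3 := FiniteField.pow_card (3 : F)
  rw [hF] at h2 h3
  have h14 : (2 : F) * 7 = 0 := by linear_combination h2
  rcases mul_eq_zero.mp h14 with h | h
  · exact h
  · exfalso
    have h1 : (1 : F) = 0 := by linear_combination h3 - 11 * h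
    exact one_ne_zero h1

section
variable {F : Type*} [Field F] [CharP F 2] (ω : F)

/-- the interpretation of the model -/
def e (p : M) : F := ZMod.castHom (dvd_refl 2) F p.1 + ZMod.castHom (dvd_refl 2) F p.2 * ω

theorem e_zero : e ω 0 = 0 := by
  unfold e
  simp

theorem e_add (p q : M) : e ω (p + q) = e ω p + e ω q := by
  unfold e
  simp only [Prod.fst_add, Prod.snd_add, map_add]
  ring

variable (hω : ω ^ 2 + ω + 1 = 0)
include hω

theorem e_mul (p q : M) : e ω (mmul p q) = e ω p * e ω q := by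
  have h2 : (2 : F) = 0 := CharTwo.two_eq_zero
  unfold e mmul
  simp only [map_add, map_mul]
  linear_combination (-(ZMod.castHom (dvd_refl 2) F p.2 * ZMod.castHom (dvd_refl 2) F q.2)) * hω
    + (ZMod.castHom (dvd_refl 2) F p.2 * ZMod.castHom (dvd_refl 2) F q.2 * (1 + ω)) * h2

theorem e_eq_zero (p : M) (h : e ω p = 0) : p = 0 := by
  have h2 : (2 : F) = 0 := CharTwo.two_eq_zero
  have hc : ∀ a : ZMod 2, a = 0 ∨ a = 1 := by decide
  obtain ⟨a, b⟩ := p
  unfold e at h
  rcases hc a with rfl | rfl <;> rcases hc b with rfl | rfl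
  · rfl
  · exfalso
    simp only [map_zero, map_one, zero_add, one_mul] at h
    rw [h] at hω
    simp at hω
  · exfalso
    simp only [map_zero, map_one, zero_mul, add_zero] at h
    exact one_ne_zero h
  · exfalso
    simp only [map_one, one_mul] at h
    have h1 : (1 : F) = 0 := by
      have h3 : ω = -1 := by linear_combination h
      rw [h3] at hω
      linear_combination hω
    exact one_ne_zero h1

theorem e_inj : Function.Injective (e ω) := by
  intro p q h
  have h2 : (2 : F) = 0 := CharTwo.two_eq_zero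
  have h1 : e ω (p + q) = 0 := by
    rw [e_add, h]
    linear_combination (e ω q) * h2
  have h3 := e_eq_zero ω hω _ h1
  have h4 : ∀ p q : M, p + q = 0 → p = q := by decide
  exact h4 p q h3

theorem e_m1 : ![ω, ω ^ 2, ω ^ 2, ω, ω ^ 2, ω] = fun j => e ω (m1 j) := by
  have h2 : (2 : F) = 0 := CharTwo.two_eq_zero
  have hw2 : ω ^ 2 = 1 + ω := by linear_combination hω - (1 + ω) * h2
  funext j
  fin_cases j <;> simp [e, m1, hw2]

theorem e_m2 : ![ω ^ 2, ω, ω, ω ^ 2, ω ^ 2, ω] = fun j => e ω (m2 j) := by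
  have h2 : (2 : F) = 0 := CharTwo.two_eq_zero
  have hw2 : ω ^ 2 = 1 + ω := by linear_combination hω - (1 + ω) * h2
  funext j
  fin_cases j <;> simp [e, m2, hw2]

theorem e_m3 : ![ω ^ 2, ω, ω ^ 2, ω, ω, ω ^ 2] = fun j => e ω (m3 j) := by
  have h2 : (2 : F) = 0 := CharTwo.two_eq_zero
  have hw2 : ω ^ 2 = 1 + ω := by linear_combination hω - (1 + ω) * h2
  funext j
  fin_cases j <;> simp [e, m3, hw2]

/-- the interpretation of a model word -/
def Em (w : Fin 6 → M) : Fin 6 → F := fun j => e ω (w j)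

omit hω in
theorem Em_zero : Em ω (0 : Fin 6 → M) = 0 := by
  funext j
  exact e_zero ω

theorem Em_inj : Function.Injective (Em ω : (Fin 6 → M) → (Fin 6 → F)) := by
  intro v w h
  funext j
  exact e_inj ω hω (congrFun h j)

theorem Em_wt [DecidableEq F] (w : Fin 6 → M) :
    (Finset.univ.filter fun i => Em ω w i ≠ 0).card = wt w := by
  unfold wt
  congr 1
  apply Finset.filter_congr
  intro i _
  constructor
  · intro h hh
    apply h
    show e ω (w i) = 0
    rw [hh, e_zero]
  · intro h hh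
    exact h (e_eq_zero ω hω _ hh)

theorem comb (a b c : M) :
    e ω a • ![ω, ω ^ 2, ω ^ 2, ω, ω ^ 2, ω] + e ω b • ![ω ^ 2, ω, ω, ω ^ 2, ω ^ 2, ω]
      + e ω c • ![ω ^ 2, ω, ω ^ 2, ω, ω, ω ^ 2] = Em ω (wm (a, b, c)) := by
  rw [e_m1 ω hω, e_m2 ω hω, e_m3 ω hω]
  funext j
  show e ω a * e ω (m1 j) + e ω b * e ω (m2 j) + e ω c * e ω (m3 j) = e ω (wm (a, b, c) j)
  unfold wm
  rw [e_add, e_add, e_mul ω hω, e_mul ω hω, e_mul ω hω]

theorem mem_iff [Fintype F] (hF : Fintype.card F = 4) (x : Fin 6 → F) :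
    x ∈ hexacode F ω ↔ ∃ c : M × M × M, Em ω (wm c) = x := by
  have hsurj : Function.Surjective (e ω : M → F) := by
    have hb : Function.Bijective (e ω : M → F) := by
      rw [Fintype.bijective_iff_injective_and_card]
      refine ⟨e_inj ω hω, ?_⟩
      rw [hF]
      decide
    exact hb.2
  unfold hexacode
  rw [Submodule.mem_span_triple]
  constructor
  · rintro ⟨a, b, c, h⟩
    obtain ⟨a', rfl⟩ := hsurj a
    obtain ⟨b', rfl⟩ := hsurj b
    obtain ⟨c', rfl⟩ := hsurj c
    exact ⟨(a', b', c'), by rw [← comb ω hω, h]⟩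
  · rintro ⟨⟨a, b, c⟩, h⟩
    exact ⟨e ω a, e ω b, e ω c, by rw [comb ω hω, h]⟩

theorem code_eq [Fintype F] (hF : Fintype.card F = 4) :
    ((hexacode F ω : Submodule F (Fin 6 → F)) : Set (Fin 6 → F))
      = (fun c => Em ω (wm c)) '' (Set.univ : Set (M × M × M)) := by
  ext x
  rw [SetLike.mem_coe, mem_iff ω hω hF]
  simp

theorem comp_inj : Function.Injective (fun c : M × M × M => (Em ω (wm c) : Fin 6 → F)) := by
  intro c c' h
  exact wm_inj c c' (Em_inj ω hω h)

theorem card_code [Fintype F] (hF : Fintype.card F = 4) : Nat.card ↥(hexacode F ω) = 64 := by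
  have h1 : Nat.card ↥(hexacode F ω)
      = Set.ncard ((hexacode F ω : Submodule F (Fin 6 → F)) : Set (Fin 6 → F)) := rfl
  rw [h1, code_eq ω hω hF, Set.ncard_image_of_injective _ (comp_inj ω hω), Set.ncard_univ,
    Nat.card_eq_fintype_card]
  decide

theorem wt_cases [Fintype F] [DecidableEq F] (hF : Fintype.card F = 4) (x : Fin 6 → F)
    (hx : x ∈ hexacode F ω) (h0 : x ≠ 0) :
    (Finset.univ.filter fun i => x i ≠ 0).card = 4 ∨ (Finset.univ.filter fun i => x i ≠ 0).card = 6 := by
  obtain ⟨c, rfl⟩ := (mem_iff ω hω hF x).mp hx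
  rw [Em_wt ω hω]
  apply wm_wt
  intro h
  apply h0
  rw [h, Em_zero]

theorem wt_count [Fintype F] [DecidableEq F] (hF : Fintype.card F = 4) (k : ℕ) :
    {x : Fin 6 → F | x ∈ hexacode F ω ∧ (Finset.univ.filter fun i => x i ≠ 0).card = k}.ncard
      = (Finset.univ.filter fun c : M × M × M => wt (wm c) = k).card := by
  have h1 : {x : Fin 6 → F | x ∈ hexacode F ω ∧ (Finset.univ.filter fun i => x i ≠ 0).card = k}
      = (fun c => Em ω (wm c)) ''
        ((Finset.univ.filter fun c : M × M × M => wt (wm c) = k : Finset (M × M × M)) : Set (M × M × M)) := by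
    ext x
    simp only [Set.mem_setOf_eq, Set.mem_image, Finset.coe_filter, Finset.mem_univ, true_and]
    constructor
    · rintro ⟨hx, hk⟩
      obtain ⟨c, rfl⟩ := (mem_iff ω hω hF x).mp hx
      rw [Em_wt ω hω] at hk
      exact ⟨c, hk, rfl⟩
    · rintro ⟨c, hk, rfl⟩
      refine ⟨(mem_iff ω hω hF _).mpr ⟨c, rfl⟩, ?_⟩
      rw [Em_wt ω hω]
      exact hk
  rw [h1, Set.ncard_image_of_injective _ (comp_inj ω hω), Set.ncard_coe_finset]

end

end Cfsg.Agent.Lib.Helper1.Hexa
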