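import Cfsg.Agent.Lib.Helper1.Hexa2

set_option autoImplicit false

namespace Cfsg.Agent.Lib.Helper1.Hexa

open Cfsg

section
variable {F : Type*} [Field F] (ω : F)

/-- the monomial map preserves the hexacode -/
def good (σ : Equiv.Perm (Fin 6)) (c : Fin 6 → Fˣ) : Prop :=
  ∀ x ∈ hexacode F ω, monomialMap σ c x ∈ hexacode F ω

theorem good_one : good ω 1 (fun _ => 1) := by
  intro x hx
  have h : monomialMap (1 : Equiv.Perm (Fin 6)) (fun _ => (1 : Fˣ)) x = x := by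
    funext i
    simp [monomialMap]
    rfl
  rw [h]
  exact hx

theorem good_mul {σ τ : Equiv.Perm (Fin 6)} {c d : Fin 6 → Fˣ} (h1 : good ω σ c)
    (h2 : good ω τ d) : good ω (σ * τ) (fun i => c i * d (σ.symm i)) := by
  intro x hx
  have h3 := h1 _ (h2 x hx)
  have h : monomialMap (σ * τ) (fun i => c i * d (σ.symm i)) x
      = monomialMap σ c (monomialMap τ d x) := by
    funext i
    simp [monomialMap, mul_assoc]
    rfl
  rw [h]
  exact h3

theorem good_smul {σ : Equiv.Perm (Fin 6)} {c : Fin 6 → Fˣ} (l : Fˣ) (h1 : good ω σ c) :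
    good ω σ (fun i => l * c i) := by
  intro x hx
  have h : monomialMap σ (fun i => l * c i) x = (l : F) • monomialMap σ c x := by
    funext i
    simp [monomialMap, mul_assoc]
  rw [h]
  exact Submodule.smul_mem _ _ (h1 x hx)

theorem good_gen (σ : Equiv.Perm (Fin 6)) (c : Fin 6 → Fˣ) :
    good ω σ c ↔ (monomialMap σ c ![ω, ω ^ 2, ω ^ 2, ω, ω ^ 2, ω] ∈ hexacode F ω ∧
      monomialMap σ c ![ω ^ 2, ω, ω, ω ^ 2, ω ^ 2, ω] ∈ hexacode F ω ∧
      monomialMap σ c ![ω ^ 2, ω, ω ^ 2, ω, ω, ω ^ 2] ∈ hexacode F ω) := by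
  constructor
  · intro h
    refine ⟨h _ ?_, h _ ?_, h _ ?_⟩ <;> apply Submodule.subset_span <;> simp
  · rintro ⟨h1, h2, h3⟩ x hx
    unfold hexacode at hx
    rw [Submodule.mem_span_triple] at hx
    obtain ⟨a, b, c', rfl⟩ := hx
    have h : monomialMap σ c (a • ![ω, ω ^ 2, ω ^ 2, ω, ω ^ 2, ω]
        + b • ![ω ^ 2, ω, ω, ω ^ 2, ω ^ 2, ω] + c' • ![ω ^ 2, ω, ω ^ 2, ω, ω, ω ^ 2])
        = a • monomialMap σ c ![ω, ω ^ 2, ω ^ 2, ω, ω ^ 2, ω]
          + b • monomialMap σ c ![ω ^ 2, ω, ω, ω ^ 2, ω ^ 2, ω]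
          + c' • monomialMap σ c ![ω ^ 2, ω, ω ^ 2, ω, ω, ω ^ 2] := by
      funext i
      simp only [monomialMap, Pi.add_apply, Pi.smul_apply, smul_eq_mul]
      ring
    rw [h]
    exact add_mem (add_mem (Submodule.smul_mem _ _ h1) (Submodule.smul_mem _ _ h2))
      (Submodule.smul_mem _ _ h3)

end

section
variable {F : Type*} [Field F] [CharP F 2] (ω : F) (hω : ω ^ 2 + ω + 1 = 0)
include hω

theorem e_surj [Fintype F] (hF : Fintype.card F = 4) : Function.Surjective (e ω : M → F) := by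
  have hb : Function.Bijective (e ω : M → F) := by
    rw [Fintype.bijective_iff_injective_and_card]
    refine ⟨e_inj ω hω, ?_⟩
    rw [hF]
    decide
  exact hb.2

theorem mem_inC [Fintype F] (hF : Fintype.card F = 4) (w : Fin 6 → M) :
    Em ω w ∈ hexacode F ω ↔ inC w = true := by
  rw [mem_iff ω hω hF]
  constructor
  · rintro ⟨c, hc⟩
    rw [← Em_inj ω hω hc]
    exact inC_wm c
  · intro h
    obtain ⟨c, hc⟩ := inC_dec w h
    exact ⟨c, by rw [hc]⟩

theorem mono_model (σ : Equiv.Perm (Fin 6)) (c : Fin 6 → Fˣ) (cm : Fin 6 → M)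
    (hcm : ∀ i, e ω (cm i) = (c i : F)) (m : Fin 6 → M) :
    monomialMap σ c (fun j => e ω (m j)) = Em ω (tw (⇑σ.symm) cm m) := by
  funext i
  show (c i : F) * e ω (m (σ.symm i)) = e ω (mmul (cm i) (m (σ.symm i)))
  rw [e_mul ω hω, hcm i]

theorem good_iff [Fintype F] (hF : Fintype.card F = 4) (σ : Equiv.Perm (Fin 6))
    (c : Fin 6 → Fˣ) (cm : Fin 6 → M) (hcm : ∀ i, e ω (cm i) = (c i : F)) :
    good ω σ c ↔ chk (⇑σ.symm) cm = true := by
  rw [good_gen, e_m1 ω hω, e_m2 ω hω, e_m3 ω hω, mono_model ω hω σ c cm hcm m1,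
    mono_model ω hω σ c cm hcm m2, mono_model ω hω σ c cm hcm m3, mem_inC ω hω hF,
    mem_inC ω hω hF, mem_inC ω hω hF]
  unfold chk
  simp only [Bool.and_eq_true]

theorem exists_cm [Fintype F] (hF : Fintype.card F = 4) (c : Fin 6 → Fˣ) :
    ∃ cm : Fin 6 → M, (∀ i, e ω (cm i) = (c i : F)) ∧ ∀ i, cm i ≠ 0 := by
  choose cm hcm using fun i => e_surj ω hω hF (c i : F)
  refine ⟨cm, hcm, fun i h => ?_⟩
  have h1 := hcm i
  rw [h, e_zero] at h1
  exact (c i).ne_zero h1.symm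

theorem exists_units (cm : Fin 6 → M) (h : ∀ i, cm i ≠ 0) :
    ∃ c : Fin 6 → Fˣ, ∀ i, e ω (cm i) = (c i : F) :=
  ⟨fun i => Units.mk0 (e ω (cm i)) (fun hh => h i (e_eq_zero ω hω _ hh)), fun _ => rfl⟩

theorem diag [Fintype F] (hF : Fintype.card F = 4) (c : Fin 6 → Fˣ) (h : good ω 1 c) :
    ∀ i j, c i = c j := by
  obtain ⟨cm, hcm, hne⟩ := exists_cm ω hω hF c
  have h1 := (good_iff ω hω hF 1 c cm hcm).mp h
  have h2 : (⇑(1 : Equiv.Perm (Fin 6)).symm : Fin 6 → Fin 6) = id := rfl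
  rw [h2] at h1
  have h3 := diag_m (cm 0, cm 1, cm 2) (cm 3, cm 4, cm 5) (nz_of _ _ _ (hne 0) (hne 1) (hne 2))
    (nz_of _ _ _ (hne 3) (hne 4) (hne 5))
  rw [← vec6 cm] at h3
  have h5 := h3 h1
  have h4 : ∀ i, cm i = cm 0 := by
    intro i
    fin_cases i
    · rfl
    · exact h5.1.symm
    · exact h5.2.1.symm
    · exact h5.2.2.1.symm
    · exact h5.2.2.2.1.symm
    · exact h5.2.2.2.2.symm
  intro i j
  apply Units.ext
  rw [← hcm i, ← hcm j, h4 i, h4 j]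

theorem no_swap [Fintype F] (hF : Fintype.card F = 4) (c : Fin 6 → Fˣ) :
    ¬ good ω (Equiv.swap (0 : Fin 6) 1) c := by
  intro h
  obtain ⟨cm, hcm, hne⟩ := exists_cm ω hω hF c
  have h1 := (good_iff ω hω hF _ c cm hcm).mp h
  have h2 : (⇑(Equiv.swap (0 : Fin 6) 1).symm : Fin 6 → Fin 6) = s01 := by
    funext i
    fin_cases i <;> rfl
  rw [h2] at h1
  have h3 := odd_m (cm 0, cm 1, cm 2) (cm 3, cm 4, cm 5) (nz_of _ _ _ (hne 0) (hne 1) (hne 2))
    (nz_of _ _ _ (hne 3) (hne 4) (hne 5))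
  rw [← vec6 cm] at h3
  rw [h3] at h1
  exact Bool.false_ne_true h1

theorem dswap_good [Fintype F] (hF : Fintype.card F = 4) (a b c d : Fin 6) (hab : a ≠ b)
    (hcd : c ≠ d) : ∃ c', good ω (Equiv.swap a b * Equiv.swap c d) c' := by
  obtain ⟨c', hc'⟩ := exists_units ω hω (wit a b c d) (fun i => dm_ne _)
  refine ⟨c', (good_iff ω hω hF _ c' _ hc').mpr ?_⟩
  have h2 : (⇑(Equiv.swap a b * Equiv.swap c d).symm : Fin 6 → Fin 6) = sw2 a b c d := rfl
  rw [h2]
  exact wit_ok a b c d hab hcd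

theorem even_good [Fintype F] (hF : Fintype.card F = 4) (σ : Equiv.Perm (Fin 6))
    (hσ : σ ∈ alternatingGroup (Fin 6)) : ∃ c, good ω σ c := by
  suffices hind : ∀ (n : ℕ) (l : List (Equiv.Perm (Fin 6)))
      (_ : ∀ g, g ∈ l → Equiv.Perm.IsSwap g) (_ : l.length = 2 * n), ∃ c, good ω l.prod c by
    obtain ⟨l, rfl, hl⟩ := Equiv.Perm.truncSwapFactors σ
    obtain ⟨n, hn⟩ := (Equiv.Perm.prod_list_swap_mem_alternatingGroup_iff_even_length hl).1 hσ
    rw [← two_mul] at hn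
    exact hind n l hl hn
  intro n
  induction n with
  | zero =>
    intro l hl hn
    rw [List.length_eq_zero_iff.1 hn, List.prod_nil]
    exact ⟨_, good_one ω⟩
  | succ n ih =>
    intro l hl hn
    rw [Nat.mul_succ] at hn
    obtain ⟨a, l, rfl⟩ := l.exists_of_length_succ hn
    rw [List.length_cons, Nat.succ_inj] at hn
    obtain ⟨b, l, rfl⟩ := l.exists_of_length_succ hn
    rw [List.length_cons, Nat.succ_inj] at hn
    rw [List.prod_cons, List.prod_cons, ← mul_assoc]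
    obtain ⟨x, y, hxy, hx⟩ := hl a List.mem_cons_self
    obtain ⟨z, t, hzt, hz⟩ := hl b (List.mem_cons_of_mem _ List.mem_cons_self)
    obtain ⟨c1, h1⟩ := dswap_good ω hω hF x y z t hxy hzt
    obtain ⟨c2, h2⟩ := ih l
      (fun g hg => hl g (List.mem_cons_of_mem _ (List.mem_cons_of_mem _ hg))) hn
    rw [hx, hz]
    exact ⟨_, good_mul ω h1 h2⟩

theorem good_even [Fintype F] (hF : Fintype.card F = 4) (σ : Equiv.Perm (Fin 6))
    (c : Fin 6 → Fˣ) (h : good ω σ c) : σ ∈ alternatingGroup (Fin 6) := by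
  by_contra hσ
  rw [Equiv.Perm.mem_alternatingGroup] at hσ
  have hs : Equiv.Perm.sign σ = -1 := (Int.units_eq_one_or _).resolve_left hσ
  have hρ : Equiv.swap (0 : Fin 6) 1 * σ⁻¹ ∈ alternatingGroup (Fin 6) := by
    rw [Equiv.Perm.mem_alternatingGroup, map_mul, map_inv, hs,
      Equiv.Perm.sign_swap (by decide)]
    decide
  obtain ⟨d, hd⟩ := even_good ω hω hF _ hρ
  have h2 := good_mul ω hd h
  rw [inv_mul_cancel_right] at h2
  exact no_swap ω hω hF _ h2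

theorem set_eq [Fintype F] (hF : Fintype.card F = 4) :
    {σ : Equiv.Perm (Fin 6) | ∃ c : Fin 6 → Fˣ, good ω σ c}
      = (alternatingGroup (Fin 6) : Set (Equiv.Perm (Fin 6))) := by
  ext σ
  constructor
  · rintro ⟨c, hc⟩
    exact good_even ω hω hF σ c hc
  · intro h
    exact even_good ω hω hF σ h

theorem fiber [Fintype F] (hF : Fintype.card F = 4) (σ : Equiv.Perm (Fin 6))
    (c c₀ : Fin 6 → Fˣ) (h : good ω σ c) (h₀ : good ω σ c₀) :
    ∀ k, c k = (c 0 * (c₀ 0)⁻¹) * c₀ k := by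
  have hσ := good_even ω hω hF σ c h
  have hσi : σ⁻¹ ∈ alternatingGroup (Fin 6) := inv_mem hσ
  obtain ⟨c', hc'⟩ := even_good ω hω hF _ hσi
  have h1 := good_mul ω hc' h
  have h2 := good_mul ω hc' h₀
  rw [inv_mul_cancel] at h1 h2
  have d1 := diag ω hω hF _ h1
  have d2 := diag ω hω hF _ h2
  intro k
  have key : ∀ (c : Fin 6 → Fˣ), (∀ i j, c' i * c ((σ⁻¹).symm i) = c' j * c ((σ⁻¹).symm j)) →
      ∀ k, c k = (c' (σ⁻¹ k))⁻¹ * (c' (σ⁻¹ 0) * c 0) := by
    intro c hd k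
    have e1 := hd (σ⁻¹ k) (σ⁻¹ 0)
    rw [Equiv.symm_apply_apply, Equiv.symm_apply_apply] at e1
    exact eq_inv_mul_of_mul_eq e1
  rw [key c d1 k, key c₀ d2 k, key c₀ d2 0, key c d1 0]
  simp only [mul_inv_rev, inv_inv]
  have hcomm : ∀ a b : Fˣ, a * b = b * a := mul_comm
  generalize c' (σ⁻¹ k) = p
  generalize c' (σ⁻¹ 0) = q
  generalize c 0 = r
  generalize c₀ 0 = s
  apply Units.ext
  push_cast
  field_simp

theorem count [Fintype F] [DecidableEq F] (hF : Fintype.card F = 4) :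
    Nat.card {f : Equiv.Perm (Fin 6) × (Fin 6 → Fˣ) // good ω f.1 f.2} = 1080 := by
  choose c₀ hc₀ using fun σ : ↥(alternatingGroup (Fin 6)) => even_good ω hω hF σ.1 σ.2
  have hE : {f : Equiv.Perm (Fin 6) × (Fin 6 → Fˣ) // good ω f.1 f.2}
      ≃ ↥(alternatingGroup (Fin 6)) × Fˣ :=
    { toFun := fun f => (⟨f.1.1, good_even ω hω hF _ _ f.2⟩,
        f.1.2 0 * (c₀ ⟨f.1.1, good_even ω hω hF _ _ f.2⟩ 0)⁻¹)
      invFun := fun p => ⟨(p.1.1, fun i => p.2 * c₀ p.1 i), good_smul ω p.2 (hc₀ p.1)⟩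
      left_inv := by
        intro f
        apply Subtype.ext
        apply Prod.ext
        · rfl
        · funext i
          exact (fiber ω hω hF f.1.1 f.1.2 (c₀ ⟨f.1.1, good_even ω hω hF _ _ f.2⟩) f.2
            (hc₀ _) i).symm
      right_inv := by
        intro p
        apply Prod.ext
        · rfl
        · show p.2 * c₀ p.1 0 * (c₀ p.1 0)⁻¹ = p.2
          exact mul_inv_cancel_right _ _ }
  rw [Nat.card_congr hE, Nat.card_prod, nat_card_alternatingGroup, Nat.card_units,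
    Nat.card_eq_fintype_card (α := F), hF, Nat.card_eq_fintype_card, Fintype.card_fin]
  decide

end

end Cfsg.Agent.Lib.Helper1.Hexa
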