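import Mathlib
import Cfsg.Agent.Lib.Helper1.A8b

set_option autoImplicit false

namespace Cfsg.Agent.Lib.Helper1.IsoCongr

open Matrix

theorem map_mem {ι : Type} [Fintype ι] [DecidableEq ι] {F K : Type*} [Field F] [Field K]
    (e : F ≃+* K) (Q : (ι → F) → F) (Q' : (ι → K) → K)
    (hQ : ∀ v : ι → F, Q' (fun i => e (v i)) = e (Q v))
    (g : GL ι F) (hg : g ∈ Cfsg.isometryGroup F Q) :
    Matrix.GeneralLinearGroup.map (e : F →+* K) g ∈ Cfsg.isometryGroup K Q' := by
  rw [Orth.mem_isometryGroup] at hg ⊢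
  intro u'
  have hu : u' = fun i => e (e.symm (u' i)) := by
    funext i
    simp
  have h1 : ((Matrix.GeneralLinearGroup.map (e : F →+* K) g : GL ι K) : Matrix ι ι K) *ᵥ u'
      = fun i => e (((g : Matrix ι ι F) *ᵥ (fun i => e.symm (u' i))) i) := by
    funext i
    have := RingHom.map_mulVec (e : F →+* K) (g : Matrix ι ι F) (fun i => e.symm (u' i)) i
    rw [show (e : F →+* K) (((g : Matrix ι ι F) *ᵥ fun i => e.symm (u' i)) i)
      = e (((g : Matrix ι ι F) *ᵥ fun i => e.symm (u' i)) i) from rfl] at this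
    rw [this]
    have hcomp : (⇑(e : F →+* K) ∘ fun i => e.symm (u' i)) = u' := by
      funext k
      simp
    rw [hcomp]
    rfl
  rw [h1, hQ, hg, ← hQ, ← hu]

theorem isoCongr {ι : Type} [Fintype ι] [DecidableEq ι] {F K : Type*} [Field F] [Field K]
    (e : F ≃+* K) (Q : (ι → F) → F) (Q' : (ι → K) → K)
    (hQ : ∀ v : ι → F, Q' (fun i => e (v i)) = e (Q v)) :
    Nonempty (Cfsg.isometryGroup F Q ≃* Cfsg.isometryGroup K Q') := by
  have hQ' : ∀ v : ι → K, Q (fun i => e.symm (v i)) = e.symm (Q' v) := by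
    intro v
    apply e.injective
    rw [← hQ]
    simp
  have h1 : ∀ g : GL ι F, Matrix.GeneralLinearGroup.map (e.symm : K →+* F)
      (Matrix.GeneralLinearGroup.map (e : F →+* K) g) = g := by
    intro g
    apply Units.ext
    refine Matrix.ext fun i j => ?_
    show e.symm (e ((g : Matrix ι ι F) i j)) = _
    simp
  have h2 : ∀ g : GL ι K, Matrix.GeneralLinearGroup.map (e : F →+* K)
      (Matrix.GeneralLinearGroup.map (e.symm : K →+* F) g) = g := by
    intro g
    apply Units.ext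
    refine Matrix.ext fun i j => ?_
    show e (e.symm ((g : Matrix ι ι K) i j)) = _
    simp
  let E : Cfsg.isometryGroup F Q ≃ Cfsg.isometryGroup K Q' :=
    ⟨fun g => ⟨Matrix.GeneralLinearGroup.map (e : F →+* K) g.1, map_mem e Q Q' hQ g.1 g.2⟩,
      fun g => ⟨Matrix.GeneralLinearGroup.map (e.symm : K →+* F) g.1,
        map_mem e.symm Q' Q hQ' g.1 g.2⟩,
      fun g => Subtype.ext (h1 g.1), fun g => Subtype.ext (h2 g.1)⟩
  exact ⟨MulEquiv.mk E (fun a b => Subtype.ext (map_mul _ a.1 b.1))⟩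

theorem o6_s8 {F : Type*} [Field F] [Fintype F] (hF : Fintype.card F = 2) :
    Nonempty (Cfsg.isometryGroup F (Cfsg.quadFormPlus 3 F) ≃* Equiv.Perm (Fin 8)) := by
  have e := ZMod.ringEquivOfPrime F Nat.prime_two hF
  obtain ⟨e1⟩ := isoCongr e.symm (Cfsg.quadFormPlus 3 F) (Cfsg.quadFormPlus 3 (ZMod 2)) (by
    intro v
    unfold Cfsg.quadFormPlus
    rw [map_sum]
    simp)
  exact ⟨e1.trans (MulEquiv.ofBijective A8.Phi A8.Phi_bijective).symm⟩

end Cfsg.Agent.Lib.Helper1.IsoCongr
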