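import Mathlib

set_option autoImplicit false

namespace Cfsg.Agent.Lib.Helper1.Jordan

open MulAction

variable {G α : Type*} [Group G] [MulAction G α]

/-- sharp `k`-transitivity as a proposition -/
def Sharp (G α : Type*) [Group G] [MulAction G α] (k : ℕ) : Prop :=
  (∀ x y : Fin k ↪ α, ∃ g : G, g • x = y) ∧
    (∀ (x : Fin k ↪ α) (g : G), g • x = x → g = 1)

theorem sharp_of (k : ℕ) [IsMultiplyPretransitive G α k]
    (hs : ∀ x : Fin k ↪ α, stabilizer G x = ⊥) : Sharp G α k := by
  refine ⟨fun x y => exists_smul_eq G x y, fun x g hg => ?_⟩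
  have h1 : g ∈ stabilizer G x := hg
  rw [hs x] at h1
  exact Subgroup.mem_bot.mp h1

theorem sharp_inj {k : ℕ} (h : Sharp G α k) (x : Fin k ↪ α) :
    Function.Injective (fun g : G => g • x) := by
  intro g g' e
  have e' : g • x = g' • x := e
  have h1 : (g⁻¹ * g') • x = x := by
    rw [mul_smul, ← e', inv_smul_smul]
  exact inv_mul_eq_one.mp (h.2 x _ h1)

theorem exists_emb [Finite α] {k : ℕ} (hk : k ≤ Nat.card α) : Nonempty (Fin k ↪ α) := by
  classical
  haveI := Fintype.ofFinite α
  exact Function.Embedding.nonempty_of_card_le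
    (by simpa [Nat.card_eq_fintype_card] using hk)

theorem sharp_finite [Finite α] {k : ℕ} (h : Sharp G α k) (hk : k ≤ Nat.card α) :
    Finite G := by
  obtain ⟨x⟩ := exists_emb (α := α) hk
  exact Finite.of_injective _ (sharp_inj h x)

theorem sharp_card [Finite α] {k : ℕ} (h : Sharp G α k) (hk : k ≤ Nat.card α) :
    Nat.card G = (Nat.card α).descFactorial k := by
  classical
  haveI := Fintype.ofFinite α
  obtain ⟨x⟩ := exists_emb (α := α) hk
  have hb : Function.Bijective (fun g : G => g • x) :=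
    ⟨sharp_inj h x, fun y => h.1 x y⟩
  rw [Nat.card_congr (Equiv.ofBijective _ hb), Nat.card_eq_fintype_card,
    Fintype.card_embedding_eq, Fintype.card_fin, Nat.card_eq_fintype_card]

theorem sharp_faithful [Finite α] {k : ℕ} (h : Sharp G α k) (hk : k ≤ Nat.card α)
    (g : G) (hg : ∀ a : α, g • a = a) : g = 1 := by
  obtain ⟨x⟩ := exists_emb (α := α) hk
  apply h.2 x g
  ext i
  exact hg (x i)

/-- four pairwise distinct points -/
def D4 {α : Type*} (a b c d : α) : Prop :=
  a ≠ b ∧ a ≠ c ∧ a ≠ d ∧ b ≠ c ∧ b ≠ d ∧ c ≠ d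

def emb4 {α : Type*} {a b c d : α} (h : D4 a b c d) : Fin 4 ↪ α :=
  ⟨![a, b, c, d], by
    obtain ⟨h1, h2, h3, h4, h5, h6⟩ := h
    intro i j e
    fin_cases i <;> fin_cases j <;> simp_all⟩

theorem trans4 (h : Sharp G α 4) {a b c d a' b' c' d' : α} (h1 : D4 a b c d)
    (h2 : D4 a' b' c' d') :
    ∃ g : G, g • a = a' ∧ g • b = b' ∧ g • c = c' ∧ g • d = d' := by
  obtain ⟨g, hg⟩ := h.1 (emb4 h1) (emb4 h2)
  exact ⟨g, DFunLike.congr_fun hg 0, DFunLike.congr_fun hg 1, DFunLike.congr_fun hg 2,
    DFunLike.congr_fun hg 3⟩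

theorem fix4 (h : Sharp G α 4) {a b c d : α} (h1 : D4 a b c d) {g : G} (ha : g • a = a)
    (hb : g • b = b) (hc : g • c = c) (hd : g • d = d) : g = 1 := by
  apply h.2 (emb4 h1) g
  ext i
  fin_cases i
  · exact ha
  · exact hb
  · exact hc
  · exact hd

theorem d4_of {x : G} (hxx : ∀ a : α, x • x • a = a) {i j : α} (hi : x • i ≠ i)
    (hj : x • j ≠ j) (hji : j ≠ i) (hjxi : j ≠ x • i) : D4 i (x • i) j (x • j) := by
  refine ⟨fun e => hi e.symm, fun e => hji e.symm, ?_, fun e => hjxi e.symm, ?_,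
    fun e => hj e.symm⟩
  · intro e
    apply hjxi
    rw [e, hxx]
  · intro e
    exact hji (smul_left_cancel x e).symm

theorem exists_d4 [DecidableEq α] {s : Finset α} (hs : 4 ≤ s.card) :
    ∃ a b c d : α, a ∈ s ∧ b ∈ s ∧ c ∈ s ∧ d ∈ s ∧ D4 a b c d := by
  obtain ⟨e⟩ : Nonempty (Fin 4 ↪ {a // a ∈ s}) :=
    Function.Embedding.nonempty_of_card_le (by simpa using hs)
  have hne : ∀ i j : Fin 4, i ≠ j → ((e i : {a // a ∈ s}) : α) ≠ (e j : {a // a ∈ s}) :=
    fun i j hij he => hij (e.injective (Subtype.ext he))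
  exact ⟨e 0, e 1, e 2, e 3, (e 0).2, (e 1).2, (e 2).2, (e 3).2,
    hne _ _ (by decide), hne _ _ (by decide), hne _ _ (by decide), hne _ _ (by decide),
    hne _ _ (by decide), hne _ _ (by decide)⟩

theorem card_dvd_of_free {K β : Type*} [Group K] [MulAction K β]
    (h : ∀ (k : K) (b : β), k • b = b → k = 1) : Nat.card K ∣ Nat.card β := by
  have e := MulAction.selfEquivOrbitsQuotientProd (G := K) (X := β) (fun b => by
    ext k
    rw [MulAction.mem_stabilizer_iff, Subgroup.mem_bot]
    exact ⟨h k b, fun hk => by rw [hk, one_smul]⟩)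
  rw [Nat.card_congr e, Nat.card_prod]
  exact dvd_mul_left _ _

theorem inv_core [Fintype α] [DecidableEq α] (h : Sharp G α 4) (x : G) (hx : x * x = 1)
    (hf : 2 ≤ (Finset.univ.filter (fun a : α => x • a = a)).card)
    (hm : 4 ≤ (Finset.univ.filter (fun a : α => x • a ≠ a)).card) :
    ∃ u q : ℕ, u ∣ (Finset.univ.filter (fun a : α => x • a ≠ a)).card ∧
      q ∣ ((Finset.univ.filter (fun a : α => x • a = a)).card).factorial ∧
      u * q = (Finset.univ.filter (fun a : α => x • a ≠ a)).card *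
        ((Finset.univ.filter (fun a : α => x • a ≠ a)).card - 2) := by
  classical
  set F := Finset.univ.filter (fun a : α => x • a = a) with hF
  set M := Finset.univ.filter (fun a : α => x • a ≠ a) with hM
  have hxx : ∀ a : α, x • x • a = a := fun a => by rw [← mul_smul, hx, one_smul]
  have memM : ∀ a, a ∈ M ↔ x • a ≠ a := fun a => by simp [hM]
  have memF : ∀ a, a ∈ F ↔ x • a = a := fun a => by simp [hF]
  have memM' : ∀ a, a ∈ M → x • a ∈ M := fun a ha =>
    (memM _).mpr (by rw [hxx]; exact fun e => (memM a).mp ha e.symm)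
  let C : Subgroup G := Subgroup.centralizer ({x} : Set G)
  have hcomm : ∀ (c : C) (a : α), x • (c : G) • a = (c : G) • x • a := by
    intro c a
    have h1 := Subgroup.mem_centralizer_iff.mp c.2 x rfl
    rw [← mul_smul, h1, mul_smul]
  obtain ⟨i0, hi0⟩ : M.Nonempty := Finset.card_pos.mp (by omega)
  have hxi0 : x • i0 ∈ M.erase i0 :=
    Finset.mem_erase.mpr ⟨(memM i0).mp hi0, memM' i0 hi0⟩
  obtain ⟨j0, hj0⟩ : ((M.erase i0).erase (x • i0)).Nonempty := Finset.card_pos.mp (by
    rw [Finset.card_erase_of_mem hxi0, Finset.card_erase_of_mem hi0]; omega)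
  have hj0M : j0 ∈ M := Finset.mem_of_mem_erase (Finset.mem_of_mem_erase hj0)
  have hj0i : j0 ≠ i0 := Finset.ne_of_mem_erase (Finset.mem_of_mem_erase hj0)
  have hj0x : j0 ≠ x • i0 := Finset.ne_of_mem_erase hj0
  have hD0 : D4 i0 (x • i0) j0 (x • j0) :=
    d4_of hxx ((memM i0).mp hi0) ((memM j0).mp hj0M) hj0i hj0x
  let T : Finset (Σ _ : α, α) := M.sigma (fun i => (M.erase i).erase (x • i))
  have hT : T.card = M.card * (M.card - 2) := by
    rw [Finset.card_sigma]
    apply Finset.sum_const_nat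
    intro i hi
    have h1 : x • i ∈ M.erase i := Finset.mem_erase.mpr ⟨(memM i).mp hi, memM' i hi⟩
    rw [Finset.card_erase_of_mem h1, Finset.card_erase_of_mem hi]
    omega
  have hΦinj : Function.Injective
      (fun c : C => (⟨(c : G) • i0, (c : G) • j0⟩ : Σ _ : α, α)) := by
    intro c c' e
    simp only [Sigma.mk.injEq, heq_eq_eq] at e
    obtain ⟨e1, e2⟩ := e
    have h1 : ((c : G)⁻¹ * (c' : G)) = 1 := by
      apply fix4 h hD0
      · rw [mul_smul, ← e1, inv_smul_smul]
      · rw [mul_smul, ← hcomm c' i0, ← e1, hcomm c i0, inv_smul_smul]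
      · rw [mul_smul, ← e2, inv_smul_smul]
      · rw [mul_smul, ← hcomm c' j0, ← e2, hcomm c j0, inv_smul_smul]
    exact Subtype.ext (inv_mul_eq_one.mp h1)
  have hΦimg : (fun c : C => (⟨(c : G) • i0, (c : G) • j0⟩ : Σ _ : α, α)) '' Set.univ
      = (T : Set (Σ _ : α, α)) := by
    ext ⟨i, j⟩
    simp only [Set.image_univ, Set.mem_range, Finset.mem_coe, Sigma.mk.injEq, heq_eq_eq]
    constructor
    · rintro ⟨c, rfl, rfl⟩
      have k1 : x • (c : G) • i0 ≠ (c : G) • i0 := by
        rw [hcomm c i0]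
        exact fun e => (memM i0).mp hi0 (smul_left_cancel _ e)
      have k2 : x • (c : G) • j0 ≠ (c : G) • j0 := by
        rw [hcomm c j0]
        exact fun e => (memM j0).mp hj0M (smul_left_cancel _ e)
      refine Finset.mem_sigma.mpr ⟨(memM _).mpr k1, ?_⟩
      refine Finset.mem_erase.mpr ⟨?_, Finset.mem_erase.mpr ⟨?_, (memM _).mpr k2⟩⟩
      · show (c : G) • j0 ≠ x • (c : G) • i0
        rw [hcomm c i0]
        exact fun e => hj0x (smul_left_cancel _ e)
      · show (c : G) • j0 ≠ (c : G) • i0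
        exact fun e => hj0i (smul_left_cancel _ e)
    · intro hij
      obtain ⟨hiM, hj⟩ := Finset.mem_sigma.mp hij
      have hjxi : j ≠ x • i := Finset.ne_of_mem_erase hj
      have hji : j ≠ i := Finset.ne_of_mem_erase (Finset.mem_of_mem_erase hj)
      have hjM : j ∈ M := Finset.mem_of_mem_erase (Finset.mem_of_mem_erase hj)
      have hD : D4 i (x • i) j (x • j) :=
        d4_of hxx ((memM i).mp hiM) ((memM j).mp hjM) hji hjxi
      obtain ⟨g, g1, g2, g3, g4⟩ := trans4 h hD0 hD
      have hw : g⁻¹ * x * g * x = 1 := by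
        apply fix4 h hD0
        · rw [mul_smul, mul_smul, mul_smul, g2, hxx, ← g1, inv_smul_smul]
        · rw [mul_smul, mul_smul, mul_smul, hxx, g1, ← g2, inv_smul_smul]
        · rw [mul_smul, mul_smul, mul_smul, g4, hxx, ← g3, inv_smul_smul]
        · rw [mul_smul, mul_smul, mul_smul, hxx, g3, ← g4, inv_smul_smul]
      have hgC : g ∈ C := by
        refine Subgroup.mem_centralizer_iff.mpr ?_
        intro y hy
        rw [Set.mem_singleton_iff] at hy
        subst hy
        have h2 : y * g * y = g := by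
          have h3 : g * (g⁻¹ * y * g * y) = g := by rw [hw, mul_one]
          simpa [mul_assoc] using h3
        calc y * g = y * g * (y * y) := by rw [hx, mul_one]
          _ = (y * g * y) * y := by simp only [mul_assoc]
          _ = g * y := by rw [h2]
      exact ⟨⟨g, hgC⟩, g1, g3⟩
  have hCcard : Nat.card C = M.card * (M.card - 2) := by
    rw [← hT, ← Set.ncard_coe_finset T, ← hΦimg, Set.ncard_image_of_injective _ hΦinj,
      Set.ncard_univ]
  let FS : SubMulAction C α :=
    { carrier := {a | x • a = a}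
      smul_mem' := fun c a ha => by
        show x • (c : G) • a = (c : G) • a
        rw [hcomm c a, (show x • a = a from ha)] }
  let φ : C →* Equiv.Perm FS := MulAction.toPermHom C FS
  have hidx : φ.ker.index ∣ F.card.factorial := by
    rw [Subgroup.index_ker]
    have h1 : Nat.card φ.range ∣ Nat.card (Equiv.Perm FS) :=
      Subgroup.card_subgroup_dvd_card _
    have h2 : Nat.card (Equiv.Perm FS) = F.card.factorial := by
      rw [Nat.card_perm]
      congr 1
      exact Nat.subtype_card (p := fun a => a ∈ FS) F (fun a => memF a)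
    rwa [h2] at h1
  let MS : SubMulAction φ.ker α :=
    { carrier := {a | x • a ≠ a}
      smul_mem' := fun k a ha => by
        show x • ((k : C) : G) • a ≠ ((k : C) : G) • a
        rw [hcomm (k : C) a]
        exact fun e => ha (smul_left_cancel _ e) }
  have hfree : ∀ (k : φ.ker) (b : MS), k • b = b → k = 1 := by
    intro k b hb
    have hb' : ((k : C) : G) • (b : α) = b := congrArg Subtype.val hb
    have hbM : x • (b : α) ≠ b := b.2
    have hk : φ (k : C) = 1 := k.2
    obtain ⟨a1, ha1, a2, ha2, h12⟩ := Finset.one_lt_card.mp (by omega : 1 < F.card)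
    have e1 : ((k : C) : G) • a1 = a1 :=
      congrArg (fun σ : Equiv.Perm FS => ((σ ⟨a1, (memF a1).mp ha1⟩ : FS) : α)) hk
    have e2 : ((k : C) : G) • a2 = a2 :=
      congrArg (fun σ : Equiv.Perm FS => ((σ ⟨a2, (memF a2).mp ha2⟩ : FS) : α)) hk
    have n1 : a1 ≠ (b : α) := fun e => hbM (by rw [← e]; exact (memF a1).mp ha1)
    have n2 : a2 ≠ (b : α) := fun e => hbM (by rw [← e]; exact (memF a2).mp ha2)
    have hD : D4 a1 a2 (b : α) (x • (b : α)) := by
      refine ⟨h12, n1, ?_, n2, ?_, fun e => hbM e.symm⟩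
      · intro e
        apply n1
        have h3 := congrArg (fun t => x • t) e
        simp only [hxx] at h3
        rw [← h3]; exact ((memF a1).mp ha1).symm
      · intro e
        apply n2
        have h3 := congrArg (fun t => x • t) e
        simp only [hxx] at h3
        rw [← h3]; exact ((memF a2).mp ha2).symm
    have h1 : ((k : C) : G) = 1 := by
      apply fix4 h hD e1 e2 hb'
      rw [← hcomm (k : C) b, hb']
    exact Subtype.ext (Subtype.ext h1)
  have hK : Nat.card φ.ker ∣ M.card := by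
    have h1 := card_dvd_of_free hfree
    rwa [Nat.subtype_card (p := fun a => a ∈ MS) M (fun a => memM a)] at h1
  exact ⟨Nat.card φ.ker, φ.ker.index, hK, hidx, by rw [Subgroup.card_mul_index, hCcard]⟩

theorem deg4_weak [Finite α] (h : Sharp G α 4) (h4 : 4 ≤ Nat.card α) :
    Nat.card α = 4 ∨ Nat.card α = 5 ∨ Nat.card α = 6 ∨ Nat.card α = 7 ∨
      Nat.card α = 11 := by
  haveI : DecidableEq α := Classical.decEq α
  haveI := Fintype.ofFinite α
  rw [Nat.card_eq_fintype_card] at h4 ⊢
  by_contra hcon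
  have h7 : 7 ≤ Fintype.card α := by omega
  obtain ⟨e⟩ : Nonempty (Fin 4 ↪ α) :=
    Function.Embedding.nonempty_of_card_le (by simpa using h4)
  have hne : ∀ i j : Fin 4, i ≠ j → e i ≠ e j := fun i j hij he => hij (e.injective he)
  have hD : D4 (e 0) (e 1) (e 2) (e 3) :=
    ⟨hne _ _ (by decide), hne _ _ (by decide), hne _ _ (by decide), hne _ _ (by decide),
      hne _ _ (by decide), hne _ _ (by decide)⟩
  have hD' : D4 (e 1) (e 0) (e 2) (e 3) :=
    ⟨hne _ _ (by decide), hne _ _ (by decide), hne _ _ (by decide), hne _ _ (by decide),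
      hne _ _ (by decide), hne _ _ (by decide)⟩
  obtain ⟨x, x0, x1, x2, x3⟩ := trans4 h hD hD'
  have hx : x * x = 1 :=
    fix4 h hD (by rw [mul_smul, x0, x1]) (by rw [mul_smul, x1, x0])
      (by rw [mul_smul, x2, x2]) (by rw [mul_smul, x3, x3])
  have hxx : ∀ a : α, x • x • a = a := fun a => by rw [← mul_smul, hx, one_smul]
  set F := Finset.univ.filter (fun a : α => x • a = a) with hF
  set M := Finset.univ.filter (fun a : α => x • a ≠ a) with hM
  have memM : ∀ a, a ∈ M ↔ x • a ≠ a := fun a => by simp [hM]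
  have memF : ∀ a, a ∈ F ↔ x • a = a := fun a => by simp [hF]
  have hFM : F.card + M.card = Fintype.card α := by
    rw [hF, hM, Finset.card_filter_add_card_filter_not, Finset.card_univ]
  have hf2 : 2 ≤ F.card :=
    Finset.one_lt_card.mpr ⟨e 2, (memF _).mpr x2, e 3, (memF _).mpr x3, hne _ _ (by decide)⟩
  have hf3 : F.card ≤ 3 := by
    by_contra hc
    obtain ⟨a, b, c, d, ha, hb, hc', hd, hD4⟩ := exists_d4 (s := F) (by omega)
    have h1 : x = 1 := fix4 h hD4 ((memF a).mp ha) ((memF b).mp hb) ((memF c).mp hc')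
      ((memF d).mp hd)
    rw [h1, one_smul] at x0
    exact hne 0 1 (by decide) x0
  have hm_even : 2 ∣ M.card := by
    have hsum : ∑ a ∈ M, (1 : ZMod 2) = 0 := by
      apply Finset.sum_involution (fun a _ => x • a)
      · intro a ha; decide
      · intro a ha _; exact (memM a).mp ha
      · intro a ha; exact hxx a
      · intro a ha
        exact (memM _).mpr (by rw [hxx]; exact fun e => (memM a).mp ha e.symm)
    rw [Finset.sum_const, nsmul_eq_mul, mul_one] at hsum
    exact (ZMod.natCast_eq_zero_iff _ _).mp hsum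
  obtain ⟨u, q, hu, hq, huq⟩ : ∃ u q : ℕ, u ∣ M.card ∧ q ∣ F.card.factorial ∧
      u * q = M.card * (M.card - 2) := inv_core h x hx hf2 (show 4 ≤ M.card by omega)
  have hdvd : (M.card - 2) ∣ F.card.factorial := by
    obtain ⟨s, hs⟩ := hu
    have hu0 : 0 < u := by
      rcases Nat.eq_zero_or_pos u with h0 | h0
      · rw [h0, zero_mul] at hs; omega
      · exact h0
    have h1 : u * q = u * (s * (M.card - 2)) := by rw [huq, ← mul_assoc, ← hs]
    have h2 : q = s * (M.card - 2) := Nat.eq_of_mul_eq_mul_left hu0 h1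
    exact (Dvd.intro_left s h2.symm).trans hq
  have hfcases : F.card = 2 ∨ F.card = 3 := by omega
  rcases hfcases with hf | hf
  · rw [hf] at hdvd
    have h1 := Nat.le_of_dvd (by decide) hdvd
    have h2 : Nat.factorial 2 = 2 := by decide
    omega
  · rw [hf] at hdvd
    have h1 := Nat.le_of_dvd (by decide) hdvd
    have h2 : Nat.factorial 3 = 6 := by decide
    obtain ⟨t, ht⟩ := hm_even
    have h3 : t = 2 ∨ t = 3 ∨ t = 4 := by omega
    rcases h3 with rfl | rfl | rfl
    · omega
    · rw [ht] at hdvd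
      revert hdvd
      decide
    · omega

end Cfsg.Agent.Lib.Helper1.Jordan
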