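import Cfsg.Agent.Lib.Helper1.Jordan1

set_option autoImplicit false

namespace Cfsg.Agent.Lib.Helper1.Jordan

open MulAction

variable {H α : Type*} [Group H] [MulAction H α]

theorem card_dvd_of_pretrans [IsPretransitive H α] (a : α) : Nat.card α ∣ Nat.card H := by
  rw [← index_stabilizer_of_transitive H a]
  exact Subgroup.index_dvd_card _

theorem normal_pretrans [IsPreprimitive H α]
    (hfaith : ∀ g : H, (∀ a : α, g • a = a) → g = 1)
    (K : Subgroup H) [K.Normal] (hK : K ≠ ⊥) : IsPretransitive K α := by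
  apply IsQuasiPreprimitive.isPretransitive_of_normal (G := H)
  intro hfix
  apply hK
  rw [Subgroup.eq_bot_iff_forall]
  intro k hk
  apply hfaith
  intro a
  have h1 : a ∈ fixedPoints K α := by rw [hfix]; trivial
  exact h1 ⟨k, hk⟩

theorem sylow_card [Finite H] (p m : ℕ) [Fact p.Prime] (hH : Nat.card H = p * m)
    (hpm : ¬ p ∣ m) (P : Sylow p H) : Nat.card (P : Subgroup H) = p := by
  have hp : p.Prime := Fact.out
  have hm0 : m ≠ 0 := fun h0 => hpm (h0 ▸ dvd_zero p)
  have h1 := P.card_eq_multiplicity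
  rw [hH, Nat.factorization_mul hp.ne_zero hm0, Finsupp.add_apply, hp.factorization_self,
    Nat.factorization_eq_zero_of_not_dvd hpm, pow_one] at h1
  exact h1

theorem sylow_lemma [Finite H] [Finite α] (p m : ℕ) [Fact p.Prime] (hα : Nat.card α = p)
    (hfaith : ∀ g : H, (∀ a : α, g • a = a) → g = 1)
    (hH : Nat.card H = p * m) (hpm : ¬ p ∣ m) (P : Sylow p H) :
    ∃ d : ℕ, d ∣ p - 1 ∧ Nat.card (Subgroup.normalizer ((P : Subgroup H) : Set H)) = p * d ∧
      (Subgroup.normalizer ((P : Subgroup H) : Set H)).index * d = m ∧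
      (Subgroup.normalizer ((P : Subgroup H) : Set H)).index % p = 1 ∧
      (d = 1 → Subgroup.normalizer ((P : Subgroup H) : Set H) ≤
        Subgroup.centralizer ((P : Subgroup H) : Set H)) := by
  have hp : p.Prime := Fact.out
  have hm0 : m ≠ 0 := fun h0 => hpm (h0 ▸ dvd_zero p)
  have hPcard : Nat.card (P : Subgroup H) = p := sylow_card p m hH hpm P
  have htr : ∃ a : α, ∀ b : α, ∃ z ∈ (P : Subgroup H), z • a = b := by
    by_contra hcon
    push Not at hcon
    have hfix : ∀ (z : (P : Subgroup H)) (a : α), (z : H) • a = a := by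
      intro z a
      have h1 : (orbit (P : Subgroup H) a).ncard ∣ p := by
        have h0 : (stabilizer (P : Subgroup H) a).index ∣ Nat.card (P : Subgroup H) :=
          Subgroup.index_dvd_card _
        rw [index_stabilizer, hPcard] at h0
        exact h0
      rcases (Nat.dvd_prime hp).mp h1 with h1 | h1
      · obtain ⟨c, hc⟩ := Set.ncard_eq_one.mp h1
        have h2 : a ∈ orbit (P : Subgroup H) a := mem_orbit_self a
        have h3 : z • a ∈ orbit (P : Subgroup H) a := mem_orbit a z
        rw [hc, Set.mem_singleton_iff] at h2 h3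
        have h4 : (z : H) • a = c := h3
        rw [h4, h2]
      · exfalso
        have h2 : orbit (P : Subgroup H) a = Set.univ :=
          (Set.eq_univ_iff_ncard _).mpr (by rw [h1, hα])
        obtain ⟨b, hb⟩ := hcon a
        have h3 : b ∈ orbit (P : Subgroup H) a := by rw [h2]; trivial
        obtain ⟨z', hz'⟩ := h3
        exact hb z' z'.2 hz'
    have h1 : ∀ z : (P : Subgroup H), z = 1 :=
      fun z => Subtype.ext (hfaith z (fun a => hfix z a))
    have h2 : Nat.card (P : Subgroup H) = 1 :=
      Nat.card_eq_one_iff_unique.mpr ⟨⟨fun a b => by rw [h1 a, h1 b]⟩, ⟨1⟩⟩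
    rw [hPcard] at h2
    exact hp.one_lt.ne' h2
  haveI hcyc : IsCyclic (P : Subgroup H) := isCyclic_of_prime_card hPcard
  have hab : ∀ u v : (P : Subgroup H), u * v = v * u :=
    isMulCommutative_iff.mp hcyc.isMulCommutative
  have hCP : Subgroup.centralizer ((P : Subgroup H) : Set H) ≤ (P : Subgroup H) := by
    intro c hc
    obtain ⟨a, ha⟩ := htr
    obtain ⟨u, hu, hua⟩ := ha (c • a)
    have h1 : u⁻¹ * c = 1 := by
      apply hfaith
      intro b
      obtain ⟨v, hv, hvb⟩ := ha b
      have hcv : v * c = c * v := Subgroup.mem_centralizer_iff.mp hc v hv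
      have huv : u * v = v * u := congrArg Subtype.val (hab ⟨u, hu⟩ ⟨v, hv⟩)
      rw [← hvb, mul_smul, ← mul_smul c v, ← hcv, mul_smul, ← hua, ← mul_smul v u, ← huv,
        mul_smul, inv_smul_smul]
    rw [inv_mul_eq_one] at h1
    rw [← h1]; exact hu
  have hPC : (P : Subgroup H) ≤ Subgroup.centralizer ((P : Subgroup H) : Set H) := by
    intro u hu
    refine Subgroup.mem_centralizer_iff.mpr ?_
    intro v hv
    exact congrArg Subtype.val (hab ⟨v, hv⟩ ⟨u, hu⟩)
  have hcent : Subgroup.centralizer ((P : Subgroup H) : Set H) = (P : Subgroup H) :=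
    le_antisymm hCP hPC
  have key := Subgroup.card_dvd_of_injective _
    (QuotientGroup.kerLift_injective (P : Subgroup H).normalizerMonoidHom)
  rw [Subgroup.normalizerMonoidHom_ker, ← Subgroup.index, ← Subgroup.relIndex, hcent,
    IsCyclic.card_mulAut, hPcard, Nat.totient_prime hp] at key
  have h1 := Subgroup.relIndex_mul_index (Subgroup.le_normalizer (H := (P : Subgroup H)))
  have h2 := Subgroup.card_mul_index (P : Subgroup H)
  rw [hPcard, hH] at h2
  have h3 : (P : Subgroup H).index = m := Nat.eq_of_mul_eq_mul_left hp.pos h2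
  rw [h3] at h1
  have h4 := Subgroup.card_mul_index (Subgroup.normalizer ((P : Subgroup H) : Set H))
  rw [hH] at h4
  have hidx0 : (Subgroup.normalizer ((P : Subgroup H) : Set H)).index ≠ 0 := by
    intro h0
    rw [h0, mul_zero] at h1
    exact hm0 h1.symm
  refine ⟨(P : Subgroup H).relIndex (Subgroup.normalizer ((P : Subgroup H) : Set H)), key,
    ?_, ?_, ?_, ?_⟩
  · apply Nat.eq_of_mul_eq_mul_right (Nat.pos_of_ne_zero hidx0)
    rw [h4, ← h1]
    ring
  · rw [mul_comm]; exact h1
  · have h5 := card_sylow_modEq_one p H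
    rw [P.card_eq_index_normalizer] at h5
    have h6 : (Subgroup.normalizer ((P : Subgroup H) : Set H)).index % p = 1 % p := h5
    rwa [Nat.mod_eq_of_lt hp.one_lt] at h6
  · intro hd
    rw [hcent]
    exact Subgroup.relIndex_eq_one.mp hd

theorem burnside_prime [Finite H] [Finite α] [IsPretransitive H α] (p m : ℕ) [Fact p.Prime]
    (hα : Nat.card α = p) (hfaith : ∀ g : H, (∀ a : α, g • a = a) → g = 1)
    (hH : Nat.card H = p * m) (hpm : ¬ p ∣ m) (P : Sylow p H)
    (hN : Subgroup.normalizer ((P : Subgroup H) : Set H) ≤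
      Subgroup.centralizer ((P : Subgroup H) : Set H)) : m = 1 := by
  have hp : p.Prime := Fact.out
  have hcard := (MonoidHom.ker_transferSylow_isComplement' P hN).card_mul_card
  have hPcard : Nat.card (P : Subgroup H) = p := sylow_card p m hH hpm P
  have hK : Nat.card (MonoidHom.transferSylow P hN).ker = m := by
    rw [hPcard, hH, mul_comm] at hcard
    exact Nat.eq_of_mul_eq_mul_left hp.pos hcard
  by_contra hm1
  have hKne : (MonoidHom.transferSylow P hN).ker ≠ ⊥ := fun hb => by
    rw [hb, Subgroup.card_bot] at hK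
    exact hm1 hK.symm
  haveI : IsPreprimitive H α := IsPreprimitive.of_prime_card (hα ▸ hp)
  haveI : IsPretransitive (MonoidHom.transferSylow P hN).ker α :=
    normal_pretrans hfaith _ hKne
  obtain ⟨a⟩ : Nonempty α := (Nat.card_pos_iff.mp (by rw [hα]; exact hp.pos)).1
  have h1 := card_dvd_of_pretrans (H := (MonoidHom.transferSylow P hN).ker) a
  rw [hα, hK] at h1
  exact hpm h1

theorem sylow_excl [Finite H] [Finite α] [IsPretransitive H α] (p m : ℕ) [Fact p.Prime]
    (hα : Nat.card α = p) (hfaith : ∀ g : H, (∀ a : α, g • a = a) → g = 1)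
    (hH : Nat.card H = p * m) (hpm : ¬ p ∣ m) (hm : m ≠ 1) :
    ∃ d idx : ℕ, d ∣ p - 1 ∧ d ≠ 1 ∧ idx * d = m ∧ idx % p = 1 := by
  obtain ⟨P⟩ : Nonempty (Sylow p H) := Sylow.nonempty
  obtain ⟨d, h1, h2, h3, h4, h5⟩ := sylow_lemma p m hα hfaith hH hpm P
  exact ⟨d, _, h1, fun hd => hm (burnside_prime p m hα hfaith hH hpm P (h5 hd)), h3, h4⟩

theorem sharp_pretrans [Finite α] {k : ℕ} (h : Sharp H α k) (hk : 1 ≤ k)
    (hkn : k ≤ Nat.card α) : IsPretransitive H α := by
  haveI : IsMultiplyPretransitive H α k := ⟨h.1⟩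
  rw [← is_one_pretransitive_iff]
  exact isMultiplyPretransitive_of_le hk hkn

theorem sharp_two [Finite α] {k : ℕ} (h : Sharp H α k) (hk : 2 ≤ k)
    (hkn : k ≤ Nat.card α) : IsMultiplyPretransitive H α 2 := by
  haveI : IsMultiplyPretransitive H α k := ⟨h.1⟩
  exact isMultiplyPretransitive_of_le hk hkn

theorem sharp_stab {k : ℕ} (h : Sharp H α (k + 1)) (a : α) :
    Sharp (stabilizer H a) (SubMulAction.ofStabilizer H a) k := by
  constructor
  · intro x y
    obtain ⟨g, hgxy⟩ := h.1 (SubMulAction.ofStabilizer.snoc x)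
      (SubMulAction.ofStabilizer.snoc y)
    have hg : g ∈ stabilizer H a := by
      have h1 := DFunLike.congr_fun hgxy (Fin.last k)
      rw [Function.Embedding.smul_apply, SubMulAction.ofStabilizer.snoc_last,
        SubMulAction.ofStabilizer.snoc_last] at h1
      exact h1
    refine ⟨⟨g, hg⟩, ?_⟩
    ext i
    have h1 := DFunLike.congr_fun hgxy i.castSucc
    rw [Function.Embedding.smul_apply, SubMulAction.ofStabilizer.snoc_castSucc,
      SubMulAction.ofStabilizer.snoc_castSucc] at h1
    exact h1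
  · intro x g hg
    have h1 : (g : H) • SubMulAction.ofStabilizer.snoc x = SubMulAction.ofStabilizer.snoc x := by
      ext i
      rcases Fin.eq_castSucc_or_eq_last i with ⟨j, rfl⟩ | rfl
      · rw [Function.Embedding.smul_apply, SubMulAction.ofStabilizer.snoc_castSucc]
        have h2 := DFunLike.congr_fun hg j
        exact congrArg Subtype.val h2
      · rw [Function.Embedding.smul_apply, SubMulAction.ofStabilizer.snoc_last]
        exact g.2
    exact Subtype.ext (h.2 _ _ h1)

theorem deg4 [Finite α] (h : Sharp H α 4) (h4 : 4 ≤ Nat.card α) :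
    Nat.card α = 4 ∨ Nat.card α = 5 ∨ Nat.card α = 6 ∨ Nat.card α = 11 := by
  rcases deg4_weak h h4 with h1 | h1 | h1 | h1 | h1
  · exact Or.inl h1
  · exact Or.inr (Or.inl h1)
  · exact Or.inr (Or.inr (Or.inl h1))
  · exfalso
    haveI := sharp_finite h h4
    haveI : IsPretransitive H α := sharp_pretrans h (by norm_num) h4
    have hc := sharp_card h h4
    rw [h1] at hc
    haveI : Fact (Nat.Prime 7) := ⟨by norm_num⟩
    obtain ⟨d, idx, hd1, hd2, hd3, hd4⟩ := sylow_excl 7 120 h1 (sharp_faithful h h4)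
      (by rw [hc]; decide) (by norm_num) (by norm_num)
    have hd6 : d ≤ 6 := Nat.le_of_dvd (by norm_num) hd1
    interval_cases d <;> omega
  · exact Or.inr (Or.inr (Or.inr h1))

theorem deg5 [Finite α] (h : Sharp H α 5) (h5 : 5 ≤ Nat.card α) :
    Nat.card α = 5 ∨ Nat.card α = 6 ∨ Nat.card α = 7 ∨ Nat.card α = 12 := by
  obtain ⟨a⟩ : Nonempty α := (Nat.card_pos_iff.mp (by omega)).1
  have hs := sharp_stab h a
  have hc := SubMulAction.nat_card_ofStabilizer_add_one_eq H a
  have h1 := deg4 hs (by omega)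
  omega

theorem degk.{u, v} (k : ℕ) (hk : 6 ≤ k) :
    ∀ (G : Type u) (β : Type v) [Group G] [MulAction G β] [Finite β],
      Sharp G β k → k ≤ Nat.card β →
        (Nat.card β = k ∨ Nat.card β = k + 1 ∨ Nat.card β = k + 2) := by
  induction k, hk using Nat.le_induction with
  | base =>
    intro G β _ _ _ h h6
    obtain ⟨a⟩ : Nonempty β := (Nat.card_pos_iff.mp (by omega)).1
    have hs := sharp_stab h a
    have hc := SubMulAction.nat_card_ofStabilizer_add_one_eq G a
    have h5 := deg5 hs (by omega)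
    have hne : Nat.card β ≠ 13 := by
      intro h13
      haveI := sharp_finite h h6
      haveI : IsPretransitive G β := sharp_pretrans h (by norm_num) h6
      have hcard := sharp_card h h6
      rw [h13] at hcard
      haveI : Fact (Nat.Prime 13) := ⟨by norm_num⟩
      obtain ⟨d, idx, hd1, hd2, hd3, hd4⟩ := sylow_excl 13 95040 h13 (sharp_faithful h h6)
        (by rw [hcard]; decide) (by norm_num) (by norm_num)
      have hd12 : d ≤ 12 := Nat.le_of_dvd (by norm_num) hd1
      interval_cases d <;> omega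
    omega
  | succ k hk ih =>
    intro G β _ _ _ h hk1
    obtain ⟨a⟩ : Nonempty β := (Nat.card_pos_iff.mp (by omega)).1
    have hs := sharp_stab h a
    have hc := SubMulAction.nat_card_ofStabilizer_add_one_eq G a
    have h1 := ih (stabilizer G a) (SubMulAction.ofStabilizer G a) hs (by omega)
    omega

end Cfsg.Agent.Lib.Helper1.Jordan
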