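import Cfsg.Agent.Lib.Helper1.Jordan2

set_option autoImplicit false

namespace Cfsg.Agent.Lib.Helper1.Jordan

open MulAction

variable {H α : Type*} [Group H] [MulAction H α]

theorem fact_one (p m : ℕ) [Fact p.Prime] (hpm : ¬ p ∣ m) : (p * m).factorization p = 1 := by
  have hp : p.Prime := Fact.out
  have hm0 : m ≠ 0 := fun h0 => hpm (h0 ▸ dvd_zero p)
  rw [Nat.factorization_mul hp.ne_zero hm0, Finsupp.add_apply, hp.factorization_self,
    Nat.factorization_eq_zero_of_not_dvd hpm]

theorem m11_core [Finite α] (h : Sharp H α 4) (hα : Nat.card α = 11) :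
    IsSimpleGroup H ∧ Nat.card H = 7920 := by
  have h4 : 4 ≤ Nat.card α := by omega
  haveI := sharp_finite h h4
  have hcard : Nat.card H = 7920 := by rw [sharp_card h h4, hα]; decide
  haveI : Fact (Nat.Prime 11) := ⟨by norm_num⟩
  have hfaith := sharp_faithful h h4
  haveI htr : IsPretransitive H α := sharp_pretrans h (by norm_num) h4
  haveI : IsPreprimitive H α :=
    isPreprimitive_of_is_two_pretransitive (sharp_two h (by norm_num) h4)
  obtain ⟨a⟩ : Nonempty α := (Nat.card_pos_iff.mp (by omega)).1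
  refine ⟨?_, hcard⟩
  haveI : Nontrivial H := by
    rw [← Finite.one_lt_card_iff_nontrivial]; omega
  refine ⟨fun N hN => ?_⟩
  by_cases hNb : N = ⊥
  · exact Or.inl hNb
  right
  haveI := hN
  haveI : IsPretransitive N α := normal_pretrans hfaith N hNb
  have h11 : 11 ∣ Nat.card N := by
    have h1 := card_dvd_of_pretrans (H := N) a
    rwa [hα] at h1
  obtain ⟨m', hm'⟩ := h11
  have hNdvd : Nat.card N ∣ 7920 := hcard ▸ Subgroup.card_subgroup_dvd_card N
  have hm'11 : ¬ 11 ∣ m' := by
    rintro ⟨t, rfl⟩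
    rw [hm'] at hNdvd
    have h1 : 121 ∣ 7920 := Dvd.dvd.trans ⟨t, by ring⟩ hNdvd
    omega
  obtain ⟨Q⟩ : Nonempty (Sylow 11 N) := Sylow.nonempty
  have hQcard : Nat.card (Q : Subgroup N) = 11 := sylow_card 11 m' hm' hm'11 Q
  have hfaithN : ∀ g : N, (∀ a : α, g • a = a) → g = 1 :=
    fun g hg => Subtype.ext (hfaith g hg)
  have hP0card : Nat.card ((Q : Subgroup N).map N.subtype) = 11 := by
    rw [Subgroup.card_map_of_injective N.subtype_injective]
    exact hQcard
  have hfac : (Nat.card H).factorization 11 = 1 := by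
    rw [hcard]
    exact fact_one 11 720 (by norm_num)
  obtain ⟨d, hd1, hd2, hd3, hd4, hd5⟩ := sylow_lemma 11 720 hα hfaith (by rw [hcard])
    (by norm_num) (Sylow.ofCard ((Q : Subgroup N).map N.subtype)
      (by rw [hP0card, hfac, pow_one]))
  rw [Sylow.coe_ofCard] at hd2 hd3 hd4
  have hd : d = 5 := by
    have hd10 : d ≤ 10 := Nat.le_of_dvd (by norm_num) hd1
    interval_cases d <;> omega
  subst hd
  have hfr : Subgroup.normalizer (((Q : Subgroup N).map N.subtype : Subgroup H) : Set H) ⊔ N
      = ⊤ := Sylow.normalizer_sup_eq_top Q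
  have hidx : N.index ∣ 55 := by
    have h1 := Subgroup.relIndex_sup_right (K := N)
      (H := Subgroup.normalizer (((Q : Subgroup N).map N.subtype : Subgroup H) : Set H))
    rw [hfr, Subgroup.relIndex_top_right] at h1
    rw [h1]
    have h2 := Subgroup.relIndex_dvd_card N
      (Subgroup.normalizer (((Q : Subgroup N).map N.subtype : Subgroup H) : Set H))
    rwa [hd2] at h2
  have hmul := Subgroup.index_mul_card N
  rw [hcard, hm'] at hmul
  obtain ⟨i, hi⟩ : ∃ i, N.index = i := ⟨_, rfl⟩
  rw [hi] at hidx hmul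
  have hcases : i = 1 ∨ i = 5 := by
    have hi55 : i ≤ 55 := Nat.le_of_dvd (by norm_num) hidx
    interval_cases i <;> omega
  rcases hcases with rfl | rfl
  · exact Subgroup.index_eq_one.mp hi
  · exfalso
    have hm144 : m' = 144 := by omega
    subst hm144
    obtain ⟨d', idx', e1, e2, e3, e4⟩ := sylow_excl (H := N) 11 144 hα hfaithN hm'
      (by norm_num) (by norm_num)
    have hd10 : d' ≤ 10 := Nat.le_of_dvd (by norm_num) e1
    interval_cases d' <;> omega

theorem m12_core [Finite α] (h : Sharp H α 5) (hα : Nat.card α = 12) :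
    IsSimpleGroup H ∧ Nat.card H = 95040 := by
  have h5 : 5 ≤ Nat.card α := by omega
  haveI := sharp_finite h h5
  have hcard : Nat.card H = 95040 := by rw [sharp_card h h5, hα]; decide
  have hfaith := sharp_faithful h h5
  haveI htr : IsPretransitive H α := sharp_pretrans h (by norm_num) h5
  have h2 : IsMultiplyPretransitive H α 2 := sharp_two h (by norm_num) h5
  haveI : IsPreprimitive H α := isPreprimitive_of_is_two_pretransitive h2
  obtain ⟨a⟩ : Nonempty α := (Nat.card_pos_iff.mp (by omega)).1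
  refine ⟨?_, hcard⟩
  haveI : Nontrivial H := by
    rw [← Finite.one_lt_card_iff_nontrivial]; omega
  have hs := sharp_stab h a
  have hc := SubMulAction.nat_card_ofStabilizer_add_one_eq H a
  have hsimp : IsSimpleGroup (stabilizer H a) := (m11_core hs (by omega)).1
  refine ⟨fun N hN => ?_⟩
  by_cases hNb : N = ⊥
  · exact Or.inl hNb
  right
  haveI := hN
  haveI : IsPretransitive N α := normal_pretrans hfaith N hNb
  have h12 : 12 ∣ Nat.card N := by
    have h1 := card_dvd_of_pretrans (H := N) a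
    rwa [hα] at h1
  have hnorm : (N.subgroupOf (stabilizer H a)).Normal := Subgroup.normal_subgroupOf
  rcases hsimp.eq_bot_or_eq_top_of_normal _ hnorm with hb | ht
  · exfalso
    haveI : Fact (Nat.Prime 2) := ⟨Nat.prime_two⟩
    haveI : Fact (Nat.Prime 3) := ⟨Nat.prime_three⟩
    obtain ⟨n2, hn2⟩ := exists_prime_orderOf_dvd_card' (G := N) 2
      (dvd_trans (by norm_num) h12)
    obtain ⟨n3, hn3⟩ := exists_prime_orderOf_dvd_card' (G := N) 3
      (dvd_trans (by norm_num) h12)
    have key : ∀ n : N, (n : H) • a = a → n = 1 := by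
      intro n hn
      have h1 : (⟨(n : H), hn⟩ : stabilizer H a) ∈ N.subgroupOf (stabilizer H a) :=
        Subgroup.mem_subgroupOf.mpr n.2
      rw [hb, Subgroup.mem_bot] at h1
      have h2 : (n : H) = 1 := congrArg (fun s : stabilizer H a => (s : H)) h1
      exact Subtype.ext h2
    have hn2a : (n2 : H) • a ≠ a := fun e => by
      have h1 := key n2 e
      rw [h1, orderOf_one] at hn2
      omega
    have hn3a : (n3 : H) • a ≠ a := fun e => by
      have h1 := key n3 e
      rw [h1, orderOf_one] at hn3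
      omega
    rw [is_two_pretransitive_iff] at h2
    obtain ⟨g, hg1, hg2⟩ := h2 (Ne.symm hn2a) (Ne.symm hn3a)
    have hcN : g * (n2 : H) * g⁻¹ ∈ N := hN.conj_mem _ n2.2 g
    have hga : g⁻¹ • a = a := by rw [inv_smul_eq_iff, hg1]
    have heq : (⟨g * (n2 : H) * g⁻¹, hcN⟩ : N) = n3 := by
      have h1 := key (n3⁻¹ * ⟨g * (n2 : H) * g⁻¹, hcN⟩) (by
        show ((n3 : H)⁻¹ * (g * (n2 : H) * g⁻¹)) • a = a
        rw [mul_smul, mul_smul, mul_smul, hga, hg2, inv_smul_smul])
      exact (inv_mul_eq_one.mp h1).symm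
    have ho : orderOf (n2 : H) = orderOf (g * (n2 : H) * g⁻¹) :=
      SemiconjBy.orderOf_eq g (by unfold SemiconjBy; group)
    have ho' : orderOf (⟨g * (n2 : H) * g⁻¹, hcN⟩ : N) = orderOf n2 := by
      rw [← Subgroup.orderOf_coe, ← Subgroup.orderOf_coe n2]
      exact ho.symm
    rw [heq, hn2, hn3] at ho'
    omega
  · have hle : stabilizer H a ≤ N := Subgroup.subgroupOf_eq_top.mp ht
    rw [eq_top_iff]
    intro g _
    obtain ⟨n, hn⟩ := exists_smul_eq N (g • a) a
    have h1 : (n : H) * g ∈ stabilizer H a := by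
      rw [mem_stabilizer_iff, mul_smul]; exact hn
    have h3 := hle h1
    have h4 : g = (n : H)⁻¹ * ((n : H) * g) := by group
    rw [h4]
    exact N.mul_mem (N.inv_mem n.2) h3

end Cfsg.Agent.Lib.Helper1.Jordan
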