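import Cfsg.Agent.Lib.Helper1.Jordan2

set_option autoImplicit false

namespace Cfsg.Agent.Lib.Helper1.Jordan

open MulAction

variable {G α : Type*} [Group G] [MulAction G α]

theorem sharp4_finite (h : Sharp G α 4) (hne : Nonempty (Fin 4 ↪ α)) : Finite α := by
  classical
  obtain ⟨e⟩ := hne
  have hne' : ∀ i j : Fin 4, i ≠ j → e i ≠ e j := fun i j hij he => hij (e.injective he)
  have hD : D4 (e 0) (e 1) (e 2) (e 3) :=
    ⟨hne' _ _ (by decide), hne' _ _ (by decide), hne' _ _ (by decide), hne' _ _ (by decide),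
      hne' _ _ (by decide), hne' _ _ (by decide)⟩
  have hD' : D4 (e 1) (e 0) (e 2) (e 3) :=
    ⟨hne' _ _ (by decide), hne' _ _ (by decide), hne' _ _ (by decide), hne' _ _ (by decide),
      hne' _ _ (by decide), hne' _ _ (by decide)⟩
  obtain ⟨x, x0, x1, x2, x3⟩ := trans4 h hD hD'
  have hx : x * x = 1 :=
    fix4 h hD (by rw [mul_smul, x0, x1]) (by rw [mul_smul, x1, x0])
      (by rw [mul_smul, x2, x2]) (by rw [mul_smul, x3, x3])
  have hxx : ∀ a : α, x • x • a = a := fun a => by rw [← mul_smul, hx, one_smul]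
  have hFfin : {a : α | x • a = a}.Finite := by
    by_contra hinf
    obtain ⟨t, ht, ht4⟩ := (Set.not_finite.mp hinf).exists_subset_card_eq 4
    obtain ⟨a, b, c, d, ha, hb, hc, hd, hD4⟩ := exists_d4 (s := t) (by omega)
    have h1 : x = 1 := fix4 h hD4 (ht ha) (ht hb) (ht hc) (ht hd)
    rw [h1, one_smul] at x0
    exact hne' 0 1 (by decide) x0
  have hM'fin : {j : α | x • j ≠ j ∧ j ≠ e 0 ∧ j ≠ e 1}.Finite := by
    by_cases hemp : {j : α | x • j ≠ j ∧ j ≠ e 0 ∧ j ≠ e 1} = ∅
    · rw [hemp]; exact Set.finite_empty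
    obtain ⟨j0, hj0⟩ := Set.nonempty_iff_ne_empty.mpr hemp
    have hx0 : x • e 0 ≠ e 0 := by rw [x0]; exact hne' 1 0 (by decide)
    have hD0 : D4 (e 0) (x • e 0) j0 (x • j0) :=
      d4_of hxx hx0 hj0.1 hj0.2.1 (by rw [x0]; exact hj0.2.2)
    have hex : ∀ j ∈ {j : α | x • j ≠ j ∧ j ≠ e 0 ∧ j ≠ e 1}, ∃ c : G,
        c • e 0 = e 0 ∧ c • e 1 = e 1 ∧ c • j0 = j ∧ x • c • e 2 = c • e 2 ∧
          x • c • e 3 = c • e 3 := by
      intro j hj
      have hDj : D4 (e 0) (x • e 0) j (x • j) :=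
        d4_of hxx hx0 hj.1 hj.2.1 (by rw [x0]; exact hj.2.2)
      obtain ⟨g, g1, g2, g3, g4⟩ := trans4 h hD0 hDj
      have hw : g⁻¹ * x * g * x = 1 := by
        apply fix4 h hD0
        · rw [mul_smul, mul_smul, mul_smul, g2, hxx, inv_smul_eq_iff, g1]
        · rw [mul_smul, mul_smul, mul_smul, hxx, g1, inv_smul_eq_iff, g2]
        · rw [mul_smul, mul_smul, mul_smul, g4, hxx, inv_smul_eq_iff, g3]
        · rw [mul_smul, mul_smul, mul_smul, hxx, g3, inv_smul_eq_iff, g4]
      have hcomm : x * g = g * x := by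
        have h2 : x * g * x = g := by
          have h3 : g * (g⁻¹ * x * g * x) = g := by rw [hw, mul_one]
          simpa [mul_assoc] using h3
        calc x * g = x * g * (x * x) := by rw [hx, mul_one]
          _ = (x * g * x) * x := by simp only [mul_assoc]
          _ = g * x := by rw [h2]
      refine ⟨g, g1, ?_, g3, ?_, ?_⟩
      · rw [x0] at g2; exact g2
      · rw [← mul_smul, hcomm, mul_smul, x2]
      · rw [← mul_smul, hcomm, mul_smul, x3]
    choose! c hc using hex
    have hinj : Set.InjOn (fun j => (c j • e 2, c j • e 3))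
        {j : α | x • j ≠ j ∧ j ≠ e 0 ∧ j ≠ e 1} := by
      intro j hj j' hj' heq
      simp only [Prod.mk.injEq] at heq
      obtain ⟨a1, a2, a3, -, -⟩ := hc j hj
      obtain ⟨b1, b2, b3, -, -⟩ := hc j' hj'
      have h1 : (c j)⁻¹ * c j' = 1 := by
        apply fix4 h hD
        · rw [mul_smul, b1, inv_smul_eq_iff, a1]
        · rw [mul_smul, b2, inv_smul_eq_iff, a2]
        · rw [mul_smul, ← heq.1, inv_smul_smul]
        · rw [mul_smul, ← heq.2, inv_smul_smul]
      have h2 : c j = c j' := inv_mul_eq_one.mp h1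
      rw [← a3, ← b3, h2]
    apply Set.Finite.of_finite_image _ hinj
    apply (hFfin.prod hFfin).subset
    rintro _ ⟨j, hj, rfl⟩
    exact ⟨(hc j hj).2.2.2.1, (hc j hj).2.2.2.2⟩
  rw [← Set.finite_univ_iff]
  apply ((hFfin.union hM'fin).union (Set.toFinite {e 0, e 1})).subset
  intro a _
  by_cases h1 : x • a = a
  · exact Or.inl (Or.inl h1)
  · by_cases h2 : a = e 0
    · exact Or.inr (Or.inl h2)
    · by_cases h3 : a = e 1
      · exact Or.inr (Or.inr h3)
      · exact Or.inl (Or.inr ⟨h1, h2, h3⟩)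

theorem tits4 (h : Sharp G α 4) (hne : Nonempty (Fin 4 ↪ α)) :
    Finite α ∧ Nat.card α ≤ 11 ∧ (Even (Nat.card α) → Nat.card α ≤ 6) := by
  haveI := sharp4_finite h hne
  have hcard : 4 ≤ Nat.card α := by
    obtain ⟨e⟩ := hne
    have h1 := Nat.card_le_card_of_injective e e.injective
    simpa using h1
  have h1 := deg4 h hcard
  refine ⟨inferInstance, by omega, fun hev => ?_⟩
  rcases h1 with h1 | h1 | h1 | h1
  · omega
  · rw [h1] at hev; exact absurd hev (by decide)
  · omega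
  · rw [h1] at hev; exact absurd hev (by decide)

end Cfsg.Agent.Lib.Helper1.Jordan
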