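import Mathlib
import Cfsg.Agent.Lib.Helper1.Inv

set_option autoImplicit false

namespace Cfsg.Agent.Lib.Helper1.K4

open Cfsg.Agent.Lib.Helper1

theorem mem_centralizer_of_gens {G : Type*} [Group G] (P : Subgroup G) (x y g : G)
    (hP : ∀ z ∈ P, z = 1 ∨ z = x ∨ z = y ∨ z = x * y)
    (hgx : g * x * g⁻¹ = x) (hgy : g * y * g⁻¹ = y) :
    g ∈ Subgroup.centralizer (P : Set G) := by
  have cx : x * g = g * x := by
    calc x * g = (g * x * g⁻¹) * g := by rw [hgx]
      _ = g * x := by group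
  have cy : y * g = g * y := by
    calc y * g = (g * y * g⁻¹) * g := by rw [hgy]
      _ = g * y := by group
  rw [Subgroup.mem_centralizer_iff]
  intro z hz
  rcases hP z hz with rfl | rfl | rfl | rfl
  · simp
  · exact cx
  · exact cy
  · calc x * y * g = x * (y * g) := by group
      _ = x * (g * y) := by rw [cy]
      _ = (x * g) * y := by group
      _ = g * x * y := by rw [cx]
      _ = g * (x * y) := by group

theorem conj_eq_of_mem_centralizer {G : Type*} [Group G] (P : Subgroup G) (g z : G)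
    (hg : g ∈ Subgroup.centralizer (P : Set G)) (hz : z ∈ P) : g * z * g⁻¹ = z := by
  rw [Subgroup.mem_centralizer_iff] at hg
  have := hg z hz
  calc g * z * g⁻¹ = (z * g) * g⁻¹ := by rw [this]
    _ = z := by group

theorem conj_cancel {G : Type*} [Group G] (h a b : G)
    (hab : h * a * h⁻¹ = h * b * h⁻¹) : a = b :=
  mul_left_cancel (mul_right_cancel hab)

theorem k4_fixed_contra {G : Type*} [Group G] (P : Subgroup G) (x y h : G) (m : ℕ)
    (hx1 : x ≠ 1) (hy1 : y ≠ 1) (hxy : x ≠ y)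
    (hxx : x * x = 1) (hy : y ∈ P)
    (hP : ∀ z ∈ P, z = 1 ∨ z = x ∨ z = y ∨ z = x * y)
    (hn : ∀ z ∈ P, h * z * h⁻¹ ∈ P) (hm : Odd m) (hhm : h ^ m = 1)
    (hfix : h * x * h⁻¹ = x) : h ∈ Subgroup.centralizer (P : Set G) := by
  rcases hP _ (hn y hy) with h1 | h1 | h1 | h1
  · exfalso
    apply hy1
    exact conj_cancel h y 1 (by rw [h1]; group)
  · exfalso
    apply hxy
    exact conj_cancel h x y (by rw [hfix, h1])
  · exact mem_centralizer_of_gens P x y h hP hfix h1
  · have h2x : h ^ 2 * x * (h ^ 2)⁻¹ = x := by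
      calc h ^ 2 * x * (h ^ 2)⁻¹ = h * (h * x * h⁻¹) * h⁻¹ := by rw [pow_two]; group
        _ = x := by rw [hfix, hfix]
    have h2y : h ^ 2 * y * (h ^ 2)⁻¹ = y := by
      calc h ^ 2 * y * (h ^ 2)⁻¹ = h * (h * y * h⁻¹) * h⁻¹ := by rw [pow_two]; group
        _ = h * (x * y) * h⁻¹ := by rw [h1]
        _ = (h * x * h⁻¹) * (h * y * h⁻¹) := by group
        _ = x * (x * y) := by rw [hfix, h1]
        _ = (x * x) * y := by group
        _ = y := by rw [hxx, one_mul]
    have hc2 := mem_centralizer_of_gens P x y (h ^ 2) hP h2x h2y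
    obtain ⟨j, hj⟩ := hm
    have e : h = (h ^ 2) ^ (j + 1) := by
      calc h = h ^ m * h := by rw [hhm, one_mul]
        _ = h ^ (m + 1) := by rw [pow_succ]
        _ = (h ^ 2) ^ (j + 1) := by
            rw [← pow_mul, hj]
            congr 1
    rw [e]
    exact Subgroup.pow_mem _ hc2 _

theorem k4_all_conj {G : Type*} [Group G] (P : Subgroup G) (x y h : G) (m : ℕ)
    (hx : x ∈ P) (hy : y ∈ P) (hx1 : x ≠ 1) (hy1 : y ≠ 1) (hxy : x ≠ y)
    (hxx : x * x = 1) (hyy : y * y = 1) (hcomm : x * y = y * x)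
    (hP : ∀ z ∈ P, z = 1 ∨ z = x ∨ z = y ∨ z = x * y)
    (hn : ∀ z ∈ P, h * z * h⁻¹ ∈ P) (hm : Odd m) (hhm : h ^ m = 1)
    (hnc : h ∉ Subgroup.centralizer (P : Set G)) : IsConj x y ∧ IsConj x (x * y) := by
  have hPsw : ∀ z ∈ P, z = 1 ∨ z = y ∨ z = x ∨ z = y * x := by
    intro z hz
    rcases hP z hz with h1 | h1 | h1 | h1
    · exact Or.inl h1
    · exact Or.inr (Or.inr (Or.inl h1))
    · exact Or.inr (Or.inl h1)
    · exact Or.inr (Or.inr (Or.inr (by rw [h1, hcomm])))
  have hxym : x * y ∈ P := P.mul_mem hx hy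
  have hinj : ∀ a b : G, h * a * h⁻¹ = h * b * h⁻¹ → a = b := by
    intro a b hab
    exact conj_cancel h a b hab
  have hne1 : ∀ a : G, a ≠ 1 → h * a * h⁻¹ ≠ 1 := by
    intro a ha h1
    apply ha
    apply hinj
    rw [h1]
    group
  have hmul : h * (x * y) * h⁻¹ = (h * x * h⁻¹) * (h * y * h⁻¹) := by group
  rcases hP _ (hn x hx) with h1 | h1 | h1 | h1
  · exact absurd h1 (hne1 x hx1)
  · exact absurd (k4_fixed_contra P x y h m hx1 hy1 hxy hxx hy hP hn hm hhm h1) hnc
  · rcases hP _ (hn y hy) with h2 | h2 | h2 | h2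
    · exact absurd h2 (hne1 y hy1)
    · exfalso
      have hz1 : x * y ≠ 1 := by
        intro hz
        apply hxy
        calc x = x * (y * y) := by rw [hyy, mul_one]
          _ = (x * y) * y := by group
          _ = y := by rw [hz, one_mul]
      have hzx : x * y ≠ x := by
        intro hz
        apply hy1
        calc y = x * (x * y) := by rw [← mul_assoc, hxx, one_mul]
          _ = x * x := by rw [hz]
          _ = 1 := hxx
      have hzz : x * y * (x * y) = 1 := by
        calc x * y * (x * y) = x * (y * x) * y := by group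
          _ = x * (x * y) * y := by rw [hcomm]
          _ = (x * x) * (y * y) := by group
          _ = 1 := by rw [hxx, hyy, one_mul]
      have hPz : ∀ z ∈ P, z = 1 ∨ z = x * y ∨ z = x ∨ z = x * y * x := by
        intro z hz
        have e : x * y * x = y := by
          calc x * y * x = y * x * x := by rw [hcomm]
            _ = y * (x * x) := by group
            _ = y := by rw [hxx, mul_one]
        rcases hP z hz with h3 | h3 | h3 | h3
        · exact Or.inl h3
        · exact Or.inr (Or.inr (Or.inl h3))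
        · exact Or.inr (Or.inr (Or.inr (by rw [h3, e])))
        · exact Or.inr (Or.inl h3)
      have hfixz : h * (x * y) * h⁻¹ = x * y := by
        rw [hmul, h1, h2, hcomm]
      exact hnc (k4_fixed_contra P (x * y) x h m hz1 hx1 hzx hzz hx hPz hn hm hhm hfixz)
    · exact absurd (k4_fixed_contra P y x h m hy1 hx1 (Ne.symm hxy) hyy hx hPsw hn hm hhm h2) hnc
    · have c1 : IsConj x y := isConj_iff.mpr ⟨h, h1⟩
      have c2 : IsConj y (x * y) := isConj_iff.mpr ⟨h, h2⟩
      exact ⟨c1, c1.trans c2⟩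
  · rcases hP _ (hn (x * y) hxym) with h2 | h2 | h2 | h2
    · exfalso
      have hz1 : x * y ≠ 1 := by
        intro hz
        apply hxy
        calc x = x * (y * y) := by rw [hyy, mul_one]
          _ = (x * y) * y := by group
          _ = y := by rw [hz, one_mul]
      exact hne1 _ hz1 h2
    · exfalso
      have e1 : h * y * h⁻¹ = y := by
        have e2 : h * y * h⁻¹ = (h * x * h⁻¹)⁻¹ * (h * (x * y) * h⁻¹) := by group
        rw [e2, h1, h2]
        calc (x * y)⁻¹ * x = y⁻¹ * (x⁻¹ * x) := by group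
          _ = y⁻¹ := by rw [inv_mul_cancel, mul_one]
          _ = y := inv_eq_of_mul_eq_one_right hyy
      exact hnc (k4_fixed_contra P y x h m hy1 hx1 (Ne.symm hxy) hyy hx hPsw hn hm hhm e1)
    · have c1 : IsConj x (x * y) := isConj_iff.mpr ⟨h, h1⟩
      have c2 : IsConj (x * y) y := isConj_iff.mpr ⟨h, h2⟩
      exact ⟨c1.trans c2, c1⟩
    · exfalso
      have := hinj _ _ (h2.trans h1.symm)
      apply hy1
      calc y = x * (x * y) := by rw [← mul_assoc, hxx, one_mul]
        _ = x * x := by rw [this]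
        _ = 1 := hxx

theorem k4_elements {G : Type*} [Group G] (P : Subgroup G) (hP : IsKleinFour P) :
    ∃ x y : G, x ∈ P ∧ y ∈ P ∧ x ≠ 1 ∧ y ≠ 1 ∧ x ≠ y ∧ x * x = 1 ∧ y * y = 1 ∧
      x * y = y * x ∧ ∀ z ∈ P, z = 1 ∨ z = x ∨ z = y ∨ z = x * y := by
  classical
  haveI : Finite P := Nat.finite_of_card_ne_zero (by rw [hP.card_four]; norm_num)
  haveI : Fintype P := Fintype.ofFinite P
  have hcard : Fintype.card P = 4 := by rw [← Nat.card_eq_fintype_card, hP.card_four]
  haveI : Nontrivial P := by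
    rw [← Fintype.one_lt_card_iff_nontrivial, hcard]
    norm_num
  obtain ⟨a, ha⟩ := exists_ne (1 : P)
  have hb : ∃ b : P, b ≠ 1 ∧ b ≠ a := by
    by_contra hcon
    have hall : ∀ b : P, b = 1 ∨ b = a := by
      intro b
      by_contra hb
      rw [not_or] at hb
      exact hcon ⟨b, hb.1, hb.2⟩
    have hsub : (Finset.univ : Finset P) ⊆ {1, a} := by
      intro b _
      rcases hall b with h | h <;> simp [h]
    have h1 := Finset.card_le_card hsub
    rw [Finset.card_univ, hcard] at h1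
    have h2 : ({1, a} : Finset P).card ≤ 2 := Finset.card_insert_le _ _
    omega
  obtain ⟨b, hb1, hba⟩ := hb
  have haa : a * a = 1 := IsKleinFour.mul_self a
  have hbb : b * b = 1 := IsKleinFour.mul_self b
  have hab : a * b = b * a := by
    have h1 : (a * b) * (a * b) = 1 := IsKleinFour.mul_self (a * b)
    calc a * b = a * b * (b * b) * (a * a) := by rw [hbb, haa, mul_one, mul_one]
      _ = (a * b) * (b * (b * a) * a) := by group
      _ = b * a * ((a * b) * (a * b)) := by
          have e : a * b * (b * (b * a) * a) = a * (b * b) * (b * (a * a)) := by group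
          rw [e, hbb, haa, mul_one, mul_one, h1, mul_one]
          have e2 : a * b = (b * b) * a * b * (a * a) := by rw [hbb, haa, one_mul, mul_one]
          have e3 : (b * b) * a * b * (a * a) = b * (b * a * b * a) * a := by group
          have h2 : (b * a) * (b * a) = 1 := IsKleinFour.mul_self (b * a)
          have e4 : b * a * b * a = 1 := by rw [← h2]; group
          rw [e2, e3, e4, mul_one]
      _ = b * a := by rw [h1, mul_one]
  refine ⟨(a : G), (b : G), a.2, b.2, ?_, ?_, ?_, ?_, ?_, ?_, ?_⟩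
  · intro h
    exact ha (Subtype.ext h)
  · intro h
    exact hb1 (Subtype.ext h)
  · intro h
    exact hba (Subtype.ext h).symm
  · exact congrArg Subtype.val haa
  · exact congrArg Subtype.val hbb
  · exact congrArg Subtype.val hab
  · intro z hz
    by_cases h1 : (⟨z, hz⟩ : P) = 1
    · left
      exact congrArg Subtype.val h1
    by_cases h2 : (⟨z, hz⟩ : P) = a
    · right; left
      exact congrArg Subtype.val h2
    by_cases h3 : (⟨z, hz⟩ : P) = b
    · right; right; left
      exact congrArg Subtype.val h3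
    · right; right; right
      have := IsKleinFour.eq_mul_of_ne_all ha hb1 (Ne.symm hba) h1 h2 h3
      exact congrArg Subtype.val this

theorem two_elt_normalizer_mem {G : Type*} [Group G] [Finite G] (P : Sylow 2 G) (u : G) (k : ℕ)
    (hu : u ^ (2 ^ k) = 1)
    (hn : u ∈ Subgroup.normalizer ((P : Subgroup G) : Set G)) : u ∈ P := by
  haveI : Fact (Nat.Prime 2) := ⟨Nat.prime_two⟩
  have hdvd : orderOf u ∣ 2 ^ k := orderOf_dvd_iff_pow_eq_one.mpr hu
  obtain ⟨j, -, hj⟩ := (Nat.dvd_prime_pow Nat.prime_two).mp hdvd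
  have hpg : IsPGroup 2 (Subgroup.zpowers u) :=
    IsPGroup.of_card (n := j) (by rw [Nat.card_zpowers, hj])
  have h1 := hpg.inf_normalizer_sylow P
  have hmem : u ∈ Subgroup.zpowers u ⊓ Subgroup.normalizer (P : Set G) :=
    ⟨Subgroup.mem_zpowers u, hn⟩
  exact (h1.le hmem).2

theorem k4_dichotomy {G : Type*} [Group G] [Finite G] (P : Sylow 2 G)
    (hP : IsKleinFour (P : Subgroup G)) :
    Subgroup.normalizer ((P : Subgroup G) : Set G) ≤
        Subgroup.centralizer ((P : Subgroup G) : Set G) ∨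
      (∀ a ∈ P, ∀ b ∈ P, a ≠ 1 → b ≠ 1 → IsConj a b) := by
  obtain ⟨x, y, hx, hy, hx1, hy1, hxy, hxx, hyy, hcomm, hall⟩ := k4_elements (P : Subgroup G) hP
  by_cases hnc : Subgroup.normalizer ((P : Subgroup G) : Set G) ≤
      Subgroup.centralizer ((P : Subgroup G) : Set G)
  · exact Or.inl hnc
  right
  rw [SetLike.not_le_iff_exists] at hnc
  obtain ⟨g, hgn, hgc⟩ := hnc
  have hord : orderOf g ≠ 0 := (orderOf_pos g).ne'
  obtain ⟨k, m, hm, hkm⟩ := Nat.exists_eq_two_pow_mul_odd hord
  have hu : (g ^ m) ^ (2 ^ k) = 1 := by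
    rw [← pow_mul, mul_comm, ← hkm, pow_orderOf_eq_one]
  have hh : (g ^ (2 ^ k)) ^ m = 1 := by
    rw [← pow_mul, ← hkm, pow_orderOf_eq_one]
  have huP : g ^ m ∈ P := two_elt_normalizer_mem P (g ^ m) k hu (Subgroup.pow_mem _ hgn m)
  have huC : g ^ m ∈ Subgroup.centralizer ((P : Subgroup G) : Set G) := by
    haveI := hP
    have hmc : IsMulCommutative (P : Subgroup G) := IsKleinFour.isMulCommutative
    exact Subgroup.le_centralizer (P : Subgroup G) huP
  have hhn : g ^ (2 ^ k) ∈ Subgroup.normalizer ((P : Subgroup G) : Set G) :=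
    Subgroup.pow_mem _ hgn _
  have hhc : g ^ (2 ^ k) ∉ Subgroup.centralizer ((P : Subgroup G) : Set G) := by
    intro hc
    apply hgc
    have hcop : Nat.Coprime (2 ^ k) m := Nat.Coprime.pow_left k (Nat.coprime_two_left.mpr hm)
    have hb := Nat.gcd_eq_gcd_ab (2 ^ k) m
    rw [hcop] at hb
    have e : g = (g ^ (2 ^ k)) ^ (Nat.gcdA (2 ^ k) m) * (g ^ m) ^ (Nat.gcdB (2 ^ k) m) := by
      rw [← zpow_natCast g (2 ^ k), ← zpow_natCast g m, ← zpow_mul, ← zpow_mul, ← zpow_add,
        ← hb]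
      simp
    rw [e]
    exact Subgroup.mul_mem _ (Subgroup.zpow_mem _ hc _) (Subgroup.zpow_mem _ huC _)
  have hn : ∀ z ∈ (P : Subgroup G), g ^ (2 ^ k) * z * (g ^ (2 ^ k))⁻¹ ∈ (P : Subgroup G) := by
    intro z hz
    exact (Subgroup.mem_normalizer_iff.mp hhn z).mp hz
  obtain ⟨c1, c2⟩ := k4_all_conj (P : Subgroup G) x y (g ^ (2 ^ k)) m hx hy hx1 hy1 hxy hxx hyy
    hcomm hall hn hm hh hhc
  have key : ∀ a ∈ P, a ≠ 1 → IsConj x a := by
    intro a ha ha1
    rcases hall a ha with h | h | h | h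
    · exact absurd h ha1
    · rw [h]
    · rw [h]; exact c1
    · rw [h]; exact c2
  intro a ha b hb ha1 hb1
  exact (key a ha ha1).symm.trans (key b hb hb1)

theorem invol_conj_into_sylow {G : Type*} [Group G] [Finite G] (P : Sylow 2 G) (t : G)
    (ht : orderOf t = 2) : ∃ s ∈ P, s ≠ 1 ∧ IsConj t s := by
  haveI : Fact (Nat.Prime 2) := ⟨Nat.prime_two⟩
  have hpg : IsPGroup 2 (Subgroup.zpowers t) :=
    IsPGroup.of_card (n := 1) (by rw [Nat.card_zpowers, ht, pow_one])
  obtain ⟨Q, hQ⟩ := hpg.exists_le_sylow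
  obtain ⟨g, hg⟩ := MulAction.exists_smul_eq G P Q
  have htQ : t ∈ Q := hQ (Subgroup.mem_zpowers t)
  rw [← hg, mem_sylow_smul_iff] at htQ
  refine ⟨g⁻¹ * t * g, htQ, ?_, ?_⟩
  · intro h1
    apply ne_one_of_orderOf_two ht
    apply conj_cancel g⁻¹
    rw [inv_inv, h1]
    group
  · rw [isConj_iff]
    exact ⟨g⁻¹, by rw [inv_inv]⟩

theorem card_classes_one {G : Type*} [Group G] [Finite G] (P : Sylow 2 G)
    (hP : IsKleinFour (P : Subgroup G))
    (hall : ∀ a ∈ P, ∀ b ∈ P, a ≠ 1 → b ≠ 1 → IsConj a b) :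
    Nat.card {C : ConjClasses G // ∃ t : G, orderOf t = 2 ∧ ConjClasses.mk t = C} = 1 := by
  obtain ⟨x, y, hx, hy, hx1, hy1, hxy, hxx, hyy, hcomm, hel⟩ := k4_elements (P : Subgroup G) hP
  rw [Nat.card_eq_one_iff_unique]
  constructor
  · constructor
    rintro ⟨C, t, ht, rfl⟩ ⟨D, s, hs, rfl⟩
    apply Subtype.ext
    show ConjClasses.mk t = ConjClasses.mk s
    rw [ConjClasses.mk_eq_mk_iff_isConj]
    obtain ⟨t', ht', ht1, hc⟩ := invol_conj_into_sylow P t ht
    obtain ⟨s', hs', hs1, hc'⟩ := invol_conj_into_sylow P s hs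
    exact hc.trans ((hall t' ht' s' hs' ht1 hs1).trans hc'.symm)
  · exact ⟨⟨ConjClasses.mk x, x, orderOf_two_of hxx hx1, rfl⟩⟩

theorem card_classes_three {G : Type*} [Group G] [Finite G] (P : Sylow 2 G)
    (hP : IsKleinFour (P : Subgroup G))
    (hinj : ∀ a ∈ P, ∀ b ∈ P, IsConj a b → a = b) :
    Nat.card {C : ConjClasses G // ∃ t : G, orderOf t = 2 ∧ ConjClasses.mk t = C} = 3 := by
  obtain ⟨x, y, hx, hy, hx1, hy1, hxy, hxx, hyy, hcomm, hel⟩ := k4_elements (P : Subgroup G) hP
  have hxyP : x * y ∈ P := Subgroup.mul_mem _ hx hy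
  have hxy1 : x * y ≠ 1 := by
    intro hz
    apply hxy
    calc x = x * (y * y) := by rw [hyy, mul_one]
      _ = (x * y) * y := by group
      _ = y := by rw [hz, one_mul]
  have hxyx : x * y ≠ x := by
    intro hz
    apply hy1
    calc y = x * (x * y) := by rw [← mul_assoc, hxx, one_mul]
      _ = x * x := by rw [hz]
      _ = 1 := hxx
  have hxyy : x * y ≠ y := by
    intro hz
    apply hx1
    calc x = (x * y) * y := by rw [mul_assoc, hyy, mul_one]
      _ = y * y := by rw [hz]
      _ = 1 := hyy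
  have hzz : x * y * (x * y) = 1 := by
    calc x * y * (x * y) = x * (y * x) * y := by group
      _ = x * (x * y) * y := by rw [hcomm]
      _ = (x * x) * (y * y) := by group
      _ = 1 := by rw [hxx, hyy, one_mul]
  change Nat.card ↥{C : ConjClasses G | ∃ t : G, orderOf t = 2 ∧ ConjClasses.mk t = C} = 3
  rw [Nat.card_coe_set_eq, Set.ncard_eq_three]
  refine ⟨ConjClasses.mk x, ConjClasses.mk y, ConjClasses.mk (x * y), ?_, ?_, ?_, ?_⟩
  · intro h
    rw [ConjClasses.mk_eq_mk_iff_isConj] at h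
    exact hxy (hinj x hx y hy h)
  · intro h
    rw [ConjClasses.mk_eq_mk_iff_isConj] at h
    exact hxyx (hinj x hx _ hxyP h).symm
  · intro h
    rw [ConjClasses.mk_eq_mk_iff_isConj] at h
    exact hxyy (hinj y hy _ hxyP h).symm
  · ext C
    simp only [Set.mem_setOf_eq, Set.mem_insert_iff, Set.mem_singleton_iff]
    constructor
    · rintro ⟨t, ht, rfl⟩
      obtain ⟨s, hs, hs1, hc⟩ := invol_conj_into_sylow P t ht
      rw [← ConjClasses.mk_eq_mk_iff_isConj] at hc
      rw [hc]
      rcases hel s hs with h | h | h | h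
      · exact absurd h hs1
      · left; rw [h]
      · right; left; rw [h]
      · right; right; rw [h]
    · rintro (h | h | h)
      · exact ⟨x, orderOf_two_of hxx hx1, h.symm⟩
      · exact ⟨y, orderOf_two_of hyy hy1, h.symm⟩
      · exact ⟨x * y, orderOf_two_of hzz hxy1, h.symm⟩

theorem inj_of_normalizer_le {G : Type*} [Group G] [Finite G] (P : Sylow 2 G)
    (hP : IsKleinFour (P : Subgroup G))
    (hnc : Subgroup.normalizer ((P : Subgroup G) : Set G) ≤
        Subgroup.centralizer ((P : Subgroup G) : Set G)) :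
    ∀ a ∈ P, ∀ b ∈ P, IsConj a b → a = b := by
  haveI : Fact (Nat.Prime 2) := ⟨Nat.prime_two⟩
  haveI := hP
  haveI : IsMulCommutative (P : Subgroup G) := IsKleinFour.isMulCommutative
  intro a ha b hb hab
  rw [isConj_iff] at hab
  obtain ⟨c, hc⟩ := hab
  have h1 : (c⁻¹)⁻¹ * a * c⁻¹ ∈ P := by rw [inv_inv, hc]; exact hb
  obtain ⟨n, hn, hn'⟩ := Sylow.conj_eq_normalizer_conj_of_mem P a c⁻¹ ha h1
  rw [inv_inv, hc] at hn'
  have hnC := hnc hn
  rw [Subgroup.mem_centralizer_iff] at hnC
  have h2 := hnC a ha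
  rw [hn', mul_assoc, h2, ← mul_assoc, inv_mul_cancel, one_mul]

theorem inj_of_normal_complement {G : Type*} [Group G] [Finite G] (P : Sylow 2 G)
    (hP : IsKleinFour (P : Subgroup G)) (N : Subgroup G) (hN : N.Normal)
    (hc : Subgroup.IsComplement' N (P : Subgroup G)) :
    ∀ a ∈ P, ∀ b ∈ P, IsConj a b → a = b := by
  haveI := hP
  haveI : IsMulCommutative (P : Subgroup G) := IsKleinFour.isMulCommutative
  have e : G ⧸ N ≃* (P : Subgroup G) := hc.symm.QuotientMulEquiv
  have hcomm : ∀ u v : G ⧸ N, u * v = v * u := by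
    intro u v
    apply e.injective
    rw [map_mul, map_mul]
    exact mul_comm' _ _
  intro a ha b hb hab
  rw [isConj_iff] at hab
  obtain ⟨c, hcab⟩ := hab
  have h1 : ((a : G) : G ⧸ N) = ((b : G) : G ⧸ N) := by
    rw [← hcab, QuotientGroup.mk_mul, QuotientGroup.mk_mul, hcomm, ← mul_assoc,
      ← QuotientGroup.mk_mul, inv_mul_cancel, QuotientGroup.mk_one, one_mul]
  rw [QuotientGroup.eq] at h1
  have h2 : a⁻¹ * b ∈ (P : Subgroup G) := Subgroup.mul_mem _ (Subgroup.inv_mem _ ha) hb
  have h3 := Subgroup.disjoint_def.mp hc.disjoint h1 h2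
  exact inv_mul_eq_one.mp h3

theorem k4_classes {G : Type*} [Group G] [Finite G] (P : Sylow 2 G)
    (hP : IsKleinFour (P : Subgroup G)) :
    Nat.card {C : ConjClasses G // ∃ t : G, orderOf t = 2 ∧ ConjClasses.mk t = C} = 1 ∨
      Nat.card {C : ConjClasses G // ∃ t : G, orderOf t = 2 ∧ ConjClasses.mk t = C} = 3 := by
  rcases k4_dichotomy P hP with h | h
  · exact Or.inr (card_classes_three P hP (inj_of_normalizer_le P hP h))
  · exact Or.inl (card_classes_one P hP h)

theorem k4_three_iff {G : Type*} [Group G] [Finite G] (P : Sylow 2 G)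
    (hP : IsKleinFour (P : Subgroup G)) :
    Nat.card {C : ConjClasses G // ∃ t : G, orderOf t = 2 ∧ ConjClasses.mk t = C} = 3 ↔
      ∃ N : Subgroup G, N.Normal ∧ Subgroup.IsComplement' N (P : Subgroup G) := by
  haveI : Fact (Nat.Prime 2) := ⟨Nat.prime_two⟩
  constructor
  · intro h3
    rcases k4_dichotomy P hP with h | h
    · exact ⟨(MonoidHom.transferSylow P h).ker, MonoidHom.normal_ker _,
        MonoidHom.ker_transferSylow_isComplement' P h⟩
    · have h1 := card_classes_one P hP h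
      omega
  · rintro ⟨N, hN, hc⟩
    exact card_classes_three P hP (inj_of_normal_complement P hP N hN hc)

end Cfsg.Agent.Lib.Helper1.K4
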