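import Mathlib
import Cfsg.Agent.Lib.Helper1.Golay

set_option autoImplicit false

namespace Cfsg.Agent.Lib.Helper1.Leech

open Cfsg

def idx : GolayPt → ℕ
  | none => 0
  | some x => x.val + 1

def GM : List ℕ :=
  [681662, 1363324, 2726648, 5453296, 10906592, 5035970, 10071940, 3366666, 6733332, 13466664,
    10156114, 16777215]

def gm (j : ℕ) : ℕ := GM.getD j 0

set_option maxRecDepth 100000 in
theorem gen12_eq : ∀ (j : Fin 12) (i : GolayPt),
    Golay.gen12 j i = if (gm j.val).testBit (idx i) = true then 1 else 0 := by decide +kernel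

def Xa : ℕ → ℕ → ℕ
  | 0, _ => 0
  | j+1, k => (Xa j k) ^^^ (if k.testBit j = true then gm j else 0)

def X (k : ℕ) : ℕ := Xa 12 k

def S (k : ℕ) : Finset GolayPt := Finset.univ.filter (fun i => (X k).testBit (idx i) = true)

def cw (k : ℕ) : GolayPt → ZMod 2 := fun i => if (X k).testBit (idx i) = true then 1 else 0

def cv (k : ℕ) : Fin 12 → ZMod 2 := fun j => if k.testBit j.val = true then 1 else 0

def lc (v : Fin 12 → ZMod 2) : GolayPt → ZMod 2 := ∑ j, v j • Golay.gen12 j

theorem Xa_testBit (k b : ℕ) : ∀ n, ((if (Xa n k).testBit b = true then 1 else 0 : ZMod 2)) =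
    ∑ j ∈ Finset.range n, (if k.testBit j = true then 1 else 0 : ZMod 2) *
      (if (gm j).testBit b = true then 1 else 0) := by
  intro n
  induction n with
  | zero => simp [Xa]
  | succ n ih =>
    rw [Finset.sum_range_succ, ← ih]
    show (if (Xa n k ^^^ (if k.testBit n = true then gm n else 0)).testBit b = true
      then (1 : ZMod 2) else 0) = _
    rw [Nat.testBit_xor]
    by_cases h : k.testBit n = true
    · simp only [h, if_true, one_mul]
      cases (Xa n k).testBit b <;> cases (gm n).testBit b <;> decide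
    · have h' : k.testBit n = false := by simpa using h
      simp [h']

theorem cw_eq_lc (k : ℕ) : cw k = lc (cv k) := by
  funext i
  show (if (Xa 12 k).testBit (idx i) = true then (1 : ZMod 2) else 0) =
    (∑ j, cv k j • Golay.gen12 j) i
  rw [Xa_testBit, Finset.sum_apply,
    ← Fin.sum_univ_eq_sum_range (fun j => (if k.testBit j = true then 1 else 0 : ZMod 2) *
      (if (gm j).testBit (idx i) = true then 1 else 0)) 12]
  refine Finset.sum_congr rfl (fun j _ => ?_)
  rw [Pi.smul_apply, smul_eq_mul, gen12_eq]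
  rfl

theorem lc_mem (v : Fin 12 → ZMod 2) : lc v ∈ golayCode :=
  Submodule.sum_mem _ (fun j _ => Submodule.smul_mem _ _ (Golay.gen12_mem j))

theorem lc_injective : Function.Injective lc := by
  intro v v' h
  have key : ∀ c : Fin 12 → ZMod 2,
      Matrix.vecMul c Golay.M12 = fun k => lc c (Golay.pt12 k) := by
    intro c
    funext k
    simp only [Matrix.vecMul, dotProduct, lc, Finset.sum_apply, Pi.smul_apply, smul_eq_mul,
      Golay.M12]
  have h2 : Matrix.vecMul v Golay.M12 = Matrix.vecMul v' Golay.M12 := by rw [key, key, h]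
  have h4 := congrArg (fun u => Matrix.vecMul u Golay.N12) h2
  simp only [Matrix.vecMul_vecMul, Golay.M12_mul_N12, Matrix.vecMul_one] at h4
  exact h4

theorem lc_surj (w : GolayPt → ZMod 2) (hw : w ∈ golayCode) : ∃ v, lc v = w := by
  let f : (Fin 12 → ZMod 2) →ₗ[ZMod 2] golayCode :=
    (Fintype.linearCombination (ZMod 2) Golay.gen12).codRestrict golayCode (fun c => by
      rw [Fintype.linearCombination_apply]
      exact Submodule.sum_mem _ (fun j _ => Submodule.smul_mem _ _ (Golay.gen12_mem j)))
  have hinj : Function.Injective f := by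
    intro a b hab
    have h1 := congrArg Subtype.val hab
    simp only [f, LinearMap.codRestrict_apply, Fintype.linearCombination_apply] at h1
    exact lc_injective h1
  have hfr : Module.finrank (ZMod 2) (Fin 12 → ZMod 2) = Module.finrank (ZMod 2) golayCode := by
    rw [Module.finrank_fin_fun, Golay.finrank_golay]
  have hsurj := (LinearMap.injective_iff_surjective_of_finrank_eq_finrank hfr).mp hinj
  obtain ⟨v, hv⟩ := hsurj ⟨w, hw⟩
  refine ⟨v, ?_⟩
  have h1 := congrArg Subtype.val hv
  simp only [f, LinearMap.codRestrict_apply, Fintype.linearCombination_apply] at h1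
  exact h1

theorem cv_inj (k k' : ℕ) (hk : k < 4096) (hk' : k' < 4096) (h : cv k = cv k') : k = k' := by
  apply Nat.eq_of_testBit_eq
  intro i
  by_cases hi : i < 12
  · have h1 := congrFun h ⟨i, hi⟩
    simp only [cv] at h1
    by_cases a : k.testBit i = true <;> by_cases b : k'.testBit i = true <;> simp_all
  · have h2 : (2:ℕ)^12 ≤ 2^i := Nat.pow_le_pow_right (by norm_num) (by omega)
    rw [Nat.testBit_lt_two_pow (by omega), Nat.testBit_lt_two_pow (by omega)]

theorem cv_surj (v : Fin 12 → ZMod 2) : ∃ k < 4096, cv k = v := by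
  have hinj : Function.Injective (fun k : Fin 4096 => cv k.val) := by
    intro a b hab
    exact Fin.ext (cv_inj a.val b.val a.isLt b.isLt hab)
  have hcard : Fintype.card (Fin 4096) = Fintype.card (Fin 12 → ZMod 2) := by
    rw [Fintype.card_fin, Fintype.card_fun, ZMod.card, Fintype.card_fin]
    norm_num
  obtain ⟨k, hk⟩ := ((Fintype.bijective_iff_injective_and_card _).mpr ⟨hinj, hcard⟩).2 v
  exact ⟨k.val, k.isLt, hk⟩

theorem mem_golay_iff (w : GolayPt → ZMod 2) : w ∈ golayCode ↔ ∃ k < 4096, w = cw k := by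
  constructor
  · intro hw
    obtain ⟨v, hv⟩ := lc_surj w hw
    obtain ⟨k, hk, hkv⟩ := cv_surj v
    exact ⟨k, hk, by rw [cw_eq_lc, hkv, hv]⟩
  · rintro ⟨k, _, rfl⟩
    rw [cw_eq_lc]
    exact lc_mem _

theorem cw_inj (k k' : ℕ) (hk : k < 4096) (hk' : k' < 4096) (h : cw k = cw k') : k = k' := by
  rw [cw_eq_lc, cw_eq_lc] at h
  exact cv_inj k k' hk hk' (lc_injective h)

theorem mem_S_iff (k : ℕ) (i : GolayPt) : i ∈ S k ↔ cw k i = 1 := by
  unfold S cw
  rw [Finset.mem_filter]
  by_cases h : (X k).testBit (idx i) = true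
  · simp [h]
  · simp [h]

def popcA : ℕ → ℕ → ℕ
  | 0, _ => 0
  | n+1, m => popcA n m + if m.testBit n = true then 1 else 0

theorem popcA_eq (m : ℕ) : ∀ n, popcA n m =
    ∑ b ∈ Finset.range n, if m.testBit b = true then 1 else 0 := by
  intro n
  induction n with
  | zero => rfl
  | succ n ih =>
    rw [Finset.sum_range_succ, ← ih]
    rfl

def wtN (k : ℕ) : ℕ := popcA 24 (X k)

theorem card_S (k : ℕ) : (S k).card = wtN k := by
  unfold S wtN
  rw [Finset.card_filter, popcA_eq, Fintype.sum_option, Finset.sum_range_succ', add_comm]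
  congr 1

set_option maxRecDepth 100000 in
theorem wt_vals : ∀ k < 4096,
    wtN k = 0 ∨ wtN k = 8 ∨ wtN k = 12 ∨ wtN k = 16 ∨ wtN k = 24 := by decide +kernel

def cntW (v : ℕ) : ℕ → ℕ
  | 0 => 0
  | n+1 => cntW v n + if wtN n = v then 1 else 0

theorem cntW_eq (v : ℕ) : ∀ n, cntW v n =
    ((Finset.range n).filter (fun k => wtN k = v)).card := by
  intro n
  induction n with
  | zero => rfl
  | succ n ih =>
    rw [Finset.range_add_one, Finset.filter_insert]
    by_cases h : wtN n = v
    · rw [if_pos h, Finset.card_insert_of_notMem (by simp), ← ih]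
      simp [cntW, h]
    · rw [if_neg h, ← ih]
      simp [cntW, h]

theorem cntW_vals : cntW 0 4096 = 1 ∧ cntW 8 4096 = 759 ∧ cntW 12 4096 = 2576 ∧
    cntW 16 4096 = 759 ∧ cntW 24 4096 = 1 := by decide +kernel

theorem wt_sum (G : ℕ → ℕ) : ∑ k ∈ Finset.range 4096, G (wtN k) =
    G 0 + 759 * G 8 + 2576 * G 12 + 759 * G 16 + G 24 := by
  have h1 : ∀ k ∈ Finset.range 4096, wtN k ∈ ({0, 8, 12, 16, 24} : Finset ℕ) := by
    intro k hk
    have := wt_vals k (Finset.mem_range.mp hk)
    simp only [Finset.mem_insert, Finset.mem_singleton]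
    exact this
  rw [← Finset.sum_fiberwise_of_maps_to h1]
  have h2 : ∀ v, ∑ k ∈ (Finset.range 4096).filter (fun k => wtN k = v), G (wtN k) =
      cntW v 4096 * G v := by
    intro v
    rw [cntW_eq, ← smul_eq_mul, ← Finset.sum_const]
    exact Finset.sum_congr rfl (fun k hk => by rw [(Finset.mem_filter.mp hk).2])
  simp only [h2]
  obtain ⟨c0, c8, c12, c16, c24⟩ := cntW_vals
  rw [Finset.sum_insert (by decide), Finset.sum_insert (by decide), Finset.sum_insert (by decide),
    Finset.sum_insert (by decide), Finset.sum_singleton, c0, c8, c12, c16, c24]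
  ring

end Cfsg.Agent.Lib.Helper1.Leech
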