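import Mathlib
import Cfsg.Agent.Lib.Helper1.Golay

set_option autoImplicit false

namespace Cfsg.Agent.Lib.Helper1.Leech

open Cfsg

def ind (p : GolayPt → Prop) [DecidablePred p] : GolayPt → ZMod 2 := fun i => if p i then 1 else 0

theorem ind_congr (p q : GolayPt → Prop) [DecidablePred p] [DecidablePred q]
    (h : ∀ i, p i ↔ q i) : ind p = ind q := by
  funext i
  unfold ind
  by_cases hp : p i
  · rw [if_pos hp, if_pos ((h i).mp hp)]
  · rw [if_neg hp, if_neg (fun hq => hp ((h i).mpr hq))]

theorem zmod2_eq_one : ∀ a : ZMod 2, a ≠ 0 → a = 1 := by decide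

theorem supp_ind (p : GolayPt → Prop) [DecidablePred p] :
    support₂ (ind p) = Finset.univ.filter p := by
  ext i
  unfold support₂ ind
  rw [Finset.mem_filter, Finset.mem_filter]
  by_cases hp : p i
  · simp [hp]
  · simp [hp]

theorem filter_mem_supports_iff (p : GolayPt → Prop) [DecidablePred p] :
    Finset.univ.filter p ∈ supports (golayCode : Set (GolayPt → ZMod 2)) ↔ ind p ∈ golayCode := by
  constructor
  · rintro ⟨w, hw, hsupp⟩
    have hwi : w = ind p := by
      funext i
      have h1 : i ∈ support₂ w ↔ p i := by
        rw [hsupp, Finset.mem_filter]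
        simp
      unfold support₂ at h1
      rw [Finset.mem_filter] at h1
      unfold ind
      by_cases hp : p i
      · rw [if_pos hp]
        exact zmod2_eq_one _ (h1.mpr hp).2
      · rw [if_neg hp]
        by_contra h0
        exact hp (h1.mp ⟨Finset.mem_univ _, h0⟩)
    rw [← hwi]
    exact hw
  · intro h
    exact ⟨ind p, h, supp_ind p⟩

theorem zmod2_one_add_one : (1 : ZMod 2) + 1 = 0 := by decide

theorem ind_eq_one_add (p q : GolayPt → Prop) [DecidablePred p] [DecidablePred q]
    (h : ∀ i, p i ↔ ¬ q i) : ind p = 1 + ind q := by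
  funext i
  simp only [ind, Pi.add_apply, Pi.one_apply]
  by_cases hq : q i
  · rw [if_pos hq, if_neg (fun hp => (h i).mp hp hq)]
    exact zmod2_one_add_one.symm
  · rw [if_neg hq, if_pos ((h i).mpr hq), add_zero]

theorem ind_eq_add (p q r : GolayPt → Prop) [DecidablePred p] [DecidablePred q] [DecidablePred r]
    (h : ∀ i, p i ↔ (q i ∧ ¬ r i) ∨ (¬ q i ∧ r i)) : ind p = ind q + ind r := by
  funext i
  simp only [ind, Pi.add_apply]
  by_cases hq : q i <;> by_cases hr : r i
  · rw [if_pos hq, if_pos hr, if_neg (fun hp => by
      rcases (h i).mp hp with ⟨_, h2⟩ | ⟨h2, _⟩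
      · exact h2 hr
      · exact h2 hq)]
    exact zmod2_one_add_one.symm
  · rw [if_pos hq, if_neg hr, if_pos ((h i).mpr (Or.inl ⟨hq, hr⟩)), add_zero]
  · rw [if_neg hq, if_pos hr, if_pos ((h i).mpr (Or.inr ⟨hq, hr⟩)), zero_add]
  · rw [if_neg hq, if_neg hr, if_neg (fun hp => by
      rcases (h i).mp hp with ⟨h2, _⟩ | ⟨_, h2⟩
      · exact hq h2
      · exact hr h2), add_zero]

theorem ind_eq_one_add_add (p q r : GolayPt → Prop) [DecidablePred p] [DecidablePred q]
    [DecidablePred r] (h : ∀ i, p i ↔ ¬ ((q i ∧ ¬ r i) ∨ (¬ q i ∧ r i))) :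
    ind p = 1 + (ind q + ind r) := by
  have h1 : ind (fun i => (q i ∧ ¬ r i) ∨ (¬ q i ∧ r i)) = ind q + ind r :=
    ind_eq_add _ q r (fun i => Iff.rfl)
  rw [← h1]
  exact ind_eq_one_add p _ h

def IsE (x : GolayPt → ℤ) : Prop :=
  (∀ i, x i % 2 = 0) ∧ (∑ i, x i) % 8 = 0 ∧ ind (fun i => x i % 4 = 2) ∈ golayCode

def IsO (x : GolayPt → ℤ) : Prop :=
  (∀ i, x i % 2 = 1) ∧ (∑ i, x i) % 8 = 4 ∧ ind (fun i => x i % 4 = 1) ∈ golayCode

theorem ind_zero_of (p : GolayPt → Prop) [DecidablePred p] (h : ∀ i, ¬ p i) : ind p = 0 := by
  funext i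
  unfold ind
  rw [if_neg (h i)]
  rfl

theorem mem_leechSet_iff (x : GolayPt → ℤ) : x ∈ leechSet ↔ IsE x ∨ IsO x := by
  constructor
  · rintro ⟨m, h2, hs, hk⟩
    rcases Int.emod_two_eq_zero_or_one m with hm | hm
    · left
      refine ⟨fun i => ?_, ?_, ?_⟩
      · have := h2 i
        unfold Int.ModEq at this
        omega
      · unfold Int.ModEq at hs
        omega
      · have h3 := (filter_mem_supports_iff _).mp (hk 2)
        rw [ind_congr _ (fun i => x i % 4 = 2) (fun i => by unfold Int.ModEq; omega)] at h3
        exact h3
    · right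
      refine ⟨fun i => ?_, ?_, ?_⟩
      · have := h2 i
        unfold Int.ModEq at this
        omega
      · unfold Int.ModEq at hs
        omega
      · have h3 := (filter_mem_supports_iff _).mp (hk 1)
        rw [ind_congr _ (fun i => x i % 4 = 1) (fun i => by unfold Int.ModEq; omega)] at h3
        exact h3
  · rintro (⟨he, hs, hC⟩ | ⟨ho, hs, hC⟩)
    · refine ⟨0, fun i => ?_, ?_, fun k => ?_⟩
      · have := he i
        unfold Int.ModEq
        omega
      · unfold Int.ModEq
        omega
      · rw [filter_mem_supports_iff]
        have hk4 : k % 4 = 0 ∨ k % 4 = 1 ∨ k % 4 = 2 ∨ k % 4 = 3 := by omega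
        rcases hk4 with h | h | h | h
        · have h5 : ind (fun i => x i ≡ k [ZMOD 4]) = 1 + ind (fun i => x i % 4 = 2) :=
            ind_eq_one_add _ _ (fun i => by
              have := he i
              unfold Int.ModEq
              omega)
          rw [h5]
          exact Submodule.add_mem _ Golay.one_mem_golay hC
        · rw [ind_zero_of _ (fun i => by have := he i; unfold Int.ModEq; omega)]
          exact Submodule.zero_mem _
        · rw [ind_congr _ (fun i => x i % 4 = 2) (fun i => by unfold Int.ModEq; omega)]
          exact hC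
        · rw [ind_zero_of _ (fun i => by have := he i; unfold Int.ModEq; omega)]
          exact Submodule.zero_mem _
    · refine ⟨1, fun i => ?_, ?_, fun k => ?_⟩
      · have := ho i
        unfold Int.ModEq
        omega
      · unfold Int.ModEq
        omega
      · rw [filter_mem_supports_iff]
        have hk4 : k % 4 = 0 ∨ k % 4 = 1 ∨ k % 4 = 2 ∨ k % 4 = 3 := by omega
        rcases hk4 with h | h | h | h
        · rw [ind_zero_of _ (fun i => by have := ho i; unfold Int.ModEq; omega)]
          exact Submodule.zero_mem _
        · rw [ind_congr _ (fun i => x i % 4 = 1) (fun i => by unfold Int.ModEq; omega)]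
          exact hC
        · rw [ind_zero_of _ (fun i => by have := ho i; unfold Int.ModEq; omega)]
          exact Submodule.zero_mem _
        · have h5 : ind (fun i => x i ≡ k [ZMOD 4]) = 1 + ind (fun i => x i % 4 = 1) :=
            ind_eq_one_add _ _ (fun i => by
              have := ho i
              unfold Int.ModEq
              omega)
          rw [h5]
          exact Submodule.add_mem _ Golay.one_mem_golay hC

def leechSub : AddSubgroup (GolayPt → ℤ) where
  carrier := {x | IsE x ∨ IsO x}
  zero_mem' := by
    left
    refine ⟨fun i => by simp, by simp, ?_⟩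
    rw [ind_zero_of _ (fun i => by simp)]
    exact Submodule.zero_mem _
  add_mem' := by
    rintro x y (⟨hx1, hx2, hx3⟩ | ⟨hx1, hx2, hx3⟩) (⟨hy1, hy2, hy3⟩ | ⟨hy1, hy2, hy3⟩)
    · left
      refine ⟨fun i => ?_, ?_, ?_⟩
      · have := hx1 i
        have := hy1 i
        rw [Pi.add_apply]
        omega
      · simp only [Pi.add_apply, Finset.sum_add_distrib]
        omega
      · have h5 : ind (fun i => (x + y) i % 4 = 2) =
            ind (fun i => x i % 4 = 2) + ind (fun i => y i % 4 = 2) :=
          ind_eq_add _ _ _ (fun i => by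
            have := hx1 i
            have := hy1 i
            simp only [Pi.add_apply]
            omega)
        rw [h5]
        exact Submodule.add_mem _ hx3 hy3
    · right
      refine ⟨fun i => ?_, ?_, ?_⟩
      · have := hx1 i
        have := hy1 i
        rw [Pi.add_apply]
        omega
      · simp only [Pi.add_apply, Finset.sum_add_distrib]
        omega
      · have h5 : ind (fun i => (x + y) i % 4 = 1) =
            ind (fun i => x i % 4 = 2) + ind (fun i => y i % 4 = 1) :=
          ind_eq_add _ _ _ (fun i => by
            have := hx1 i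
            have := hy1 i
            simp only [Pi.add_apply]
            omega)
        rw [h5]
        exact Submodule.add_mem _ hx3 hy3
    · right
      refine ⟨fun i => ?_, ?_, ?_⟩
      · have := hx1 i
        have := hy1 i
        rw [Pi.add_apply]
        omega
      · simp only [Pi.add_apply, Finset.sum_add_distrib]
        omega
      · have h5 : ind (fun i => (x + y) i % 4 = 1) =
            ind (fun i => x i % 4 = 1) + ind (fun i => y i % 4 = 2) :=
          ind_eq_add _ _ _ (fun i => by
            have := hx1 i
            have := hy1 i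
            simp only [Pi.add_apply]
            omega)
        rw [h5]
        exact Submodule.add_mem _ hx3 hy3
    · left
      refine ⟨fun i => ?_, ?_, ?_⟩
      · have := hx1 i
        have := hy1 i
        rw [Pi.add_apply]
        omega
      · simp only [Pi.add_apply, Finset.sum_add_distrib]
        omega
      · have h5 : ind (fun i => (x + y) i % 4 = 2) =
            1 + (ind (fun i => x i % 4 = 1) + ind (fun i => y i % 4 = 1)) :=
          ind_eq_one_add_add _ _ _ (fun i => by
            have := hx1 i
            have := hy1 i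
            simp only [Pi.add_apply]
            omega)
        rw [h5]
        exact Submodule.add_mem _ Golay.one_mem_golay (Submodule.add_mem _ hx3 hy3)
  neg_mem' := by
    rintro x (⟨hx1, hx2, hx3⟩ | ⟨hx1, hx2, hx3⟩)
    · left
      refine ⟨fun i => ?_, ?_, ?_⟩
      · have := hx1 i
        rw [Pi.neg_apply]
        omega
      · simp only [Pi.neg_apply, Finset.sum_neg_distrib]
        omega
      · rw [ind_congr _ (fun i => x i % 4 = 2) (fun i => by
          have := hx1 i
          rw [Pi.neg_apply]
          omega)]
        exact hx3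
    · right
      refine ⟨fun i => ?_, ?_, ?_⟩
      · have := hx1 i
        rw [Pi.neg_apply]
        omega
      · simp only [Pi.neg_apply, Finset.sum_neg_distrib]
        omega
      · have h5 : ind (fun i => (-x) i % 4 = 1) = 1 + ind (fun i => x i % 4 = 1) :=
          ind_eq_one_add _ _ (fun i => by
            have := hx1 i
            simp only [Pi.neg_apply]
            omega)
        rw [h5]
        exact Submodule.add_mem _ Golay.one_mem_golay hx3

theorem leechLattice_eq : (leechLattice : Set (GolayPt → ℤ)) = {x | IsE x ∨ IsO x} := by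
  have h1 : leechSet = (leechSub : Set (GolayPt → ℤ)) := by
    ext x
    exact mem_leechSet_iff x
  unfold leechLattice
  rw [h1, AddSubgroup.closure_eq]
  rfl

theorem mem_leechLattice_iff (x : GolayPt → ℤ) : x ∈ leechLattice ↔ IsE x ∨ IsO x := by
  have := leechLattice_eq
  rw [← SetLike.mem_coe, this]
  rfl

end Cfsg.Agent.Lib.Helper1.Leech
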