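import Mathlib
import Cfsg.Prelude.Def_Sporadic_a

set_option autoImplicit false

namespace Cfsg.Agent.Lib.Helper1.Leech

open Cfsg

def BB : ℕ := 2 ^ 64

def KK : ℕ := 512

def box : Finset ℤ := {-8, -7, -6, -5, -4, -3, -2, -1, 0, 1, 2, 3, 4, 5, 6, 7, 8}

theorem mem_box (a : ℤ) : a ∈ box ↔ -8 ≤ a ∧ a ≤ 8 := by
  unfold box
  simp only [Finset.mem_insert, Finset.mem_singleton]
  constructor <;> intro h <;> omega

def cand (r : ℤ) : Finset ℤ := box.filter (fun a => a % 4 = r)

def ee (a : ℤ) : ℕ := KK * (a ^ 2).toNat + (a + 8).toNat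

def PP (r : ℤ) : ℕ := ∑ a ∈ cand r, BB ^ ee a

def Yc (rin rout : ℤ) (c : Finset GolayPt) : Finset (GolayPt → ℤ) :=
  Fintype.piFinset (fun i => if i ∈ c then cand rin else cand rout)

def EE (y : GolayPt → ℤ) : ℕ := ∑ i, ee (y i)

theorem mem_Yc (rin rout : ℤ) (c : Finset GolayPt) (y : GolayPt → ℤ) :
    y ∈ Yc rin rout c ↔ ∀ i, (-8 ≤ y i ∧ y i ≤ 8) ∧ y i % 4 = if i ∈ c then rin else rout := by
  unfold Yc
  rw [Fintype.mem_piFinset]
  refine forall_congr' (fun i => ?_)
  split_ifs <;> simp only [cand, Finset.mem_filter, mem_box]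

theorem card_GolayPt : Fintype.card GolayPt = 24 := by
  rw [Fintype.card_option, ZMod.card]

theorem gf (rin rout : ℤ) (c : Finset GolayPt) :
    ∑ y ∈ Yc rin rout c, BB ^ EE y = PP rin ^ c.card * PP rout ^ (24 - c.card) := by
  unfold Yc EE
  have h1 : ∀ y : GolayPt → ℤ, BB ^ (∑ i, ee (y i)) = ∏ i, BB ^ ee (y i) :=
    fun y => (Finset.prod_pow_eq_pow_sum _ _ _).symm
  simp only [h1]
  have h5 := Finset.prod_univ_sum (fun i : GolayPt => if i ∈ c then cand rin else cand rout)
    (fun (_ : GolayPt) (a : ℤ) => BB ^ ee a)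
  rw [← h5]
  have h2 : ∀ i : GolayPt, ∑ a ∈ (if i ∈ c then cand rin else cand rout), BB ^ ee a =
      if i ∈ c then PP rin else PP rout := by
    intro i
    split_ifs <;> rfl
  simp only [h2]
  rw [Finset.prod_ite, Finset.prod_const, Finset.prod_const]
  have h3 : (Finset.univ.filter (fun i => i ∈ c)) = c := by
    ext i
    simp
  have h4 : (Finset.univ.filter (fun i => i ∉ c)).card = 24 - c.card := by
    have : (Finset.univ.filter (fun i => i ∉ c)) = cᶜ := by
      ext i
      simp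
    rw [this, Finset.card_compl, card_GolayPt]
  rw [h3, h4]

theorem digit_aux (B : ℕ) (hB : 0 < B) (f : ℕ → ℕ) (hf : ∀ j, f j < B) (m : ℕ) :
    ∀ M, (∑ j ∈ Finset.range M, f j * B ^ j) < B ^ M ∧
      (∑ j ∈ Finset.range M, f j * B ^ j) / B ^ m % B = if m < M then f m else 0 := by
  intro M
  induction M with
  | zero =>
    refine ⟨by simp, ?_⟩
    simp
  | succ M ih =>
    obtain ⟨ih1, ih2⟩ := ih
    have hBM : 0 < B ^ M := pow_pos hB M
    have hbound : (∑ j ∈ Finset.range (M + 1), f j * B ^ j) < B ^ (M + 1) := by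
      rw [Finset.sum_range_succ, pow_succ]
      have := hf M
      calc ∑ j ∈ Finset.range M, f j * B ^ j + f M * B ^ M < B ^ M + f M * B ^ M := by omega
        _ = (f M + 1) * B ^ M := by ring
        _ ≤ B * B ^ M := Nat.mul_le_mul_right _ (by omega)
        _ = B ^ M * B := by ring
    refine ⟨hbound, ?_⟩
    rcases Nat.lt_trichotomy m M with hm | hm | hm
    · rw [if_pos (by omega), Finset.sum_range_succ]
      have hpow : f M * B ^ M = B ^ m * (B * (f M * B ^ (M - m - 1))) := by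
        have : B ^ M = B ^ m * (B * B ^ (M - m - 1)) := by
          rw [← pow_succ', ← pow_add]
          congr 1
          omega
        rw [this]
        ring
      rw [hpow, Nat.add_mul_div_left _ _ (pow_pos hB m), Nat.add_mul_mod_self_left, ih2,
        if_pos hm]
    · subst hm
      rw [if_pos (by omega), Finset.sum_range_succ, Nat.add_mul_div_right _ _ hBM,
        Nat.div_eq_of_lt ih1, zero_add, Nat.mod_eq_of_lt (hf m)]
    · rw [if_neg (by omega)]
      have : B ^ (M + 1) ≤ B ^ m := Nat.pow_le_pow_right hB (by omega)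
      rw [Nat.div_eq_of_lt (by omega), Nat.zero_mod]

theorem digit_card {α : Type*} [DecidableEq α] (Y : Finset α) (E : α → ℕ) (B : ℕ)
    (hB : Y.card < B) (m : ℕ) :
    (∑ y ∈ Y, B ^ E y) / B ^ m % B = (Y.filter (fun y => E y = m)).card := by
  have hmaps : ∀ y ∈ Y, E y ∈ Finset.range (Y.sup E + m + 1) := fun y hy =>
    Finset.mem_range.mpr (by
      have := Finset.le_sup (f := E) hy
      omega)
  have h1 : ∑ y ∈ Y, B ^ E y =
      ∑ j ∈ Finset.range (Y.sup E + m + 1), (Y.filter (fun y => E y = j)).card * B ^ j := by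
    rw [← Finset.sum_fiberwise_of_maps_to hmaps]
    refine Finset.sum_congr rfl (fun j _ => ?_)
    rw [← smul_eq_mul, ← Finset.sum_const]
    exact Finset.sum_congr rfl (fun y hy => by rw [(Finset.mem_filter.mp hy).2])
  rw [h1, (digit_aux B (by omega) _ (fun j => lt_of_le_of_lt (Finset.card_filter_le _ _) hB) m
    (Y.sup E + m + 1)).2, if_pos (by omega)]

theorem digit_row (P B K n t : ℕ) (ht : t < K) :
    P / B ^ (K * n + t) % B = (P / B ^ (K * n) % B ^ K) / B ^ t % B := by
  rw [pow_add, ← Nat.div_div_eq_div_mul]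
  have hK : B ^ K = B ^ t * B ^ (K - t) := by
    rw [← pow_add]
    congr 1
    omega
  rw [hK, Nat.mod_mul_right_div_self]
  have hd : B ∣ B ^ (K - t) := dvd_pow_self B (by omega)
  rw [Nat.mod_mod_of_dvd _ hd]

theorem EE_eq (rin rout : ℤ) (c : Finset GolayPt) (y : GolayPt → ℤ) (hy : y ∈ Yc rin rout c) :
    ((EE y : ℕ) : ℤ) = 512 * sqNorm y + (∑ i, y i + 192) ∧ 0 ≤ ∑ i, y i + 192 ∧
      ∑ i, y i + 192 ≤ 384 := by
  rw [mem_Yc] at hy
  have hb : ∀ i, -8 ≤ y i ∧ y i ≤ 8 := fun i => (hy i).1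
  have h1 : ((EE y : ℕ) : ℤ) = ∑ i, (512 * y i ^ 2 + (y i + 8)) := by
    unfold EE
    rw [Nat.cast_sum]
    refine Finset.sum_congr rfl (fun i _ => ?_)
    unfold ee KK
    have := hb i
    have h2 : 0 ≤ y i ^ 2 := sq_nonneg _
    rw [Nat.cast_add, Nat.cast_mul, Int.toNat_of_nonneg h2, Int.toNat_of_nonneg (by omega)]
    norm_num
  have h3 : ∑ i : GolayPt, (512 * y i ^ 2 + (y i + 8)) = 512 * sqNorm y + (∑ i, y i + 192) := by
    unfold sqNorm
    rw [Finset.sum_add_distrib, Finset.sum_add_distrib, ← Finset.mul_sum, Finset.sum_const,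
      Finset.card_univ, card_GolayPt]
    norm_num
  have h4 : ∑ _i : GolayPt, (-8 : ℤ) ≤ ∑ i, y i := Finset.sum_le_sum (fun i _ => (hb i).1)
  have h5 : ∑ i, y i ≤ ∑ _i : GolayPt, (8 : ℤ) := Finset.sum_le_sum (fun i _ => (hb i).2)
  rw [Finset.sum_const, Finset.card_univ, card_GolayPt] at h4 h5
  have e1 : (24 : ℕ) • (-8 : ℤ) = -192 := by norm_num
  have e2 : (24 : ℕ) • (8 : ℤ) = 192 := by norm_num
  rw [e1] at h4
  rw [e2] at h5
  refine ⟨by rw [h1, h3], by omega, by omega⟩

def GG (P Q : ℕ) (s N w : ℕ) : ℕ :=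
  ∑ t ∈ Finset.range 385, if t % 8 = s then
    ((P ^ w * Q ^ (24 - w)) / BB ^ (KK * N) % BB ^ KK) / BB ^ t % BB else 0

theorem card_Yc_lt (rin rout : ℤ) (c : Finset GolayPt) (h1 : (cand rin).card ≤ 5)
    (h2 : (cand rout).card ≤ 5) : (Yc rin rout c).card < BB := by
  unfold Yc
  rw [Fintype.card_piFinset]
  have h3 : ∏ i : GolayPt, (if i ∈ c then cand rin else cand rout).card ≤
      5 ^ (Finset.univ : Finset GolayPt).card := by
    apply Finset.prod_le_pow_card
    intro i _
    split_ifs <;> assumption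
  rw [Finset.card_univ, card_GolayPt] at h3
  have : (5 : ℕ) ^ 24 < BB := by
    unfold BB
    norm_num
  omega

theorem count_c (rin rout : ℤ) (c : Finset GolayPt) (N s : ℕ) (h1 : (cand rin).card ≤ 5)
    (h2 : (cand rout).card ≤ 5) :
    ((Yc rin rout c).filter (fun y => sqNorm y = (N : ℤ) ∧ (∑ i, y i) % 8 = (s : ℤ))).card =
      GG (PP rin) (PP rout) s N c.card := by
  set F := (Yc rin rout c).filter (fun y => sqNorm y = (N : ℤ) ∧ (∑ i, y i) % 8 = (s : ℤ))
    with hF
  have hmaps : ∀ y ∈ F, (∑ i, y i + 192).toNat ∈ Finset.range 385 := by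
    intro y hy
    rw [hF, Finset.mem_filter] at hy
    obtain ⟨-, h0, h384⟩ := EE_eq rin rout c y hy.1
    rw [Finset.mem_range]
    omega
  rw [Finset.card_eq_sum_card_fiberwise hmaps]
  unfold GG
  refine Finset.sum_congr rfl (fun t ht => ?_)
  rw [Finset.mem_range] at ht
  by_cases hts : t % 8 = s
  · rw [if_pos hts]
    have hset : F.filter (fun y => (∑ i, y i + 192).toNat = t) =
        (Yc rin rout c).filter (fun y => EE y = KK * N + t) := by
      ext y
      rw [hF, Finset.mem_filter, Finset.mem_filter, Finset.mem_filter]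
      constructor
      · rintro ⟨⟨hy, hN, hs⟩, hyt⟩
        refine ⟨hy, ?_⟩
        obtain ⟨hE, h0, h384⟩ := EE_eq rin rout c y hy
        unfold KK
        omega
      · rintro ⟨hy, hE'⟩
        obtain ⟨hE, h0, h384⟩ := EE_eq rin rout c y hy
        have hsq : 0 ≤ sqNorm y := by
          unfold sqNorm
          exact Finset.sum_nonneg (fun i _ => sq_nonneg _)
        unfold KK at hE'
        refine ⟨⟨hy, by omega, by omega⟩, by omega⟩
    rw [hset, ← digit_card _ _ _ (card_Yc_lt rin rout c h1 h2), gf,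
      digit_row _ _ _ _ _ (by unfold KK; omega)]
  · rw [if_neg hts, Finset.card_eq_zero, Finset.filter_eq_empty_iff]
    intro y hy hyt
    rw [hF, Finset.mem_filter] at hy
    obtain ⟨-, h0, h384⟩ := EE_eq rin rout c y hy.1
    have := hy.2.2
    omega

end Cfsg.Agent.Lib.Helper1.Leech
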