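import Mathlib
import Cfsg.Agent.Lib.Helper1.LeechA
import Cfsg.Agent.Lib.Helper1.LeechB
import Cfsg.Agent.Lib.Helper1.LeechC

set_option autoImplicit false

namespace Cfsg.Agent.Lib.Helper1.Leech

open Cfsg

theorem card_cands : (cand 0).card ≤ 5 ∧ (cand 1).card ≤ 5 ∧ (cand 2).card ≤ 5 ∧
    (cand 3).card ≤ 5 := by decide +kernel

def UE (N k : ℕ) : Finset (GolayPt → ℤ) :=
  (Yc 2 0 (S k)).filter (fun y => sqNorm y = (N : ℤ) ∧ (∑ i, y i) % 8 = ((0 : ℕ) : ℤ))

def UO (N k : ℕ) : Finset (GolayPt → ℤ) :=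
  (Yc 1 3 (S k)).filter (fun y => sqNorm y = (N : ℤ) ∧ (∑ i, y i) % 8 = ((4 : ℕ) : ℤ))

theorem ind_apply_eq (p : GolayPt → Prop) [DecidablePred p] (i : GolayPt) :
    ind p i = 1 ↔ p i := by
  unfold ind
  by_cases h : p i
  · simp [h]
  · simp [h]

theorem zmod2_eq_zero_of_ne_one : ∀ a : ZMod 2, a ≠ 1 → a = 0 := by decide

theorem ind_eq_cw_iff (p : GolayPt → Prop) [DecidablePred p] (k : ℕ) :
    ind p = cw k ↔ ∀ i, i ∈ S k ↔ p i := by
  constructor
  · intro h i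
    rw [mem_S_iff, ← h, ind_apply_eq]
  · intro h
    funext i
    by_cases hp : p i
    · rw [(ind_apply_eq p i).mpr hp, (mem_S_iff k i).mp ((h i).mpr hp)]
    · have h1 : ind p i = 0 := by
        unfold ind
        rw [if_neg hp]
      have h2 : cw k i = 0 :=
        zmod2_eq_zero_of_ne_one _ (fun h3 => hp ((h i).mp ((mem_S_iff k i).mpr h3)))
      rw [h1, h2]

theorem mem_UE_iff (N k : ℕ) (x : GolayPt → ℤ) :
    x ∈ UE N k ↔ (∀ i, -8 ≤ x i ∧ x i ≤ 8) ∧ (∀ i, x i % 2 = 0) ∧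
      ind (fun i => x i % 4 = 2) = cw k ∧ sqNorm x = (N : ℤ) ∧ (∑ i, x i) % 8 = 0 := by
  unfold UE
  rw [Finset.mem_filter, mem_Yc, ind_eq_cw_iff]
  constructor
  · rintro ⟨hy, hN, hs⟩
    refine ⟨fun i => (hy i).1, fun i => ?_, fun i => ?_, hN, by simpa using hs⟩
    · have := (hy i).2
      split_ifs at this <;> omega
    · have := (hy i).2
      split_ifs at this with hi
      · exact ⟨fun _ => this, fun _ => hi⟩
      · exact ⟨fun h => absurd h hi, fun h => by omega⟩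
  · rintro ⟨hb, he, hcw, hN, hs⟩
    refine ⟨fun i => ⟨hb i, ?_⟩, hN, by simpa using hs⟩
    by_cases hi : i ∈ S k
    · rw [if_pos hi]
      exact (hcw i).mp hi
    · rw [if_neg hi]
      have h1 : ¬ (x i % 4 = 2) := fun h2 => hi ((hcw i).mpr h2)
      have := he i
      omega

theorem mem_UO_iff (N k : ℕ) (x : GolayPt → ℤ) :
    x ∈ UO N k ↔ (∀ i, -8 ≤ x i ∧ x i ≤ 8) ∧ (∀ i, x i % 2 = 1) ∧
      ind (fun i => x i % 4 = 1) = cw k ∧ sqNorm x = (N : ℤ) ∧ (∑ i, x i) % 8 = 4 := by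
  unfold UO
  rw [Finset.mem_filter, mem_Yc, ind_eq_cw_iff]
  constructor
  · rintro ⟨hy, hN, hs⟩
    refine ⟨fun i => (hy i).1, fun i => ?_, fun i => ?_, hN, by simpa using hs⟩
    · have := (hy i).2
      split_ifs at this <;> omega
    · have := (hy i).2
      split_ifs at this with hi
      · exact ⟨fun _ => this, fun _ => hi⟩
      · exact ⟨fun h => absurd h hi, fun h => by omega⟩
  · rintro ⟨hb, he, hcw, hN, hs⟩
    refine ⟨fun i => ⟨hb i, ?_⟩, hN, by simpa using hs⟩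
    by_cases hi : i ∈ S k
    · rw [if_pos hi]
      exact (hcw i).mp hi
    · rw [if_neg hi]
      have h1 : ¬ (x i % 4 = 1) := fun h2 => hi ((hcw i).mpr h2)
      have := he i
      omega

theorem leech_set_eq (N : ℕ) (hN : N ≤ 64) :
    {x : GolayPt → ℤ | x ∈ leechLattice ∧ sqNorm x = (N : ℤ)} =
      ↑((Finset.range 4096).biUnion (fun k => UE N k ∪ UO N k)) := by
  ext x
  rw [Set.mem_setOf_eq, Finset.mem_coe, Finset.mem_biUnion]
  constructor
  · rintro ⟨hx, hn⟩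
    have hb : ∀ i, -8 ≤ x i ∧ x i ≤ 8 := by
      intro i
      have h1 : x i ^ 2 ≤ sqNorm x := by
        unfold sqNorm
        exact Finset.single_le_sum (f := fun j => x j ^ 2) (fun j _ => sq_nonneg (x j))
          (Finset.mem_univ i)
      have h3 : (N : ℤ) ≤ 64 := by exact_mod_cast hN
      have h2 : x i ^ 2 ≤ 64 := by
        rw [hn] at h1
        omega
      constructor <;> nlinarith
    rcases (mem_leechLattice_iff x).mp hx with ⟨he, hs, hC⟩ | ⟨ho, hs, hC⟩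
    · obtain ⟨k, hk, hkw⟩ := (mem_golay_iff _).mp hC
      exact ⟨k, Finset.mem_range.mpr hk,
        Finset.mem_union_left _ ((mem_UE_iff N k x).mpr ⟨hb, he, hkw, hn, hs⟩)⟩
    · obtain ⟨k, hk, hkw⟩ := (mem_golay_iff _).mp hC
      exact ⟨k, Finset.mem_range.mpr hk,
        Finset.mem_union_right _ ((mem_UO_iff N k x).mpr ⟨hb, ho, hkw, hn, hs⟩)⟩
  · rintro ⟨k, hk, hx⟩
    rw [Finset.mem_range] at hk
    rcases Finset.mem_union.mp hx with h | h
    · obtain ⟨hb, he, hkw, hn, hs⟩ := (mem_UE_iff N k x).mp h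
      exact ⟨(mem_leechLattice_iff x).mpr (Or.inl ⟨he, hs, by
        rw [hkw]
        exact (mem_golay_iff _).mpr ⟨k, hk, rfl⟩⟩), hn⟩
    · obtain ⟨hb, ho, hkw, hn, hs⟩ := (mem_UO_iff N k x).mp h
      exact ⟨(mem_leechLattice_iff x).mpr (Or.inr ⟨ho, hs, by
        rw [hkw]
        exact (mem_golay_iff _).mpr ⟨k, hk, rfl⟩⟩), hn⟩

theorem card_leech (N : ℕ) (hN : N ≤ 64) :
    {x : GolayPt → ℤ | x ∈ leechLattice ∧ sqNorm x = (N : ℤ)}.ncard =
      ∑ k ∈ Finset.range 4096,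
        (GG (PP 2) (PP 0) 0 N (wtN k) + GG (PP 1) (PP 3) 4 N (wtN k)) := by
  rw [leech_set_eq N hN, Set.ncard_coe_finset, Finset.card_biUnion]
  · refine Finset.sum_congr rfl (fun k _ => ?_)
    rw [Finset.card_union_of_disjoint]
    · have h1 : (UE N k).card = GG (PP 2) (PP 0) 0 N (S k).card :=
        count_c 2 0 (S k) N 0 card_cands.2.2.1 card_cands.1
      have h2 : (UO N k).card = GG (PP 1) (PP 3) 4 N (S k).card :=
        count_c 1 3 (S k) N 4 card_cands.2.1 card_cands.2.2.2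
      rw [h1, h2, card_S]
    · rw [Finset.disjoint_left]
      intro x hxE hxO
      have h1 := ((mem_UE_iff N k x).mp hxE).2.1 none
      have h2 := ((mem_UO_iff N k x).mp hxO).2.1 none
      omega
  · intro k hk k' hk' hne
    rw [Finset.mem_coe, Finset.mem_range] at hk hk'
    show Disjoint (UE N k ∪ UO N k) (UE N k' ∪ UO N k')
    rw [Finset.disjoint_left]
    intro x hx hx'
    rcases Finset.mem_union.mp hx with h | h <;> rcases Finset.mem_union.mp hx' with h' | h'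
    · exact hne (cw_inj k k' hk hk' (by
        rw [← ((mem_UE_iff N k x).mp h).2.2.1, ← ((mem_UE_iff N k' x).mp h').2.2.1]))
    · have h1 := ((mem_UE_iff N k x).mp h).2.1 none
      have h2 := ((mem_UO_iff N k' x).mp h').2.1 none
      omega
    · have h1 := ((mem_UO_iff N k x).mp h).2.1 none
      have h2 := ((mem_UE_iff N k' x).mp h').2.1 none
      omega
    · exact hne (cw_inj k k' hk hk' (by
        rw [← ((mem_UO_iff N k x).mp h).2.2.1, ← ((mem_UO_iff N k' x).mp h').2.2.1]))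

def TOT (N : ℕ) : ℕ :=
  (GG (PP 2) (PP 0) 0 N 0 + GG (PP 1) (PP 3) 4 N 0) +
    759 * (GG (PP 2) (PP 0) 0 N 8 + GG (PP 1) (PP 3) 4 N 8) +
    2576 * (GG (PP 2) (PP 0) 0 N 12 + GG (PP 1) (PP 3) 4 N 12) +
    759 * (GG (PP 2) (PP 0) 0 N 16 + GG (PP 1) (PP 3) 4 N 16) +
    (GG (PP 2) (PP 0) 0 N 24 + GG (PP 1) (PP 3) 4 N 24)

theorem card_leech' (N : ℕ) (hN : N ≤ 64) :
    {x : GolayPt → ℤ | x ∈ leechLattice ∧ sqNorm x = (N : ℤ)}.ncard = TOT N := by
  rw [card_leech N hN]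
  exact wt_sum (fun w => GG (PP 2) (PP 0) 0 N w + GG (PP 1) (PP 3) 4 N w)

theorem tot32 : TOT 32 = 196560 := by decide +kernel

theorem tot48 : TOT 48 = 16773120 := by decide +kernel

theorem tot64 : TOT 64 = 398034000 := by decide +kernel

theorem leech32 : {x : GolayPt → ℤ | x ∈ leechLattice ∧ sqNorm x = 32}.ncard = 196560 := by
  have h := (card_leech' 32 (by norm_num)).trans tot32
  exact_mod_cast h

theorem leech48 : {x : GolayPt → ℤ | x ∈ leechLattice ∧ sqNorm x = 48}.ncard = 16773120 := by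
  have h := (card_leech' 48 (by norm_num)).trans tot48
  exact_mod_cast h

theorem leech64 : {x : GolayPt → ℤ | x ∈ leechLattice ∧ sqNorm x = 64}.ncard = 398034000 := by
  have h := (card_leech' 64 (by norm_num)).trans tot64
  exact_mod_cast h

end Cfsg.Agent.Lib.Helper1.Leech
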