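import Mathlib
import Cfsg.Agent.Lib.Helper1.LeechD

set_option autoImplicit false
set_option maxRecDepth 10000
set_option linter.constructorNameAsVariable false

namespace Cfsg.Agent.Lib.Helper1.Leech

open Cfsg

def candD (D : Finset ℤ) (r : ℤ) : Finset ℤ := D.filter (fun a => a % 4 = r)

def PG (A : Finset ℤ) : ℕ := ∑ a ∈ A, BB ^ ee a

def YG (Ain Aout : Finset ℤ) (c : Finset GolayPt) : Finset (GolayPt → ℤ) :=
  Fintype.piFinset (fun i => if i ∈ c then Ain else Aout)

theorem gfG (Ain Aout : Finset ℤ) (c : Finset GolayPt) :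
    ∑ y ∈ YG Ain Aout c, BB ^ EE y = PG Ain ^ c.card * PG Aout ^ (24 - c.card) := by
  unfold YG EE
  have h1 : ∀ y : GolayPt → ℤ, BB ^ (∑ i, ee (y i)) = ∏ i, BB ^ ee (y i) :=
    fun y => (Finset.prod_pow_eq_pow_sum _ _ _).symm
  simp only [h1]
  have h5 := Finset.prod_univ_sum (fun i : GolayPt => if i ∈ c then Ain else Aout)
    (fun (_ : GolayPt) (a : ℤ) => BB ^ ee a)
  rw [← h5]
  have h2 : ∀ i : GolayPt, ∑ a ∈ (if i ∈ c then Ain else Aout), BB ^ ee a =
      if i ∈ c then PG Ain else PG Aout := by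
    intro i
    split_ifs <;> rfl
  simp only [h2]
  rw [Finset.prod_ite, Finset.prod_const, Finset.prod_const]
  have h3 : (Finset.univ.filter (fun i => i ∈ c)) = c := by
    ext i
    simp
  have h4 : (Finset.univ.filter (fun i => i ∉ c)).card = 24 - c.card := by
    have : (Finset.univ.filter (fun i => i ∉ c)) = cᶜ := by
      ext i
      simp
    rw [this, Finset.card_compl, card_GolayPt]
  rw [h3, h4]

theorem mem_YG_of_box (D : Finset ℤ) (hD : D ⊆ box) (rin rout : ℤ) (c : Finset GolayPt)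
    (y : GolayPt → ℤ) :
    y ∈ YG (candD D rin) (candD D rout) c ↔ y ∈ Yc rin rout c ∧ ∀ i, y i ∈ D := by
  unfold YG
  rw [Fintype.mem_piFinset, mem_Yc, ← forall_and]
  refine forall_congr' (fun i => ?_)
  have hb : y i ∈ D → (-8 ≤ y i ∧ y i ≤ 8) := fun h => (mem_box _).mp (hD h)
  split_ifs <;> simp only [candD, Finset.mem_filter] <;> tauto

theorem count_G (D : Finset ℤ) (hD : D ⊆ box) (rin rout : ℤ) (c : Finset GolayPt) (N s : ℕ)
    (h1 : (cand rin).card ≤ 5) (h2 : (cand rout).card ≤ 5) :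
    ((YG (candD D rin) (candD D rout) c).filter
      (fun y => sqNorm y = (N : ℤ) ∧ (∑ i, y i) % 8 = (s : ℤ))).card =
      GG (PG (candD D rin)) (PG (candD D rout)) s N c.card := by
  have hyc : ∀ y ∈ YG (candD D rin) (candD D rout) c, y ∈ Yc rin rout c :=
    fun y hy => ((mem_YG_of_box D hD rin rout c y).mp hy).1
  have hcard : (YG (candD D rin) (candD D rout) c).card < BB :=
    lt_of_le_of_lt (Finset.card_le_card hyc) (card_Yc_lt rin rout c h1 h2)
  set F := (YG (candD D rin) (candD D rout) c).filter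
    (fun y => sqNorm y = (N : ℤ) ∧ (∑ i, y i) % 8 = (s : ℤ)) with hF
  have hmaps : ∀ y ∈ F, (∑ i, y i + 192).toNat ∈ Finset.range 385 := by
    intro y hy
    rw [hF, Finset.mem_filter] at hy
    obtain ⟨-, h0, h384⟩ := EE_eq rin rout c y (hyc y hy.1)
    rw [Finset.mem_range]
    omega
  rw [Finset.card_eq_sum_card_fiberwise hmaps]
  unfold GG
  refine Finset.sum_congr rfl (fun t ht => ?_)
  rw [Finset.mem_range] at ht
  by_cases hts : t % 8 = s
  · rw [if_pos hts]
    have hset : F.filter (fun y => (∑ i, y i + 192).toNat = t) =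
        (YG (candD D rin) (candD D rout) c).filter (fun y => EE y = KK * N + t) := by
      ext y
      rw [hF, Finset.mem_filter, Finset.mem_filter, Finset.mem_filter]
      constructor
      · rintro ⟨⟨hy, hN, hs⟩, hyt⟩
        refine ⟨hy, ?_⟩
        obtain ⟨hE, h0, h384⟩ := EE_eq rin rout c y (hyc y hy)
        unfold KK
        omega
      · rintro ⟨hy, hE'⟩
        obtain ⟨hE, h0, h384⟩ := EE_eq rin rout c y (hyc y hy)
        have hsq : 0 ≤ sqNorm y := by
          unfold sqNorm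
          exact Finset.sum_nonneg (fun i _ => sq_nonneg _)
        unfold KK at hE'
        refine ⟨⟨hy, by omega, by omega⟩, by omega⟩
    rw [hset, ← digit_card _ _ _ hcard, gfG, digit_row _ _ _ _ _ (by unfold KK; omega)]
  · rw [if_neg hts, Finset.card_eq_zero, Finset.filter_eq_empty_iff]
    intro y hy hyt
    rw [hF, Finset.mem_filter] at hy
    obtain ⟨-, h0, h384⟩ := EE_eq rin rout c y (hyc y hy.1)
    have := hy.2.2
    omega

def AD (D : Finset ℤ) (N : ℕ) : Finset (GolayPt → ℤ) :=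
  (Finset.range 4096).biUnion (fun k => (UE N k).filter (fun x => ∀ i, x i ∈ D) ∪
    (UO N k).filter (fun x => ∀ i, x i ∈ D))

theorem mem_AD (D : Finset ℤ) (N : ℕ) (hN : N ≤ 64) (x : GolayPt → ℤ) :
    x ∈ AD D N ↔ (x ∈ leechLattice ∧ sqNorm x = (N : ℤ)) ∧ ∀ i, x i ∈ D := by
  have key : (x ∈ leechLattice ∧ sqNorm x = (N : ℤ)) ↔
      x ∈ (Finset.range 4096).biUnion (fun k => UE N k ∪ UO N k) := by
    have := Set.ext_iff.mp (leech_set_eq N hN) x
    rw [Set.mem_ofPred_eq, Finset.mem_coe] at this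
    exact this
  rw [key]
  unfold AD
  simp only [Finset.mem_biUnion, Finset.mem_union, Finset.mem_filter]
  constructor
  · rintro ⟨k, hk, ⟨h1, h2⟩ | ⟨h1, h2⟩⟩
    · exact ⟨⟨k, hk, Or.inl h1⟩, h2⟩
    · exact ⟨⟨k, hk, Or.inr h1⟩, h2⟩
  · rintro ⟨⟨k, hk, h1 | h1⟩, h2⟩
    · exact ⟨k, hk, Or.inl ⟨h1, h2⟩⟩
    · exact ⟨k, hk, Or.inr ⟨h1, h2⟩⟩

theorem leech_box (N : ℕ) (hN : N ≤ 64) (x : GolayPt → ℤ) (hx : x ∈ leechLattice)
    (hn : sqNorm x = (N : ℤ)) : ∀ i, x i ∈ box := by
  have := Set.ext_iff.mp (leech_set_eq N hN) x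
  rw [Set.mem_ofPred_eq, Finset.mem_coe, Finset.mem_biUnion] at this
  obtain ⟨k, -, hk⟩ := this.mp ⟨hx, hn⟩
  intro i
  rw [mem_box]
  rcases Finset.mem_union.mp hk with h | h
  · exact ((mem_UE_iff N k x).mp h).1 i
  · exact ((mem_UO_iff N k x).mp h).1 i

def TOTD (D : Finset ℤ) (N : ℕ) : ℕ :=
  (GG (PG (candD D 2)) (PG (candD D 0)) 0 N 0 + GG (PG (candD D 1)) (PG (candD D 3)) 4 N 0) +
    759 * (GG (PG (candD D 2)) (PG (candD D 0)) 0 N 8 +
      GG (PG (candD D 1)) (PG (candD D 3)) 4 N 8) +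
    2576 * (GG (PG (candD D 2)) (PG (candD D 0)) 0 N 12 +
      GG (PG (candD D 1)) (PG (candD D 3)) 4 N 12) +
    759 * (GG (PG (candD D 2)) (PG (candD D 0)) 0 N 16 +
      GG (PG (candD D 1)) (PG (candD D 3)) 4 N 16) +
    (GG (PG (candD D 2)) (PG (candD D 0)) 0 N 24 + GG (PG (candD D 1)) (PG (candD D 3)) 4 N 24)

theorem card_AD (D : Finset ℤ) (hD : D ⊆ box) (N : ℕ) : (AD D N).card = TOTD D N := by
  have h0 : (AD D N).card = ∑ k ∈ Finset.range 4096,
      (GG (PG (candD D 2)) (PG (candD D 0)) 0 N (wtN k) +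
        GG (PG (candD D 1)) (PG (candD D 3)) 4 N (wtN k)) := by
    unfold AD
    rw [Finset.card_biUnion]
    · refine Finset.sum_congr rfl (fun k _ => ?_)
      rw [Finset.card_union_of_disjoint]
      · have e1 : (UE N k).filter (fun x => ∀ i, x i ∈ D) =
            (YG (candD D 2) (candD D 0) (S k)).filter
              (fun y => sqNorm y = (N : ℤ) ∧ (∑ i, y i) % 8 = ((0 : ℕ) : ℤ)) := by
          ext x
          unfold UE
          rw [Finset.mem_filter, Finset.mem_filter, Finset.mem_filter, mem_YG_of_box D hD]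
          tauto
        have e2 : (UO N k).filter (fun x => ∀ i, x i ∈ D) =
            (YG (candD D 1) (candD D 3) (S k)).filter
              (fun y => sqNorm y = (N : ℤ) ∧ (∑ i, y i) % 8 = ((4 : ℕ) : ℤ)) := by
          ext x
          unfold UO
          rw [Finset.mem_filter, Finset.mem_filter, Finset.mem_filter, mem_YG_of_box D hD]
          tauto
        rw [e1, e2, count_G D hD 2 0 (S k) N 0 card_cands.2.2.1 card_cands.1,
          count_G D hD 1 3 (S k) N 4 card_cands.2.1 card_cands.2.2.2, card_S]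
      · rw [Finset.disjoint_left]
        intro x hxE hxO
        have h1 := ((mem_UE_iff N k x).mp (Finset.mem_filter.mp hxE).1).2.1 none
        have h2 := ((mem_UO_iff N k x).mp (Finset.mem_filter.mp hxO).1).2.1 none
        omega
    · intro k hk k' hk' hne
      rw [Finset.mem_coe, Finset.mem_range] at hk hk'
      show Disjoint ((UE N k).filter (fun x => ∀ i, x i ∈ D) ∪
        (UO N k).filter (fun x => ∀ i, x i ∈ D)) ((UE N k').filter (fun x => ∀ i, x i ∈ D) ∪
        (UO N k').filter (fun x => ∀ i, x i ∈ D))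
      rw [Finset.disjoint_left]
      intro x hx hx'
      rcases Finset.mem_union.mp hx with h | h <;> rcases Finset.mem_union.mp hx' with h' | h'
      · have h := (Finset.mem_filter.mp h).1
        have h' := (Finset.mem_filter.mp h').1
        exact hne (cw_inj k k' hk hk' (by
          rw [← ((mem_UE_iff N k x).mp h).2.2.1, ← ((mem_UE_iff N k' x).mp h').2.2.1]))
      · have h1 := ((mem_UE_iff N k x).mp (Finset.mem_filter.mp h).1).2.1 none
        have h2 := ((mem_UO_iff N k' x).mp (Finset.mem_filter.mp h').1).2.1 none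
        omega
      · have h1 := ((mem_UO_iff N k x).mp (Finset.mem_filter.mp h).1).2.1 none
        have h2 := ((mem_UE_iff N k' x).mp (Finset.mem_filter.mp h').1).2.1 none
        omega
      · have h := (Finset.mem_filter.mp h).1
        have h' := (Finset.mem_filter.mp h').1
        exact hne (cw_inj k k' hk hk' (by
          rw [← ((mem_UO_iff N k x).mp h).2.2.1, ← ((mem_UO_iff N k' x).mp h').2.2.1]))
  rw [h0]
  exact wt_sum (fun w => GG (PG (candD D 2)) (PG (candD D 0)) 0 N w +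
    GG (PG (candD D 1)) (PG (candD D 3)) 4 N w)

theorem ncard_box (D : Finset ℤ) (hD : D ⊆ box) (N : ℕ) (hN : N ≤ 64) :
    {x : GolayPt → ℤ | x ∈ leechLattice ∧ sqNorm x = (N : ℤ) ∧ ∀ i, x i ∈ D}.ncard =
      TOTD D N := by
  have h : {x : GolayPt → ℤ | x ∈ leechLattice ∧ sqNorm x = (N : ℤ) ∧ ∀ i, x i ∈ D} =
      ↑(AD D N) := by
    ext x
    rw [Set.mem_ofPred_eq, Finset.mem_coe, mem_AD D N hN]
    tauto
  rw [h, Set.ncard_coe_finset, card_AD D hD N]

theorem ncard_not_box (D : Finset ℤ) (hD : D ⊆ box) (N : ℕ) (hN : N ≤ 64) :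
    {x : GolayPt → ℤ | x ∈ leechLattice ∧ sqNorm x = (N : ℤ) ∧ ∃ i, x i ∉ D}.ncard =
      TOTD box N - TOTD D N := by
  have h : {x : GolayPt → ℤ | x ∈ leechLattice ∧ sqNorm x = (N : ℤ) ∧ ∃ i, x i ∉ D} =
      ↑(AD box N \ AD D N) := by
    ext x
    rw [Set.mem_ofPred_eq, Finset.mem_coe, Finset.mem_sdiff, mem_AD D N hN, mem_AD box N hN]
    constructor
    · rintro ⟨h1, h2, i, hi⟩
      exact ⟨⟨⟨h1, h2⟩, leech_box N hN x h1 h2⟩, fun h3 => hi (h3.2 i)⟩
    · rintro ⟨⟨⟨h1, h2⟩, -⟩, h3⟩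
      refine ⟨h1, h2, ?_⟩
      by_contra h4
      push Not at h4
      exact h3 ⟨⟨h1, h2⟩, h4⟩
  have hsub : AD D N ⊆ AD box N := by
    intro x hx
    rw [mem_AD D N hN] at hx
    rw [mem_AD box N hN]
    exact ⟨hx.1, fun i => hD (hx.2 i)⟩
  rw [h, Set.ncard_coe_finset, Finset.card_sdiff_of_subset hsub, card_AD box (fun _ h => h) N,
    card_AD D hD N]

end Cfsg.Agent.Lib.Helper1.Leech
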