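import Mathlib
import Cfsg.Agent.Lib.Helper1.LeechE

set_option autoImplicit false
set_option maxRecDepth 10000
set_option linter.constructorNameAsVariable false

namespace Cfsg.Agent.Lib.Helper1.Leech

open Cfsg

def Da : Finset ℤ := {-2, 0, 2}

def Db : Finset ℤ := {-8, -7, -6, -5, -4, -2, -1, 0, 1, 2, 4, 5, 6, 7, 8}

def Dc : Finset ℤ := {-8, -7, -6, -5, -3, -2, -1, 0, 1, 2, 3, 5, 6, 7, 8}

def Dd : Finset ℤ := {-8, -7, -6, -4, -3, -2, -1, 0, 1, 2, 3, 4, 6, 7, 8}

theorem Da_sub : Da ⊆ box := by decide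

theorem Db_sub : Db ⊆ box := by decide

theorem Dc_sub : Dc ⊆ box := by decide

theorem Dd_sub : Dd ⊆ box := by decide

theorem totA : TOTD Da 48 = 5275648 := by decide +kernel

theorem totBox : TOTD box 48 = 16773120 := by decide +kernel

theorem totB : TOTD Db 48 = 8482816 := by decide +kernel

theorem totC : TOTD Dc 48 = 13664256 := by decide +kernel

theorem totD : TOTD Dd 48 = 16674816 := by decide +kernel

theorem mem_Da (a : ℤ) : a ∈ Da ↔ a = 0 ∨ a = 2 ∨ a = -2 := by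
  unfold Da
  simp only [Finset.mem_insert, Finset.mem_singleton]
  constructor <;> intro h <;> omega

theorem nmem_Db (a : ℤ) (ha : a ∈ box) : a ∉ Db ↔ |a| = 3 := by
  rw [mem_box] at ha
  unfold Db
  simp only [Finset.mem_insert, Finset.mem_singleton]
  rw [abs_eq (by norm_num)]
  constructor <;> intro h <;> omega

theorem nmem_Dc (a : ℤ) (ha : a ∈ box) : a ∉ Dc ↔ |a| = 4 := by
  rw [mem_box] at ha
  unfold Dc
  simp only [Finset.mem_insert, Finset.mem_singleton]
  rw [abs_eq (by norm_num)]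
  constructor <;> intro h <;> omega

theorem nmem_Dd (a : ℤ) (ha : a ∈ box) : a ∉ Dd ↔ |a| = 5 := by
  rw [mem_box] at ha
  unfold Dd
  simp only [Finset.mem_insert, Finset.mem_singleton]
  rw [abs_eq (by norm_num)]
  constructor <;> intro h <;> omega

theorem three_threes (x : GolayPt → ℤ) (hx : x ∈ leechLattice) (hn : sqNorm x = 48)
    (i0 : GolayPt) (h3 : |x i0| = 3) :
    ∃ i j k, i ≠ j ∧ j ≠ k ∧ i ≠ k ∧ |x i| = 3 ∧ |x j| = 3 ∧ |x k| = 3 := by
  have hbox := leech_box 48 (by norm_num) x hx (by exact_mod_cast hn)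
  have h9 : ∀ i, |x i| = 3 → x i ^ 2 = 9 := by
    intro i hi
    rw [← sq_abs, hi]
    norm_num
  rcases (mem_leechLattice_iff x).mp hx with ⟨he, -, -⟩ | ⟨ho, -, -⟩
  · exfalso
    have := he i0
    rw [abs_eq (by norm_num)] at h3
    omega
  · have hcase : ∀ i, x i ^ 2 - 1 = 0 ∨ (|x i| = 3 ∧ x i ^ 2 - 1 = 8) ∨ 24 ≤ x i ^ 2 - 1 := by
      intro i
      have h1 := (mem_box _).mp (hbox i)
      have h2 := ho i
      have : x i = -7 ∨ x i = -5 ∨ x i = -3 ∨ x i = -1 ∨ x i = 1 ∨ x i = 3 ∨ x i = 5 ∨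
          x i = 7 := by omega
      rcases this with h | h | h | h | h | h | h | h <;> rw [h] <;> decide
    have hnonneg : ∀ i, 0 ≤ x i ^ 2 - 1 := by
      intro i
      rcases hcase i with h | ⟨-, h⟩ | h <;> omega
    have hsum : ∑ i, (x i ^ 2 - 1) = 24 := by
      rw [Finset.sum_sub_distrib, Finset.sum_const, Finset.card_univ, card_GolayPt]
      unfold sqNorm at hn
      rw [hn]
      norm_num
    have hno : ∀ j, ¬ (24 ≤ x j ^ 2 - 1) := by
      intro j hj
      have h90 := h9 i0 h3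
      have hij : i0 ≠ j := by
        rintro rfl
        omega
      have h5 : ∑ i ∈ ({i0, j} : Finset GolayPt), (x i ^ 2 - 1) ≤ ∑ i, (x i ^ 2 - 1) :=
        Finset.sum_le_sum_of_subset_of_nonneg (Finset.subset_univ _) (fun i _ _ => hnonneg i)
      rw [Finset.sum_pair hij, hsum] at h5
      omega
    have hval : ∀ i, x i ^ 2 - 1 = if |x i| = 3 then 8 else 0 := by
      intro i
      rcases hcase i with h | ⟨h, h'⟩ | h
      · have : ¬ |x i| = 3 := by
          intro h8
          have := h9 i h8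
          omega
        rw [if_neg this, h]
      · rw [if_pos h, h']
      · exact absurd h (hno i)
    have hcard : ((Finset.univ.filter (fun i => |x i| = 3)).card : ℤ) * 8 = 24 := by
      rw [← hsum, Finset.sum_congr rfl (fun i _ => hval i), Finset.sum_ite, Finset.sum_const,
        Finset.sum_const_zero, add_zero, nsmul_eq_mul]
    have hA3 : 2 < (Finset.univ.filter (fun i => |x i| = 3)).card := by omega
    obtain ⟨a, ha, b, hb, c, hc, hab, hac, hbc⟩ := Finset.two_lt_card.mp hA3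
    exact ⟨a, b, c, hab, hbc, hac, (Finset.mem_filter.mp ha).2, (Finset.mem_filter.mp hb).2,
      (Finset.mem_filter.mp hc).2⟩

theorem shape48 :
    {x : GolayPt → ℤ | x ∈ leechLattice ∧ sqNorm x = 48 ∧
      ∀ i, x i = 0 ∨ x i = 2 ∨ x i = -2}.ncard = 5275648 ∧
    {x : GolayPt → ℤ | x ∈ leechLattice ∧ sqNorm x = 48 ∧
      ∃ i j k, i ≠ j ∧ j ≠ k ∧ i ≠ k ∧ |x i| = 3 ∧ |x j| = 3 ∧ |x k| = 3}.ncard = 8290304 ∧
    {x : GolayPt → ℤ | x ∈ leechLattice ∧ sqNorm x = 48 ∧ ∃ i, |x i| = 4}.ncard = 3108864 ∧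
    {x : GolayPt → ℤ | x ∈ leechLattice ∧ sqNorm x = 48 ∧ ∃ i, |x i| = 5}.ncard = 98304 := by
  have h48 : ((48 : ℕ) : ℤ) = 48 := rfl
  refine ⟨?_, ?_, ?_, ?_⟩
  · have h := ncard_box Da Da_sub 48 (by norm_num)
    rw [totA, h48] at h
    rw [← h]
    congr 1
    ext x
    constructor
    · rintro ⟨h1, h2, h3⟩
      exact ⟨h1, h2, fun i => (mem_Da _).mpr (h3 i)⟩
    · rintro ⟨h1, h2, h3⟩
      exact ⟨h1, h2, fun i => (mem_Da _).mp (h3 i)⟩
  · have h := ncard_not_box Db Db_sub 48 (by norm_num)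
    rw [totB, totBox, h48] at h
    rw [show (8290304 : ℕ) = 16773120 - 8482816 from rfl, ← h]
    congr 1
    ext x
    constructor
    · rintro ⟨h1, h2, i, j, k, -, -, -, hi, -, -⟩
      have hb := leech_box 48 (by norm_num) x h1 (by exact_mod_cast h2)
      exact ⟨h1, h2, i, (nmem_Db _ (hb i)).mpr hi⟩
    · rintro ⟨h1, h2, i, hi⟩
      have hb := leech_box 48 (by norm_num) x h1 (by exact_mod_cast h2)
      exact ⟨h1, h2, three_threes x h1 h2 i ((nmem_Db _ (hb i)).mp hi)⟩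
  · have h := ncard_not_box Dc Dc_sub 48 (by norm_num)
    rw [totC, totBox, h48] at h
    rw [show (3108864 : ℕ) = 16773120 - 13664256 from rfl, ← h]
    congr 1
    ext x
    constructor
    · rintro ⟨h1, h2, i, hi⟩
      have hb := leech_box 48 (by norm_num) x h1 (by exact_mod_cast h2)
      exact ⟨h1, h2, i, (nmem_Dc _ (hb i)).mpr hi⟩
    · rintro ⟨h1, h2, i, hi⟩
      have hb := leech_box 48 (by norm_num) x h1 (by exact_mod_cast h2)
      exact ⟨h1, h2, i, (nmem_Dc _ (hb i)).mp hi⟩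
  · have h := ncard_not_box Dd Dd_sub 48 (by norm_num)
    rw [totD, totBox, h48] at h
    rw [show (98304 : ℕ) = 16773120 - 16674816 from rfl, ← h]
    congr 1
    ext x
    constructor
    · rintro ⟨h1, h2, i, hi⟩
      have hb := leech_box 48 (by norm_num) x h1 (by exact_mod_cast h2)
      exact ⟨h1, h2, i, (nmem_Dd _ (hb i)).mpr hi⟩
    · rintro ⟨h1, h2, i, hi⟩
      have hb := leech_box 48 (by norm_num) x h1 (by exact_mod_cast h2)
      exact ⟨h1, h2, i, (nmem_Dd _ (hb i)).mp hi⟩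

end Cfsg.Agent.Lib.Helper1.Leech
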