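import Mathlib
import Cfsg.Agent.Lib.Helper1.LeechE
import Cfsg.Agent.S5592
import Cfsg.Prelude.Def_SporadicCombinatorics

set_option autoImplicit false
set_option maxRecDepth 10000
set_option linter.constructorNameAsVariable false

namespace Cfsg.Agent.Lib.Helper1.Leech

open Cfsg

theorem sqN_zero : sqNorm (0 : GolayPt → ℤ) = 0 := by simp [sqNorm]

theorem sqN_neg (y : GolayPt → ℤ) : sqNorm (-y) = sqNorm y := by simp [sqNorm]

theorem exists_phi : ∃ (n : ℕ) (φ : (GolayPt → ℤ) → (Fin n → ZMod 2)), n ≤ 24 ∧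
    ∀ x ∈ leechLattice, ∀ y ∈ leechLattice,
      (φ x = φ y ↔ ∃ z ∈ leechLattice, x - y = 2 • z) := by
  obtain ⟨n, ⟨b⟩⟩ := Submodule.nonempty_basis_of_pid (Pi.basisFun ℤ GolayPt)
    (AddSubgroup.toIntSubmodule leechLattice)
  have hn : n ≤ 24 := by
    have hli : LinearIndependent ℤ (fun i => (b i : GolayPt → ℤ)) :=
      b.linearIndependent.map' (AddSubgroup.toIntSubmodule leechLattice).subtype
        (Submodule.ker_subtype _)
    have := (Pi.basisFun ℤ GolayPt).card_le_card_of_linearIndependent hli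
    rw [Fintype.card_fin, card_GolayPt] at this
    exact this
  classical
  have hmem : ∀ x : GolayPt → ℤ, x ∈ leechLattice →
      x ∈ AddSubgroup.toIntSubmodule leechLattice := fun x h => h
  refine ⟨n, fun x => if h : x ∈ AddSubgroup.toIntSubmodule leechLattice then
    (fun i => ((b.repr ⟨x, h⟩ i : ℤ) : ZMod 2)) else 0, hn, ?_⟩
  intro x hx y hy
  have hx' := hmem x hx
  have hy' := hmem y hy
  show (if h : x ∈ AddSubgroup.toIntSubmodule leechLattice then
    (fun i => ((b.repr ⟨x, h⟩ i : ℤ) : ZMod 2)) else 0) =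
    (if h : y ∈ AddSubgroup.toIntSubmodule leechLattice then
    (fun i => ((b.repr ⟨y, h⟩ i : ℤ) : ZMod 2)) else 0) ↔ _
  rw [dif_pos hx', dif_pos hy']
  constructor
  · intro h
    have h2 : ∀ i, ((2 : ℕ) : ℤ) ∣ b.repr ⟨x, hx'⟩ i - b.repr ⟨y, hy'⟩ i := by
      intro i
      exact (ZMod.intCast_eq_intCast_iff_dvd_sub _ _ 2).mp (congrFun h i).symm
    choose q hq using h2
    have hz : (⟨x, hx'⟩ : AddSubgroup.toIntSubmodule leechLattice) - ⟨y, hy'⟩ =
        (∑ i, q i • b i) + (∑ i, q i • b i) := by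
      apply b.repr.injective
      ext i
      rw [map_sub, map_add, Finsupp.sub_apply, Finsupp.add_apply, b.repr_sum_self, hq i]
      push_cast
      ring
    refine ⟨((∑ i, q i • b i : AddSubgroup.toIntSubmodule leechLattice) : GolayPt → ℤ),
      (∑ i, q i • b i : AddSubgroup.toIntSubmodule leechLattice).2, ?_⟩
    rw [two_nsmul]
    exact congrArg Subtype.val hz
  · rintro ⟨z, hz, hxyz⟩
    funext i
    have h1 : (⟨x, hx'⟩ : AddSubgroup.toIntSubmodule leechLattice) =
        ⟨y, hy'⟩ + (⟨z, hmem z hz⟩ + ⟨z, hmem z hz⟩) := by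
      apply Subtype.ext
      show x = y + (z + z)
      rw [← two_nsmul, ← hxyz]
      abel
    rw [h1, map_add, map_add, Finsupp.add_apply, Finsupp.add_apply]
    push_cast
    rw [CharTwo.add_self_eq_zero, add_zero]

noncomputable def sg (y : GolayPt → ℤ) : ℤ :=
  (((Finset.univ : Finset GolayPt).toList.map y).find? (fun a => decide (a ≠ 0))).getD 0

theorem list_find_neg (l : List ℤ) :
    ((l.map Neg.neg).find? (fun a => decide (a ≠ 0))).getD 0 =
      -((l.find? (fun a => decide (a ≠ 0))).getD 0) := by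
  induction l with
  | nil => simp
  | cons a l ih =>
    by_cases ha : a = 0
    · simp only [List.map_cons, List.find?_cons, ha, neg_zero, ne_eq, not_true_eq_false,
        decide_false]
      exact ih
    · simp [List.find?_cons, ha]

theorem sg_neg (y : GolayPt → ℤ) : sg (-y) = -sg y := by
  unfold sg
  rw [← list_find_neg, List.map_map]
  rfl

theorem list_find_ne (l : List ℤ) (h : ∃ a ∈ l, a ≠ 0) :
    (l.find? (fun a => decide (a ≠ 0))).getD 0 ≠ 0 := by
  induction l with
  | nil => simp at h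
  | cons a l ih =>
    by_cases ha : a = 0
    · obtain ⟨b, hb, hb0⟩ := h
      have h2 : ∃ b ∈ l, b ≠ 0 := by
        rcases List.mem_cons.mp hb with h1 | h1
        · exact absurd (h1.trans ha) hb0
        · exact ⟨b, h1, hb0⟩
      simpa [List.find?_cons, ha] using ih h2
    · simpa [List.find?_cons, ha] using ha

theorem sg_ne_zero (y : GolayPt → ℤ) (hy : y ≠ 0) : sg y ≠ 0 := by
  obtain ⟨i, hi⟩ := Function.ne_iff.mp hy
  exact list_find_ne _ ⟨y i, List.mem_map.mpr ⟨i, Finset.mem_toList.mpr (Finset.mem_univ i), rfl⟩,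
    hi⟩

theorem dotInt_self (y : GolayPt → ℤ) : dotInt y y = sqNorm y := by
  unfold dotInt sqNorm
  exact Finset.sum_congr rfl (fun i _ => (sq (y i)).symm)

theorem dotInt_sum_smul {ι : Type*} (s : Finset ι) (g : ι → ℤ) (v : ι → GolayPt → ℤ)
    (u : GolayPt → ℤ) :
    dotInt (∑ j ∈ s, g j • v j) u = ∑ j ∈ s, g j * dotInt (v j) u := by
  unfold dotInt
  simp only [Finset.sum_apply, Pi.smul_apply, smul_eq_mul, Finset.sum_mul, Finset.mul_sum]
  rw [Finset.sum_comm]
  exact Finset.sum_congr rfl (fun j _ => Finset.sum_congr rfl (fun i _ => by ring))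

theorem card_le_24 (T : Finset (GolayPt → ℤ)) (h0 : ∀ y ∈ T, sqNorm y ≠ 0)
    (horth : ∀ y ∈ T, ∀ y' ∈ T, y ≠ y' → dotInt y y' = 0) : T.card ≤ 24 := by
  have hli : LinearIndependent ℤ (fun y : T => (y : GolayPt → ℤ)) := by
    rw [linearIndependent_iff']
    intro s g hsum i hi
    have h1 : dotInt (∑ j ∈ s, g j • (j : GolayPt → ℤ)) (i : GolayPt → ℤ) =
        dotInt 0 (i : GolayPt → ℤ) := by rw [hsum]
    rw [dotInt_sum_smul, Finset.sum_eq_single i] at h1
    · have h2 : dotInt (0 : GolayPt → ℤ) (i : GolayPt → ℤ) = 0 := by simp [dotInt]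
      rw [h2, dotInt_self] at h1
      rcases mul_eq_zero.mp h1 with h | h
      · exact h
      · exact absurd h (h0 _ i.2)
    · intro j _ hji
      rw [horth _ j.2 _ i.2 (fun h => hji (Subtype.ext h)), mul_zero]
    · intro h
      exact absurd hi h
  have := (Pi.basisFun ℤ GolayPt).card_le_card_of_linearIndependent hli
  rw [Fintype.card_coe, card_GolayPt] at this
  exact this

theorem card_le_48 (T : Finset (GolayPt → ℤ)) (h64 : ∀ y ∈ T, sqNorm y = 64)
    (hpair : ∀ y ∈ T, ∀ y' ∈ T, y ≠ y' → y = -y' ∨ dotInt y y' = 0) : T.card ≤ 48 := by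
  have hne : ∀ y ∈ T, y ≠ 0 := by
    intro y hy h
    have := h64 y hy
    rw [h, sqN_zero] at this
    norm_num at this
  have hsub : T ⊆ T.filter (fun y => 0 < sg y) ∪ T.filter (fun y => sg y < 0) := by
    intro y hy
    rw [Finset.mem_union, Finset.mem_filter, Finset.mem_filter]
    rcases lt_trichotomy (sg y) 0 with h | h | h
    · exact Or.inr ⟨hy, h⟩
    · exact absurd h (sg_ne_zero y (hne y hy))
    · exact Or.inl ⟨hy, h⟩
  have hp : (T.filter (fun y => 0 < sg y)).card ≤ 24 := by
    apply card_le_24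
    · intro y hy
      rw [h64 y (Finset.mem_filter.mp hy).1]
      norm_num
    · intro y hy y' hy' hne'
      rw [Finset.mem_filter] at hy hy'
      rcases hpair y hy.1 y' hy'.1 hne' with h | h
      · exfalso
        have h3 := sg_neg y'
        rw [← h] at h3
        have h1 := hy.2
        have h2 := hy'.2
        omega
      · exact h
  have hm : (T.filter (fun y => sg y < 0)).card ≤ 24 := by
    apply card_le_24
    · intro y hy
      rw [h64 y (Finset.mem_filter.mp hy).1]
      norm_num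
    · intro y hy y' hy' hne'
      rw [Finset.mem_filter] at hy hy'
      rcases hpair y hy.1 y' hy'.1 hne' with h | h
      · exfalso
        have h3 := sg_neg y'
        rw [← h] at h3
        have h1 := hy.2
        have h2 := hy'.2
        omega
      · exact h
  have h5 := Finset.card_le_card hsub
  have h6 := Finset.card_union_le (T.filter (fun y => 0 < sg y)) (T.filter (fun y => sg y < 0))
  omega

theorem TOTD_box (N : ℕ) : TOTD box N = TOT N := rfl

@[irreducible] def A (N : ℕ) : Finset (GolayPt → ℤ) := AD box N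

theorem mem_A (N : ℕ) (hN : N ≤ 64) (x : GolayPt → ℤ) :
    x ∈ A N ↔ x ∈ leechLattice ∧ sqNorm x = (N : ℤ) := by
  unfold A
  rw [mem_AD box N hN]
  exact ⟨fun h => h.1, fun h => ⟨h, leech_box N hN x h.1 h.2⟩⟩

theorem card_A32 : (A 32).card = 196560 := by
  unfold A
  rw [card_AD box (fun _ h => h), TOTD_box, tot32]

theorem card_A48 : (A 48).card = 16773120 := by
  unfold A
  rw [card_AD box (fun _ h => h), TOTD_box, tot48]

theorem card_A64 : (A 64).card = 398034000 := by
  unfold A
  rw [card_AD box (fun _ h => h), TOTD_box, tot64]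

theorem cong_short {n : ℕ} (φ : (GolayPt → ℤ) → (Fin n → ZMod 2))
    (hφ : ∀ x ∈ leechLattice, ∀ y ∈ leechLattice,
      (φ x = φ y ↔ ∃ z ∈ leechLattice, x - y = 2 • z))
    (y y' : GolayPt → ℤ) (hy : y ∈ leechLattice) (hy' : y' ∈ leechLattice)
    (h1 : sqNorm y ≤ 64) (h2 : sqNorm y' ≤ 64) (hf : φ y = φ y') (hne : y ≠ y') :
    y = -y' ∨ (sqNorm y = 64 ∧ sqNorm y' = 64 ∧ dotInt y y' = 0) :=
  Cfsg.Agent.S5592.result y y' hy hy' hne h1 h2 ((hφ y hy y' hy').mp hf)

def FT {n : ℕ} (φ : (GolayPt → ℤ) → (Fin n → ZMod 2)) (f : Fin n → ZMod 2) : ℕ :=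
  48 * (if φ 0 = f then 1 else 0) + 24 * ((A 32).filter (fun y => φ y = f)).card +
    24 * ((A 48).filter (fun y => φ y = f)).card + ((A 64).filter (fun y => φ y = f)).card

theorem fiber_le {n : ℕ} (φ : (GolayPt → ℤ) → (Fin n → ZMod 2))
    (hφ : ∀ x ∈ leechLattice, ∀ y ∈ leechLattice,
      (φ x = φ y ↔ ∃ z ∈ leechLattice, x - y = 2 • z))
    (f : Fin n → ZMod 2) : FT φ f ≤ 48 := by
  unfold FT
  have z0 : (0 : GolayPt → ℤ) ∈ leechLattice := zero_mem _
  have key : ∀ y ∈ leechLattice, sqNorm y < 64 → φ y = f → ∀ y' ∈ leechLattice,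
      sqNorm y' ≤ 64 → φ y' = f → y' = y ∨ y' = -y := by
    intro y hy hlt hyf y' hy' hle hy'f
    by_cases hne : y = y'
    · exact Or.inl hne.symm
    · rcases cong_short φ hφ y y' hy hy' (by omega) hle (by rw [hyf, hy'f]) hne with
        h | ⟨h, -, -⟩
      · right
        rw [h, neg_neg]
      · omega
  by_cases hex : ∃ y ∈ leechLattice, sqNorm y < 64 ∧ φ y = f
  · obtain ⟨y, hy, hlt, hyf⟩ := hex
    have hsub : ∀ N : ℕ, N ≤ 64 →
        (A N).filter (fun y' => φ y' = f) ⊆ ({y, -y} : Finset (GolayPt → ℤ)) := by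
      intro N hN y' hy'
      rw [Finset.mem_filter, mem_A N hN] at hy'
      have hN' : (N : ℤ) ≤ 64 := by exact_mod_cast hN
      rcases key y hy hlt hyf y' hy'.1.1 (by rw [hy'.1.2]; exact hN') hy'.2 with h | h
      · rw [h]
        exact Finset.mem_insert_self _ _
      · rw [h]
        exact Finset.mem_insert_of_mem (Finset.mem_singleton_self _)
    have hemp : ∀ N : ℕ, N ≤ 64 → sqNorm y ≠ (N : ℤ) →
        ((A N).filter (fun y' => φ y' = f)).card = 0 := by
      intro N hN hne
      rw [Finset.card_eq_zero, Finset.filter_eq_empty_iff]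
      intro y' hy' hy'f
      have hm := hy'
      rw [mem_A N hN] at hm
      have hN' : (N : ℤ) ≤ 64 := by exact_mod_cast hN
      rcases key y hy hlt hyf y' hm.1 (by rw [hm.2]; exact hN') hy'f with h | h
      · rw [h] at hm
        exact hne hm.2
      · rw [h, sqN_neg] at hm
        exact hne hm.2
    have hle2 : ∀ N : ℕ, N ≤ 64 → ((A N).filter (fun y' => φ y' = f)).card ≤ 2 :=
      fun N hN => le_trans (Finset.card_le_card (hsub N hN)) Finset.card_le_two
    have h0 : (φ 0 = f) → sqNorm y = 0 := by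
      intro h0f
      rcases key y hy hlt hyf 0 z0 (by rw [sqN_zero]; norm_num) h0f with h | h
      · rw [← h, sqN_zero]
      · have h7 : y = 0 := by
          rw [← neg_eq_zero]
          exact h.symm
        rw [h7, sqN_zero]
    have hdv := Cfsg.Agent.Lib.Helper9.Leech.sqNorm_dvd y hy
    have hmin : y = 0 ∨ 32 ≤ sqNorm y := by
      by_cases h : y = 0
      · exact Or.inl h
      · exact Or.inr (Cfsg.Agent.Lib.Helper9.Leech.min_norm y hy h)
    have hcases : sqNorm y = 0 ∨ sqNorm y = 32 ∨ sqNorm y = 48 := by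
      rcases hmin with h | h
      · left
        rw [h, sqN_zero]
      · obtain ⟨q, hq⟩ := hdv
        omega
    rcases hcases with h | h | h
    · rw [hemp 32 (by norm_num) (by rw [h]; norm_num), hemp 48 (by norm_num) (by rw [h]; norm_num),
        hemp 64 (by norm_num) (by rw [h]; norm_num)]
      split_ifs <;> omega
    · rw [hemp 48 (by norm_num) (by rw [h]; norm_num), hemp 64 (by norm_num) (by rw [h]; norm_num),
        if_neg (fun h0f => by have := h0 h0f; omega)]
      have := hle2 32 (by norm_num)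
      omega
    · rw [hemp 32 (by norm_num) (by rw [h]; norm_num), hemp 64 (by norm_num) (by rw [h]; norm_num),
        if_neg (fun h0f => by have := h0 h0f; omega)]
      have := hle2 48 (by norm_num)
      omega
  · push Not at hex
    have e0 : ¬ (φ 0 = f) := fun h => hex 0 z0 (by rw [sqN_zero]; norm_num) h
    have e32 : ((A 32).filter (fun y' => φ y' = f)).card = 0 := by
      rw [Finset.card_eq_zero, Finset.filter_eq_empty_iff]
      intro y' hy' hy'f
      have hm := hy'
      rw [mem_A 32 (by norm_num)] at hm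
      exact hex y' hm.1 (by rw [hm.2]; norm_num) hy'f
    have e48 : ((A 48).filter (fun y' => φ y' = f)).card = 0 := by
      rw [Finset.card_eq_zero, Finset.filter_eq_empty_iff]
      intro y' hy' hy'f
      have hm := hy'
      rw [mem_A 48 (by norm_num)] at hm
      exact hex y' hm.1 (by rw [hm.2]; norm_num) hy'f
    rw [if_neg e0, e32, e48]
    have h48 : ((A 64).filter (fun y' => φ y' = f)).card ≤ 48 := by
      apply card_le_48
      · intro y hy
        have h1 := (Finset.mem_filter.mp hy).1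
        rw [mem_A 64 (by norm_num)] at h1
        rw [h1.2]
        norm_num
      · intro y hy y' hy' hne
        have h1 := (Finset.mem_filter.mp hy).1
        have h2 := (Finset.mem_filter.mp hy').1
        rw [mem_A 64 (by norm_num)] at h1 h2
        rcases cong_short φ hφ y y' h1.1 h2.1 (by rw [h1.2]; norm_num) (by rw [h2.2]; norm_num)
          (by rw [(Finset.mem_filter.mp hy).2, (Finset.mem_filter.mp hy').2]) hne with
          h | ⟨-, -, h⟩
        · exact Or.inl h
        · exact Or.inr h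
    omega

theorem fiber_sum {n : ℕ} (φ : (GolayPt → ℤ) → (Fin n → ZMod 2)) :
    ∑ f : Fin n → ZMod 2, FT φ f = 48 * 2 ^ 24 := by
  unfold FT
  have hfib : ∀ N, ∑ f : Fin n → ZMod 2, ((A N).filter (fun y => φ y = f)).card = (A N).card :=
    fun N => (Finset.card_eq_sum_card_fiberwise (fun y _ => Finset.mem_univ (φ y))).symm
  rw [Finset.sum_add_distrib, Finset.sum_add_distrib, Finset.sum_add_distrib, ← Finset.mul_sum,
    ← Finset.mul_sum, ← Finset.mul_sum, hfib, hfib, hfib, card_A32, card_A48, card_A64,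
    Finset.sum_ite_eq, if_pos (Finset.mem_univ _)]
  norm_num

theorem fiber_eq {n : ℕ} (hn : n ≤ 24) (φ : (GolayPt → ℤ) → (Fin n → ZMod 2))
    (hφ : ∀ x ∈ leechLattice, ∀ y ∈ leechLattice,
      (φ x = φ y ↔ ∃ z ∈ leechLattice, x - y = 2 • z))
    (f : Fin n → ZMod 2) : FT φ f = 48 := by
  have hle := fiber_le φ hφ
  have hsum := fiber_sum φ
  have hcard : Fintype.card (Fin n → ZMod 2) = 2 ^ n := by
    rw [Fintype.card_fun, ZMod.card, Fintype.card_fin]
  have h1 : ∑ f : Fin n → ZMod 2, FT φ f ≤ ∑ _f : Fin n → ZMod 2, 48 :=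
    Finset.sum_le_sum (fun f _ => hle f)
  rw [Finset.sum_const, Finset.card_univ, hcard, smul_eq_mul, hsum] at h1
  have h2 : 2 ^ 24 ≤ 2 ^ n := by
    have : 48 * 2 ^ 24 ≤ 48 * 2 ^ n := by rw [mul_comm 48 (2 ^ n)]; exact h1
    exact Nat.le_of_mul_le_mul_left this (by norm_num)
  have h3 : 24 ≤ n := (Nat.pow_le_pow_iff_right (by norm_num)).mp h2
  have hn24 : n = 24 := by omega
  subst hn24
  have h4 := (Finset.sum_eq_sum_iff_of_le (fun f _ => hle f)).mp (by
    rw [hsum, Finset.sum_const, Finset.card_univ, hcard, smul_eq_mul]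
    norm_num)
  exact h4 f (Finset.mem_univ f)

theorem cross48 (x : GolayPt → ℤ) (hx : x ∈ leechLattice) (hxn : sqNorm x = 64) :
    (cross x).ncard = 48 := by
  obtain ⟨n, φ, hn, hφ⟩ := exists_phi
  have hset : cross x = ↑((A 64).filter (fun y => φ y = φ x)) := by
    ext y
    unfold cross
    rw [Finset.mem_coe, Finset.mem_filter, mem_A 64 (by norm_num)]
    constructor
    · rintro ⟨hy, hyn, hz⟩
      exact ⟨⟨hy, by rw [hyn, hxn]; rfl⟩, ((hφ x hx y hy).mpr hz).symm⟩
    · intro h
      exact ⟨h.1.1, by rw [h.1.2, hxn]; rfl, (hφ x hx y h.1.1).mp h.2.symm⟩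
  rw [hset, Set.ncard_coe_finset]
  have htot := fiber_eq hn φ hφ (φ x)
  unfold FT at htot
  have hx0 : x ≠ 0 := by
    rintro rfl
    rw [sqN_zero] at hxn
    norm_num at hxn
  have e0 : ¬ (φ 0 = φ x) := by
    intro h
    rcases cong_short φ hφ 0 x (zero_mem _) hx (by rw [sqN_zero]; norm_num) (by rw [hxn]) h
      (fun h => hx0 h.symm) with h1 | ⟨h1, -, -⟩
    · have h7 : x = 0 := by
        rw [← neg_eq_zero]
        exact h1.symm
      exact hx0 h7
    · rw [sqN_zero] at h1
      norm_num at h1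
  have e32 : ((A 32).filter (fun y => φ y = φ x)).card = 0 := by
    rw [Finset.card_eq_zero, Finset.filter_eq_empty_iff]
    intro y hy hyf
    have hm := hy
    rw [mem_A 32 (by norm_num)] at hm
    have hne : y ≠ x := by
      rintro rfl
      rw [hxn] at hm
      norm_num at hm
    rcases cong_short φ hφ y x hm.1 hx (by rw [hm.2]; norm_num) (by rw [hxn]) hyf hne with
      h1 | ⟨h1, -, -⟩
    · rw [h1, sqN_neg, hxn] at hm
      norm_num at hm
    · rw [hm.2] at h1
      norm_num at h1
  have e48 : ((A 48).filter (fun y => φ y = φ x)).card = 0 := by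
    rw [Finset.card_eq_zero, Finset.filter_eq_empty_iff]
    intro y hy hyf
    have hm := hy
    rw [mem_A 48 (by norm_num)] at hm
    have hne : y ≠ x := by
      rintro rfl
      rw [hxn] at hm
      norm_num at hm
    rcases cong_short φ hφ y x hm.1 hx (by rw [hm.2]; norm_num) (by rw [hxn]) hyf hne with
      h1 | ⟨h1, -, -⟩
    · rw [h1, sqN_neg, hxn] at hm
      norm_num at hm
    · rw [hm.2] at h1
      norm_num at h1
  rw [if_neg e0, e32, e48] at htot
  omega

theorem short_rep (x : GolayPt → ℤ) (hx : x ∈ leechLattice) :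
    ∃ y ∈ leechLattice, sqNorm y ≤ 64 ∧ ∃ z ∈ leechLattice, x - y = 2 • z := by
  obtain ⟨n, φ, hn, hφ⟩ := exists_phi
  have htot := fiber_eq hn φ hφ (φ x)
  unfold FT at htot
  by_cases h0 : φ 0 = φ x
  · exact ⟨0, zero_mem _, by rw [sqN_zero]; norm_num, (hφ x hx 0 (zero_mem _)).mp h0.symm⟩
  · rw [if_neg h0] at htot
    have h3 : 0 < ((A 32).filter (fun y => φ y = φ x)).card ∨
        0 < ((A 48).filter (fun y => φ y = φ x)).card ∨
        0 < ((A 64).filter (fun y => φ y = φ x)).card := by omega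
    rcases h3 with h | h | h
    · obtain ⟨y, hy⟩ := Finset.card_pos.mp h
      rw [Finset.mem_filter, mem_A 32 (by norm_num)] at hy
      exact ⟨y, hy.1.1, by rw [hy.1.2]; norm_num, (hφ x hx y hy.1.1).mp hy.2.symm⟩
    · obtain ⟨y, hy⟩ := Finset.card_pos.mp h
      rw [Finset.mem_filter, mem_A 48 (by norm_num)] at hy
      exact ⟨y, hy.1.1, by rw [hy.1.2]; norm_num, (hφ x hx y hy.1.1).mp hy.2.symm⟩
    · obtain ⟨y, hy⟩ := Finset.card_pos.mp h
      rw [Finset.mem_filter, mem_A 64 (by norm_num)] at hy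
      exact ⟨y, hy.1.1, by rw [hy.1.2]; norm_num, (hφ x hx y hy.1.1).mp hy.2.symm⟩

end Cfsg.Agent.Lib.Helper1.Leech
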