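import Mathlib
import Cfsg.Agent.Lib.Helper1.LeechG

set_option autoImplicit false
set_option maxRecDepth 10000
set_option linter.constructorNameAsVariable false

namespace Cfsg.Agent.Lib.Helper1.LeechH

open Matrix

def qf (B : Matrix (Fin 24) (Fin 24) ℤ) (x : Fin 24 → ℤ) : ℤ := x ⬝ᵥ (B *ᵥ x)

def bf (B : Matrix (Fin 24) (Fin 24) ℤ) (x y : Fin 24 → ℤ) : ℤ := x ⬝ᵥ (B *ᵥ y)

def ph (x : Fin 24 → ℤ) : Fin 24 → ZMod 2 := fun i => ((x i : ℤ) : ZMod 2)

variable (B : Matrix (Fin 24) (Fin 24) ℤ)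

theorem qf_add (x y : Fin 24 → ℤ) : qf B (x + y) = qf B x + qf B y + bf B x y + bf B y x := by
  unfold qf bf
  rw [Matrix.mulVec_add, dotProduct_add, add_dotProduct, add_dotProduct]
  ring

theorem qf_sub (x y : Fin 24 → ℤ) : qf B (x - y) = qf B x + qf B y - bf B x y - bf B y x := by
  unfold qf bf
  rw [Matrix.mulVec_sub, dotProduct_sub, sub_dotProduct, sub_dotProduct]
  ring

theorem qf_double (z : Fin 24 → ℤ) : qf B (z + z) = 4 * qf B z := by
  rw [qf_add]
  unfold bf qf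
  ring

theorem qf_zero : qf B 0 = 0 := by
  unfold qf
  rw [zero_dotProduct]

theorem qf_neg (y : Fin 24 → ℤ) : qf B (-y) = qf B y := by
  unfold qf
  rw [Matrix.mulVec_neg, neg_dotProduct, dotProduct_neg, neg_neg]

theorem bf_symm (hsymm : B.IsSymm) (x y : Fin 24 → ℤ) : bf B x y = bf B y x := by
  unfold bf
  rw [Matrix.dotProduct_mulVec, ← Matrix.mulVec_transpose, hsymm.eq, dotProduct_comm]

theorem bf_sum_smul {ι : Type*} (s : Finset ι) (g : ι → ℤ) (v : ι → Fin 24 → ℤ)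
    (u : Fin 24 → ℤ) : bf B (∑ j ∈ s, g j • v j) u = ∑ j ∈ s, g j * bf B (v j) u := by
  unfold bf
  rw [sum_dotProduct]
  exact Finset.sum_congr rfl (fun j _ => by rw [smul_dotProduct, smul_eq_mul])

theorem ph_eq_iff (x y : Fin 24 → ℤ) : ph x = ph y ↔ ∃ z : Fin 24 → ℤ, x - y = z + z := by
  constructor
  · intro h
    have h2 : ∀ i, ((2 : ℕ) : ℤ) ∣ x i - y i := fun i =>
      (ZMod.intCast_eq_intCast_iff_dvd_sub _ _ 2).mp (congrFun h i).symm
    choose q hq using h2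
    refine ⟨q, ?_⟩
    funext i
    rw [Pi.sub_apply, Pi.add_apply, hq i]
    push_cast
    ring
  · rintro ⟨z, hz⟩
    funext i
    have h3 := congrFun hz i
    rw [Pi.sub_apply, Pi.add_apply] at h3
    have h1 : x i = y i + (z i + z i) := by omega
    unfold ph
    rw [h1]
    push_cast
    rw [CharTwo.add_self_eq_zero, add_zero]

theorem ph_eq_iff' (x y : Fin 24 → ℤ) : ph x = ph y ↔ ∀ i, (2 : ℤ) ∣ (x - y) i := by
  rw [ph_eq_iff]
  constructor
  · rintro ⟨z, hz⟩ i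
    rw [hz, Pi.add_apply]
    exact ⟨z i, by ring⟩
  · intro h
    choose q hq using h
    exact ⟨q, by
      funext i
      rw [hq i, Pi.add_apply]
      ring⟩

theorem qf_ge_four (hpos : ∀ x : Fin 24 → ℤ, x ≠ 0 → 0 < x ⬝ᵥ (B *ᵥ x))
    (heven : ∀ x : Fin 24 → ℤ, (2 : ℤ) ∣ x ⬝ᵥ (B *ᵥ x))
    (h2 : ∀ x : Fin 24 → ℤ, x ⬝ᵥ (B *ᵥ x) ≠ 2) (z : Fin 24 → ℤ) (hz : z ≠ 0) :
    4 ≤ qf B z := by
  have h1 := hpos z hz
  obtain ⟨k, hk⟩ := heven z
  have h3 := h2 z
  unfold qf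
  omega

theorem cong_short (hsymm : B.IsSymm) (hpos : ∀ x : Fin 24 → ℤ, x ≠ 0 → 0 < x ⬝ᵥ (B *ᵥ x))
    (heven : ∀ x : Fin 24 → ℤ, (2 : ℤ) ∣ x ⬝ᵥ (B *ᵥ x))
    (h2 : ∀ x : Fin 24 → ℤ, x ⬝ᵥ (B *ᵥ x) ≠ 2) {κ : Type} (φ : (Fin 24 → ℤ) → κ)
    (hφ : ∀ x y : Fin 24 → ℤ, φ x = φ y ↔ ∃ z : Fin 24 → ℤ, x - y = z + z)
    (x y : Fin 24 → ℤ) (hne : x ≠ y)
    (hx : qf B x ≤ 8) (hy : qf B y ≤ 8) (hf : φ x = φ y) :
    x = -y ∨ (qf B x = 8 ∧ qf B y = 8 ∧ bf B x y = 0) := by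
  obtain ⟨z, hz⟩ := (hφ x y).mp hf
  by_cases hxy : x = -y
  · exact Or.inl hxy
  · right
    have hz0 : z ≠ 0 := by
      rintro rfl
      apply hne
      have h5 : x - y = 0 := by
        rw [hz]
        simp
      exact sub_eq_zero.mp h5
    have h1 : 16 ≤ qf B (x - y) := by
      rw [hz, qf_double]
      have := qf_ge_four B hpos heven h2 z hz0
      omega
    have hsum : x + y = (z + y) + (z + y) := by
      have h5 := hz
      rw [sub_eq_iff_eq_add] at h5
      rw [h5]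
      abel
    have hzy : z + y ≠ 0 := by
      intro h
      apply hxy
      rw [h, add_zero] at hsum
      exact eq_neg_of_add_eq_zero_left hsum
    have h2' : 16 ≤ qf B (x + y) := by
      rw [hsum, qf_double]
      have := qf_ge_four B hpos heven h2 (z + y) hzy
      omega
    have ha := qf_add B x y
    have hs := qf_sub B x y
    have hsym := bf_symm B hsymm x y
    refine ⟨by omega, by omega, by omega⟩

noncomputable def sgF (y : Fin 24 → ℤ) : ℤ :=
  (((List.finRange 24).map y).find? (fun a => decide (a ≠ 0))).getD 0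

theorem sgF_neg (y : Fin 24 → ℤ) : sgF (-y) = -sgF y := by
  unfold sgF
  rw [← Leech.list_find_neg, List.map_map]
  rfl

theorem sgF_ne_zero (y : Fin 24 → ℤ) (hy : y ≠ 0) : sgF y ≠ 0 := by
  obtain ⟨i, hi⟩ := Function.ne_iff.mp hy
  exact Leech.list_find_ne _ ⟨y i, List.mem_map.mpr ⟨i, List.mem_finRange i, rfl⟩, hi⟩

theorem card_le_24 (T : Finset (Fin 24 → ℤ)) (h0 : ∀ y ∈ T, bf B y y ≠ 0)
    (horth : ∀ y ∈ T, ∀ y' ∈ T, y ≠ y' → bf B y y' = 0) : T.card ≤ 24 := by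
  have hli : LinearIndependent ℤ (fun y : T => (y : Fin 24 → ℤ)) := by
    rw [linearIndependent_iff']
    intro s g hsum i hi
    have h1 : bf B (∑ j ∈ s, g j • (j : Fin 24 → ℤ)) (i : Fin 24 → ℤ) =
        bf B 0 (i : Fin 24 → ℤ) := by rw [hsum]
    rw [bf_sum_smul, Finset.sum_eq_single i] at h1
    · have h2 : bf B (0 : Fin 24 → ℤ) (i : Fin 24 → ℤ) = 0 := by
        unfold bf
        rw [zero_dotProduct]
      rw [h2] at h1
      rcases mul_eq_zero.mp h1 with h | h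
      · exact h
      · exact absurd h (h0 _ i.2)
    · intro j _ hji
      rw [horth _ j.2 _ i.2 (fun h => hji (Subtype.ext h)), mul_zero]
    · intro h
      exact absurd hi h
  have := (Pi.basisFun ℤ (Fin 24)).card_le_card_of_linearIndependent hli
  rw [Fintype.card_coe, Fintype.card_fin] at this
  exact this

theorem card_le_48 (T : Finset (Fin 24 → ℤ)) (h8 : ∀ y ∈ T, qf B y = 8)
    (hpair : ∀ y ∈ T, ∀ y' ∈ T, y ≠ y' → y = -y' ∨ bf B y y' = 0) : T.card ≤ 48 := by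
  have hne : ∀ y ∈ T, y ≠ 0 := by
    intro y hy h
    have := h8 y hy
    rw [h, qf_zero] at this
    norm_num at this
  have hsub : T ⊆ T.filter (fun y => 0 < sgF y) ∪ T.filter (fun y => sgF y < 0) := by
    intro y hy
    rw [Finset.mem_union, Finset.mem_filter, Finset.mem_filter]
    rcases lt_trichotomy (sgF y) 0 with h | h | h
    · exact Or.inr ⟨hy, h⟩
    · exact absurd h (sgF_ne_zero y (hne y hy))
    · exact Or.inl ⟨hy, h⟩
  have hp : (T.filter (fun y => 0 < sgF y)).card ≤ 24 := by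
    apply card_le_24 B
    · intro y hy
      have := h8 y (Finset.mem_filter.mp hy).1
      unfold qf at this
      unfold bf
      rw [this]
      norm_num
    · intro y hy y' hy' hne'
      rw [Finset.mem_filter] at hy hy'
      rcases hpair y hy.1 y' hy'.1 hne' with h | h
      · exfalso
        have h3 := sgF_neg y'
        rw [← h] at h3
        have h1 := hy.2
        have h2 := hy'.2
        omega
      · exact h
  have hm : (T.filter (fun y => sgF y < 0)).card ≤ 24 := by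
    apply card_le_24 B
    · intro y hy
      have := h8 y (Finset.mem_filter.mp hy).1
      unfold qf at this
      unfold bf
      rw [this]
      norm_num
    · intro y hy y' hy' hne'
      rw [Finset.mem_filter] at hy hy'
      rcases hpair y hy.1 y' hy'.1 hne' with h | h
      · exfalso
        have h3 := sgF_neg y'
        rw [← h] at h3
        have h1 := hy.2
        have h2 := hy'.2
        omega
      · exact h
  have h5 := Finset.card_le_card hsub
  have h6 := Finset.card_union_le (T.filter (fun y => 0 < sgF y)) (T.filter (fun y => sgF y < 0))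
  omega

def FT {κ : Type} [DecidableEq κ] (φ : (Fin 24 → ℤ) → κ) (A4 A6 A8 : Finset (Fin 24 → ℤ))
    (f : κ) : ℕ :=
  48 * (if φ 0 = f then 1 else 0) + 24 * (A4.filter (fun y => φ y = f)).card +
    24 * (A6.filter (fun y => φ y = f)).card + (A8.filter (fun y => φ y = f)).card

theorem fiber_le (hsymm : B.IsSymm) (hpos : ∀ x : Fin 24 → ℤ, x ≠ 0 → 0 < x ⬝ᵥ (B *ᵥ x))
    (heven : ∀ x : Fin 24 → ℤ, (2 : ℤ) ∣ x ⬝ᵥ (B *ᵥ x))
    (h2 : ∀ x : Fin 24 → ℤ, x ⬝ᵥ (B *ᵥ x) ≠ 2) (A4 A6 A8 : Finset (Fin 24 → ℤ))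
    (m4 : ∀ x, x ∈ A4 ↔ qf B x = 4) (m6 : ∀ x, x ∈ A6 ↔ qf B x = 6)
    (m8 : ∀ x, x ∈ A8 ↔ qf B x = 8) {κ : Type} [DecidableEq κ] (φ : (Fin 24 → ℤ) → κ)
    (hφ : ∀ x y : Fin 24 → ℤ, φ x = φ y ↔ ∃ z : Fin 24 → ℤ, x - y = z + z) (f : κ) :
    FT φ A4 A6 A8 f ≤ 48 := by
  unfold FT
  have key : ∀ y, qf B y < 8 → φ y = f → ∀ y', qf B y' ≤ 8 → φ y' = f →
      y' = y ∨ y' = -y := by
    intro y hlt hyf y' hle hy'f
    by_cases hne : y = y'
    · exact Or.inl hne.symm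
    · rcases cong_short B hsymm hpos heven h2 φ hφ y y' hne (by omega) hle (by rw [hyf, hy'f]) with
        h | ⟨h, -, -⟩
      · right
        rw [h, neg_neg]
      · omega
  by_cases hex : ∃ y, qf B y < 8 ∧ φ y = f
  · obtain ⟨y, hlt, hyf⟩ := hex
    have hsub : ∀ (Ak : Finset (Fin 24 → ℤ)) (k : ℤ), k ≤ 8 → (∀ x, x ∈ Ak ↔ qf B x = k) →
        Ak.filter (fun y' => φ y' = f) ⊆ ({y, -y} : Finset (Fin 24 → ℤ)) := by
      intro Ak k hk mk y' hy'
      rw [Finset.mem_filter, mk] at hy'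
      rcases key y hlt hyf y' (by rw [hy'.1]; exact hk) hy'.2 with h | h
      · rw [h]
        exact Finset.mem_insert_self _ _
      · rw [h]
        exact Finset.mem_insert_of_mem (Finset.mem_singleton_self _)
    have hemp : ∀ (Ak : Finset (Fin 24 → ℤ)) (k : ℤ), k ≤ 8 → (∀ x, x ∈ Ak ↔ qf B x = k) →
        qf B y ≠ k → (Ak.filter (fun y' => φ y' = f)).card = 0 := by
      intro Ak k hk mk hne
      rw [Finset.card_eq_zero, Finset.filter_eq_empty_iff]
      intro y' hy' hy'f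
      rw [mk] at hy'
      rcases key y hlt hyf y' (by rw [hy']; exact hk) hy'f with h | h
      · rw [h] at hy'
        exact hne hy'
      · rw [h, qf_neg] at hy'
        exact hne hy'
    have hle2 : ∀ (Ak : Finset (Fin 24 → ℤ)) (k : ℤ), k ≤ 8 → (∀ x, x ∈ Ak ↔ qf B x = k) →
        (Ak.filter (fun y' => φ y' = f)).card ≤ 2 :=
      fun Ak k hk mk => le_trans (Finset.card_le_card (hsub Ak k hk mk)) Finset.card_le_two
    have h0 : (φ 0 = f) → qf B y = 0 := by
      intro h0f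
      rcases key y hlt hyf 0 (by rw [qf_zero]; norm_num) h0f with h | h
      · rw [← h, qf_zero]
      · have h7 : y = 0 := by
          rw [← neg_eq_zero]
          exact h.symm
        rw [h7, qf_zero]
    have hcases : qf B y = 0 ∨ qf B y = 4 ∨ qf B y = 6 := by
      by_cases hy0 : y = 0
      · left
        rw [hy0, qf_zero]
      · have h1 := hpos y hy0
        obtain ⟨k, hk⟩ := heven y
        have h3 := h2 y
        unfold qf at hlt ⊢
        omega
    rcases hcases with h | h | h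
    · rw [hemp A4 4 (by norm_num) m4 (by rw [h]; norm_num),
        hemp A6 6 (by norm_num) m6 (by rw [h]; norm_num),
        hemp A8 8 (by norm_num) m8 (by rw [h]; norm_num)]
      split_ifs <;> omega
    · rw [hemp A6 6 (by norm_num) m6 (by rw [h]; norm_num),
        hemp A8 8 (by norm_num) m8 (by rw [h]; norm_num),
        if_neg (fun h0f => by have := h0 h0f; omega)]
      have := hle2 A4 4 (by norm_num) m4
      omega
    · rw [hemp A4 4 (by norm_num) m4 (by rw [h]; norm_num),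
        hemp A8 8 (by norm_num) m8 (by rw [h]; norm_num),
        if_neg (fun h0f => by have := h0 h0f; omega)]
      have := hle2 A6 6 (by norm_num) m6
      omega
  · push Not at hex
    have e0 : ¬ (φ 0 = f) := fun h => hex 0 (by rw [qf_zero]; norm_num) h
    have e4 : (A4.filter (fun y' => φ y' = f)).card = 0 := by
      rw [Finset.card_eq_zero, Finset.filter_eq_empty_iff]
      intro y' hy' hy'f
      rw [m4] at hy'
      exact hex y' (by rw [hy']; norm_num) hy'f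
    have e6 : (A6.filter (fun y' => φ y' = f)).card = 0 := by
      rw [Finset.card_eq_zero, Finset.filter_eq_empty_iff]
      intro y' hy' hy'f
      rw [m6] at hy'
      exact hex y' (by rw [hy']; norm_num) hy'f
    rw [if_neg e0, e4, e6]
    have h48 : (A8.filter (fun y' => φ y' = f)).card ≤ 48 := by
      apply card_le_48 B
      · intro y hy
        exact (m8 y).mp (Finset.mem_filter.mp hy).1
      · intro y hy y' hy' hne
        have h1 := (m8 y).mp (Finset.mem_filter.mp hy).1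
        have h2' := (m8 y').mp (Finset.mem_filter.mp hy').1
        rcases cong_short B hsymm hpos heven h2 φ hφ y y' hne (by rw [h1]) (by rw [h2'])
          (by rw [(Finset.mem_filter.mp hy).2, (Finset.mem_filter.mp hy').2]) with
          h | ⟨-, -, h⟩
        · exact Or.inl h
        · exact Or.inr h
    omega

theorem fiber_sum {κ : Type} [DecidableEq κ] [Fintype κ] (φ : (Fin 24 → ℤ) → κ)
    (A4 A6 A8 : Finset (Fin 24 → ℤ)) (c4 : A4.card = 196560)
    (c6 : A6.card = 16773120) (c8 : A8.card = 398034000) :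
    ∑ f : κ, FT φ A4 A6 A8 f = 48 * 2 ^ 24 := by
  unfold FT
  have hfib : ∀ Ak : Finset (Fin 24 → ℤ),
      ∑ f : κ, (Ak.filter (fun y => φ y = f)).card = Ak.card :=
    fun Ak => (Finset.card_eq_sum_card_fiberwise (fun y _ => Finset.mem_univ (φ y))).symm
  rw [Finset.sum_add_distrib, Finset.sum_add_distrib, Finset.sum_add_distrib, ← Finset.mul_sum,
    ← Finset.mul_sum, ← Finset.mul_sum, hfib, hfib, hfib, c4, c6, c8,
    Finset.sum_ite_eq, if_pos (Finset.mem_univ _)]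
  norm_num

theorem fiber_eq (hsymm : B.IsSymm) (hpos : ∀ x : Fin 24 → ℤ, x ≠ 0 → 0 < x ⬝ᵥ (B *ᵥ x))
    (heven : ∀ x : Fin 24 → ℤ, (2 : ℤ) ∣ x ⬝ᵥ (B *ᵥ x))
    (h2 : ∀ x : Fin 24 → ℤ, x ⬝ᵥ (B *ᵥ x) ≠ 2) (A4 A6 A8 : Finset (Fin 24 → ℤ))
    (m4 : ∀ x, x ∈ A4 ↔ qf B x = 4) (m6 : ∀ x, x ∈ A6 ↔ qf B x = 6)
    (m8 : ∀ x, x ∈ A8 ↔ qf B x = 8) (c4 : A4.card = 196560)
    (c6 : A6.card = 16773120) (c8 : A8.card = 398034000)
    {κ : Type} [DecidableEq κ] [Fintype κ] (φ : (Fin 24 → ℤ) → κ)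
    (hφ : ∀ x y : Fin 24 → ℤ, φ x = φ y ↔ ∃ z : Fin 24 → ℤ, x - y = z + z)
    (hκ : Fintype.card κ ≤ 2 ^ 24) (f : κ) :
    FT φ A4 A6 A8 f = 48 := by
  have hle := fiber_le B hsymm hpos heven h2 A4 A6 A8 m4 m6 m8 φ hφ
  have hsum := fiber_sum φ A4 A6 A8 c4 c6 c8
  have h1 : ∑ f : κ, FT φ A4 A6 A8 f ≤ ∑ _f : κ, 48 := Finset.sum_le_sum (fun f _ => hle f)
  rw [Finset.sum_const, Finset.card_univ, smul_eq_mul, hsum] at h1
  have hcard : Fintype.card κ = 2 ^ 24 := by omega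
  have h4 := (Finset.sum_eq_sum_iff_of_le (fun f _ => hle f)).mp (by
    rw [hsum, Finset.sum_const, Finset.card_univ, hcard, smul_eq_mul]
    norm_num)
  exact h4 f (Finset.mem_univ f)

theorem classes48 (hsymm : B.IsSymm) (hpos : ∀ x : Fin 24 → ℤ, x ≠ 0 → 0 < x ⬝ᵥ (B *ᵥ x))
    (heven : ∀ x : Fin 24 → ℤ, (2 : ℤ) ∣ x ⬝ᵥ (B *ᵥ x))
    (h2 : ∀ x : Fin 24 → ℤ, x ⬝ᵥ (B *ᵥ x) ≠ 2)
    (h4 : {x : Fin 24 → ℤ | x ⬝ᵥ (B *ᵥ x) = 4}.ncard = 196560)
    (h6 : {x : Fin 24 → ℤ | x ⬝ᵥ (B *ᵥ x) = 6}.ncard = 16773120)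
    (h8 : {x : Fin 24 → ℤ | x ⬝ᵥ (B *ᵥ x) = 8}.ncard = 398034000)
    (x : Fin 24 → ℤ) (hx : x ⬝ᵥ (B *ᵥ x) = 8) :
    {y : Fin 24 → ℤ | y ⬝ᵥ (B *ᵥ y) = 8 ∧ ∀ i, (2 : ℤ) ∣ (x - y) i}.ncard = 48 := by
  have hf4 : {x : Fin 24 → ℤ | x ⬝ᵥ (B *ᵥ x) = 4}.Finite :=
    Set.finite_of_ncard_ne_zero (by rw [h4]; norm_num)
  have hf6 : {x : Fin 24 → ℤ | x ⬝ᵥ (B *ᵥ x) = 6}.Finite :=
    Set.finite_of_ncard_ne_zero (by rw [h6]; norm_num)
  have hf8 : {x : Fin 24 → ℤ | x ⬝ᵥ (B *ᵥ x) = 8}.Finite :=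
    Set.finite_of_ncard_ne_zero (by rw [h8]; norm_num)
  have m4 : ∀ x, x ∈ hf4.toFinset ↔ qf B x = 4 := fun x => hf4.mem_toFinset
  have m6 : ∀ x, x ∈ hf6.toFinset ↔ qf B x = 6 := fun x => hf6.mem_toFinset
  have m8 : ∀ x, x ∈ hf8.toFinset ↔ qf B x = 8 := fun x => hf8.mem_toFinset
  have c4 : hf4.toFinset.card = 196560 := (Set.ncard_eq_toFinset_card _ hf4).symm.trans h4
  have c6 : hf6.toFinset.card = 16773120 := (Set.ncard_eq_toFinset_card _ hf6).symm.trans h6
  have c8 : hf8.toFinset.card = 398034000 := (Set.ncard_eq_toFinset_card _ hf8).symm.trans h8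
  have hset : {y : Fin 24 → ℤ | y ⬝ᵥ (B *ᵥ y) = 8 ∧ ∀ i, (2 : ℤ) ∣ (x - y) i} =
      ↑(hf8.toFinset.filter (fun y => ph y = ph x)) := by
    ext y
    rw [Finset.mem_coe, Finset.mem_filter, m8, eq_comm (a := ph y), ph_eq_iff']
    rfl
  rw [hset, Set.ncard_coe_finset]
  have hκ : Fintype.card (Fin 24 → ZMod 2) ≤ 2 ^ 24 := by
    rw [Fintype.card_fun, ZMod.card, Fintype.card_fin]
  have htot := fiber_eq B hsymm hpos heven h2 _ _ _ m4 m6 m8 c4 c6 c8 ph ph_eq_iff hκ (ph x)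
  unfold FT at htot
  have hx8 : qf B x = 8 := hx
  have hx0 : x ≠ 0 := by
    rintro rfl
    rw [qf_zero] at hx8
    norm_num at hx8
  have e0 : ¬ (ph 0 = ph x) := by
    intro h
    rcases cong_short B hsymm hpos heven h2 ph ph_eq_iff 0 x (fun h => hx0 h.symm)
      (by rw [qf_zero]; norm_num) (by rw [hx8]) h with h1 | ⟨h1, -, -⟩
    · have h7 : x = 0 := by
        rw [← neg_eq_zero]
        exact h1.symm
      exact hx0 h7
    · rw [qf_zero] at h1
      norm_num at h1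
  have e4 : (hf4.toFinset.filter (fun y => ph y = ph x)).card = 0 := by
    rw [Finset.card_eq_zero, Finset.filter_eq_empty_iff]
    intro y hy hyf
    rw [m4] at hy
    have hne : y ≠ x := by
      rintro rfl
      rw [hx8] at hy
      norm_num at hy
    rcases cong_short B hsymm hpos heven h2 ph ph_eq_iff y x hne (by rw [hy]; norm_num) (by rw [hx8]) hyf with
      h1 | ⟨h1, -, -⟩
    · rw [h1, qf_neg, hx8] at hy
      norm_num at hy
    · rw [hy] at h1
      norm_num at h1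
  have e6 : (hf6.toFinset.filter (fun y => ph y = ph x)).card = 0 := by
    rw [Finset.card_eq_zero, Finset.filter_eq_empty_iff]
    intro y hy hyf
    rw [m6] at hy
    have hne : y ≠ x := by
      rintro rfl
      rw [hx8] at hy
      norm_num at hy
    rcases cong_short B hsymm hpos heven h2 ph ph_eq_iff y x hne (by rw [hy]; norm_num) (by rw [hx8]) hyf with
      h1 | ⟨h1, -, -⟩
    · rw [h1, qf_neg, hx8] at hy
      norm_num at hy
    · rw [hy] at h1
      norm_num at h1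
  rw [if_neg e0, e4, e6] at htot
  omega

end Cfsg.Agent.Lib.Helper1.LeechH
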