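import Cfsg.Agent.Lib.Helper1.M12a

set_option autoImplicit false

namespace Cfsg.Agent.Lib.Helper1.M12x

open Cfsg.Agent.Lib.Helper1

theorem level {G Ω : Type*} [Group G] [MulAction G Ω] (S : Set G) (B : Subgroup G) (b : Ω)
    (T : Ω → G) (valid : Ω → Prop) (hvb : valid b) (hTb : T b = 1)
    (hstep : ∀ x ∈ S, ∀ j, valid j → valid (x • j) ∧ valid (x⁻¹ • j) ∧
      (T (x • j))⁻¹ * x * T j ∈ B) :
    ∀ g ∈ Subgroup.closure S, valid (g • b) ∧ (T (g • b))⁻¹ * g ∈ B := by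
  intro g hg
  induction hg using Subgroup.closure_induction_left with
  | one =>
    rw [one_smul, hTb]
    exact ⟨hvb, by simp⟩
  | mul_left x hx y hy ih =>
    obtain ⟨h1, h2⟩ := ih
    obtain ⟨k1, k2, k3⟩ := hstep x hx _ h1
    rw [mul_smul]
    refine ⟨k1, ?_⟩
    have e : (T (x • y • b))⁻¹ * (x * y) =
        ((T (x • y • b))⁻¹ * x * T (y • b)) * ((T (y • b))⁻¹ * y) := by group
    rw [e]
    exact B.mul_mem k3 h2
  | inv_mul_cancel x hx y hy ih =>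
    obtain ⟨h1, h2⟩ := ih
    obtain ⟨k1, k2, k3⟩ := hstep x hx _ h1
    obtain ⟨m1, m2, m3⟩ := hstep x hx _ k2
    rw [smul_inv_smul] at m3
    rw [mul_smul]
    refine ⟨k2, ?_⟩
    have e : (T (x⁻¹ • y • b))⁻¹ * (x⁻¹ * y) =
        ((T (y • b))⁻¹ * x * T (x⁻¹ • y • b))⁻¹ * ((T (y • b))⁻¹ * y) := by group
    rw [e]
    exact B.mul_mem (B.inv_mem m3) h2

theorem mem1 {h : P} {a b c d : Fin 12} (he : ∀ p, h p = (T2 a * T3 b * T4 c * T5 d) p) :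
    h ∈ Subgroup.closure S2 := by
  rw [Equiv.ext he]
  exact Subgroup.mul_mem _ (Subgroup.mul_mem _ (Subgroup.mul_mem _ (T2_mem a)
    (Subgroup.closure_mono sub32 (T3_mem b)))
    (Subgroup.closure_mono (sub43.trans sub32) (T4_mem c)))
    (Subgroup.closure_mono (sub54.trans (sub43.trans sub32)) (T5_mem d))

theorem mem2 {h : P} {b c d : Fin 12} (he : ∀ p, h p = (T3 b * T4 c * T5 d) p) :
    h ∈ Subgroup.closure S3 := by
  rw [Equiv.ext he]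
  exact Subgroup.mul_mem _ (Subgroup.mul_mem _ (T3_mem b)
    (Subgroup.closure_mono sub43 (T4_mem c)))
    (Subgroup.closure_mono (sub54.trans sub43) (T5_mem d))

theorem mem3 {h : P} {c d : Fin 12} (he : ∀ p, h p = (T4 c * T5 d) p) :
    h ∈ Subgroup.closure S4 := by
  rw [Equiv.ext he]
  exact Subgroup.mul_mem _ (T4_mem c) (Subgroup.closure_mono sub54 (T5_mem d))

theorem mem4 {h : P} {d : Fin 12} (he : ∀ p, h p = (T5 d) p) :
    h ∈ Subgroup.closure S5 := by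
  rw [Equiv.ext he]
  exact T5_mem d

theorem mem5 {h : P} (he : ∀ p, h p = (1 : P) p) : h ∈ (⊥ : Subgroup P) := by
  rw [Equiv.ext he]
  exact Subgroup.one_mem _

theorem lev1 : ∀ g ∈ Subgroup.closure S1, (T1 (g 2))⁻¹ * g ∈ Subgroup.closure S2 := by
  intro g hg
  refine (level S1 (Subgroup.closure S2) (2 : Fin 12) T1 (fun _ => True) trivial rfl ?_ g hg).2
  intro x hx j hj
  simp only [S1, Set.mem_insert_iff, Set.mem_singleton_iff] at hx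
  rcases hx with rfl | rfl | rfl | rfl | rfl | rfl | rfl | rfl
  · exact ⟨trivial, trivial, mem1 (sch1_s j)⟩
  · exact ⟨trivial, trivial, mem1 (sch1_t j)⟩
  · exact ⟨trivial, trivial, mem1 (sch1_u j)⟩
  · exact ⟨trivial, trivial, mem1 (sch1_v j)⟩
  · exact ⟨trivial, trivial, mem1 (sch1_w j)⟩
  · exact ⟨trivial, trivial, mem1 (sch1_x1 j)⟩
  · exact ⟨trivial, trivial, mem1 (sch1_x2 j)⟩
  · exact ⟨trivial, trivial, mem1 (sch1_x3 j)⟩

theorem lev2 : ∀ g ∈ Subgroup.closure S2, (T2 (g 1))⁻¹ * g ∈ Subgroup.closure S3 := by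
  intro g hg
  refine (level S2 (Subgroup.closure S3) (1 : Fin 12) T2 (fun j => j ≠ 2) (by decide) rfl ?_ g hg).2
  intro x hx j hj
  simp only [S2, Set.mem_insert_iff, Set.mem_singleton_iff] at hx
  rcases hx with rfl | rfl | rfl | rfl | rfl | rfl | rfl
  · exact ⟨(sch2_s j hj).1.1, (sch2_s j hj).1.2, mem2 (sch2_s j hj).2⟩
  · exact ⟨(sch2_t j hj).1.1, (sch2_t j hj).1.2, mem2 (sch2_t j hj).2⟩
  · exact ⟨(sch2_u j hj).1.1, (sch2_u j hj).1.2, mem2 (sch2_u j hj).2⟩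
  · exact ⟨(sch2_v j hj).1.1, (sch2_v j hj).1.2, mem2 (sch2_v j hj).2⟩
  · exact ⟨(sch2_w j hj).1.1, (sch2_w j hj).1.2, mem2 (sch2_w j hj).2⟩
  · exact ⟨(sch2_x1 j hj).1.1, (sch2_x1 j hj).1.2, mem2 (sch2_x1 j hj).2⟩
  · exact ⟨(sch2_x2 j hj).1.1, (sch2_x2 j hj).1.2, mem2 (sch2_x2 j hj).2⟩

theorem lev3 : ∀ g ∈ Subgroup.closure S3, (T3 (g 0))⁻¹ * g ∈ Subgroup.closure S4 := by
  intro g hg
  refine (level S3 (Subgroup.closure S4) (0 : Fin 12) T3 (fun j => j ≠ 2 ∧ j ≠ 1) (by decide) rfl ?_ g hg).2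
  intro x hx j hj
  simp only [S3, Set.mem_insert_iff, Set.mem_singleton_iff] at hx
  rcases hx with rfl | rfl | rfl | rfl | rfl | rfl
  · exact ⟨(sch3_s j hj.1 hj.2).1.1, (sch3_s j hj.1 hj.2).1.2, mem3 (sch3_s j hj.1 hj.2).2⟩
  · exact ⟨(sch3_t j hj.1 hj.2).1.1, (sch3_t j hj.1 hj.2).1.2, mem3 (sch3_t j hj.1 hj.2).2⟩
  · exact ⟨(sch3_u j hj.1 hj.2).1.1, (sch3_u j hj.1 hj.2).1.2, mem3 (sch3_u j hj.1 hj.2).2⟩
  · exact ⟨(sch3_v j hj.1 hj.2).1.1, (sch3_v j hj.1 hj.2).1.2, mem3 (sch3_v j hj.1 hj.2).2⟩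
  · exact ⟨(sch3_w j hj.1 hj.2).1.1, (sch3_w j hj.1 hj.2).1.2, mem3 (sch3_w j hj.1 hj.2).2⟩
  · exact ⟨(sch3_x1 j hj.1 hj.2).1.1, (sch3_x1 j hj.1 hj.2).1.2, mem3 (sch3_x1 j hj.1 hj.2).2⟩

theorem lev4 : ∀ g ∈ Subgroup.closure S4, (T4 (g 3))⁻¹ * g ∈ Subgroup.closure S5 := by
  intro g hg
  refine (level S4 (Subgroup.closure S5) (3 : Fin 12) T4 (fun j => j ≠ 2 ∧ j ≠ 1 ∧ j ≠ 0) (by decide) rfl ?_ g hg).2
  intro x hx j hj
  simp only [S4, Set.mem_insert_iff, Set.mem_singleton_iff] at hx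
  rcases hx with rfl | rfl | rfl | rfl | rfl
  · exact ⟨(sch4_s j hj.1 hj.2.1 hj.2.2).1.1, (sch4_s j hj.1 hj.2.1 hj.2.2).1.2, mem4 (sch4_s j hj.1 hj.2.1 hj.2.2).2⟩
  · exact ⟨(sch4_t j hj.1 hj.2.1 hj.2.2).1.1, (sch4_t j hj.1 hj.2.1 hj.2.2).1.2, mem4 (sch4_t j hj.1 hj.2.1 hj.2.2).2⟩
  · exact ⟨(sch4_u j hj.1 hj.2.1 hj.2.2).1.1, (sch4_u j hj.1 hj.2.1 hj.2.2).1.2, mem4 (sch4_u j hj.1 hj.2.1 hj.2.2).2⟩
  · exact ⟨(sch4_v j hj.1 hj.2.1 hj.2.2).1.1, (sch4_v j hj.1 hj.2.1 hj.2.2).1.2, mem4 (sch4_v j hj.1 hj.2.1 hj.2.2).2⟩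
  · exact ⟨(sch4_w j hj.1 hj.2.1 hj.2.2).1.1, (sch4_w j hj.1 hj.2.1 hj.2.2).1.2, mem4 (sch4_w j hj.1 hj.2.1 hj.2.2).2⟩

theorem lev5 : ∀ g ∈ Subgroup.closure S5, (T5 (g 4))⁻¹ * g ∈ (⊥ : Subgroup P) := by
  intro g hg
  refine (level S5 ((⊥ : Subgroup P)) (4 : Fin 12) T5 (fun j => j ≠ 2 ∧ j ≠ 1 ∧ j ≠ 0 ∧ j ≠ 3) (by decide) rfl ?_ g hg).2
  intro x hx j hj
  simp only [S5, Set.mem_insert_iff, Set.mem_singleton_iff] at hx
  rcases hx with rfl | rfl | rfl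
  · exact ⟨(sch5_u j hj.1 hj.2.1 hj.2.2.1 hj.2.2.2).1.1, (sch5_u j hj.1 hj.2.1 hj.2.2.1 hj.2.2.2).1.2, mem5 (sch5_u j hj.1 hj.2.1 hj.2.2.1 hj.2.2.2).2⟩
  · exact ⟨(sch5_v j hj.1 hj.2.1 hj.2.2.1 hj.2.2.2).1.1, (sch5_v j hj.1 hj.2.1 hj.2.2.1 hj.2.2.2).1.2, mem5 (sch5_v j hj.1 hj.2.1 hj.2.2.1 hj.2.2.2).2⟩
  · exact ⟨(sch5_w j hj.1 hj.2.1 hj.2.2.1 hj.2.2.2).1.1, (sch5_w j hj.1 hj.2.1 hj.2.2.1 hj.2.2.2).1.2, mem5 (sch5_w j hj.1 hj.2.1 hj.2.2.1 hj.2.2.2).2⟩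

theorem fix5 (g : P) (hg : g ∈ Subgroup.closure S1) (h2 : g 2 = 2) (h1 : g 1 = 1)
    (h0 : g 0 = 0) (h3 : g 3 = 3) (h4 : g 4 = 4) : g = 1 := by
  have e1 := lev1 g hg
  rw [h2, show T1 2 = 1 from rfl, inv_one, one_mul] at e1
  have e2 := lev2 g e1
  rw [h1, show T2 1 = 1 from rfl, inv_one, one_mul] at e2
  have e3 := lev3 g e2
  rw [h0, show T3 0 = 1 from rfl, inv_one, one_mul] at e3
  have e4 := lev4 g e3
  rw [h3, show T4 3 = 1 from rfl, inv_one, one_mul] at e4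
  have e5 := lev5 g e4
  rw [h4, show T5 4 = 1 from rfl, inv_one, one_mul] at e5
  exact Subgroup.mem_bot.mp e5

theorem p_apply_inv (f : P) (x : Fin 12) : f (f⁻¹ x) = x := f.apply_symm_apply x

theorem p_inv_apply (f : P) (x : Fin 12) : f⁻¹ (f x) = x := f.symm_apply_apply x

theorem inv_ne {g : P} {b c d : Fin 12} (h1 : g b = c) (h2 : c ≠ d) : g⁻¹ d ≠ b := by
  intro h
  apply h2
  rw [← h1, ← h, p_apply_inv]

theorem trans5 (y : Fin 5 ↪ Fin 12) : ∃ g ∈ Subgroup.closure S1,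
    g 2 = y 0 ∧ g 1 = y 1 ∧ g 0 = y 2 ∧ g 3 = y 3 ∧ g 4 = y 4 := by
  have hne : ∀ i j : Fin 5, i ≠ j → y i ≠ y j := fun i j hij he => hij (y.injective he)
  -- level 1
  obtain ⟨g1, m1, a0⟩ : ∃ g ∈ Subgroup.closure S1, g 2 = y 0 := ⟨T1 (y 0), T1_mem _, tr1 _⟩
  -- level 2
  obtain ⟨g2, m2, b0, b1⟩ : ∃ g ∈ Subgroup.closure S1, g 2 = y 0 ∧ g 1 = y 1 := by
    have v : g1⁻¹ (y 1) ≠ 2 := inv_ne a0 (hne 0 1 (by decide))
    obtain ⟨t1, t2⟩ := tr2 _ v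
    refine ⟨g1 * T2 (g1⁻¹ (y 1)),
      Subgroup.mul_mem _ m1 (Subgroup.closure_mono sub21 (T2_mem _)), ?_, ?_⟩
    · rw [Equiv.Perm.mul_apply, t1, a0]
    · rw [Equiv.Perm.mul_apply, t2, p_apply_inv]
  -- level 3
  obtain ⟨g3, m3, c0, c1, c2⟩ : ∃ g ∈ Subgroup.closure S1,
      g 2 = y 0 ∧ g 1 = y 1 ∧ g 0 = y 2 := by
    have v1 : g2⁻¹ (y 2) ≠ 2 := inv_ne b0 (hne 0 2 (by decide))
    have v2 : g2⁻¹ (y 2) ≠ 1 := inv_ne b1 (hne 1 2 (by decide))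
    obtain ⟨t1, t2, t3⟩ := tr3 _ v1 v2
    refine ⟨g2 * T3 (g2⁻¹ (y 2)), Subgroup.mul_mem _ m2
      (Subgroup.closure_mono (sub32.trans sub21) (T3_mem _)), ?_, ?_, ?_⟩
    · rw [Equiv.Perm.mul_apply, t1, b0]
    · rw [Equiv.Perm.mul_apply, t2, b1]
    · rw [Equiv.Perm.mul_apply, t3, p_apply_inv]
  -- level 4
  obtain ⟨g4, m4, d0, d1, d2, d3⟩ : ∃ g ∈ Subgroup.closure S1,
      g 2 = y 0 ∧ g 1 = y 1 ∧ g 0 = y 2 ∧ g 3 = y 3 := by
    have v1 : g3⁻¹ (y 3) ≠ 2 := inv_ne c0 (hne 0 3 (by decide))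
    have v2 : g3⁻¹ (y 3) ≠ 1 := inv_ne c1 (hne 1 3 (by decide))
    have v3 : g3⁻¹ (y 3) ≠ 0 := inv_ne c2 (hne 2 3 (by decide))
    obtain ⟨t1, t2, t3, t4⟩ := tr4 _ v1 v2 v3
    refine ⟨g3 * T4 (g3⁻¹ (y 3)), Subgroup.mul_mem _ m3
      (Subgroup.closure_mono (sub43.trans (sub32.trans sub21)) (T4_mem _)), ?_, ?_, ?_, ?_⟩
    · rw [Equiv.Perm.mul_apply, t1, c0]
    · rw [Equiv.Perm.mul_apply, t2, c1]
    · rw [Equiv.Perm.mul_apply, t3, c2]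
    · rw [Equiv.Perm.mul_apply, t4, p_apply_inv]
  -- level 5
  have v1 : g4⁻¹ (y 4) ≠ 2 := inv_ne d0 (hne 0 4 (by decide))
  have v2 : g4⁻¹ (y 4) ≠ 1 := inv_ne d1 (hne 1 4 (by decide))
  have v3 : g4⁻¹ (y 4) ≠ 0 := inv_ne d2 (hne 2 4 (by decide))
  have v4 : g4⁻¹ (y 4) ≠ 3 := inv_ne d3 (hne 3 4 (by decide))
  obtain ⟨t1, t2, t3, t4, t5⟩ := tr5 _ v1 v2 v3 v4
  refine ⟨g4 * T5 (g4⁻¹ (y 4)), Subgroup.mul_mem _ m4
    (Subgroup.closure_mono (sub54.trans (sub43.trans (sub32.trans sub21))) (T5_mem _)),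
    ?_, ?_, ?_, ?_, ?_⟩
  · rw [Equiv.Perm.mul_apply, t1, d0]
  · rw [Equiv.Perm.mul_apply, t2, d1]
  · rw [Equiv.Perm.mul_apply, t3, d2]
  · rw [Equiv.Perm.mul_apply, t4, d3]
  · rw [Equiv.Perm.mul_apply, t5, p_apply_inv]

theorem fix2 : Subgroup.closure S2 ≤ MulAction.stabilizer P (2 : Fin 12) := by
  rw [Subgroup.closure_le]
  intro x hx
  simp only [S2, Set.mem_insert_iff, Set.mem_singleton_iff] at hx
  rw [SetLike.mem_coe, MulAction.mem_stabilizer_iff]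
  rcases hx with rfl | rfl | rfl | rfl | rfl | rfl | rfl <;> decide

theorem m11_eq : Subgroup.closure S2 =
    Subgroup.closure S1 ⊓ MulAction.stabilizer P (2 : Fin 12) := by
  apply le_antisymm
  · exact le_inf (Subgroup.closure_mono sub21) fix2
  · intro g hg
    obtain ⟨h1, h2⟩ := Subgroup.mem_inf.mp hg
    have h3 : g 2 = 2 := MulAction.mem_stabilizer_iff.mp h2
    have e1 := lev1 g h1
    rw [h3, show T1 2 = 1 from rfl, inv_one, one_mul] at e1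
    exact e1

theorem main :
    MulAction.IsMultiplyPretransitive (Subgroup.closure S1) (Fin 12) 5 ∧
    (∀ y : Fin 5 ↪ Fin 12, MulAction.stabilizer (Subgroup.closure S1) y = ⊥) ∧
    Nat.card (Subgroup.closure S1) = 95040 ∧ Nat.card (Subgroup.closure S2) = 7920 ∧
    Subgroup.closure S2 = Subgroup.closure S1 ⊓ MulAction.stabilizer P (2 : Fin 12) := by
  have hT : MulAction.IsMultiplyPretransitive (Subgroup.closure S1) (Fin 12) 5 := by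
    refine ⟨fun x y => ?_⟩
    obtain ⟨gx, mx, x0, x1, x2, x3, x4⟩ := trans5 x
    obtain ⟨gy, my, y0, y1, y2, y3, y4⟩ := trans5 y
    refine ⟨⟨gy * gx⁻¹, Subgroup.mul_mem _ my (Subgroup.inv_mem _ mx)⟩, ?_⟩
    have key : ∀ (b : Fin 12) (i : Fin 5), gx b = x i → gy b = y i →
        (gy * gx⁻¹) (x i) = y i := by
      intro b i h1 h2
      rw [← h1, Equiv.Perm.mul_apply, p_inv_apply, h2]
    ext i
    show ((gy * gx⁻¹) (x i) : ℕ) = y i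
    congr 1
    fin_cases i
    · exact key 2 0 x0 y0
    · exact key 1 1 x1 y1
    · exact key 0 2 x2 y2
    · exact key 3 3 x3 y3
    · exact key 4 4 x4 y4
  have hS : ∀ y : Fin 5 ↪ Fin 12, MulAction.stabilizer (Subgroup.closure S1) y = ⊥ := by
    intro y
    rw [Subgroup.eq_bot_iff_forall]
    intro g hg
    have hfix : ∀ i : Fin 5, (g : P) (y i) = y i := fun i => DFunLike.congr_fun hg i
    obtain ⟨h, mh, e0, e1, e2, e3, e4⟩ := trans5 y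
    have key : ∀ (b : Fin 12) (i : Fin 5), h b = y i → (h⁻¹ * (g : P) * h) b = b := by
      intro b i hb
      rw [Equiv.Perm.mul_apply, Equiv.Perm.mul_apply, hb, hfix i, ← hb,
        p_inv_apply]
    have h1 : h⁻¹ * (g : P) * h = 1 :=
      fix5 _ (Subgroup.mul_mem _ (Subgroup.mul_mem _ (Subgroup.inv_mem _ mh) g.2) mh)
        (key 2 0 e0) (key 1 1 e1) (key 0 2 e2) (key 3 3 e3) (key 4 4 e4)
    have h2 : (g : P) = 1 := by
      have e : (g : P) = h * (h⁻¹ * (g : P) * h) * h⁻¹ := by group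
      rw [e, h1]
      group
    exact Subtype.ext h2
  have hSharp : Jordan.Sharp (Subgroup.closure S1) (Fin 12) 5 := by
    haveI := hT
    exact Jordan.sharp_of 5 hS
  have hc12 : Nat.card (Subgroup.closure S1) = 95040 := by
    rw [Jordan.sharp_card hSharp (by simp), Nat.card_eq_fintype_card, Fintype.card_fin]
    decide
  refine ⟨hT, hS, hc12, ?_, m11_eq⟩
  have hs4 := Jordan.sharp_stab (k := 4) hSharp (2 : Fin 12)
  have hc := SubMulAction.nat_card_ofStabilizer_add_one_eq (Subgroup.closure S1) (2 : Fin 12)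
  have h12 : Nat.card (Fin 12) = 12 := by simp
  rw [h12] at hc
  have hc11 : Nat.card (SubMulAction.ofStabilizer (Subgroup.closure S1) (2 : Fin 12)) = 11 := by
    omega
  have hcs := Jordan.sharp_card hs4 (by omega)
  rw [hc11] at hcs
  have hmap : Subgroup.closure S2 =
      (MulAction.stabilizer (Subgroup.closure S1) (2 : Fin 12)).map
        (Subgroup.closure S1).subtype := by
    rw [m11_eq]
    ext g
    constructor
    · intro hg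
      obtain ⟨h1, h2⟩ := Subgroup.mem_inf.mp hg
      exact ⟨⟨g, h1⟩, h2, rfl⟩
    · rintro ⟨k, hk, rfl⟩
      exact Subgroup.mem_inf.mpr ⟨k.2, hk⟩
  rw [hmap, Subgroup.card_map_of_injective (Subgroup.subtype_injective _), hcs]
  decide

end Cfsg.Agent.Lib.Helper1.M12x
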