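import Mathlib

set_option autoImplicit false

namespace Cfsg.Agent.Lib.Helper1.Symp

open Matrix

section basic

variable {F : Type*} [Field F] {l : Type} [Fintype l] [DecidableEq l]

def om (u v : l ⊕ l → F) : F :=
  ∑ i, (u (Sum.inr i) * v (Sum.inl i) - u (Sum.inl i) * v (Sum.inr i))

def jl (v : l ⊕ l → F) : l ⊕ l → F :=
  Sum.elim (fun i => v (Sum.inr i)) (fun i => -v (Sum.inl i))

theorem om_eq_dot (v e : l ⊕ l → F) : om v e = jl v ⬝ᵥ e := by
  unfold om jl dotProduct
  rw [Fintype.sum_sum_type, ← Finset.sum_add_distrib]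
  exact Finset.sum_congr rfl (fun i _ => by simp only [Sum.elim_inl, Sum.elim_inr]; ring)

theorem om_eq (u v : l ⊕ l → F) : om u v = u ⬝ᵥ (Matrix.J l F *ᵥ v) := by
  unfold om dotProduct
  rw [Fintype.sum_sum_type, ← Finset.sum_add_distrib, Matrix.J, Matrix.fromBlocks_mulVec]
  refine Finset.sum_congr rfl (fun i _ => ?_)
  simp only [Sum.elim_inl, Sum.elim_inr, Matrix.zero_mulVec, Matrix.neg_mulVec, Matrix.one_mulVec,
    zero_add, add_zero, Pi.neg_apply, Function.comp_apply]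
  ring

theorem om_add_left (x y v : l ⊕ l → F) : om (x + y) v = om x v + om y v := by
  unfold om
  rw [← Finset.sum_add_distrib]
  exact Finset.sum_congr rfl (fun i _ => by simp only [Pi.add_apply]; ring)

theorem om_add_right (v x y : l ⊕ l → F) : om v (x + y) = om v x + om v y := by
  unfold om
  rw [← Finset.sum_add_distrib]
  exact Finset.sum_congr rfl (fun i _ => by simp only [Pi.add_apply]; ring)

theorem om_smul_left (a : F) (x v : l ⊕ l → F) : om (a • x) v = a * om x v := by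
  unfold om
  rw [Finset.mul_sum]
  exact Finset.sum_congr rfl (fun i _ => by simp only [Pi.smul_apply, smul_eq_mul]; ring)

theorem om_smul_right (a : F) (v x : l ⊕ l → F) : om v (a • x) = a * om v x := by
  unfold om
  rw [Finset.mul_sum]
  exact Finset.sum_congr rfl (fun i _ => by simp only [Pi.smul_apply, smul_eq_mul]; ring)

theorem om_swap (u v : l ⊕ l → F) : om u v = -om v u := by
  unfold om
  rw [← Finset.sum_neg_distrib]
  exact Finset.sum_congr rfl (fun i _ => by ring)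

theorem om_self (u : l ⊕ l → F) : om u u = 0 := by
  unfold om
  exact Finset.sum_eq_zero (fun i _ => by ring)

theorem om_sub_left (x y v : l ⊕ l → F) : om (x - y) v = om x v - om y v := by
  have h : x - y = x + (-1 : F) • y := by
    funext i
    simp [sub_eq_add_neg]
  rw [h, om_add_left, om_smul_left]
  ring

theorem om_sub_right (v x y : l ⊕ l → F) : om v (x - y) = om v x - om v y := by
  have h : x - y = x + (-1 : F) • y := by
    funext i
    simp [sub_eq_add_neg]
  rw [h, om_add_right, om_smul_right]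
  ring

theorem om_zero_left (v : l ⊕ l → F) : om 0 v = 0 := by
  unfold om
  simp

theorem om_single_right (v : l ⊕ l → F) (k : l ⊕ l) : om v (Pi.single k 1) = jl v k := by
  rw [om_eq_dot, dotProduct_single_one]

def IsSp (M : Matrix (l ⊕ l) (l ⊕ l) F) : Prop := ∀ x y, om (M *ᵥ x) (M *ᵥ y) = om x y

theorem mem_sp_iff (M : Matrix (l ⊕ l) (l ⊕ l) F) : M ∈ symplecticGroup l F ↔ IsSp M := by
  rw [SymplecticGroup.mem_iff']
  have key : ∀ x y : l ⊕ l → F, om (M *ᵥ x) (M *ᵥ y) = x ⬝ᵥ ((Mᵀ * J l F * M) *ᵥ y) := by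
    intro x y
    rw [om_eq, ← Matrix.vecMul_transpose, ← Matrix.dotProduct_mulVec, Matrix.mulVec_mulVec,
      Matrix.mulVec_mulVec, Matrix.mul_assoc]
  constructor
  · intro h x y
    rw [key, h, om_eq]
  · intro h
    ext i j
    have h1 := h (Pi.single i 1) (Pi.single j 1)
    rw [key, om_eq, Matrix.mulVec_single_one, Matrix.mulVec_single_one, single_one_dotProduct,
      single_one_dotProduct] at h1
    exact h1

theorem isSp_mul (M N : Matrix (l ⊕ l) (l ⊕ l) F) (hM : IsSp M) (hN : IsSp N) : IsSp (M * N) := by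
  intro x y
  rw [← Matrix.mulVec_mulVec, ← Matrix.mulVec_mulVec, hM, hN]

def tv (u : l ⊕ l → F) (a : F) : Matrix (l ⊕ l) (l ⊕ l) F :=
  1 + Matrix.of (fun i j => a * u i * jl u j)

theorem om_eq_dot' (x u : l ⊕ l → F) : om x u = -(jl u ⬝ᵥ x) := by
  rw [om_swap, om_eq_dot]

theorem tv_mulVec (u : l ⊕ l → F) (a : F) (x : l ⊕ l → F) :
    tv u a *ᵥ x = x + (a * om u x) • u := by
  funext i
  rw [tv, Matrix.add_mulVec, Matrix.one_mulVec, om_eq_dot]
  simp only [Pi.add_apply, Pi.smul_apply, smul_eq_mul, Matrix.mulVec, dotProduct, Matrix.of_apply]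
  congr 1
  rw [Finset.mul_sum, Finset.sum_mul]
  exact Finset.sum_congr rfl (fun j _ => by ring)

theorem tv_isSp (u : l ⊕ l → F) (a : F) : IsSp (tv u a) := by
  intro x y
  rw [tv_mulVec, tv_mulVec, om_add_left, om_add_right, om_add_right, om_smul_left, om_smul_right,
    om_smul_left, om_smul_right, om_self, om_swap x u]
  ring

theorem step (v w : l ⊕ l → F) (h : om v w ≠ 0) :
    ∃ M : Matrix (l ⊕ l) (l ⊕ l) F, IsSp M ∧ M *ᵥ v = w := by
  refine ⟨tv (v - w) (-(om v w)⁻¹), tv_isSp _ _, ?_⟩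
  rw [tv_mulVec, om_sub_left, om_self, om_swap w v, zero_sub, neg_neg, neg_mul, inv_mul_cancel₀ h,
    neg_smul, one_smul]
  abel

theorem exists_nondeg (v : l ⊕ l → F) (hv : v ≠ 0) : ∃ e : l ⊕ l → F, om v e ≠ 0 := by
  by_contra hcon
  simp only [not_exists, not_not] at hcon
  apply hv
  funext k
  rcases k with i | i
  · have h1 := hcon (Pi.single (Sum.inr i) 1)
    rw [om_single_right] at h1
    simpa [jl] using h1
  · have h1 := hcon (Pi.single (Sum.inl i) 1)
    rw [om_single_right] at h1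
    simpa [jl] using h1

theorem trans_vec (v w : l ⊕ l → F) (hv : v ≠ 0) (hw : w ≠ 0) :
    ∃ M : Matrix (l ⊕ l) (l ⊕ l) F, IsSp M ∧ M *ᵥ v = w := by
  by_cases h : om v w = 0
  · obtain ⟨e, he⟩ := exists_nondeg v hv
    obtain ⟨e', he'⟩ := exists_nondeg w hw
    have hz : ∃ z : l ⊕ l → F, om v z ≠ 0 ∧ om w z ≠ 0 := by
      by_cases h1 : om w e = 0
      · by_cases h2 : om v e' = 0
        · refine ⟨e + e', ?_, ?_⟩
          · rw [om_add_right, h2, add_zero]
            exact he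
          · rw [om_add_right, h1, zero_add]
            exact he'
        · exact ⟨e', h2, he'⟩
      · exact ⟨e, he, h1⟩
    obtain ⟨z, hz1, hz2⟩ := hz
    obtain ⟨M1, hM1, hM1v⟩ := step v z hz1
    have hz3 : om z w ≠ 0 := by
      rw [om_swap]
      exact neg_ne_zero.2 hz2
    obtain ⟨M2, hM2, hM2z⟩ := step z w hz3
    refine ⟨M2 * M1, isSp_mul _ _ hM2 hM1, ?_⟩
    rw [← Matrix.mulVec_mulVec, hM1v, hM2z]
  · exact step v w h

theorem step2 (v w1 w2 : l ⊕ l → F) (h1 : om v w1 = 1) (h2 : om v w2 = 1) (h : om w1 w2 ≠ 0) :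
    ∃ M : Matrix (l ⊕ l) (l ⊕ l) F, IsSp M ∧ M *ᵥ v = v ∧ M *ᵥ w1 = w2 := by
  refine ⟨tv (w1 - w2) (-(om w1 w2)⁻¹), tv_isSp _ _, ?_, ?_⟩
  · rw [tv_mulVec, om_sub_left, om_swap w1 v, om_swap w2 v, h1, h2, sub_self, mul_zero, zero_smul,
      add_zero]
  · rw [tv_mulVec, om_sub_left, om_self, om_swap w2 w1, zero_sub, neg_neg, neg_mul,
      inv_mul_cancel₀ h, neg_smul, one_smul]
    abel

theorem trans_pair (v w1 w2 : l ⊕ l → F) (h1 : om v w1 = 1) (h2 : om v w2 = 1) :
    ∃ M : Matrix (l ⊕ l) (l ⊕ l) F, IsSp M ∧ M *ᵥ v = v ∧ M *ᵥ w1 = w2 := by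
  by_cases h : om w1 w2 = 0
  · have hz1 : om v (w1 + v) = 1 := by rw [om_add_right, h1, om_self, add_zero]
    have hz2 : om w1 (w1 + v) ≠ 0 := by
      rw [om_add_right, om_self, zero_add, om_swap, h1]
      exact neg_ne_zero.2 one_ne_zero
    have hz3 : om (w1 + v) w2 ≠ 0 := by
      rw [om_add_left, h, zero_add, h2]
      exact one_ne_zero
    obtain ⟨M1, hM1, hM1v, hM1w⟩ := step2 v w1 (w1 + v) h1 hz1 hz2
    obtain ⟨M2, hM2, hM2v, hM2w⟩ := step2 v (w1 + v) w2 hz1 h2 hz3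
    refine ⟨M2 * M1, isSp_mul _ _ hM2 hM1, ?_, ?_⟩
    · rw [← Matrix.mulVec_mulVec, hM1v, hM2v]
    · rw [← Matrix.mulVec_mulVec, hM1w, hM2w]
  · exact step2 v w1 w2 h1 h2 h

end basic

end Cfsg.Agent.Lib.Helper1.Symp
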