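import Mathlib
import Cfsg.Agent.Lib.Helper1.Symp

set_option autoImplicit false

namespace Cfsg.Agent.Lib.Helper1.Symp

open Matrix

section stab

variable {F : Type*} [Field F] {l : Type} [Fintype l] [DecidableEq l]

def ii : l ⊕ l → (Unit ⊕ l) ⊕ (Unit ⊕ l) := Sum.map Sum.inr Sum.inr

def a1 : (Unit ⊕ l) ⊕ (Unit ⊕ l) := Sum.inl (Sum.inl ())

def a2 : (Unit ⊕ l) ⊕ (Unit ⊕ l) := Sum.inr (Sum.inl ())

theorem ext_L (x y : (Unit ⊕ l) ⊕ (Unit ⊕ l) → F) (h1 : x a1 = y a1) (h2 : x a2 = y a2)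
    (h3 : x ∘ ii = y ∘ ii) : x = y := by
  funext k
  rcases k with (u | k) | (u | k)
  · exact h1
  · exact congrFun h3 (Sum.inl k)
  · exact h2
  · exact congrFun h3 (Sum.inr k)

theorem om_split (x y : (Unit ⊕ l) ⊕ (Unit ⊕ l) → F) :
    om x y = (x a2 * y a1 - x a1 * y a2) + om (x ∘ ii) (y ∘ ii) := by
  unfold om
  rw [Fintype.sum_sum_type, Fintype.sum_unique]
  rfl

def p1 : (Unit ⊕ l) ⊕ (Unit ⊕ l) → F := Pi.single a2 1

def p2 : (Unit ⊕ l) ⊕ (Unit ⊕ l) → F := Pi.single a1 1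

theorem om_p1 (y : (Unit ⊕ l) ⊕ (Unit ⊕ l) → F) : om p1 y = y a1 := by
  rw [om_swap, p1, om_single_right]
  simp [jl, a1, a2]

theorem om_p2 (y : (Unit ⊕ l) ⊕ (Unit ⊕ l) → F) : om p2 y = -y a2 := by
  rw [om_swap, p2, om_single_right]
  simp [jl, a1, a2]

theorem om_p1_p2 : om (p1 : (Unit ⊕ l) ⊕ (Unit ⊕ l) → F) p2 = 1 := by
  rw [om_p1, p2, Pi.single_eq_same]

theorem p1_ne : (p1 : (Unit ⊕ l) ⊕ (Unit ⊕ l) → F) ≠ 0 := by
  intro h
  have h1 := om_p1_p2 (F := F) (l := l)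
  rw [h, om_zero_left] at h1
  exact zero_ne_one h1

def rho (l : Type) : (Unit ⊕ l) ⊕ (Unit ⊕ l) ≃ (Unit ⊕ Unit) ⊕ (l ⊕ l) :=
  Equiv.sumSumSumComm Unit l Unit l

theorem rho_symm_inr (k : l ⊕ l) : (rho l).symm (Sum.inr k) = ii k := by
  rcases k with k | k <;> rfl

theorem rho_ii (k : l ⊕ l) : rho l (ii k) = Sum.inr k := by
  rcases k with k | k <;> rfl

def emb (A : Matrix (l ⊕ l) (l ⊕ l) F) :
    Matrix ((Unit ⊕ l) ⊕ (Unit ⊕ l)) ((Unit ⊕ l) ⊕ (Unit ⊕ l)) F :=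
  (Matrix.fromBlocks 1 0 0 A).submatrix (rho l) (rho l)

theorem emb_mulVec (A : Matrix (l ⊕ l) (l ⊕ l) F) (x : (Unit ⊕ l) ⊕ (Unit ⊕ l) → F) :
    emb A *ᵥ x = (Sum.elim ((x ∘ (rho l).symm) ∘ Sum.inl) (A *ᵥ ((x ∘ (rho l).symm) ∘ Sum.inr))) ∘
      (rho l) := by
  rw [emb, Matrix.submatrix_mulVec_equiv, Matrix.fromBlocks_mulVec]
  simp

theorem comp_rho_inr (x : (Unit ⊕ l) ⊕ (Unit ⊕ l) → F) :
    (x ∘ (rho l).symm) ∘ Sum.inr = x ∘ ii := by
  funext k
  simp only [Function.comp_apply, rho_symm_inr]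

theorem emb_a1 (A : Matrix (l ⊕ l) (l ⊕ l) F) (x : (Unit ⊕ l) ⊕ (Unit ⊕ l) → F) :
    (emb A *ᵥ x) a1 = x a1 := by
  rw [emb_mulVec]
  rfl

theorem emb_a2 (A : Matrix (l ⊕ l) (l ⊕ l) F) (x : (Unit ⊕ l) ⊕ (Unit ⊕ l) → F) :
    (emb A *ᵥ x) a2 = x a2 := by
  rw [emb_mulVec]
  rfl

theorem emb_ii (A : Matrix (l ⊕ l) (l ⊕ l) F) (x : (Unit ⊕ l) ⊕ (Unit ⊕ l) → F) :
    (emb A *ᵥ x) ∘ ii = A *ᵥ (x ∘ ii) := by
  rw [emb_mulVec, comp_rho_inr]
  funext k
  simp only [Function.comp_apply, rho_ii, Sum.elim_inr]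

theorem emb_isSp (A : Matrix (l ⊕ l) (l ⊕ l) F) (hA : IsSp A) : IsSp (emb A) := by
  intro x y
  rw [om_split, om_split, emb_a1, emb_a2, emb_a1, emb_a2, emb_ii, emb_ii, hA]

theorem p1_ii : (p1 : (Unit ⊕ l) ⊕ (Unit ⊕ l) → F) ∘ ii = 0 := by
  funext k
  rcases k with k | k <;> simp [p1, ii, a2]

theorem p2_ii : (p2 : (Unit ⊕ l) ⊕ (Unit ⊕ l) → F) ∘ ii = 0 := by
  funext k
  rcases k with k | k <;> simp [p2, ii, a1]

theorem emb_p1 (A : Matrix (l ⊕ l) (l ⊕ l) F) :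
    emb A *ᵥ (p1 : (Unit ⊕ l) ⊕ (Unit ⊕ l) → F) = p1 := by
  apply ext_L
  · exact emb_a1 A _
  · exact emb_a2 A _
  · rw [emb_ii, p1_ii, Matrix.mulVec_zero]

theorem emb_p2 (A : Matrix (l ⊕ l) (l ⊕ l) F) :
    emb A *ᵥ (p2 : (Unit ⊕ l) ⊕ (Unit ⊕ l) → F) = p2 := by
  apply ext_L
  · exact emb_a1 A _
  · exact emb_a2 A _
  · rw [emb_ii, p2_ii, Matrix.mulVec_zero]

theorem emb_injective : Function.Injective (emb : Matrix (l ⊕ l) (l ⊕ l) F → _) := by
  intro A B hAB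
  have h1 : (emb A).submatrix (rho l).symm (rho l).symm =
      (emb B).submatrix (rho l).symm (rho l).symm := by rw [hAB]
  rw [emb, emb, Matrix.submatrix_submatrix, Matrix.submatrix_submatrix] at h1
  simp only [Equiv.self_comp_symm, Matrix.submatrix_id_id] at h1
  exact (Matrix.fromBlocks_inj.1 h1).2.2.2

theorem stab_form (g : Matrix ((Unit ⊕ l) ⊕ (Unit ⊕ l)) ((Unit ⊕ l) ⊕ (Unit ⊕ l)) F)
    (hg : IsSp g) (h1 : g *ᵥ p1 = p1) (h2 : g *ᵥ p2 = p2) :
    ∃ A : Matrix (l ⊕ l) (l ⊕ l) F, IsSp A ∧ g = emb A := by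
  have row1 : ∀ y, (g *ᵥ y) a1 = y a1 := by
    intro y
    have h3 := hg p1 y
    rwa [h1, om_p1, om_p1] at h3
  have row2 : ∀ y, (g *ᵥ y) a2 = y a2 := by
    intro y
    have h3 := hg p2 y
    rw [h2, om_p2, om_p2] at h3
    exact neg_injective h3
  have hrow : ∀ r : (Unit ⊕ l) ⊕ (Unit ⊕ l), (r = a1 ∨ r = a2) →
      ∀ c, g r c = if r = c then 1 else 0 := by
    intro r hr c
    have h3 : (g *ᵥ Pi.single c 1) r = (Pi.single c (1 : F) : _ → F) r := by
      rcases hr with rfl | rfl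
      · exact row1 _
      · exact row2 _
    rw [Matrix.mulVec_single_one, Matrix.col_apply, Pi.single_apply] at h3
    exact h3
  have hcol : ∀ c : (Unit ⊕ l) ⊕ (Unit ⊕ l), (c = a1 ∨ c = a2) →
      ∀ r, g r c = if r = c then 1 else 0 := by
    intro c hc r
    have h3 : (g *ᵥ Pi.single c 1) r = (Pi.single c (1 : F) : _ → F) r := by
      rcases hc with rfl | rfl
      · exact congrFun h2 r
      · exact congrFun h1 r
    rw [Matrix.mulVec_single_one, Matrix.col_apply, Pi.single_apply] at h3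
    exact h3
  have hunit : ∀ i : Unit ⊕ Unit, (rho l).symm (Sum.inl i) = a1 ∨ (rho l).symm (Sum.inl i) = a2 := by
    intro i
    rcases i with i | i
    · exact Or.inl rfl
    · exact Or.inr rfl
  have hM : g.submatrix (rho l).symm (rho l).symm =
      Matrix.fromBlocks 1 0 0 (g.submatrix (rho l).symm (rho l).symm).toBlocks₂₂ := by
    ext i j
    rcases i with i | k <;> rcases j with j | k'
    · rw [Matrix.submatrix_apply, hrow _ (hunit i), Matrix.fromBlocks_apply₁₁, Matrix.one_apply]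
      by_cases hij : i = j
      · rw [if_pos hij, if_pos (by rw [hij])]
      · rw [if_neg hij, if_neg]
        intro h
        exact hij (Sum.inl_injective ((rho l).symm.injective h))
    · rw [Matrix.submatrix_apply, hrow _ (hunit i), Matrix.fromBlocks_apply₁₂, Matrix.zero_apply,
        if_neg]
      intro h
      exact Sum.inl_ne_inr ((rho l).symm.injective h)
    · rw [Matrix.submatrix_apply, hcol _ (hunit j), Matrix.fromBlocks_apply₂₁, Matrix.zero_apply,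
        if_neg]
      intro h
      exact Sum.inr_ne_inl ((rho l).symm.injective h)
    · rfl
  have hg' : g = emb ((g.submatrix (rho l).symm (rho l).symm).toBlocks₂₂) := by
    rw [emb, ← hM, Matrix.submatrix_submatrix]
    simp only [Equiv.symm_comp_self, Matrix.submatrix_id_id]
  refine ⟨_, ?_, hg'⟩
  intro x y
  have h3 := hg ((Sum.elim 0 x) ∘ (rho l)) ((Sum.elim 0 y) ∘ (rho l))
  have e1 : ∀ z : l ⊕ l → F, ((Sum.elim (0 : Unit ⊕ Unit → F) z) ∘ (rho l)) ∘ ii = z := by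
    intro z
    funext k
    simp only [Function.comp_apply, rho_ii, Sum.elim_inr]
  have e2 : ∀ z : l ⊕ l → F, ((Sum.elim (0 : Unit ⊕ Unit → F) z) ∘ (rho l)) a1 = 0 := fun z => rfl
  have e3 : ∀ z : l ⊕ l → F, ((Sum.elim (0 : Unit ⊕ Unit → F) z) ∘ (rho l)) a2 = 0 := fun z => rfl
  rw [hg', om_split, om_split, emb_a1, emb_a2, emb_a1, emb_a2, emb_ii, emb_ii, e1, e1, e2, e2, e3,
    e3] at h3
  simpa using h3

end stab

section count

variable {F : Type*} [Field F] [Fintype F] {l : Type} [Fintype l] [DecidableEq l]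

theorem card_coord {ι : Type} [Fintype ι] [DecidableEq ι] (k : ι) (c : F) :
    Nat.card {w : ι → F // w k = c} = Fintype.card F ^ (Fintype.card ι - 1) := by
  have e : {w : ι → F // w k = c} ≃ ({j : ι // j ≠ k} → F) :=
    { toFun := fun w j => w.1 j.1
      invFun := fun w' => ⟨fun j => if h : j = k then c else w' ⟨j, h⟩, by simp⟩
      left_inv := fun w => by
        apply Subtype.ext
        funext j
        by_cases h : j = k
        · simp only [dif_pos h]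
          rw [h]
          exact w.2.symm
        · simp only [dif_neg h]
      right_inv := fun w' => by
        funext j
        simp only [dif_neg j.2] }
  rw [Nat.card_congr e, Nat.card_eq_fintype_card, Fintype.card_fun, Fintype.card_subtype_compl,
    Fintype.card_subtype_eq]

theorem card_ne_zero_vec {ι : Type} [Fintype ι] :
    Nat.card {v : ι → F // v ≠ 0} = Fintype.card F ^ Fintype.card ι - 1 := by
  classical
  rw [Nat.card_eq_fintype_card, Fintype.card_subtype_compl, Fintype.card_subtype_eq,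
    Fintype.card_fun]

theorem orbit_p1 :
    MulAction.orbit (symplecticGroup (Unit ⊕ l) F) (p1 : (Unit ⊕ l) ⊕ (Unit ⊕ l) → F) =
      {v | v ≠ 0} := by
  ext v
  constructor
  · rintro ⟨g, rfl⟩
    intro h0
    have hg := (mem_sp_iff _).1 g.2
    have h1 := hg p1 p2
    change g.1 *ᵥ p1 = 0 at h0
    rw [h0, om_zero_left, om_p1_p2] at h1
    exact zero_ne_one h1
  · intro hv
    obtain ⟨M, hM, hMv⟩ := trans_vec p1 v p1_ne hv
    exact ⟨⟨M, (mem_sp_iff M).2 hM⟩, hMv⟩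

theorem orbit_p2 :
    MulAction.orbit (MulAction.stabilizer (symplecticGroup (Unit ⊕ l) F)
      (p1 : (Unit ⊕ l) ⊕ (Unit ⊕ l) → F)) (p2 : (Unit ⊕ l) ⊕ (Unit ⊕ l) → F) =
      {w | om p1 w = 1} := by
  ext w
  constructor
  · rintro ⟨h, rfl⟩
    have hg := (mem_sp_iff _).1 h.1.2
    have hfix : h.1.1 *ᵥ p1 = p1 := h.2
    have h1 := hg p1 p2
    rw [hfix, om_p1_p2] at h1
    exact h1
  · intro hw
    obtain ⟨M, hM, hM1, hM2⟩ := trans_pair p1 p2 w om_p1_p2 hw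
    exact ⟨⟨⟨M, (mem_sp_iff M).2 hM⟩, hM1⟩, hM2⟩

theorem card_stab2 :
    Nat.card (MulAction.stabilizer (MulAction.stabilizer (symplecticGroup (Unit ⊕ l) F)
      (p1 : (Unit ⊕ l) ⊕ (Unit ⊕ l) → F)) (p2 : (Unit ⊕ l) ⊕ (Unit ⊕ l) → F)) =
      Nat.card (symplecticGroup l F) := by
  symm
  refine Nat.card_eq_of_bijective (fun A => ⟨⟨⟨emb A.1,
    (mem_sp_iff _).2 (emb_isSp _ ((mem_sp_iff _).1 A.2))⟩, emb_p1 _⟩, emb_p2 _⟩) ⟨?_, ?_⟩
  · intro A B hAB
    have h := congrArg (fun s : MulAction.stabilizer (MulAction.stabilizer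
      (symplecticGroup (Unit ⊕ l) F) (p1 : (Unit ⊕ l) ⊕ (Unit ⊕ l) → F))
      (p2 : (Unit ⊕ l) ⊕ (Unit ⊕ l) → F) => (s.1.1.1 : Matrix _ _ F)) hAB
    exact Subtype.ext (emb_injective h)
  · intro s
    obtain ⟨A, hA, hgA⟩ := stab_form s.1.1.1 ((mem_sp_iff _).1 s.1.1.2) s.1.2 s.2
    exact ⟨⟨A, (mem_sp_iff A).2 hA⟩, Subtype.ext (Subtype.ext (Subtype.ext hgA.symm))⟩

theorem card_sp_succ :
    Nat.card (symplecticGroup (Unit ⊕ l) F) =
      (Fintype.card F ^ (2 * (Fintype.card l + 1)) - 1) *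
        (Fintype.card F ^ (2 * (Fintype.card l + 1) - 1) * Nat.card (symplecticGroup l F)) := by
  have h1 := Subgroup.card_mul_index (MulAction.stabilizer (symplecticGroup (Unit ⊕ l) F)
      (p1 : (Unit ⊕ l) ⊕ (Unit ⊕ l) → F))
  rw [MulAction.index_stabilizer, orbit_p1, ← Nat.card_coe_set_eq] at h1
  have h2 := Subgroup.card_mul_index (MulAction.stabilizer (MulAction.stabilizer
      (symplecticGroup (Unit ⊕ l) F) (p1 : (Unit ⊕ l) ⊕ (Unit ⊕ l) → F))
      (p2 : (Unit ⊕ l) ⊕ (Unit ⊕ l) → F))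
  rw [MulAction.index_stabilizer, orbit_p2, ← Nat.card_coe_set_eq, card_stab2] at h2
  have hL : Fintype.card ((Unit ⊕ l) ⊕ (Unit ⊕ l)) = 2 * (Fintype.card l + 1) := by
    simp only [Fintype.card_sum, Fintype.card_unit]
    ring
  have c1 : Nat.card ↥{v : (Unit ⊕ l) ⊕ (Unit ⊕ l) → F | v ≠ 0} =
      Fintype.card F ^ (2 * (Fintype.card l + 1)) - 1 := by
    rw [← hL]
    exact card_ne_zero_vec
  have c2 : Nat.card ↥{w : (Unit ⊕ l) ⊕ (Unit ⊕ l) → F | om p1 w = 1} =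
      Fintype.card F ^ (2 * (Fintype.card l + 1) - 1) := by
    have h3 : Nat.card ↥{w : (Unit ⊕ l) ⊕ (Unit ⊕ l) → F | om p1 w = 1} =
        Nat.card {w : (Unit ⊕ l) ⊕ (Unit ⊕ l) → F // w a1 = 1} :=
      Nat.card_congr (Equiv.subtypeEquivRight (fun w => by
        change om p1 w = 1 ↔ w a1 = 1
        rw [om_p1]))
    rw [h3, card_coord, hL]
  rw [c1] at h1
  rw [c2] at h2
  rw [← h1, ← h2]
  ring

end count

section reindex

variable {F : Type*} [Field F] {l l₂ : Type} [Fintype l] [DecidableEq l] [Fintype l₂]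
  [DecidableEq l₂]

theorem om_comp (e : l ≃ l₂) (x y : l₂ ⊕ l₂ → F) :
    om (x ∘ (e.sumCongr e)) (y ∘ (e.sumCongr e)) = om x y := by
  unfold om
  exact Equiv.sum_comp e (fun i => x (Sum.inr i) * y (Sum.inl i) - x (Sum.inl i) * y (Sum.inr i))

theorem isSp_reindex (e : l ≃ l₂) (M : Matrix (l ⊕ l) (l ⊕ l) F) :
    IsSp (Matrix.reindex (e.sumCongr e) (e.sumCongr e) M) ↔ IsSp M := by
  have hmv : ∀ x : l₂ ⊕ l₂ → F, Matrix.reindex (e.sumCongr e) (e.sumCongr e) M *ᵥ x =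
      (M *ᵥ (x ∘ (e.sumCongr e))) ∘ (e.sumCongr e).symm := by
    intro x
    rw [Matrix.reindex_apply, Matrix.submatrix_mulVec_equiv]
    rfl
  have e1 : ∀ z : l ⊕ l → F, (z ∘ (e.sumCongr e).symm) ∘ (e.sumCongr e) = z := fun z => by
    funext i
    simp
  constructor
  · intro h x y
    have h1 := h (x ∘ (e.sumCongr e).symm) (y ∘ (e.sumCongr e).symm)
    rw [hmv, hmv, ← om_comp e, ← om_comp e (x ∘ (e.sumCongr e).symm)] at h1
    rw [e1, e1, e1, e1] at h1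
    exact h1
  · intro h x y
    rw [hmv, hmv, ← om_comp e, ← om_comp e x y, e1, e1]
    exact h (x ∘ (e.sumCongr e)) (y ∘ (e.sumCongr e))

theorem card_sp_congr (e : l ≃ l₂) :
    Nat.card (symplecticGroup l F) = Nat.card (symplecticGroup l₂ F) := by
  refine Nat.card_congr (Equiv.subtypeEquiv (Matrix.reindex (e.sumCongr e) (e.sumCongr e)) ?_)
  intro M
  rw [mem_sp_iff, mem_sp_iff]
  exact (isSp_reindex e M).symm

end reindex

section final

variable {F : Type*} [Field F] [Fintype F]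

theorem card_sp (m : ℕ) :
    Nat.card (symplecticGroup (Fin m) F) = Fintype.card F ^ (m ^ 2) *
      ∏ i ∈ Finset.range m, (Fintype.card F ^ (2 * (i + 1)) - 1) := by
  induction m with
  | zero =>
    haveI : Subsingleton (symplecticGroup (Fin 0) F) :=
      ⟨fun a b => Subtype.ext (Subsingleton.elim _ _)⟩
    rw [Nat.card_of_subsingleton (1 : symplecticGroup (Fin 0) F)]
    simp
  | succ n ih =>
    have e : Unit ⊕ Fin n ≃ Fin (n + 1) := Fintype.equivOfCardEq (by simp [add_comm])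
    rw [← card_sp_congr e, card_sp_succ, ih, Finset.prod_range_succ, Fintype.card_fin]
    have h1 : (n + 1) ^ 2 = (2 * (n + 1) - 1) + n ^ 2 := by
      have : 2 * (n + 1) - 1 = 2 * n + 1 := by omega
      rw [this]
      ring
    rw [h1, pow_add]
    ring

end final

end Cfsg.Agent.Lib.Helper1.Symp
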