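import Mathlib
import Cfsg.Agent.Lib.Helper1.SympO

set_option autoImplicit false

namespace Cfsg.Agent.Lib.Helper1.Symp

open Matrix

section gen

variable {F : Type*} [Field F] {l : Type} [Fintype l] [DecidableEq l]

theorem mulVec_ext {n : Type*} [Fintype n] [DecidableEq n] {M N : Matrix n n F}
    (h : ∀ x, M *ᵥ x = N *ᵥ x) : M = N := by
  ext i j
  have h1 := congrFun (h (Pi.single j 1)) i
  rwa [Matrix.mulVec_single_one, Matrix.mulVec_single_one, Matrix.col_apply, Matrix.col_apply]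
    at h1

inductive IsTP : Matrix (l ⊕ l) (l ⊕ l) F → Prop
  | one : IsTP 1
  | mul (u : l ⊕ l → F) (a : F) (M : Matrix (l ⊕ l) (l ⊕ l) F) : IsTP M → IsTP (tv u a * M)

theorem IsTP.of_tv (u : l ⊕ l → F) (a : F) : IsTP (tv u a) := by
  have h := IsTP.mul u a 1 IsTP.one
  rwa [mul_one] at h

theorem IsTP.mul' {M N : Matrix (l ⊕ l) (l ⊕ l) F} (hM : IsTP M) (hN : IsTP N) :
    IsTP (M * N) := by
  induction hM with
  | one => rwa [one_mul]
  | mul u a M _ ih =>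
    rw [mul_assoc]
    exact IsTP.mul u a _ ih

theorem isSp_one : IsSp (1 : Matrix (l ⊕ l) (l ⊕ l) F) := by
  intro x y
  rw [Matrix.one_mulVec, Matrix.one_mulVec]

theorem IsTP.isSp {M : Matrix (l ⊕ l) (l ⊕ l) F} (hM : IsTP M) : IsSp M := by
  induction hM with
  | one => exact isSp_one
  | mul u a M _ ih => exact isSp_mul _ _ (tv_isSp u a) ih

theorem tv_mul_tv (u : l ⊕ l → F) (a b : F) : tv u a * tv u b = tv u (a + b) := by
  apply mulVec_ext
  intro x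
  rw [← Matrix.mulVec_mulVec, tv_mulVec, tv_mulVec, tv_mulVec, om_add_right, om_smul_right,
    om_self, mul_zero, add_zero, add_assoc, ← add_smul]
  congr 2
  ring

theorem tv_zero (u : l ⊕ l → F) : tv u 0 = 1 := by
  apply mulVec_ext
  intro x
  rw [tv_mulVec, zero_mul, zero_smul, add_zero, Matrix.one_mulVec]

theorem IsTP.exists_inv {M : Matrix (l ⊕ l) (l ⊕ l) F} (hM : IsTP M) :
    ∃ M' : Matrix (l ⊕ l) (l ⊕ l) F, IsTP M' ∧ M' * M = 1 := by
  induction hM with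
  | one => exact ⟨1, IsTP.one, one_mul 1⟩
  | mul u a M _ ih =>
    obtain ⟨M', hM', h⟩ := ih
    refine ⟨M' * tv u (-a), IsTP.mul' hM' (IsTP.of_tv u (-a)), ?_⟩
    calc M' * tv u (-a) * (tv u a * M) = M' * (tv u (-a) * tv u a) * M := by
          simp only [mul_assoc]
      _ = 1 := by rw [tv_mul_tv, neg_add_cancel, tv_zero, mul_one, h]

theorem step_tp (v w : l ⊕ l → F) (h : om v w ≠ 0) :
    ∃ M : Matrix (l ⊕ l) (l ⊕ l) F, IsTP M ∧ M *ᵥ v = w := by
  refine ⟨tv (v - w) (-(om v w)⁻¹), IsTP.of_tv _ _, ?_⟩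
  rw [tv_mulVec, om_sub_left, om_self, om_swap w v, zero_sub, neg_neg, neg_mul, inv_mul_cancel₀ h,
    neg_smul, one_smul]
  abel

theorem exists_both (v w : l ⊕ l → F) (hv : v ≠ 0) (hw : w ≠ 0) :
    ∃ z : l ⊕ l → F, om v z ≠ 0 ∧ om w z ≠ 0 := by
  obtain ⟨e, he⟩ := exists_nondeg v hv
  obtain ⟨e', he'⟩ := exists_nondeg w hw
  by_cases h1 : om w e = 0
  · by_cases h2 : om v e' = 0
    · refine ⟨e + e', ?_, ?_⟩
      · rw [om_add_right, h2, add_zero]
        exact he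
      · rw [om_add_right, h1, zero_add]
        exact he'
    · exact ⟨e', h2, he'⟩
  · exact ⟨e, he, h1⟩

theorem trans_vec_tp (v w : l ⊕ l → F) (hv : v ≠ 0) (hw : w ≠ 0) :
    ∃ M : Matrix (l ⊕ l) (l ⊕ l) F, IsTP M ∧ M *ᵥ v = w := by
  by_cases h : om v w = 0
  · obtain ⟨z, hz1, hz2⟩ := exists_both v w hv hw
    obtain ⟨M1, hM1, hM1v⟩ := step_tp v z hz1
    have hz3 : om z w ≠ 0 := by
      rw [om_swap]
      exact neg_ne_zero.2 hz2
    obtain ⟨M2, hM2, hM2z⟩ := step_tp z w hz3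
    refine ⟨M2 * M1, IsTP.mul' hM2 hM1, ?_⟩
    rw [← Matrix.mulVec_mulVec, hM1v, hM2z]
  · exact step_tp v w h

theorem step2_tp (v w1 w2 : l ⊕ l → F) (h1 : om v w1 = 1) (h2 : om v w2 = 1)
    (h : om w1 w2 ≠ 0) :
    ∃ M : Matrix (l ⊕ l) (l ⊕ l) F, IsTP M ∧ M *ᵥ v = v ∧ M *ᵥ w1 = w2 := by
  refine ⟨tv (w1 - w2) (-(om w1 w2)⁻¹), IsTP.of_tv _ _, ?_, ?_⟩
  · rw [tv_mulVec, om_sub_left, om_swap w1 v, om_swap w2 v, h1, h2, sub_self, mul_zero, zero_smul,
      add_zero]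
  · rw [tv_mulVec, om_sub_left, om_self, om_swap w2 w1, zero_sub, neg_neg, neg_mul,
      inv_mul_cancel₀ h, neg_smul, one_smul]
    abel

theorem trans_pair_tp (v w1 w2 : l ⊕ l → F) (h1 : om v w1 = 1) (h2 : om v w2 = 1) :
    ∃ M : Matrix (l ⊕ l) (l ⊕ l) F, IsTP M ∧ M *ᵥ v = v ∧ M *ᵥ w1 = w2 := by
  by_cases h : om w1 w2 = 0
  · have hz1 : om v (w1 + v) = 1 := by rw [om_add_right, h1, om_self, add_zero]
    have hz2 : om w1 (w1 + v) ≠ 0 := by
      rw [om_add_right, om_self, zero_add, om_swap, h1]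
      exact neg_ne_zero.2 one_ne_zero
    have hz3 : om (w1 + v) w2 ≠ 0 := by
      rw [om_add_left, h, zero_add, h2]
      exact one_ne_zero
    obtain ⟨M1, hM1, hM1v, hM1w⟩ := step2_tp v w1 (w1 + v) h1 hz1 hz2
    obtain ⟨M2, hM2, hM2v, hM2w⟩ := step2_tp v (w1 + v) w2 hz1 h2 hz3
    refine ⟨M2 * M1, IsTP.mul' hM2 hM1, ?_, ?_⟩
    · rw [← Matrix.mulVec_mulVec, hM1v, hM2v]
    · rw [← Matrix.mulVec_mulVec, hM1w, hM2w]
  · exact step2_tp v w1 w2 h1 h2 h

def extv (u : l ⊕ l → F) : (Unit ⊕ l) ⊕ (Unit ⊕ l) → F :=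
  fun k => Sum.elim (fun _ => 0) u (rho l k)

theorem extv_a1 (u : l ⊕ l → F) : extv u a1 = 0 := rfl

theorem extv_a2 (u : l ⊕ l → F) : extv u a2 = 0 := rfl

theorem extv_ii (u : l ⊕ l → F) : extv u ∘ ii = u := by
  funext k
  simp only [Function.comp_apply, extv, rho_ii, Sum.elim_inr]

theorem emb_tv (u : l ⊕ l → F) (a : F) : emb (tv u a) = tv (extv u) a := by
  apply mulVec_ext
  intro x
  have hom : om (extv u) x = om u (x ∘ ii) := by
    rw [om_split, extv_a1, extv_a2, extv_ii]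
    ring
  apply ext_L
  · rw [emb_a1, tv_mulVec, Pi.add_apply, Pi.smul_apply, extv_a1, smul_zero, add_zero]
  · rw [emb_a2, tv_mulVec, Pi.add_apply, Pi.smul_apply, extv_a2, smul_zero, add_zero]
  · rw [emb_ii, tv_mulVec, tv_mulVec, hom]
    funext k
    simp only [Function.comp_apply, Pi.add_apply, Pi.smul_apply]
    rw [← Function.comp_apply (f := extv u) (g := ii), extv_ii]

theorem emb_one : emb (1 : Matrix (l ⊕ l) (l ⊕ l) F) = 1 := by
  apply mulVec_ext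
  intro x
  apply ext_L
  · rw [emb_a1, Matrix.one_mulVec]
  · rw [emb_a2, Matrix.one_mulVec]
  · rw [emb_ii, Matrix.one_mulVec, Matrix.one_mulVec]

theorem emb_mul (A B : Matrix (l ⊕ l) (l ⊕ l) F) : emb (A * B) = emb A * emb B := by
  apply mulVec_ext
  intro x
  apply ext_L
  · rw [emb_a1, ← Matrix.mulVec_mulVec, emb_a1, emb_a1]
  · rw [emb_a2, ← Matrix.mulVec_mulVec, emb_a2, emb_a2]
  · have h : ((emb A * emb B) *ᵥ x) ∘ ii = A *ᵥ (B *ᵥ (x ∘ ii)) := by
      rw [← Matrix.mulVec_mulVec, emb_ii, emb_ii]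
    rw [emb_ii, h, Matrix.mulVec_mulVec]

theorem IsTP.emb' {A : Matrix (l ⊕ l) (l ⊕ l) F} (hA : IsTP A) : IsTP (emb A) := by
  induction hA with
  | one =>
    rw [emb_one]
    exact IsTP.one
  | mul u a M _ ih =>
    rw [emb_mul, emb_tv]
    exact IsTP.mul _ _ _ ih

theorem isSp_injective {M : Matrix (l ⊕ l) (l ⊕ l) F} (hM : IsSp M) {v : l ⊕ l → F}
    (hv : v ≠ 0) : M *ᵥ v ≠ 0 := by
  intro h
  obtain ⟨e, he⟩ := exists_nondeg v hv
  apply he
  rw [← hM v e, h, om_zero_left]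

theorem isTP_of_isSp_unit (ih : ∀ A : Matrix (l ⊕ l) (l ⊕ l) F, IsSp A → IsTP A)
    (M : Matrix ((Unit ⊕ l) ⊕ (Unit ⊕ l)) ((Unit ⊕ l) ⊕ (Unit ⊕ l)) F) (hM : IsSp M) :
    IsTP M := by
  obtain ⟨T1, hT1, e1⟩ := trans_vec_tp (M *ᵥ p1) p1 (isSp_injective hM p1_ne) p1_ne
  have hS1 : IsSp (T1 * M) := isSp_mul _ _ hT1.isSp hM
  have f1 : (T1 * M) *ᵥ (p1 : (Unit ⊕ l) ⊕ (Unit ⊕ l) → F) = p1 := by
    rw [← Matrix.mulVec_mulVec, e1]
  have hw : om (p1 : (Unit ⊕ l) ⊕ (Unit ⊕ l) → F) ((T1 * M) *ᵥ p2) = 1 := by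
    have := hS1 p1 p2
    rw [f1, om_p1_p2] at this
    exact this
  obtain ⟨T2, hT2, e2, e3⟩ := trans_pair_tp p1 ((T1 * M) *ᵥ p2) p2 hw om_p1_p2
  have hS2 : IsSp (T2 * (T1 * M)) := isSp_mul _ _ hT2.isSp hS1
  have g1 : (T2 * (T1 * M)) *ᵥ (p1 : (Unit ⊕ l) ⊕ (Unit ⊕ l) → F) = p1 := by
    rw [← Matrix.mulVec_mulVec, f1, e2]
  have g2 : (T2 * (T1 * M)) *ᵥ (p2 : (Unit ⊕ l) ⊕ (Unit ⊕ l) → F) = p2 := by
    rw [← Matrix.mulVec_mulVec, e3]
  obtain ⟨A, hA, hemb⟩ := stab_form _ hS2 g1 g2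
  obtain ⟨T1', hT1', i1⟩ := hT1.exists_inv
  obtain ⟨T2', hT2', i2⟩ := hT2.exists_inv
  have hMeq : M = T1' * (T2' * emb A) := by
    rw [← hemb]
    calc M = (T1' * T1) * M := by rw [i1, one_mul]
      _ = T1' * ((T2' * T2) * (T1 * M)) := by rw [i2, one_mul, mul_assoc]
      _ = T1' * (T2' * (T2 * (T1 * M))) := by simp only [mul_assoc]
  rw [hMeq]
  exact IsTP.mul' hT1' (IsTP.mul' hT2' (ih A hA).emb')

end gen

section reindex

variable {F : Type*} [Field F] {l l₂ : Type} [Fintype l] [DecidableEq l] [Fintype l₂]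
  [DecidableEq l₂]

theorem reindex_tv (e : l ≃ l₂) (u : l ⊕ l → F) (a : F) :
    Matrix.reindex (e.sumCongr e) (e.sumCongr e) (tv u a) =
      tv (u ∘ (e.sumCongr e).symm) a := by
  ext i j
  rcases i with i | i <;> rcases j with j | j <;>
    simp [tv, jl, Matrix.one_apply]

theorem IsTP.reindex' (e : l ≃ l₂) {M : Matrix (l ⊕ l) (l ⊕ l) F} (hM : IsTP M) :
    IsTP (Matrix.reindex (e.sumCongr e) (e.sumCongr e) M) := by
  induction hM with
  | one =>
    rw [Matrix.reindex_apply, Matrix.submatrix_one_equiv]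
    exact IsTP.one
  | mul u a M _ ih =>
    have h : Matrix.reindex (e.sumCongr e) (e.sumCongr e) (tv u a * M) =
        Matrix.reindex (e.sumCongr e) (e.sumCongr e) (tv u a) *
          Matrix.reindex (e.sumCongr e) (e.sumCongr e) M := by
      rw [Matrix.reindex_apply, Matrix.reindex_apply, Matrix.reindex_apply,
        Matrix.submatrix_mul_equiv]
    rw [h, reindex_tv]
    exact IsTP.mul _ _ _ ih

end reindex

section final

variable {F : Type*} [Field F]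

theorem isTP_fin (m : ℕ) :
    ∀ M : Matrix (Fin m ⊕ Fin m) (Fin m ⊕ Fin m) F, IsSp M → IsTP M := by
  induction m with
  | zero =>
    intro M _
    have : M = 1 := Subsingleton.elim _ _
    rw [this]
    exact IsTP.one
  | succ n ih =>
    intro M hM
    have e : Unit ⊕ Fin n ≃ Fin (n + 1) := Fintype.equivOfCardEq (by simp [add_comm])
    have h1 : IsSp (Matrix.reindex (e.symm.sumCongr e.symm) (e.symm.sumCongr e.symm) M) :=
      (isSp_reindex e.symm M).mpr hM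
    have h2 := (isTP_of_isSp_unit ih _ h1).reindex' e
    have h3 : Matrix.reindex (e.sumCongr e) (e.sumCongr e)
        (Matrix.reindex (e.symm.sumCongr e.symm) (e.symm.sumCongr e.symm) M) = M := by
      ext i j
      rcases i with i | i <;> rcases j with j | j <;> simp
    rwa [h3] at h2

def tvS {l : Type} [Fintype l] [DecidableEq l] (u : l ⊕ l → F) (a : F) : symplecticGroup l F :=
  ⟨tv u a, (mem_sp_iff _).2 (tv_isSp u a)⟩

theorem closure_tv (m : ℕ) :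
    Subgroup.closure {x : symplecticGroup (Fin m) F | ∃ u a, x = tvS u a} = ⊤ := by
  rw [eq_top_iff]
  intro g _
  have key : ∀ M : Matrix (Fin m ⊕ Fin m) (Fin m ⊕ Fin m) F, IsTP M →
      ∀ h : M ∈ symplecticGroup (Fin m) F,
      (⟨M, h⟩ : symplecticGroup (Fin m) F) ∈
        Subgroup.closure {x : symplecticGroup (Fin m) F | ∃ u a, x = tvS u a} := by
    intro M hM
    induction hM with
    | one =>
      intro h
      exact Subgroup.one_mem _
    | mul u a M hM ih =>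
      intro h
      have hM' : M ∈ symplecticGroup (Fin m) F := (mem_sp_iff _).2 hM.isSp
      have e : (⟨tv u a * M, h⟩ : symplecticGroup (Fin m) F) = tvS u a * ⟨M, hM'⟩ := rfl
      rw [e]
      exact Subgroup.mul_mem _ (Subgroup.subset_closure ⟨u, a, rfl⟩) (ih hM')
  exact key g.1 (isTP_fin m g.1 ((mem_sp_iff _).1 g.2)) g.2

end final

end Cfsg.Agent.Lib.Helper1.Symp
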