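import Mathlib
import Cfsg.Agent.Lib.Helper1.SympG

set_option autoImplicit false

namespace Cfsg.Agent.Lib.Helper1.Symp

open Matrix

section perf

variable {F : Type*} [Field F] {l : Type} [Fintype l] [DecidableEq l]

theorem tvS_val (u : l ⊕ l → F) (a : F) : (tvS u a : Matrix (l ⊕ l) (l ⊕ l) F) = tv u a := rfl

theorem tvS_mul (u : l ⊕ l → F) (a b : F) : tvS u a * tvS u b = tvS u (a + b) :=
  Subtype.ext (tv_mul_tv u a b)

theorem tvS_zero (u : l ⊕ l → F) : tvS u (0 : F) = 1 := Subtype.ext (tv_zero u)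

theorem tvS_zero_vec (a : F) : tvS (0 : l ⊕ l → F) a = 1 := by
  apply Subtype.ext
  apply mulVec_ext
  intro x
  show tv 0 a *ᵥ x = (1 : Matrix (l ⊕ l) (l ⊕ l) F) *ᵥ x
  rw [tv_mulVec, smul_zero, add_zero, Matrix.one_mulVec]

theorem tvS_inv (u : l ⊕ l → F) (a : F) : (tvS u a)⁻¹ = tvS u (-a) := by
  apply inv_eq_of_mul_eq_one_right
  rw [tvS_mul, add_neg_cancel, tvS_zero]

theorem tvS_smul (c : F) (u : l ⊕ l → F) (a : F) : tvS (c • u) a = tvS u (c ^ 2 * a) := by
  apply Subtype.ext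
  apply mulVec_ext
  intro x
  show tv (c • u) a *ᵥ x = tv u (c ^ 2 * a) *ᵥ x
  rw [tv_mulVec, tv_mulVec, om_smul_left, smul_smul]
  congr 2
  ring

theorem sp_isSp (g : symplecticGroup l F) : IsSp (g : Matrix (l ⊕ l) (l ⊕ l) F) :=
  (mem_sp_iff _).1 g.2

theorem tvS_conj (g : symplecticGroup l F) (u : l ⊕ l → F) (a : F) :
    g * tvS u a * g⁻¹ = tvS ((g : Matrix (l ⊕ l) (l ⊕ l) F) *ᵥ u) a := by
  rw [mul_inv_eq_iff_eq_mul]
  apply Subtype.ext
  apply mulVec_ext
  intro x
  show ((g : Matrix (l ⊕ l) (l ⊕ l) F) * tv u a) *ᵥ x =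
    (tv ((g : Matrix (l ⊕ l) (l ⊕ l) F) *ᵥ u) a * (g : Matrix (l ⊕ l) (l ⊕ l) F)) *ᵥ x
  rw [← Matrix.mulVec_mulVec, ← Matrix.mulVec_mulVec, tv_mulVec, tv_mulVec, sp_isSp g,
    Matrix.mulVec_add, Matrix.mulVec_smul]

theorem exists_sp (v w : l ⊕ l → F) (hv : v ≠ 0) (hw : w ≠ 0) :
    ∃ g : symplecticGroup l F, (g : Matrix (l ⊕ l) (l ⊕ l) F) *ᵥ v = w := by
  obtain ⟨M, hM, h⟩ := trans_vec v w hv hw
  exact ⟨⟨M, (mem_sp_iff _).2 hM⟩, h⟩

theorem tv_class (u v : l ⊕ l → F) (hu : u ≠ 0) (hv : v ≠ 0) (a : F) :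
    Abelianization.of (tvS u a) = Abelianization.of (tvS v a) := by
  obtain ⟨g, hg⟩ := exists_sp u v hu hv
  rw [← hg, ← tvS_conj, map_mul, map_mul, mul_comm, ← mul_assoc, ← map_mul, inv_mul_cancel,
    map_one, one_mul]

theorem mem_comm_iff (x : symplecticGroup l F) :
    x ∈ commutator (symplecticGroup l F) ↔ Abelianization.of x = 1 := by
  rw [← MonoidHom.mem_ker, Abelianization.ker_of]

theorem all_of_one (u0 : l ⊕ l → F) (hu0 : u0 ≠ 0)
    (h : ∀ a : F, tvS u0 a ∈ commutator (symplecticGroup l F)) (u : l ⊕ l → F) (a : F) :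
    tvS u a ∈ commutator (symplecticGroup l F) := by
  by_cases hu : u = 0
  · rw [hu, tvS_zero_vec]
    exact Subgroup.one_mem _
  · rw [mem_comm_iff, tv_class u u0 hu hu0, ← mem_comm_iff]
    exact h a

theorem caseA (c : F) (hc0 : c ≠ 0) (hc1 : c ^ 2 ≠ 1) (u : l ⊕ l → F) (b : F) :
    tvS u b ∈ commutator (symplecticGroup l F) := by
  by_cases hu : u = 0
  · rw [hu, tvS_zero_vec]
    exact Subgroup.one_mem _
  · have hcu : c • u ≠ 0 := smul_ne_zero hc0 hu
    have hne : c ^ 2 - 1 ≠ 0 := sub_ne_zero.2 hc1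
    have h1 : ∀ a : F, Abelianization.of (tvS u (c ^ 2 * a)) = Abelianization.of (tvS u a) := by
      intro a
      rw [← tvS_smul]
      exact tv_class _ _ hcu hu a
    have h2 : tvS u b = tvS u (c ^ 2 * (b / (c ^ 2 - 1))) * (tvS u (b / (c ^ 2 - 1)))⁻¹ := by
      rw [tvS_inv, tvS_mul]
      congr 1
      field_simp
      ring
    rw [mem_comm_iff, h2, map_mul, map_inv, h1, mul_inv_cancel]

theorem single_ne_zero' (k : l ⊕ l) : (Pi.single k (1 : F) : l ⊕ l → F) ≠ 0 := by
  intro h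
  have h1 := congrFun h k
  rw [Pi.single_eq_same] at h1
  exact one_ne_zero h1

theorem om_single_inl (i j : l) :
    om (Pi.single (Sum.inl i) (1 : F) : l ⊕ l → F) (Pi.single (Sum.inl j) 1) = 0 := by
  rw [om_single_right]
  simp [jl]

theorem caseB (h2 : (2 : F) ≠ 0) (i j : l) (hij : i ≠ j) (u : l ⊕ l → F) (a : F) :
    tvS u a ∈ commutator (symplecticGroup l F) := by
  apply all_of_one (Pi.single (Sum.inl i) 1) (single_ne_zero' _)
  intro a
  have huv := om_single_inl (F := F) i j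
  have hvu := om_single_inl (F := F) j i
  generalize hu : (Pi.single (Sum.inl i) (1 : F) : l ⊕ l → F) = u at huv hvu
  generalize hv : (Pi.single (Sum.inl j) (1 : F) : l ⊕ l → F) = v at huv hvu
  have hu0 : u ≠ 0 := hu ▸ single_ne_zero' _
  have hv0 : v ≠ 0 := hv ▸ single_ne_zero' _
  have hne : Sum.inl i ≠ (Sum.inl j : l ⊕ l) := fun h => hij (Sum.inl.inj h)
  have hp : u + v ≠ 0 := by
    intro h
    have h1 := congrFun h (Sum.inl i)
    rw [← hu, ← hv] at h1
    simp [Pi.single_eq_of_ne hne] at h1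
  have hm : u - v ≠ 0 := by
    intro h
    have h1 := congrFun h (Sum.inl i)
    rw [← hu, ← hv] at h1
    simp [Pi.single_eq_of_ne hne] at h1
  have key : ∀ b : F, tvS (u + v) b * tvS (u - v) b = tvS u (2 * b) * tvS v (2 * b) := by
    intro b
    apply Subtype.ext
    apply mulVec_ext
    intro x
    show (tv (u + v) b * tv (u - v) b) *ᵥ x = (tv u (2 * b) * tv v (2 * b)) *ᵥ x
    simp only [← Matrix.mulVec_mulVec, tv_mulVec, om_add_left, om_sub_left, om_add_right,
      om_sub_right, om_smul_right, om_self, huv, hvu]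
    funext k
    simp only [Pi.add_apply, Pi.smul_apply, Pi.sub_apply, smul_eq_mul]
    ring
  have h3 : ∀ b : F, Abelianization.of (tvS u (2 * b)) = 1 := by
    intro b
    have k1 := congrArg Abelianization.of (key b)
    rw [map_mul, map_mul, tv_class (u + v) u hp hu0, tv_class (u - v) u hm hu0,
      tv_class v u hv0 hu0] at k1
    have k2 : tvS u (2 * b) = tvS u b * tvS u b := by
      rw [tvS_mul]
      congr 1
      ring
    rw [k2, map_mul] at k1 ⊢
    have k3 : (Abelianization.of (tvS u b) * Abelianization.of (tvS u b)) *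
        (Abelianization.of (tvS u b) * Abelianization.of (tvS u b)) =
        (Abelianization.of (tvS u b) * Abelianization.of (tvS u b)) * 1 := by
      rw [mul_one]
      exact k1.symm
    exact mul_left_cancel k3
  rw [mem_comm_iff]
  have h4 : a = 2 * (a / 2) := by field_simp
  rw [h4]
  exact h3 _

theorem caseC (i j k : l) (hij : i ≠ j) (hik : i ≠ k) (hjk : j ≠ k) (u : l ⊕ l → F) (a : F) :
    tvS u a ∈ commutator (symplecticGroup l F) := by
  apply all_of_one (Pi.single (Sum.inl i) 1) (single_ne_zero' _)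
  intro a
  have huv := om_single_inl (F := F) i j
  have hvu := om_single_inl (F := F) j i
  have huw := om_single_inl (F := F) i k
  have hwu := om_single_inl (F := F) k i
  have hvw := om_single_inl (F := F) j k
  have hwv := om_single_inl (F := F) k j
  have hne1 : Sum.inl i ≠ (Sum.inl j : l ⊕ l) := fun h => hij (Sum.inl.inj h)
  have hne2 : Sum.inl i ≠ (Sum.inl k : l ⊕ l) := fun h => hik (Sum.inl.inj h)
  have hne3 : Sum.inl j ≠ (Sum.inl k : l ⊕ l) := fun h => hjk (Sum.inl.inj h)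
  have huv0 : (Pi.single (Sum.inl i) (1 : F) : l ⊕ l → F) + Pi.single (Sum.inl j) 1 ≠ 0 := by
    intro h
    have h1 := congrFun h (Sum.inl i)
    simp [Pi.single_eq_of_ne hne1] at h1
  have huw0 : (Pi.single (Sum.inl i) (1 : F) : l ⊕ l → F) + Pi.single (Sum.inl k) 1 ≠ 0 := by
    intro h
    have h1 := congrFun h (Sum.inl i)
    simp [Pi.single_eq_of_ne hne2] at h1
  have hvw0 : (Pi.single (Sum.inl j) (1 : F) : l ⊕ l → F) + Pi.single (Sum.inl k) 1 ≠ 0 := by
    intro h
    have h1 := congrFun h (Sum.inl j)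
    simp [Pi.single_eq_of_ne hne3] at h1
  have huvw0 : (Pi.single (Sum.inl i) (1 : F) : l ⊕ l → F) + Pi.single (Sum.inl j) 1
      + Pi.single (Sum.inl k) 1 ≠ 0 := by
    intro h
    have h1 := congrFun h (Sum.inl i)
    simp [Pi.single_eq_of_ne hne1, Pi.single_eq_of_ne hne2] at h1
  generalize hu : (Pi.single (Sum.inl i) (1 : F) : l ⊕ l → F) = u at *
  generalize hv : (Pi.single (Sum.inl j) (1 : F) : l ⊕ l → F) = v at *
  generalize hw : (Pi.single (Sum.inl k) (1 : F) : l ⊕ l → F) = w at *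
  have hu0 : u ≠ 0 := hu ▸ single_ne_zero' _
  have hv0 : v ≠ 0 := hv ▸ single_ne_zero' _
  have hw0 : w ≠ 0 := hw ▸ single_ne_zero' _
  have key : tvS (u + v + w) a = tvS u a * tvS v a * tvS w a *
      (tvS u (-a) * tvS v (-a) * tvS (u + v) a) *
      (tvS u (-a) * tvS w (-a) * tvS (u + w) a) *
      (tvS v (-a) * tvS w (-a) * tvS (v + w) a) := by
    apply Subtype.ext
    apply mulVec_ext
    intro x
    show tv (u + v + w) a *ᵥ x = (tv u a * tv v a * tv w a *
      (tv u (-a) * tv v (-a) * tv (u + v) a) *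
      (tv u (-a) * tv w (-a) * tv (u + w) a) *
      (tv v (-a) * tv w (-a) * tv (v + w) a)) *ᵥ x
    simp only [← Matrix.mulVec_mulVec, tv_mulVec, om_add_left, om_add_right,
      om_smul_right, om_self, huv, hvu, huw, hwu, hvw, hwv]
    funext k
    simp only [Pi.add_apply, Pi.smul_apply, smul_eq_mul]
    ring
  have k1 := congrArg Abelianization.of key
  simp only [map_mul, tv_class (u + v + w) u huvw0 hu0, tv_class v u hv0 hu0,
    tv_class w u hw0 hu0, tv_class (u + v) u huv0 hu0, tv_class (u + w) u huw0 hu0,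
    tv_class (v + w) u hvw0 hu0] at k1
  have k2 : Abelianization.of (tvS u (-a)) = (Abelianization.of (tvS u a))⁻¹ := by
    rw [← tvS_inv, map_inv]
  rw [k2] at k1
  rw [mem_comm_iff, k1]
  group

end perf

end Cfsg.Agent.Lib.Helper1.Symp
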