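import Mathlib
import Cfsg.Agent.Lib.Helper1.SympP

set_option autoImplicit false

namespace Cfsg.Agent.Lib.Helper1.Symp

open Matrix

section simple

variable {F : Type*} [Field F] {l : Type} [Fintype l] [DecidableEq l]

theorem scalar_of_eigen (M : Matrix (l ⊕ l) (l ⊕ l) F)
    (h : ∀ u : l ⊕ l → F, u ≠ 0 → ∃ c : F, M *ᵥ u = c • u) (k0 : l ⊕ l) :
    M = (M k0 k0) • (1 : Matrix (l ⊕ l) (l ⊕ l) F) := by
  have hoff : ∀ i j : l ⊕ l, i ≠ j → M i j = 0 := by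
    intro i j hij
    obtain ⟨c, hc⟩ := h (Pi.single j 1) (single_ne_zero' j)
    have h1 := congrFun hc i
    rw [Matrix.mulVec_single_one, Matrix.col_apply, Pi.smul_apply, Pi.single_eq_of_ne hij,
      smul_zero] at h1
    exact h1
  have hdiag : ∀ i j : l ⊕ l, i ≠ j → M i i = M j j := by
    intro i j hij
    have hne : (Pi.single i (1 : F) + Pi.single j 1 : l ⊕ l → F) ≠ 0 := by
      intro h
      have h1 := congrFun h i
      rw [Pi.add_apply, Pi.single_eq_same, Pi.single_eq_of_ne hij, add_zero] at h1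
      exact one_ne_zero h1
    obtain ⟨c, hc⟩ := h _ hne
    have hi := congrFun hc i
    have hj := congrFun hc j
    rw [Matrix.mulVec_add, Matrix.mulVec_single_one, Matrix.mulVec_single_one, Pi.add_apply,
      Matrix.col_apply, Matrix.col_apply, Pi.smul_apply, Pi.add_apply, Pi.single_eq_same,
      Pi.single_eq_of_ne hij, hoff i j hij, add_zero, add_zero, smul_eq_mul,
      mul_one] at hi
    rw [Matrix.mulVec_add, Matrix.mulVec_single_one, Matrix.mulVec_single_one, Pi.add_apply,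
      Matrix.col_apply, Matrix.col_apply, Pi.smul_apply, Pi.add_apply, Pi.single_eq_same,
      Pi.single_eq_of_ne hij.symm, hoff j i hij.symm, zero_add, zero_add, smul_eq_mul,
      mul_one] at hj
    rw [hi, hj]
  ext a b
  rw [Matrix.smul_apply, Matrix.one_apply, smul_eq_mul]
  by_cases hab : a = b
  · rw [if_pos hab, mul_one, ← hab]
    by_cases ha : a = k0
    · rw [ha]
    · exact hdiag a k0 ha
  · rw [if_neg hab, mul_zero]
    exact hoff a b hab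

theorem exists_moved [Nonempty l] {N : Subgroup (symplecticGroup l F)}
    (hN : ¬ N ≤ Subgroup.center (symplecticGroup l F)) :
    ∃ n ∈ N, ∃ u : l ⊕ l → F, u ≠ 0 ∧
      ∀ c : F, (n : Matrix (l ⊕ l) (l ⊕ l) F) *ᵥ u ≠ c • u := by
  by_contra hcon
  apply hN
  intro n hn
  obtain ⟨i0⟩ := ‹Nonempty l›
  have h : ∀ u : l ⊕ l → F, u ≠ 0 → ∃ c : F, (n : Matrix (l ⊕ l) (l ⊕ l) F) *ᵥ u = c • u := by
    intro u hu
    by_contra h1
    exact hcon ⟨n, hn, u, hu, fun c hc => h1 ⟨c, hc⟩⟩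
  have hs := scalar_of_eigen _ h (Sum.inl i0)
  rw [Subgroup.mem_center_iff]
  intro g
  apply Subtype.ext
  show (g : Matrix (l ⊕ l) (l ⊕ l) F) * (n : Matrix (l ⊕ l) (l ⊕ l) F) =
    (n : Matrix (l ⊕ l) (l ⊕ l) F) * (g : Matrix (l ⊕ l) (l ⊕ l) F)
  rw [hs]
  simp

theorem exists_sep (u v : l ⊕ l → F) (hu : u ≠ 0) (hv : ∀ c : F, v ≠ c • u) :
    ∃ w : l ⊕ l → F, om w u = 0 ∧ om w v ≠ 0 := by
  by_contra hcon
  simp only [not_exists, not_and, not_not] at hcon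
  obtain ⟨e, he⟩ := exists_nondeg u hu
  have he' : om e u ≠ 0 := by
    rw [om_swap]
    exact neg_ne_zero.2 he
  have hz : om ((om e u)⁻¹ • e) u = 1 := by
    rw [om_smul_left, inv_mul_cancel₀ he']
  generalize (om e u)⁻¹ • e = z at hz
  have key : ∀ x : l ⊕ l → F, om x (v - om z v • u) = 0 := by
    intro x
    have h1 := hcon (x - om x u • z) (by rw [om_sub_left, om_smul_left, hz, mul_one, sub_self])
    rw [om_sub_left, om_smul_left] at h1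
    rw [om_sub_right, om_smul_right]
    linear_combination h1
  apply hv (om z v)
  by_contra hne
  have hne' : v - om z v • u ≠ 0 := sub_ne_zero.2 hne
  obtain ⟨e2, he2⟩ := exists_nondeg _ hne'
  apply he2
  rw [om_swap, key, neg_zero]

theorem normal_trans {N : Subgroup (symplecticGroup l F)} (hN : N.Normal)
    (hmv : ∃ n ∈ N, ∃ u : l ⊕ l → F, u ≠ 0 ∧
      ∀ c : F, (n : Matrix (l ⊕ l) (l ⊕ l) F) *ᵥ u ≠ c • u)
    (u v : l ⊕ l → F) (hu : u ≠ 0) (hv : v ≠ 0) :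
    ∃ n ∈ N, ∃ c : F, c ≠ 0 ∧ (n : Matrix (l ⊕ l) (l ⊕ l) F) *ᵥ u = c • v := by
  have hsymm : ∀ a b : l ⊕ l → F,
      (∃ n ∈ N, ∃ c : F, c ≠ 0 ∧ (n : Matrix (l ⊕ l) (l ⊕ l) F) *ᵥ a = c • b) →
      (∃ n ∈ N, ∃ c : F, c ≠ 0 ∧ (n : Matrix (l ⊕ l) (l ⊕ l) F) *ᵥ b = c • a) := by
    rintro a b ⟨n, hn, c, hc, h⟩
    refine ⟨n⁻¹, N.inv_mem hn, c⁻¹, inv_ne_zero hc, ?_⟩
    have h1 : ((n⁻¹ : symplecticGroup l F) : Matrix (l ⊕ l) (l ⊕ l) F) *ᵥ
        ((n : Matrix (l ⊕ l) (l ⊕ l) F) *ᵥ a) = a := by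
      rw [Matrix.mulVec_mulVec]
      have e : ((n⁻¹ : symplecticGroup l F) : Matrix (l ⊕ l) (l ⊕ l) F) *
          (n : Matrix (l ⊕ l) (l ⊕ l) F) = 1 := by
        have h2 : n⁻¹ * n = 1 := inv_mul_cancel n
        exact congrArg Subtype.val h2
      rw [e, Matrix.one_mulVec]
    rw [h, Matrix.mulVec_smul] at h1
    rw [← h1, smul_smul, inv_mul_cancel₀ hc, one_smul]
  have htrans : ∀ a b d : l ⊕ l → F,
      (∃ n ∈ N, ∃ c : F, c ≠ 0 ∧ (n : Matrix (l ⊕ l) (l ⊕ l) F) *ᵥ a = c • b) →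
      (∃ n ∈ N, ∃ c : F, c ≠ 0 ∧ (n : Matrix (l ⊕ l) (l ⊕ l) F) *ᵥ b = c • d) →
      (∃ n ∈ N, ∃ c : F, c ≠ 0 ∧ (n : Matrix (l ⊕ l) (l ⊕ l) F) *ᵥ a = c • d) := by
    rintro a b d ⟨n, hn, c, hc, h⟩ ⟨n', hn', c', hc', h'⟩
    refine ⟨n' * n, N.mul_mem hn' hn, c * c', mul_ne_zero hc hc', ?_⟩
    show ((n' : Matrix (l ⊕ l) (l ⊕ l) F) * (n : Matrix (l ⊕ l) (l ⊕ l) F)) *ᵥ a = (c * c') • d
    rw [← Matrix.mulVec_mulVec, h, Matrix.mulVec_smul, h', smul_smul]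
  have hinv : ∀ (g : symplecticGroup l F) (a b : l ⊕ l → F),
      (∃ n ∈ N, ∃ c : F, c ≠ 0 ∧ (n : Matrix (l ⊕ l) (l ⊕ l) F) *ᵥ a = c • b) →
      (∃ n ∈ N, ∃ c : F, c ≠ 0 ∧ (n : Matrix (l ⊕ l) (l ⊕ l) F) *ᵥ
        ((g : Matrix (l ⊕ l) (l ⊕ l) F) *ᵥ a) = c • ((g : Matrix (l ⊕ l) (l ⊕ l) F) *ᵥ b)) := by
    rintro g a b ⟨n, hn, c, hc, h⟩
    refine ⟨g * n * g⁻¹, hN.conj_mem n hn g, c, hc, ?_⟩
    have h1 : ((g * n * g⁻¹ : symplecticGroup l F) : Matrix (l ⊕ l) (l ⊕ l) F) *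
        (g : Matrix (l ⊕ l) (l ⊕ l) F) =
        (g : Matrix (l ⊕ l) (l ⊕ l) F) * (n : Matrix (l ⊕ l) (l ⊕ l) F) := by
      have : g * n * g⁻¹ * g = g * n := by group
      exact congrArg Subtype.val this
    rw [Matrix.mulVec_mulVec, h1, ← Matrix.mulVec_mulVec, h, Matrix.mulVec_smul]
  have hscale : ∀ (a b : l ⊕ l → F) (d : F), d ≠ 0 →
      (∃ n ∈ N, ∃ c : F, c ≠ 0 ∧ (n : Matrix (l ⊕ l) (l ⊕ l) F) *ᵥ a = c • b) →
      (∃ n ∈ N, ∃ c : F, c ≠ 0 ∧ (n : Matrix (l ⊕ l) (l ⊕ l) F) *ᵥ a = c • (d • b)) := by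
    rintro a b d hd ⟨n, hn, c, hc, h⟩
    refine ⟨n, hn, c / d, div_ne_zero hc hd, ?_⟩
    rw [h, smul_smul, div_mul_cancel₀ c hd]
  have step1 : ∃ a b : l ⊕ l → F, om a b ≠ 0 ∧
      (∃ n ∈ N, ∃ c : F, c ≠ 0 ∧ (n : Matrix (l ⊕ l) (l ⊕ l) F) *ᵥ a = c • b) := by
    obtain ⟨n0, hn0, u0, hu0, hmv0⟩ := hmv
    by_cases h0 : om u0 ((n0 : Matrix (l ⊕ l) (l ⊕ l) F) *ᵥ u0) = 0
    · obtain ⟨w, hw1, hw2⟩ := exists_sep u0 _ hu0 hmv0
      have hR : ∃ n ∈ N, ∃ c : F, c ≠ 0 ∧ (n : Matrix (l ⊕ l) (l ⊕ l) F) *ᵥ u0 =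
          c • ((n0 : Matrix (l ⊕ l) (l ⊕ l) F) *ᵥ u0) :=
        ⟨n0, hn0, 1, one_ne_zero, (one_smul _ _).symm⟩
      have hR2 := hinv (tvS w 1) _ _ hR
      rw [tvS_val, tv_mulVec, tv_mulVec, hw1, mul_zero, zero_smul, add_zero, one_mul] at hR2
      refine ⟨(n0 : Matrix (l ⊕ l) (l ⊕ l) F) *ᵥ u0,
        (n0 : Matrix (l ⊕ l) (l ⊕ l) F) *ᵥ u0 + om w ((n0 : Matrix (l ⊕ l) (l ⊕ l) F) *ᵥ u0) • w,
        ?_, htrans _ _ _ (hsymm _ _ hR) hR2⟩
      rw [om_add_right, om_self, zero_add, om_smul_right, om_swap _ w]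
      intro h
      apply hw2
      have h3 : om w ((n0 : Matrix (l ⊕ l) (l ⊕ l) F) *ᵥ u0) ^ 2 = 0 := by linear_combination -h
      exact pow_eq_zero_iff (by norm_num) |>.mp h3
    · exact ⟨u0, _, h0, n0, hn0, 1, one_ne_zero, (one_smul _ _).symm⟩
  obtain ⟨a, b, hab, hR⟩ := step1
  have ha0 : a ≠ 0 := by
    rintro rfl
    exact hab (om_zero_left b)
  have step2 : ∀ a' b' : l ⊕ l → F, om a' b' ≠ 0 →
      (∃ n ∈ N, ∃ c : F, c ≠ 0 ∧ (n : Matrix (l ⊕ l) (l ⊕ l) F) *ᵥ a' = c • b') := by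
    intro a' b' hab'
    have ha'0 : a' ≠ 0 := by
      rintro rfl
      exact hab' (om_zero_left b')
    obtain ⟨g1, hg1⟩ := exists_sp a a' ha0 ha'0
    have hR1 := hinv g1 _ _ hR
    rw [hg1] at hR1
    have hd : om a' ((g1 : Matrix (l ⊕ l) (l ⊕ l) F) *ᵥ b) = om a b := by
      rw [← hg1]
      exact sp_isSp g1 a b
    have h1 : om a' ((om a b)⁻¹ • ((g1 : Matrix (l ⊕ l) (l ⊕ l) F) *ᵥ b)) = 1 := by
      rw [om_smul_right, hd, inv_mul_cancel₀ hab]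
    have h2 : om a' ((om a' b')⁻¹ • b') = 1 := by
      rw [om_smul_right, inv_mul_cancel₀ hab']
    obtain ⟨M, hM, hMa, hMb⟩ := trans_pair a' _ _ h1 h2
    have hR2 := hinv ⟨M, (mem_sp_iff _).2 hM⟩ _ _ (hscale _ _ _ (inv_ne_zero hab) hR1)
    show ∃ n ∈ N, ∃ c : F, c ≠ 0 ∧ (n : Matrix (l ⊕ l) (l ⊕ l) F) *ᵥ a' = c • b'
    have hR3 : ∃ n ∈ N, ∃ c : F, c ≠ 0 ∧ (n : Matrix (l ⊕ l) (l ⊕ l) F) *ᵥ a' =
        c • ((om a' b')⁻¹ • b') := by
      have e1 : ((⟨M, (mem_sp_iff _).2 hM⟩ : symplecticGroup l F) : Matrix (l ⊕ l) (l ⊕ l) F) = M :=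
        rfl
      rw [e1, hMa, hMb] at hR2
      exact hR2
    have hR4 := hscale _ _ _ hab' hR3
    rwa [smul_smul, mul_inv_cancel₀ hab', one_smul] at hR4
  by_cases h0 : om u v = 0
  · obtain ⟨z, hz1, hz2⟩ := exists_both u v hu hv
    have hz3 : om z v ≠ 0 := by
      rw [om_swap]
      exact neg_ne_zero.2 hz2
    exact htrans _ _ _ (step2 u z hz1) (step2 z v hz3)
  · exact step2 u v h0

theorem normal_top {m : ℕ} {N : Subgroup (symplecticGroup (Fin m) F)} (hN : N.Normal)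
    (hm : 1 ≤ m) (hNc : ¬ N ≤ Subgroup.center (symplecticGroup (Fin m) F))
    (hperf : commutator (symplecticGroup (Fin m) F) = ⊤) : N = ⊤ := by
  haveI : Nonempty (Fin m) := ⟨⟨0, hm⟩⟩
  have hmv := exists_moved hNc
  have hu0 : (Pi.single (Sum.inl ⟨0, hm⟩) (1 : F) : Fin m ⊕ Fin m → F) ≠ 0 := single_ne_zero' _
  generalize (Pi.single (Sum.inl ⟨0, hm⟩) (1 : F) : Fin m ⊕ Fin m → F) = u0 at hu0
  let A : Subgroup (symplecticGroup (Fin m) F) :=
    { carrier := {g | ∃ a : F, g = tvS u0 a}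
      mul_mem' := by
        rintro _ _ ⟨a, rfl⟩ ⟨b, rfl⟩
        exact ⟨a + b, tvS_mul u0 a b⟩
      one_mem' := ⟨0, (tvS_zero u0).symm⟩
      inv_mem' := by
        rintro _ ⟨a, rfl⟩
        exact ⟨-a, tvS_inv u0 a⟩ }
  have hA : IsMulCommutative A := by
    refine ⟨⟨?_⟩⟩
    rintro ⟨_, a, rfl⟩ ⟨_, b, rfl⟩
    apply Subtype.ext
    show tvS u0 a * tvS u0 b = tvS u0 b * tvS u0 a
    rw [tvS_mul, tvS_mul, add_comm]
  have hsup : N ⊔ A = ⊤ := by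
    rw [eq_top_iff, ← closure_tv m, Subgroup.closure_le]
    rintro _ ⟨v, b, rfl⟩
    by_cases hv : v = 0
    · rw [hv, tvS_zero_vec]
      exact Subgroup.one_mem _
    · obtain ⟨n, hn, c, hc, h⟩ := normal_trans hN hmv u0 v hu0 hv
      have e : tvS v b = n * tvS u0 (b / c ^ 2) * n⁻¹ := by
        rw [tvS_conj, h, tvS_smul]
        congr 1
        field_simp
      rw [e]
      exact Subgroup.mul_mem _ (Subgroup.mul_mem _ (Subgroup.mem_sup_left hn)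
        (Subgroup.mem_sup_right ⟨_, rfl⟩)) (Subgroup.inv_mem _ (Subgroup.mem_sup_left hn))
  haveI := hN
  have h1 := Subgroup.Normal.commutator_le_of_self_sup_commutative_eq_top hsup hA
  rw [hperf] at h1
  exact top_le_iff.mp h1

theorem simple_quot_center {G : Type*} [Group G] (hnt : Subgroup.center G ≠ ⊤)
    (h : ∀ N : Subgroup G, N.Normal → ¬ N ≤ Subgroup.center G → N = ⊤) :
    IsSimpleGroup (G ⧸ Subgroup.center G) := by
  haveI : Nontrivial (G ⧸ Subgroup.center G) := by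
    by_contra hcon
    rw [not_nontrivial_iff_subsingleton] at hcon
    apply hnt
    rw [eq_top_iff]
    intro g _
    have : (QuotientGroup.mk g : G ⧸ Subgroup.center G) = 1 := Subsingleton.elim _ _
    exact (QuotientGroup.eq_one_iff g).mp this
  refine ⟨fun M hM => ?_⟩
  by_cases hc : M.comap (QuotientGroup.mk' (Subgroup.center G)) ≤ Subgroup.center G
  · left
    rw [eq_bot_iff]
    intro x hx
    obtain ⟨g, rfl⟩ := QuotientGroup.mk_surjective x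
    rw [Subgroup.mem_bot]
    exact (QuotientGroup.eq_one_iff g).mpr (hc hx)
  · right
    have h1 := h _ (hM.comap _) hc
    rw [eq_top_iff]
    intro x _
    obtain ⟨g, rfl⟩ := QuotientGroup.mk_surjective x
    have : g ∈ M.comap (QuotientGroup.mk' (Subgroup.center G)) := by
      rw [h1]
      exact Subgroup.mem_top g
    exact this

theorem psp_simple {m : ℕ} (hm : 1 ≤ m)
    (hperf : commutator (symplecticGroup (Fin m) F) = ⊤) :
    IsSimpleGroup (symplecticGroup (Fin m) F ⧸ Subgroup.center (symplecticGroup (Fin m) F)) := by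
  apply simple_quot_center
  · intro hc
    have hcomm : commutator (symplecticGroup (Fin m) F) = ⊥ := by
      rw [eq_bot_iff, commutator_def, Subgroup.commutator_le]
      intro g1 _ g2 _
      rw [Subgroup.mem_bot, commutatorElement_eq_one_iff_mul_comm]
      have : g2 ∈ Subgroup.center (symplecticGroup (Fin m) F) := by
        rw [hc]
        exact Subgroup.mem_top _
      exact (Subgroup.mem_center_iff.mp this g1)
    rw [hperf] at hcomm
    have hu0 : (Pi.single (Sum.inl ⟨0, hm⟩) (1 : F) : Fin m ⊕ Fin m → F) ≠ 0 := single_ne_zero' _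
    obtain ⟨e, he⟩ := exists_nondeg _ hu0
    have h1 : tvS (Pi.single (Sum.inl ⟨0, hm⟩) (1 : F) : Fin m ⊕ Fin m → F) 1 ∈
        (⊥ : Subgroup (symplecticGroup (Fin m) F)) := by
      rw [← hcomm]
      exact Subgroup.mem_top _
    rw [Subgroup.mem_bot] at h1
    have h2 := congrArg (fun g : symplecticGroup (Fin m) F =>
      (g : Matrix (Fin m ⊕ Fin m) (Fin m ⊕ Fin m) F) *ᵥ e) h1
    simp only [tvS_val, tv_mulVec, one_mul] at h2
    have h3 : om (Pi.single (Sum.inl ⟨0, hm⟩) (1 : F) : Fin m ⊕ Fin m → F) e •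
        (Pi.single (Sum.inl ⟨0, hm⟩) (1 : F) : Fin m ⊕ Fin m → F) = 0 := by
      have h4 : ((1 : symplecticGroup (Fin m) F) : Matrix (Fin m ⊕ Fin m) (Fin m ⊕ Fin m) F) *ᵥ e
          = e := by
        show (1 : Matrix (Fin m ⊕ Fin m) (Fin m ⊕ Fin m) F) *ᵥ e = e
        exact Matrix.one_mulVec e
      rw [h4] at h2
      exact add_eq_left.mp h2
    rcases smul_eq_zero.mp h3 with h | h
    · exact he h
    · exact hu0 h
  · intro N hN hNc
    exact normal_top hN hm hNc hperf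

end simple

end Cfsg.Agent.Lib.Helper1.Symp
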