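import Mathlib
import Cfsg.Agent.Lib.Helper1.O6b
import Cfsg.Agent.Lib.Helper1.SympS
import Cfsg.Agent.Lib.Helper1.SympO
import Cfsg.Agent.S0269

set_option autoImplicit false

namespace Cfsg.Agent.Lib.Helper1.O5

open Matrix O6
open scoped commutatorElement

variable {F : Type*} [Field F]

abbrev U5 (F : Type*) := Unit ⊕ (Fin 2 ⊕ Fin 2) → F

def vJ : V6 F := Sum.elim ![0, -1, 0] ![0, 1, 0]

def J4 : M4 F := altM 0 (-1) 0 0 (-1) 0

theorem sk_vJ : sk (vJ : V6 F) = J4 := by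
  rw [sk_apply]
  simp [vJ, J4]

theorem Q_vJ : Cfsg.quadFormPlus 3 F (vJ : V6 F) = -1 := by
  simp [Cfsg.quadFormPlus, Fin.sum_univ_three, vJ]

def lam (v : V6 F) : F := v (.inl 1) - v (.inr 1)

theorem lam_eq (v : V6 F) :
    Cfsg.quadFormPlus 3 F (v + vJ) - Cfsg.quadFormPlus 3 F v - Cfsg.quadFormPlus 3 F vJ
      = lam v := by
  simp [Cfsg.quadFormPlus, Fin.sum_univ_three, vJ, lam]
  ring

theorem lam_vJ : lam (vJ : V6 F) = -2 := by
  simp [lam, vJ]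
  ring

theorem lam_sub_smul (v w : V6 F) (t : F) : lam (v - t • w) = lam v - t * lam w := by
  simp [lam]
  ring

def phi : U5 F →ₗ[F] V6 F where
  toFun u := Sum.elim ![u (.inr (.inl 0)), u (.inl ()), u (.inr (.inl 1))]
    ![u (.inr (.inr 0)), u (.inl ()), u (.inr (.inr 1))]
  map_add' := by
    intro u w; funext i; rcases i with i | i <;> fin_cases i <;> simp
  map_smul' := by
    intro c u; funext i; rcases i with i | i <;> fin_cases i <;> simp

def psi : V6 F →ₗ[F] U5 F where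
  toFun v := Sum.elim (fun _ => v (.inl 1))
    (Sum.elim ![v (.inl 0), v (.inl 2)] ![v (.inr 0), v (.inr 2)])
  map_add' := by
    intro u w; funext i; rcases i with ⟨⟩ | i | i <;> (try fin_cases i) <;> simp
  map_smul' := by
    intro c u; funext i; rcases i with ⟨⟩ | i | i <;> (try fin_cases i) <;> simp

theorem phi_apply (u : U5 F) : phi u =
    Sum.elim ![u (.inr (.inl 0)), u (.inl ()), u (.inr (.inl 1))]
      ![u (.inr (.inr 0)), u (.inl ()), u (.inr (.inr 1))] := rfl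

theorem psi_apply (v : V6 F) : psi v = Sum.elim (fun _ => v (.inl 1))
    (Sum.elim ![v (.inl 0), v (.inl 2)] ![v (.inr 0), v (.inr 2)]) := rfl

theorem psi_phi (u : U5 F) : psi (phi u) = u := by
  funext i
  rcases i with ⟨⟩ | i | i <;> (try fin_cases i) <;> simp [psi_apply, phi_apply]

theorem phi_psi (v : V6 F) (h : lam v = 0) : phi (psi v) = v := by
  have h' : v (.inr 1) = v (.inl 1) := by
    unfold lam at h
    linear_combination -h
  funext i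
  rcases i with i | i <;> fin_cases i <;> simp [psi_apply, phi_apply, h']

theorem lam_phi (u : U5 F) : lam (phi u) = 0 := by
  simp [lam, phi_apply]

theorem Q_phi (u : U5 F) : Cfsg.quadFormPlus 3 F (phi u) = Cfsg.quadFormOdd 2 F u := by
  simp [Cfsg.quadFormPlus, Cfsg.quadFormOdd, Fin.sum_univ_three, Fin.sum_univ_two, phi_apply]
  ring

def S (F : Type*) [Field F] : Subgroup (GL (Fin 4) F × Fˣ) where
  carrier := {p | act p.1.1 p.2.1 vJ = vJ}
  mul_mem' := by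
    intro p p' hp hp'
    have hp1 : act p.1.1 p.2.1 vJ = vJ := hp
    have hp2 : act p'.1.1 p'.2.1 vJ = vJ := hp'
    show act (p.1 * p'.1).1 (p.2 * p'.2).1 vJ = vJ
    rw [Units.val_mul, Units.val_mul, ← act_act, hp2, hp1]
  one_mem' := act_one vJ
  inv_mem' := by
    intro p hp
    have hp1 : act p.1.1 p.2.1 vJ = vJ := hp
    show act p.1⁻¹.1 p.2⁻¹.1 vJ = vJ
    have h := congrArg (act p.1⁻¹.1 p.2⁻¹.1) hp1
    rw [act_act, Units.inv_mul, Units.inv_mul, act_one] at h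
    exact h.symm

theorem mem_S {p : GL (Fin 4) F × Fˣ} : p ∈ S F ↔ act p.1.1 p.2.1 vJ = vJ := Iff.rfl

theorem S_det {p : GL (Fin 4) F × Fˣ} (hp : p ∈ S F) : p.2.1 ^ 2 * p.1.1.det = 1 := by
  have h : act p.1.1 p.2.1 vJ = vJ := hp
  have h1 := Q_act p.1.1 p.2.1 (vJ : V6 F)
  rw [h, Q_vJ] at h1
  linear_combination h1

theorem Q_act_S {p : GL (Fin 4) F × Fˣ} (hp : p ∈ S F) (w : V6 F) :
    Cfsg.quadFormPlus 3 F (act p.1.1 p.2.1 w) = Cfsg.quadFormPlus 3 F w := by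
  rw [Q_act, S_det hp, one_mul]

theorem lam_act {p : GL (Fin 4) F × Fˣ} (hp : p ∈ S F) (v : V6 F) :
    lam (act p.1.1 p.2.1 v) = lam v := by
  have h : act p.1.1 p.2.1 vJ = vJ := hp
  rw [← lam_eq, ← lam_eq v]
  have e : act p.1.1 p.2.1 v + vJ = act p.1.1 p.2.1 (v + vJ) := by rw [map_add, h]
  rw [e, Q_act_S hp, Q_act_S hp]

def act5 (g : M4 F) (c : F) : U5 F →ₗ[F] U5 F := psi ∘ₗ act g c ∘ₗ phi

theorem act5_apply (g : M4 F) (c : F) (u : U5 F) : act5 g c u = psi (act g c (phi u)) := rfl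

theorem phi_act5 {p : GL (Fin 4) F × Fˣ} (hp : p ∈ S F) (u : U5 F) :
    phi (act5 p.1.1 p.2.1 u) = act p.1.1 p.2.1 (phi u) := by
  rw [act5_apply, phi_psi]
  rw [lam_act hp, lam_phi]

theorem act5_act5 {p p' : GL (Fin 4) F × Fˣ} (hp' : p' ∈ S F) (u : U5 F) :
    act5 p.1.1 p.2.1 (act5 p'.1.1 p'.2.1 u) = act5 (p.1.1 * p'.1.1) (p.2.1 * p'.2.1) u := by
  rw [act5_apply, phi_act5 hp', act_act]
  rfl

theorem act5_one (u : U5 F) : act5 (1 : M4 F) 1 u = u := by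
  rw [act5_apply, act_one, psi_phi]

theorem Q_act5 {p : GL (Fin 4) F × Fˣ} (hp : p ∈ S F) (u : U5 F) :
    Cfsg.quadFormOdd 2 F (act5 p.1.1 p.2.1 u) = Cfsg.quadFormOdd 2 F u := by
  rw [← Q_phi, phi_act5 hp, Q_act_S hp, Q_phi]

def lr5 (p : S F) : U5 F ≃ₗ[F] U5 F :=
  LinearEquiv.ofLinear (act5 p.1.1.1 p.1.2.1) (act5 p.1.1⁻¹.1 p.1.2⁻¹.1)
    (by
      apply LinearMap.ext
      intro u
      show act5 p.1.1.1 p.1.2.1 (act5 (p⁻¹).1.1.1 (p⁻¹).1.2.1 u) = u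
      rw [act5_act5 (p⁻¹).2]
      show act5 (p.1.1.1 * p.1.1⁻¹.1) (p.1.2.1 * p.1.2⁻¹.1) u = u
      rw [Units.mul_inv, Units.mul_inv, act5_one])
    (by
      apply LinearMap.ext
      intro u
      show act5 (p⁻¹).1.1.1 (p⁻¹).1.2.1 (act5 p.1.1.1 p.1.2.1 u) = u
      rw [act5_act5 p.2]
      show act5 (p.1.1⁻¹.1 * p.1.1.1) (p.1.2⁻¹.1 * p.1.2.1) u = u
      rw [Units.inv_mul, Units.inv_mul, act5_one])

theorem lr5_apply (p : S F) (u : U5 F) : lr5 p u = act5 p.1.1.1 p.1.2.1 u := rfl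

def rho0 : S F →* Orth.OQ (Cfsg.quadFormOdd 2 F) where
  toFun p := ⟨lr5 p, fun u => by rw [lr5_apply, Q_act5 p.2]⟩
  map_one' := by
    apply Subtype.ext
    apply LinearEquiv.ext
    intro u
    exact act5_one u
  map_mul' p p' := by
    apply Subtype.ext
    apply LinearEquiv.ext
    intro u
    show act5 (p * p').1.1.1 (p * p').1.2.1 u = act5 p.1.1.1 p.1.2.1 (act5 p'.1.1.1 p'.1.2.1 u)
    rw [act5_act5 p'.2]
    rfl

theorem rho0_apply (p : S F) (u : U5 F) :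
    ((rho0 p : Orth.OQ (Cfsg.quadFormOdd 2 F)) : U5 F ≃ₗ[F] U5 F) u =
      act5 p.1.1.1 p.1.2.1 u := rfl

theorem ker_rho0_scalar (h2 : (2 : F) ≠ 0) (p : S F) (hp : p ∈ (rho0 (F := F)).ker) :
    (∀ i j, i ≠ j → p.1.1.1 i j = 0) ∧ (∀ i, p.1.1.1 i i = p.1.1.1 0 0) ∧
      p.1.2.1 * p.1.1.1 0 0 ^ 2 = 1 := by
  have h : ∀ u : U5 F, act5 p.1.1.1 p.1.2.1 u = u := fun u =>
    congrArg (fun a : Orth.OQ (Cfsg.quadFormOdd 2 F) => (a : U5 F ≃ₗ[F] U5 F) u)
      (MonoidHom.mem_ker.mp hp)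
  have hphi : ∀ u : U5 F, act p.1.1.1 p.1.2.1 (phi u) = phi u := by
    intro u
    rw [← phi_act5 p.2, h u]
  have hJ : act p.1.1.1 p.1.2.1 vJ = vJ := p.2
  have hall : ∀ v : V6 F, act p.1.1.1 p.1.2.1 v = v := by
    intro v
    have hw : lam (v - (lam v / (-2)) • (vJ : V6 F)) = 0 := by
      rw [lam_sub_smul, lam_vJ]
      field_simp
      ring
    have e : v = phi (psi (v - (lam v / (-2)) • (vJ : V6 F))) + (lam v / (-2)) • (vJ : V6 F) := by
      rw [phi_psi _ hw]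
      abel
    rw [e, map_add, map_smul, hphi, hJ]
  apply scalar_of_fix _ _ p.1.2.ne_zero
  intro v
  rw [← sk_act, hall v]

theorem card_ker_rho0_le [Fintype F] (h2 : (2 : F) ≠ 0) :
    Nat.card (rho0 (F := F)).ker ≤ Fintype.card F - 1 := by
  have hc : Nat.card Fˣ = Fintype.card F - 1 := by
    rw [Nat.card_units, Nat.card_eq_fintype_card]
  rw [← hc]
  have hne : ∀ p : (rho0 (F := F)).ker, p.1.1.1.1 0 0 ≠ 0 := by
    intro p h0
    have h1 := (ker_rho0_scalar h2 p.1 p.2).2.2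
    rw [h0] at h1
    simp at h1
  apply Nat.card_le_card_of_injective
    (fun p : (rho0 (F := F)).ker => Units.mk0 (p.1.1.1.1 0 0) (hne p))
  intro p p' hpp
  have e0 : p.1.1.1.1 0 0 = p'.1.1.1.1 0 0 := congrArg Units.val hpp
  obtain ⟨a1, a2, a3⟩ := ker_rho0_scalar h2 p.1 p.2
  obtain ⟨b1, b2, b3⟩ := ker_rho0_scalar h2 p'.1 p'.2
  have e1 : p.1.1.1 = p'.1.1.1 := by
    apply Units.ext
    ext i j
    by_cases hij : i = j
    · subst hij
      rw [a2 i, b2 i, e0]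
    · rw [a1 i j hij, b1 i j hij]
  have e2 : p.1.1.2 = p'.1.1.2 := by
    apply Units.ext
    rw [← e0] at b3
    have h5 : p.1.1.1.1 0 0 ^ 2 ≠ 0 := pow_ne_zero 2 (hne p)
    have h6 : (p.1.1.2.1 - p'.1.1.2.1) * p.1.1.1.1 0 0 ^ 2 = 0 := by linear_combination a3 - b3
    rcases mul_eq_zero.mp h6 with h7 | h7
    · exact sub_eq_zero.mp h7
    · exact absurd h7 h5
  exact Subtype.ext (Subtype.ext (Prod.ext e1 e2))

end Cfsg.Agent.Lib.Helper1.O5
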