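import Mathlib
import Cfsg.Agent.Lib.Helper1.O5a

set_option autoImplicit false

namespace Cfsg.Agent.Lib.Helper1.O5

open Matrix O6
open scoped commutatorElement

variable {F : Type*} [Field F]

def e4 : Fin 2 ⊕ Fin 2 ≃ Fin 4 where
  toFun := Sum.elim ![0, 1] ![2, 3]
  invFun := ![Sum.inl 0, Sum.inl 1, Sum.inr 0, Sum.inr 1]
  left_inv := by
    intro x; rcases x with i | i <;> fin_cases i <;> rfl
  right_inv := by
    intro i; fin_cases i <;> rfl

abbrev re (F : Type*) [Field F] :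
    Matrix (Fin 2 ⊕ Fin 2) (Fin 2 ⊕ Fin 2) F ≃ₐ[F] M4 F := Matrix.reindexAlgEquiv F F e4

theorem re_J : re F (J (Fin 2) F) = J4 := by
  ext i j
  fin_cases i <;> fin_cases j <;>
    simp [J4, altM, Matrix.J, e4, Matrix.reindex_apply, Matrix.one_apply]

theorem re_transpose (A : Matrix (Fin 2 ⊕ Fin 2) (Fin 2 ⊕ Fin 2) F) :
    (re F A)ᵀ = re F Aᵀ := rfl

theorem sp_iff (A : Matrix (Fin 2 ⊕ Fin 2) (Fin 2 ⊕ Fin 2) F) :
    A ∈ symplecticGroup (Fin 2) F ↔ re F A * J4 * (re F A)ᵀ = J4 := by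
  rw [SymplecticGroup.mem_iff, ← re_J, re_transpose, ← map_mul, ← map_mul]
  exact (re F).injective.eq_iff.symm

def fSp : symplecticGroup (Fin 2) F →* M4 F :=
  ((re F).toRingEquiv.toMulEquiv.toMonoidHom).comp (symplecticGroup (Fin 2) F).subtype

theorem fSp_apply (A : symplecticGroup (Fin 2) F) : fSp A = re F A.1 := rfl

theorem fSp_injective : Function.Injective (fSp (F := F)) := by
  intro A B h
  exact Subtype.ext ((re F).injective h)

theorem fSp_J (A : symplecticGroup (Fin 2) F) : fSp A * J4 * (fSp A)ᵀ = J4 :=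
  (sp_iff A.1).mp A.2

def gSp : symplecticGroup (Fin 2) F →* GL (Fin 4) F := fSp.toHomUnits

theorem gSp_val (A : symplecticGroup (Fin 2) F) : (gSp A).1 = fSp A := rfl

theorem mem_S_of (g : GL (Fin 4) F) (c : Fˣ) (h : c.1 • (g.1 * J4 * g.1ᵀ) = J4) :
    (g, c) ∈ S F := by
  rw [mem_S]
  apply sk_injective
  rw [sk_act, sk_vJ]
  exact h

theorem S_J {p : GL (Fin 4) F × Fˣ} (hp : p ∈ S F) :
    p.2.1 • (p.1.1 * J4 * p.1.1ᵀ) = J4 := by
  have h : act p.1.1 p.2.1 vJ = vJ := hp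
  have h1 := congrArg sk h
  rwa [sk_act, sk_vJ] at h1

def iota : symplecticGroup (Fin 2) F →* S F where
  toFun A := ⟨(gSp A, 1), mem_S_of _ _ (by
    rw [Units.val_one, one_smul, gSp_val]
    exact fSp_J A)⟩
  map_one' := Subtype.ext (Prod.ext (map_one _) rfl)
  map_mul' A B := Subtype.ext (Prod.ext (map_mul _ _ _) (one_mul 1).symm)

def dm (μ : Fˣ) : GL (Fin 4) F :=
  ⟨Matrix.diagonal ![μ.1, μ.1, 1, 1], Matrix.diagonal ![μ⁻¹.1, μ⁻¹.1, 1, 1],
    by
      rw [Matrix.diagonal_mul_diagonal, ← Matrix.diagonal_one]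
      congr 1
      funext i
      fin_cases i <;> simp,
    by
      rw [Matrix.diagonal_mul_diagonal, ← Matrix.diagonal_one]
      congr 1
      funext i
      fin_cases i <;> simp⟩

theorem dm_J (μ : Fˣ) : (dm μ).1 * J4 * (dm μ).1ᵀ = μ.1 • J4 := by
  show Matrix.diagonal ![μ.1, μ.1, 1, 1] * J4 * (Matrix.diagonal ![μ.1, μ.1, 1, 1])ᵀ = μ.1 • J4
  rw [Matrix.diagonal_transpose]
  ext i j
  rw [Matrix.mul_diagonal, Matrix.diagonal_mul]
  fin_cases i <;> fin_cases j <;> simp [J4, altM]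

def emb (x : symplecticGroup (Fin 2) F × Fˣ) : S F :=
  ⟨(dm x.2 * gSp x.1, x.2⁻¹), mem_S_of _ _ (by
    have e : (dm x.2 * gSp x.1).1 * J4 * (dm x.2 * gSp x.1).1ᵀ =
        (dm x.2).1 * ((gSp x.1).1 * J4 * (gSp x.1).1ᵀ) * (dm x.2).1ᵀ := by
      rw [Units.val_mul, Matrix.transpose_mul]
      simp only [mul_assoc]
    rw [e, gSp_val, fSp_J, dm_J, smul_smul, Units.inv_mul, one_smul])⟩

theorem emb_injective : Function.Injective (emb (F := F)) := by
  intro x y h
  have h1 : (dm x.2 * gSp x.1, x.2⁻¹) = (dm y.2 * gSp y.1, y.2⁻¹) := congrArg Subtype.val h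
  have h2 : x.2 = y.2 := inv_injective (congrArg Prod.snd h1)
  have h3 : dm x.2 * gSp x.1 = dm y.2 * gSp y.1 := congrArg Prod.fst h1
  rw [h2] at h3
  have h4 : gSp x.1 = gSp y.1 := mul_left_cancel h3
  have h5 : fSp x.1 = fSp y.1 := congrArg Units.val h4
  exact Prod.ext (fSp_injective h5) h2

theorem card_S_ge [Fintype F] :
    (Fintype.card F - 1) * Nat.card (symplecticGroup (Fin 2) F) ≤ Nat.card (S F) := by
  have h := Nat.card_le_card_of_injective (emb (F := F)) emb_injective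
  rw [Nat.card_prod, Nat.card_units, Nat.card_eq_fintype_card (α := F), mul_comm] at h
  exact h

theorem card_O5 [Fintype F] (h1 : (1 : F) ≠ -1) :
    Nat.card (Orth.OQ (Cfsg.quadFormOdd 2 F)) = 2 * Nat.card (symplecticGroup (Fin 2) F) := by
  rw [← Orth.card_iso_eq, Orth.card_odd h1 2, Symp.card_sp 2, mul_assoc]

theorem index_R [Fintype F] (h1 : (1 : F) ≠ -1) (h2 : (2 : F) ≠ 0) :
    (rho0 (F := F)).range.index = 1 ∨ (rho0 (F := F)).range.index = 2 := by
  have hq : 2 ≤ Fintype.card F := Fintype.one_lt_card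
  have hP : 0 < Nat.card (symplecticGroup (Fin 2) F) := Nat.card_pos
  have c1 := Subgroup.card_eq_card_quotient_mul_card_subgroup (rho0 (F := F)).ker
  rw [Nat.card_congr (QuotientGroup.quotientKerEquivRange (rho0 (F := F))).toEquiv] at c1
  have cS := card_S_ge (F := F)
  have c3 := card_ker_rho0_le (F := F) h2
  have c4 := Subgroup.index_mul_card (rho0 (F := F)).range
  rw [card_O5 h1] at c4
  obtain ⟨P, hPdef⟩ : ∃ P, P = Nat.card (symplecticGroup (Fin 2) F) := ⟨_, rfl⟩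
  obtain ⟨R, hRdef⟩ : ∃ R, R = Nat.card (rho0 (F := F)).range := ⟨_, rfl⟩
  obtain ⟨K, hKdef⟩ : ∃ K, K = Nat.card (rho0 (F := F)).ker := ⟨_, rfl⟩
  obtain ⟨i, hidef⟩ : ∃ i, i = (rho0 (F := F)).range.index := ⟨_, rfl⟩
  obtain ⟨t, htdef⟩ : ∃ t, Fintype.card F - 1 = t + 1 := ⟨Fintype.card F - 2, by omega⟩
  rw [← hRdef, ← hKdef] at c1
  rw [c1, ← hPdef, htdef] at cS
  rw [← hKdef, htdef] at c3
  rw [← hidef, ← hRdef, ← hPdef] at c4
  rw [← hPdef] at hP
  rw [← hidef]
  have hR : P ≤ R := by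
    by_contra hlt
    rw [not_le] at hlt
    have h5 : R * K < (t + 1) * P := by
      calc R * K ≤ R * (t + 1) := Nat.mul_le_mul_left _ c3
        _ < P * (t + 1) := Nat.mul_lt_mul_of_pos_right hlt (by omega)
        _ = (t + 1) * P := by ring
    omega
  have hi : i ≤ 2 := by
    by_contra hlt
    rw [not_le] at hlt
    have h6 : 3 * P ≤ i * R := Nat.mul_le_mul hlt hR
    rw [c4] at h6
    omega
  have hpos : i ≠ 0 := by
    rintro rfl
    rw [zero_mul] at c4
    omega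
  omega

theorem R_normal [Fintype F] (h1 : (1 : F) ≠ -1) (h2 : (2 : F) ≠ 0) :
    (rho0 (F := F)).range.Normal := by
  rcases index_R (F := F) h1 h2 with h | h
  · rw [Subgroup.index_eq_one] at h
    rw [h]
    infer_instance
  · exact Subgroup.normal_of_index_eq_two h

def rho1 : symplecticGroup (Fin 2) F →* Orth.OQ (Cfsg.quadFormOdd 2 F) := rho0.comp iota

theorem N_le_R : (rho1 (F := F)).range ≤ (rho0 (F := F)).range := by
  rintro _ ⟨x, rfl⟩
  exact ⟨iota x, rfl⟩

theorem commR_le_N :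
    ⁅(rho0 (F := F)).range, (rho0 (F := F)).range⁆ ≤ (rho1 (F := F)).range := by
  rw [Subgroup.commutator_le]
  rintro _ ⟨p, rfl⟩ _ ⟨p', rfl⟩
  rw [← map_commutatorElement]
  have hc : (⁅p, p'⁆ : S F).1.2 = 1 := by
    show ⁅p.1.2, p'.1.2⁆ = 1
    exact commutatorElement_eq_one_iff_commute.mpr (Commute.all _ _)
  have hX := S_J (⁅p, p'⁆ : S F).2
  rw [hc, Units.val_one, one_smul] at hX
  have hA : (re F).symm (⁅p, p'⁆ : S F).1.1.1 ∈ symplecticGroup (Fin 2) F := by
    rw [sp_iff, AlgEquiv.apply_symm_apply]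
    exact hX
  refine ⟨⟨_, hA⟩, ?_⟩
  show rho0 (iota _) = rho0 ⁅p, p'⁆
  congr 1
  apply Subtype.ext
  apply Prod.ext
  · apply Units.ext
    show re F ((re F).symm (⁅p, p'⁆ : S F).1.1.1) = _
    rw [AlgEquiv.apply_symm_apply]
  · exact hc.symm

theorem N_le_commR (hperf : commutator (symplecticGroup (Fin 2) F) = ⊤) :
    (rho1 (F := F)).range ≤ ⁅(rho0 (F := F)).range, (rho0 (F := F)).range⁆ := by
  rintro _ ⟨x, rfl⟩
  have hx : x ∈ ⁅(⊤ : Subgroup (symplecticGroup (Fin 2) F)),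
      (⊤ : Subgroup (symplecticGroup (Fin 2) F))⁆ := by
    rw [← _root_.commutator_def, hperf]
    exact Subgroup.mem_top x
  have h1 : rho1 x ∈ Subgroup.map rho1 ⁅(⊤ : Subgroup (symplecticGroup (Fin 2) F)),
      (⊤ : Subgroup (symplecticGroup (Fin 2) F))⁆ :=
    Subgroup.mem_map_of_mem _ hx
  rw [Subgroup.map_commutator, ← MonoidHom.range_eq_map] at h1
  exact Subgroup.commutator_mono N_le_R N_le_R h1

theorem N_normal [Fintype F] (h1 : (1 : F) ≠ -1) (h2 : (2 : F) ≠ 0)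
    (hperf : commutator (symplecticGroup (Fin 2) F) = ⊤) : (rho1 (F := F)).range.Normal := by
  haveI := R_normal (F := F) h1 h2
  have e : (rho1 (F := F)).range = ⁅(rho0 (F := F)).range, (rho0 (F := F)).range⁆ :=
    le_antisymm (N_le_commR hperf) commR_le_N
  rw [e]
  infer_instance

theorem ker_rho1 (h2 : (2 : F) ≠ 0) (x : symplecticGroup (Fin 2) F)
    (hx : x ∈ (rho1 (F := F)).ker) :
    (∀ i j, i ≠ j → fSp x i j = 0) ∧ (∀ i, fSp x i i = fSp x 0 0) ∧ fSp x 0 0 ^ 2 = 1 := by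
  have h0 : iota x ∈ (rho0 (F := F)).ker := hx
  obtain ⟨h1, h3, h4⟩ := ker_rho0_scalar h2 (iota x) h0
  refine ⟨h1, h3, ?_⟩
  have h5 : (1 : F) * fSp x 0 0 ^ 2 = 1 := h4
  rwa [one_mul] at h5

theorem ker_rho1_le_center (h2 : (2 : F) ≠ 0) :
    (rho1 (F := F)).ker ≤ Subgroup.center (symplecticGroup (Fin 2) F) := by
  intro x hx
  obtain ⟨h1, h3, h4⟩ := ker_rho1 h2 x hx
  have hX : fSp x = (fSp x 0 0) • (1 : M4 F) := by
    ext i j
    rw [Matrix.smul_apply, Matrix.one_apply, smul_eq_mul]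
    split_ifs with hij
    · subst hij
      rw [h3 i, mul_one]
    · rw [h1 i j hij, mul_zero]
  rw [Subgroup.mem_center_iff]
  intro B
  apply fSp_injective
  rw [map_mul, map_mul, hX, Matrix.mul_smul, Matrix.smul_mul, mul_one, one_mul]

theorem card_ker_rho1_le (h2 : (2 : F) ≠ 0) : Nat.card (rho1 (F := F)).ker ≤ 2 := by
  classical
  have hb : Nat.card Bool = 2 := by simp
  refine le_of_le_of_eq ?_ hb
  have hpm : ∀ x : (rho1 (F := F)).ker, fSp x.1 0 0 = 1 ∨ fSp x.1 0 0 = -1 := by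
    intro x
    obtain ⟨a1, a2, a3⟩ := ker_rho1 h2 x.1 x.2
    have h4 : (fSp x.1 0 0 - 1) * (fSp x.1 0 0 + 1) = 0 := by linear_combination a3
    rcases mul_eq_zero.mp h4 with h | h
    · left; exact sub_eq_zero.mp h
    · right; exact eq_neg_of_add_eq_zero_left h
  apply Nat.card_le_card_of_injective
    (fun x : (rho1 (F := F)).ker => decide (fSp x.1 0 0 = 1))
  intro x y hxy
  obtain ⟨a1, a2, a3⟩ := ker_rho1 h2 x.1 x.2
  obtain ⟨b1, b2, b3⟩ := ker_rho1 h2 y.1 y.2
  have hxy' : (fSp x.1 0 0 = 1) ↔ (fSp y.1 0 0 = 1) := by simpa using hxy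
  have e0 : fSp x.1 0 0 = fSp y.1 0 0 := by
    rcases hpm x with h | h
    · rw [h, hxy'.mp h]
    · rcases hpm y with h' | h'
      · rw [hxy'.mpr h', h']
      · rw [h, h']
  apply Subtype.ext
  apply fSp_injective
  ext i j
  by_cases hij : i = j
  · subst hij
    rw [a2 i, b2 i, e0]
  · rw [a1 i j hij, b1 i j hij]

theorem commutator_le_N [Fintype F] (h1 : (1 : F) ≠ -1) (h2 : (2 : F) ≠ 0)
    (hperf : commutator (symplecticGroup (Fin 2) F) = ⊤) :
    commutator (Orth.OQ (Cfsg.quadFormOdd 2 F)) ≤ (rho1 (F := F)).range := by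
  haveI := N_normal (F := F) h1 h2 hperf
  have hP : 0 < Nat.card (symplecticGroup (Fin 2) F) := Nat.card_pos
  have c1 := Subgroup.card_eq_card_quotient_mul_card_subgroup (rho1 (F := F)).ker
  rw [Nat.card_congr (QuotientGroup.quotientKerEquivRange (rho1 (F := F))).toEquiv] at c1
  have c2 := Subgroup.card_eq_card_quotient_mul_card_subgroup (rho1 (F := F)).range
  rw [card_O5 h1] at c2
  have c3 := card_ker_rho1_le (F := F) h2
  have c4 : 0 < Nat.card (rho1 (F := F)).ker := Nat.card_pos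
  have hN : 0 < Nat.card (rho1 (F := F)).range := by
    rcases Nat.eq_zero_or_pos (Nat.card (rho1 (F := F)).range) with h | h
    · rw [h, zero_mul] at c1
      omega
    · exact h
  have hcard : Nat.card (Orth.OQ (Cfsg.quadFormOdd 2 F) ⧸ (rho1 (F := F)).range)
      = 2 * Nat.card (rho1 (F := F)).ker := by
    have h5 : Nat.card (Orth.OQ (Cfsg.quadFormOdd 2 F) ⧸ (rho1 (F := F)).range)
        * Nat.card (rho1 (F := F)).range
        = 2 * Nat.card (rho1 (F := F)).ker * Nat.card (rho1 (F := F)).range := by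
      rw [← c2, c1]
      ring
    exact Nat.eq_of_mul_eq_mul_right hN h5
  have hcomm := O4.comm_of_card
    (G := Orth.OQ (Cfsg.quadFormOdd 2 F) ⧸ (rho1 (F := F)).range) (by
    rw [hcard]; omega)
  rw [_root_.commutator_def, Subgroup.commutator_le]
  intro a _ b _
  rw [← QuotientGroup.eq_one_iff, commutatorElement_def]
  simp only [QuotientGroup.mk_mul, QuotientGroup.mk_inv]
  rw [hcomm (↑a) (↑b)]
  group

theorem N_le_commutator (hperf : commutator (symplecticGroup (Fin 2) F) = ⊤) :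
    (rho1 (F := F)).range ≤ commutator (Orth.OQ (Cfsg.quadFormOdd 2 F)) := by
  rintro _ ⟨x, rfl⟩
  have hx : x ∈ commutator (symplecticGroup (Fin 2) F) := by
    rw [hperf]
    exact Subgroup.mem_top x
  exact O4.map_commutator_le' _ (Subgroup.mem_map_of_mem _ hx)

theorem commutator_O [Fintype F] (h1 : (1 : F) ≠ -1) (h2 : (2 : F) ≠ 0)
    (hperf : commutator (symplecticGroup (Fin 2) F) = ⊤) :
    commutator (Orth.OQ (Cfsg.quadFormOdd 2 F)) = (rho1 (F := F)).range :=
  le_antisymm (commutator_le_N h1 h2 hperf) (N_le_commutator hperf)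

theorem center_PSp_bot (hperf : commutator (symplecticGroup (Fin 2) F) = ⊤) :
    Subgroup.center (Cfsg.PSp 2 F) = ⊥ := by
  haveI : IsSimpleGroup (Cfsg.PSp 2 F) := Symp.psp_simple (F := F) (m := 2) (by norm_num) hperf
  rcases (inferInstance : (Subgroup.center (Cfsg.PSp 2 F)).Normal).eq_bot_or_eq_top with h1 | h1
  · exact h1
  · exfalso
    have h2 := (_root_.commutator_eq_bot_iff_center_eq_top (G := Cfsg.PSp 2 F)).mpr h1
    have h3 : Group.IsPerfect (symplecticGroup (Fin 2) F) := ⟨hperf⟩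
    have h4 : Group.IsPerfect (Cfsg.PSp 2 F) := inferInstance
    rw [h4.commutator_eq_top] at h2
    exact top_ne_bot h2

theorem main [Fintype F] (hodd : Odd (Fintype.card F)) :
    Nonempty (Cfsg.POmega F (Cfsg.quadFormOdd 2 F) ≃* Cfsg.PSp 2 F) := by
  have h1 : (1 : F) ≠ -1 := Orth.one_ne_neg_one_of_odd hodd
  have h2 : (2 : F) ≠ 0 := by
    intro h
    apply h1
    linear_combination h
  have h3 : 3 ≤ Fintype.card F := by
    have hq : 2 ≤ Fintype.card F := Fintype.one_lt_card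
    obtain ⟨k, hk⟩ := hodd
    omega
  have hperf : commutator (symplecticGroup (Fin 2) F) = ⊤ :=
    Cfsg.Agent.S0269.result 2 (Or.inr (Or.inl ⟨rfl, h3⟩))
  let E0 := O3.commEquiv (Orth.isoOQ (Cfsg.quadFormOdd 2 F))
  let E1 := MulEquiv.subgroupCongr (commutator_O (F := F) h1 h2 hperf)
  let E2 := (QuotientGroup.quotientKerEquivRange (rho1 (F := F))).symm
  let E : Cfsg.Omega F (Cfsg.quadFormOdd 2 F) ≃*
      symplecticGroup (Fin 2) F ⧸ (rho1 (F := F)).ker := (E0.trans E1).trans E2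
  let L := QuotientGroup.lift (rho1 (F := F)).ker
    (QuotientGroup.mk' (Subgroup.center (symplecticGroup (Fin 2) F))) (by
      intro x hx
      rw [MonoidHom.mem_ker, QuotientGroup.mk'_apply, QuotientGroup.eq_one_iff]
      exact ker_rho1_le_center h2 hx)
  have hL : Function.Surjective L := by
    intro y
    obtain ⟨x, rfl⟩ := QuotientGroup.mk'_surjective _ y
    exact ⟨QuotientGroup.mk x, rfl⟩
  let ψ : Cfsg.Omega F (Cfsg.quadFormOdd 2 F) →* Cfsg.PSp 2 F := L.comp E.toMonoidHom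
  have hψ : Function.Surjective ψ := hL.comp E.surjective
  refine O4.quotCenterEquiv ψ hψ (center_PSp_bot hperf) ?_
  intro a ha
  rw [MonoidHom.mem_ker] at ha
  have ha' : L (E a) = 1 := ha
  rw [Subgroup.mem_center_iff]
  intro b
  apply E.injective
  rw [map_mul, map_mul]
  obtain ⟨x, hx⟩ := QuotientGroup.mk_surjective (E a)
  obtain ⟨y, hy⟩ := QuotientGroup.mk_surjective (E b)
  rw [← hx] at ha'
  have hx1 : x ∈ Subgroup.center (symplecticGroup (Fin 2) F) := by
    have h5 : (QuotientGroup.mk' (Subgroup.center (symplecticGroup (Fin 2) F))) x = 1 := ha'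
    rwa [QuotientGroup.mk'_apply, QuotientGroup.eq_one_iff] at h5
  rw [← hx, ← hy, ← QuotientGroup.mk_mul, ← QuotientGroup.mk_mul]
  congr 1
  exact Subgroup.mem_center_iff.mp hx1 y

end Cfsg.Agent.Lib.Helper1.O5
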