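import Mathlib
import Cfsg.Agent.Lib.Helper1.Orth1
import Cfsg.Agent.Lib.Helper1.Symp

namespace Cfsg.Agent.Lib.Helper1.OSp

open Matrix

variable {F : Type*} [Field F] {m : ℕ}

def qp' (y : Fin m ⊕ Fin m → F) : F := ∑ i, y (.inl i) * y (.inr i)

theorem qo_eq (v : Unit ⊕ (Fin m ⊕ Fin m) → F) :
    Cfsg.quadFormOdd m F v = v (.inl ()) ^ 2 + qp' (v ∘ Sum.inr) := rfl

theorem qp'_add [CharP F 2] (x y : Fin m ⊕ Fin m → F) :
    qp' (x + y) = qp' x + qp' y + Symp.om x y := by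
  unfold qp' Symp.om
  rw [← Finset.sum_add_distrib, ← Finset.sum_add_distrib]
  apply Finset.sum_congr rfl
  intro i _
  have h2 : (2 : F) = 0 := CharTwo.two_eq_zero
  simp only [Pi.add_apply]
  linear_combination (x (.inl i) * y (.inr i)) * h2

theorem qp'_smul (c : F) (y : Fin m ⊕ Fin m → F) : qp' (c • y) = c ^ 2 * qp' y := by
  unfold qp'
  rw [Finset.mul_sum]
  apply Finset.sum_congr rfl
  intro i _
  simp only [Pi.smul_apply, smul_eq_mul]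
  ring

theorem qp'_single (j : Fin m ⊕ Fin m) : qp' (Pi.single j (1 : F)) = 0 := by
  unfold qp'
  apply Finset.sum_eq_zero
  intro i _
  rcases j with j | j
  · simp [Pi.single_apply]
  · simp [Pi.single_apply]

theorem qo_add [CharP F 2] (a b : Unit ⊕ (Fin m ⊕ Fin m) → F) :
    Cfsg.quadFormOdd m F (a + b) = Cfsg.quadFormOdd m F a + Cfsg.quadFormOdd m F b
      + Symp.om (a ∘ Sum.inr) (b ∘ Sum.inr) := by
  rw [qo_eq, qo_eq, qo_eq]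
  have : (a + b) ∘ Sum.inr = a ∘ Sum.inr + b ∘ Sum.inr := rfl
  rw [this, qp'_add, Pi.add_apply, CharTwo.add_sq]
  ring

theorem mulVec_inl (g : Matrix (Unit ⊕ (Fin m ⊕ Fin m)) (Unit ⊕ (Fin m ⊕ Fin m)) F)
    (v : Unit ⊕ (Fin m ⊕ Fin m) → F) :
    (g *ᵥ v) (Sum.inl ()) = g (.inl ()) (.inl ()) * v (.inl ())
      + ∑ j, g (.inl ()) (.inr j) * v (.inr j) := by
  simp [Matrix.mulVec, dotProduct, Fintype.sum_sum_type]

theorem mulVec_inr (g : Matrix (Unit ⊕ (Fin m ⊕ Fin m)) (Unit ⊕ (Fin m ⊕ Fin m)) F)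
    (v : Unit ⊕ (Fin m ⊕ Fin m) → F) :
    (g *ᵥ v) ∘ Sum.inr = (fun k => g (.inr k) (.inl ()) * v (.inl ()))
      + g.toBlocks₂₂ *ᵥ (v ∘ Sum.inr) := by
  funext k
  simp [Matrix.mulVec, dotProduct, Fintype.sum_sum_type, Matrix.toBlocks₂₂]

theorem mulVec_inr_elim (g : Matrix (Unit ⊕ (Fin m ⊕ Fin m)) (Unit ⊕ (Fin m ⊕ Fin m)) F)
    (y : Fin m ⊕ Fin m → F) :
    (g *ᵥ Sum.elim 0 y) ∘ Sum.inr = g.toBlocks₂₂ *ᵥ y := by
  rw [mulVec_inr]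
  have : (fun k => g (.inr k) (.inl ()) * (Sum.elim (0 : Unit → F) y) (.inl ())) = 0 := by
    funext k; simp
  rw [this, zero_add]
  rfl

def IsO (g : Matrix (Unit ⊕ (Fin m ⊕ Fin m)) (Unit ⊕ (Fin m ⊕ Fin m)) F) : Prop :=
  ∀ v, Cfsg.quadFormOdd m F (g *ᵥ v) = Cfsg.quadFormOdd m F v

theorem isO_om [CharP F 2] {g : Matrix (Unit ⊕ (Fin m ⊕ Fin m)) (Unit ⊕ (Fin m ⊕ Fin m)) F}
    (hg : IsO g) (u v : Unit ⊕ (Fin m ⊕ Fin m) → F) :
    Symp.om ((g *ᵥ u) ∘ Sum.inr) ((g *ᵥ v) ∘ Sum.inr) = Symp.om (u ∘ Sum.inr) (v ∘ Sum.inr) := by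
  have h1 := hg (u + v)
  rw [Matrix.mulVec_add, qo_add, qo_add, hg u, hg v] at h1
  exact add_left_cancel h1

theorem isO_col [CharP F 2] {g : Matrix (Unit ⊕ (Fin m ⊕ Fin m)) (Unit ⊕ (Fin m ⊕ Fin m)) F}
    (hg : IsO g) (hdet : IsUnit g.det) (k : Fin m ⊕ Fin m) : g (.inr k) (.inl ()) = 0 := by
  have hw : (g *ᵥ Pi.single (Sum.inl ()) 1) ∘ Sum.inr = 0 := by
    by_contra hne
    obtain ⟨y, hy⟩ := Symp.exists_nondeg _ hne
    apply hy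
    have h1 := isO_om hg (Pi.single (Sum.inl ()) 1) (g⁻¹ *ᵥ (Sum.elim 0 y))
    rw [Matrix.mulVec_mulVec, Matrix.mul_nonsing_inv _ hdet, Matrix.one_mulVec] at h1
    have h2 : (Sum.elim (0 : Unit → F) y) ∘ Sum.inr = y := rfl
    have h3 : (Pi.single (Sum.inl ()) (1 : F) : Unit ⊕ (Fin m ⊕ Fin m) → F) ∘ Sum.inr = 0 := by
      funext j; simp
    rw [h2, h3, Symp.om_zero_left] at h1
    exact h1
  have := congrFun hw k
  simpa [Matrix.mulVec_single_one] using this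

theorem isO_one [CharP F 2] {g : Matrix (Unit ⊕ (Fin m ⊕ Fin m)) (Unit ⊕ (Fin m ⊕ Fin m)) F}
    (hg : IsO g) (hdet : IsUnit g.det) : g (.inl ()) (.inl ()) = 1 := by
  have h1 := hg (Pi.single (Sum.inl ()) 1)
  rw [qo_eq, qo_eq] at h1
  have hw : (g *ᵥ Pi.single (Sum.inl ()) 1) ∘ Sum.inr = 0 := by
    funext k
    have := isO_col hg hdet k
    simpa [Matrix.mulVec_single_one] using this
  have h3 : (Pi.single (Sum.inl ()) (1 : F) : Unit ⊕ (Fin m ⊕ Fin m) → F) ∘ Sum.inr = 0 := by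
    funext j; simp
  rw [hw, h3] at h1
  have h4 : (g *ᵥ Pi.single (Sum.inl ()) 1) (Sum.inl ()) = g (.inl ()) (.inl ()) := by
    simp [Matrix.mulVec_single_one]
  rw [h4] at h1
  simp only [Pi.single_eq_same, one_pow, add_left_inj] at h1
  have h2 : (2 : F) = 0 := CharTwo.two_eq_zero
  have h5 : (g (.inl ()) (.inl ()) - 1) ^ 2 = 0 := by
    linear_combination h1 - (g (.inl ()) (.inl ())) * h2 + h2
  exact sub_eq_zero.1 (pow_eq_zero_iff (by norm_num) |>.1 h5)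

theorem isO_sp [CharP F 2] {g : Matrix (Unit ⊕ (Fin m ⊕ Fin m)) (Unit ⊕ (Fin m ⊕ Fin m)) F}
    (hg : IsO g) : g.toBlocks₂₂ ∈ symplecticGroup (Fin m) F := by
  rw [Symp.mem_sp_iff]
  intro x y
  have h1 := isO_om hg (Sum.elim 0 x) (Sum.elim 0 y)
  rw [mulVec_inr_elim, mulVec_inr_elim] at h1
  exact h1

theorem isO_row [CharP F 2] {g : Matrix (Unit ⊕ (Fin m ⊕ Fin m)) (Unit ⊕ (Fin m ⊕ Fin m)) F}
    (hg : IsO g) (y : Fin m ⊕ Fin m → F) :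
    (∑ j, g (.inl ()) (.inr j) * y j) ^ 2 + qp' (g.toBlocks₂₂ *ᵥ y) = qp' y := by
  have h1 := hg (Sum.elim 0 y)
  rw [qo_eq, qo_eq, mulVec_inr_elim, mulVec_inl] at h1
  simpa using h1

theorem isO_of [CharP F 2] {g : Matrix (Unit ⊕ (Fin m ⊕ Fin m)) (Unit ⊕ (Fin m ⊕ Fin m)) F}
    (h1 : g (.inl ()) (.inl ()) = 1) (h2 : ∀ k, g (.inr k) (.inl ()) = 0)
    (h3 : ∀ y : Fin m ⊕ Fin m → F,
      (∑ j, g (.inl ()) (.inr j) * y j) ^ 2 + qp' (g.toBlocks₂₂ *ᵥ y) = qp' y) : IsO g := by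
  intro v
  rw [qo_eq, qo_eq, mulVec_inr, mulVec_inl, h1]
  have : (fun k => g (.inr k) (.inl ()) * v (.inl ())) = 0 := by
    funext k; rw [h2]; simp
  rw [this, zero_add, CharTwo.add_sq, one_mul, add_assoc]
  congr 1
  exact h3 (v ∘ Sum.inr)

end Cfsg.Agent.Lib.Helper1.OSp
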