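import Mathlib
import Cfsg.Agent.Lib.Helper1.OSp

namespace Cfsg.Agent.Lib.Helper1.OSp

open Matrix

variable {F : Type*} [Field F] {m : ℕ} [CharP F 2]

theorem mem_iso_iff (g : Matrix.GeneralLinearGroup (Unit ⊕ (Fin m ⊕ Fin m)) F) :
    g ∈ Cfsg.isometryGroup F (Cfsg.quadFormOdd m F) ↔ IsO g.1 :=
  Orth.mem_isometryGroup

theorem gl_det {ι : Type} [Fintype ι] [DecidableEq ι] (g : Matrix.GeneralLinearGroup ι F) :
    IsUnit (g : Matrix ι ι F).det :=
  (Matrix.isUnit_iff_isUnit_det _).1 g.isUnit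

def toSp : Cfsg.isometryGroup F (Cfsg.quadFormOdd m F) →* symplecticGroup (Fin m) F where
  toFun g := ⟨g.1.1.toBlocks₂₂, isO_sp ((mem_iso_iff g.1).1 g.2)⟩
  map_one' := by
    apply Subtype.ext
    show (1 : Matrix (Unit ⊕ (Fin m ⊕ Fin m)) (Unit ⊕ (Fin m ⊕ Fin m)) F).toBlocks₂₂ = 1
    ext i j
    simp [Matrix.toBlocks₂₂, Matrix.one_apply]
  map_mul' g h := by
    apply Subtype.ext
    show (g.1.1 * h.1.1).toBlocks₂₂
      = g.1.1.toBlocks₂₂ * h.1.1.toBlocks₂₂
    ext i j
    have hc := isO_col ((mem_iso_iff g.1).1 g.2) (gl_det g.1)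
    simp [Matrix.toBlocks₂₂, Matrix.mul_apply, Fintype.sum_sum_type, hc]

theorem toSp_val (g : Cfsg.isometryGroup F (Cfsg.quadFormOdd m F)) :
    (toSp g).1 = g.1.1.toBlocks₂₂ := rfl

theorem toSp_injective : Function.Injective (toSp (F := F) (m := m)) := by
  rw [injective_iff_map_eq_one]
  intro g hg
  have hD : g.1.1.toBlocks₂₂ = 1 := congrArg Subtype.val hg
  have hO := (mem_iso_iff g.1).1 g.2
  have hrow : ∀ j, g.1.1 (.inl ()) (.inr j) = 0 := by
    intro j
    have h := isO_row hO (Pi.single j 1)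
    rw [hD, Matrix.one_mulVec] at h
    have h' : (∑ j', g.1.1 (.inl ()) (.inr j')
        * (Pi.single j (1 : F) : Fin m ⊕ Fin m → F) j') ^ 2 = 0 := by
      linear_combination h
    rw [Finset.sum_eq_single j (by intro k _ hk; simp [Pi.single_apply, hk]) (by simp)] at h'
    simpa using h'
  apply Subtype.ext
  apply Units.ext
  ext (i | i) (j | j)
  · have := isO_one hO (gl_det g.1)
    simpa using this
  · have := hrow j
    simpa using this
  · have := isO_col hO (gl_det g.1) i
    simpa using this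
  · have := congrFun (congrFun hD i) j
    simpa [Matrix.toBlocks₂₂, Matrix.one_apply] using this

theorem exists_sqrt [Fintype F] (x : F) : ∃ c : F, c * c = x := by
  obtain ⟨c, hc⟩ := FiniteField.isSquare_of_char_two (ringChar.eq F 2) x
  exact ⟨c, hc.symm⟩

theorem row_identity (D : Matrix (Fin m ⊕ Fin m) (Fin m ⊕ Fin m) F)
    (hD : D ∈ symplecticGroup (Fin m) F) (B : Fin m ⊕ Fin m → F)
    (hB : ∀ j, B j * B j = qp' (D *ᵥ Pi.single j 1)) (y : Fin m ⊕ Fin m → F) :
    (∑ j, B j * y j) ^ 2 + qp' (D *ᵥ y) = qp' y := by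
  have hsp := (Symp.mem_sp_iff D).1 hD
  have h2 : (2 : F) = 0 := CharTwo.two_eq_zero
  let G1 : (Fin m ⊕ Fin m → F) →+ F :=
    { toFun := fun y => (∑ j, B j * y j) ^ 2
      map_zero' := by simp
      map_add' := by
        intro x y
        simp only [Pi.add_apply, mul_add, Finset.sum_add_distrib]
        exact CharTwo.add_sq _ _ }
  let G2 : (Fin m ⊕ Fin m → F) →+ F :=
    { toFun := fun y => qp' y + qp' (D *ᵥ y)
      map_zero' := by simp [qp']
      map_add' := by
        intro x y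
        rw [Matrix.mulVec_add, qp'_add, qp'_add, hsp]
        linear_combination (Symp.om x y) * h2 }
  have hG : G1 = G2 := by
    apply AddMonoidHom.functions_ext
    intro j c
    show (∑ j', B j' * (Pi.single j c : Fin m ⊕ Fin m → F) j') ^ 2
      = qp' (Pi.single j c) + qp' (D *ᵥ Pi.single j c)
    have hs : (Pi.single j c : Fin m ⊕ Fin m → F) = c • Pi.single j 1 := by
      funext k
      by_cases hk : k = j
      · subst hk; simp
      · simp [Pi.single_apply, hk]
    rw [Finset.sum_eq_single j (by intro k _ hk; simp [Pi.single_apply, hk]) (by simp)]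
    rw [hs, Matrix.mulVec_smul, qp'_smul, qp'_smul, qp'_single, ← hB]
    simp only [Pi.smul_apply, Pi.single_eq_same, smul_eq_mul, mul_one, mul_zero, zero_add]
    ring
  have h3 := DFunLike.congr_fun hG y
  change (∑ j, B j * y j) ^ 2 = qp' y + qp' (D *ᵥ y) at h3
  rw [h3]
  linear_combination (qp' (D *ᵥ y)) * h2

theorem toSp_surjective [Fintype F] : Function.Surjective (toSp (F := F) (m := m)) := by
  intro D
  choose B hB using fun j => exists_sqrt (qp' (D.1 *ᵥ Pi.single j (1 : F)))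
  obtain ⟨M, hM⟩ : ∃ M : Matrix (Unit ⊕ (Fin m ⊕ Fin m)) (Unit ⊕ (Fin m ⊕ Fin m)) F,
      M = Matrix.fromBlocks 1 (Matrix.of fun _ j => B j) 0 D.1 := ⟨_, rfl⟩
  have hdet : IsUnit M.det := by
    rw [hM, Matrix.det_fromBlocks_zero₂₁, Matrix.det_one, one_mul]
    exact SymplecticGroup.symplectic_det D.2
  have hblock : M.toBlocks₂₂ = D.1 := by rw [hM, Matrix.toBlocks_fromBlocks₂₂]
  have hO : IsO M := by
    apply isO_of
    · rw [hM]; simp
    · intro k; rw [hM]; simp
    · intro y
      rw [hblock]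
      have := row_identity D.1 D.2 B hB y
      rw [hM]
      simpa using this
  refine ⟨⟨Matrix.GeneralLinearGroup.mk'' M hdet, (mem_iso_iff _).2 hO⟩, ?_⟩
  apply Subtype.ext
  exact hblock

theorem iso_sp [Fintype F] :
    Nonempty (Cfsg.isometryGroup F (Cfsg.quadFormOdd m F) ≃* symplecticGroup (Fin m) F) :=
  ⟨MulEquiv.ofBijective toSp ⟨toSp_injective, toSp_surjective⟩⟩

end Cfsg.Agent.Lib.Helper1.OSp
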