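import Mathlib
import Cfsg.Agent.Lib.Helper1.Orth6
import Cfsg.Agent.Lib.Helper1.Dih2

namespace Cfsg.Agent.Lib.Helper1.Orth

variable {F : Type*} [Field F]

def hQ (p : F × F) : F := p.1 * p.2

def phiP (F : Type*) [Field F] : (Fin 1 ⊕ Fin 1 → F) ≃ₗ[F] F × F where
  toFun v := (v (.inl 0), v (.inr 0))
  invFun p := Sum.elim (fun _ => p.1) (fun _ => p.2)
  map_add' u v := rfl
  map_smul' c v := rfl
  left_inv v := by
    funext j
    rcases j with i | i
    · fin_cases i; rfl
    · fin_cases i; rfl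
  right_inv p := rfl

theorem phiP_q (v : Fin 1 ⊕ Fin 1 → F) : hQ (phiP F v) = Cfsg.quadFormPlus 1 F v := by
  show v (.inl 0) * v (.inr 0) = ∑ i : Fin 1, v (.inl i) * v (.inr i)
  simp

def diagHom (F : Type*) [Field F] : Fˣ →* ((F × F) ≃ₗ[F] (F × F)) where
  toFun c :=
    { toFun := fun p => ((c : F) * p.1, ((c⁻¹ : Fˣ) : F) * p.2)
      map_add' := by intro p q; ext <;> simp [mul_add]
      map_smul' := by intro r p; ext <;> simp [mul_left_comm]
      invFun := fun p => (((c⁻¹ : Fˣ) : F) * p.1, (c : F) * p.2)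
      left_inv := by intro p; ext <;> simp
      right_inv := by intro p; ext <;> simp }
  map_one' := by
    apply LinearEquiv.ext; intro p
    refine Prod.ext ?_ ?_ <;> simp
  map_mul' c d := by
    apply LinearEquiv.ext; intro p
    refine Prod.ext ?_ ?_
    · show ((c * d : Fˣ) : F) * p.1 = (c : F) * ((d : F) * p.1)
      rw [Units.val_mul, mul_assoc]
    · show (((c * d)⁻¹ : Fˣ) : F) * p.2 = ((c⁻¹ : Fˣ) : F) * (((d⁻¹ : Fˣ) : F) * p.2)
      rw [mul_inv, Units.val_mul, mul_assoc]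

theorem diagHom_apply (c : Fˣ) (p : F × F) :
    diagHom F c p = ((c : F) * p.1, ((c⁻¹ : Fˣ) : F) * p.2) := rfl

theorem diag_mem (c : Fˣ) : diagHom F c ∈ OQ (hQ (F := F)) := by
  intro p
  rw [diagHom_apply]
  unfold hQ
  show (c : F) * p.1 * (((c⁻¹ : Fˣ) : F) * p.2) = p.1 * p.2
  rw [mul_mul_mul_comm, Units.mul_inv, one_mul]

def swapE (F : Type*) [Field F] : (F × F) ≃ₗ[F] (F × F) := LinearEquiv.prodComm F F F

theorem swapE_apply (p : F × F) : swapE F p = (p.2, p.1) := rfl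

theorem swap_mem : swapE F ∈ OQ (hQ (F := F)) := by
  intro p
  rw [swapE_apply]
  unfold hQ
  exact mul_comm _ _

theorem hQ_decomp (g : (F × F) ≃ₗ[F] (F × F)) (hg : g ∈ OQ (hQ (F := F))) :
    ∃ c : Fˣ, g = diagHom F c ∨ g = diagHom F c * swapE F := by
  have e1 := mem_OQ.1 hg (1, 0)
  have e2 := mem_OQ.1 hg (0, 1)
  have e3 := mem_OQ.1 hg (1, 1)
  have h11 : ((1 : F), (1 : F)) = (1, 0) + (0, 1) := by simp
  rw [h11, map_add] at e3
  unfold hQ at e1 e2 e3
  simp only [mul_zero, zero_mul, Prod.fst_add, Prod.snd_add, add_zero, zero_add,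
    mul_one] at e1 e2 e3
  have hp : ∀ p : F × F, g p = p.1 • g (1, 0) + p.2 • g (0, 1) := by
    intro p
    rw [← map_smul, ← map_smul, ← map_add]
    congr 1
    refine Prod.ext ?_ ?_ <;> simp
  have e4 : (g (1, 0)).1 * (g (0, 1)).2 + (g (0, 1)).1 * (g (1, 0)).2 = 1 := by
    linear_combination e3 - e1 - e2
  by_cases hp0 : (g (1, 0)).1 = 0
  · have hr : (g (0, 1)).1 * (g (1, 0)).2 = 1 := by rw [hp0] at e4; simpa using e4
    have hs : (g (0, 1)).1 ≠ 0 := by
      intro h; rw [h, zero_mul] at hr; exact zero_ne_one hr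
    have ht : (g (0, 1)).2 = 0 := by
      rcases mul_eq_zero.1 e2 with h | h
      · exact absurd h hs
      · exact h
    refine ⟨Units.mk0 _ hs, Or.inr ?_⟩
    apply LinearEquiv.ext; intro p
    rw [hp p, LinearEquiv.mul_apply, swapE_apply, diagHom_apply]
    have hinv : ((Units.mk0 _ hs)⁻¹ : Fˣ).1 = (g (1, 0)).2 := by
      rw [Units.val_inv_eq_inv_val, Units.val_mk0]
      exact inv_eq_of_mul_eq_one_right hr
    refine Prod.ext ?_ ?_
    · simp [hp0, mul_comm]
    · rw [hinv]; simp [ht, mul_comm]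
  · have hr : (g (1, 0)).2 = 0 := by
      rcases mul_eq_zero.1 e1 with h | h
      · exact absurd h hp0
      · exact h
    have hpt : (g (1, 0)).1 * (g (0, 1)).2 = 1 := by rw [hr] at e4; simpa using e4
    have ht : (g (0, 1)).2 ≠ 0 := by
      intro h; rw [h, mul_zero] at hpt; exact zero_ne_one hpt
    have hs : (g (0, 1)).1 = 0 := by
      rcases mul_eq_zero.1 e2 with h | h
      · exact h
      · exact absurd h ht
    refine ⟨Units.mk0 _ hp0, Or.inl ?_⟩
    apply LinearEquiv.ext; intro p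
    rw [hp p, diagHom_apply]
    have hinv : ((Units.mk0 _ hp0)⁻¹ : Fˣ).1 = (g (0, 1)).2 := by
      rw [Units.val_inv_eq_inv_val, Units.val_mk0]
      exact inv_eq_of_mul_eq_one_right hpt
    refine Prod.ext ?_ ?_
    · simp [hs, mul_comm]
    · rw [hinv]; simp [hr, mul_comm]

def rhoP (F : Type*) [Field F] : Fˣ →* OQ (hQ (F := F)) where
  toFun c := ⟨diagHom F c, diag_mem c⟩
  map_one' := Subtype.ext (map_one (diagHom F))
  map_mul' u v := Subtype.ext (map_mul (diagHom F) u v)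

theorem rhoP_injective : Function.Injective (rhoP F) := by
  intro u v h
  have h1 := congrArg (fun g : OQ (hQ (F := F)) => (g.1 (1, 0)).1) h
  simp only [rhoP, MonoidHom.coe_mk, OneHom.coe_mk, diagHom_apply, mul_one] at h1
  exact Units.ext h1

theorem hQ_dihedral [Fintype F] :
    Nonempty (OQ (hQ (F := F)) ≃* DihedralGroup (Fintype.card F - 1)) := by
  classical
  obtain ⟨u0, hu0⟩ := IsCyclic.exists_generator (α := Fˣ)
  have ho : orderOf u0 = Fintype.card F - 1 := by
    rw [orderOf_eq_card_of_forall_mem_zpowers hu0, Nat.card_units, Nat.card_eq_fintype_card]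
  obtain ⟨α, hαdef⟩ : ∃ α : OQ (hQ (F := F)), α = rhoP F u0 := ⟨_, rfl⟩
  obtain ⟨β, hβdef⟩ : ∃ β : OQ (hQ (F := F)), β = ⟨swapE F, swap_mem⟩ := ⟨_, rfl⟩
  have hα : orderOf α = Fintype.card F - 1 := by
    rw [hαdef, orderOf_injective (rhoP F) rhoP_injective, ho]
  have hb : β * β = 1 := by
    rw [hβdef]
    apply Subtype.ext; apply LinearEquiv.ext; intro z
    rfl
  have hbinv : β⁻¹ = β := inv_eq_of_mul_eq_one_left hb
  have hconj : ∀ u : Fˣ, β * rhoP F u * β⁻¹ = (rhoP F u)⁻¹ := by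
    intro u
    rw [hbinv, ← map_inv, hβdef]
    apply Subtype.ext; apply LinearEquiv.ext; intro z
    show swapE F (diagHom F u (swapE F z)) = diagHom F u⁻¹ z
    rw [swapE_apply, diagHom_apply, swapE_apply, diagHom_apply, inv_inv]
  have hzp : ∀ u : Fˣ, rhoP F u ∈ Subgroup.zpowers α := by
    intro u
    obtain ⟨k, hk⟩ := Subgroup.mem_zpowers_iff.1 (hu0 u)
    rw [← hk, map_zpow, hαdef]
    exact Subgroup.zpow_mem_zpowers _ k
  have hβ : β ∉ Subgroup.zpowers α := by
    intro hmem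
    obtain ⟨k, hk⟩ := Subgroup.mem_zpowers_iff.1 hmem
    have h1 : β = rhoP F (u0 ^ k) := by rw [map_zpow, ← hαdef]; exact hk.symm
    rw [hβdef] at h1
    have h2 := congrArg (fun g : OQ (hQ (F := F)) => (g.1 (1, 0)).2) h1
    simp only [rhoP, MonoidHom.coe_mk, OneHom.coe_mk, diagHom_apply, swapE_apply, mul_zero] at h2
    exact one_ne_zero h2
  have hgen : ∀ g : OQ (hQ (F := F)),
      g ∈ Subgroup.zpowers α ∨ β⁻¹ * g ∈ Subgroup.zpowers α := by
    intro g
    obtain ⟨u, hg | hg⟩ := hQ_decomp g.1 g.2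
    · left
      have : g = rhoP F u := Subtype.ext hg
      rw [this]; exact hzp _
    · right
      have : g = rhoP F u * β := by rw [hβdef]; exact Subtype.ext hg
      have h5 := hconj u
      rw [hbinv] at h5 ⊢
      rw [this, ← mul_assoc, h5]
      exact inv_mem (hzp _)
  haveI : NeZero (Fintype.card F - 1) :=
    ⟨by have : 2 ≤ Fintype.card F := Fintype.one_lt_card; omega⟩
  have hc := hconj u0
  rw [← hαdef] at hc
  exact Dih2.dih_recognize2 (Fintype.card F - 1) α β hα hb hc hβ hgen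

theorem plus_one_dihedral [Fintype F] :
    Nonempty (Cfsg.isometryGroup F (Cfsg.quadFormPlus 1 F)
      ≃* DihedralGroup (Fintype.card F - 1)) := by
  obtain ⟨e⟩ := hQ_dihedral (F := F)
  exact ⟨((isoOQ (Cfsg.quadFormPlus 1 F)).trans (congrOQ (phiP F) phiP_q)).trans e⟩

end Cfsg.Agent.Lib.Helper1.Orth
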