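import Mathlib

set_option autoImplicit false

namespace Cfsg.Agent.Lib.Helper1.P1

open Matrix

variable {F : Type*} [Field F]

def dt (u v : Fin 2 → F) : F := u 0 * v 1 - u 1 * v 0

theorem ne_zero_cases (v : Fin 2 → F) (hv : v ≠ 0) : v 0 ≠ 0 ∨ v 1 ≠ 0 := by
  by_contra h
  simp only [not_or, not_not] at h
  apply hv
  exact funext (Fin.forall_fin_two.2 ⟨h.1, h.2⟩)

theorem mk_eq_iff (u v : Fin 2 → F) (hu : u ≠ 0) (hv : v ≠ 0) :
    Projectivization.mk F u hu = Projectivization.mk F v hv ↔ dt u v = 0 := by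
  rw [Projectivization.mk_eq_mk_iff']
  constructor
  · rintro ⟨a, rfl⟩
    simp only [dt, Pi.smul_apply, smul_eq_mul]
    ring
  · intro h
    rw [dt] at h
    rcases ne_zero_cases v hv with h0 | h1
    · refine ⟨u 0 / v 0, funext (Fin.forall_fin_two.2 ⟨?_, ?_⟩)⟩
      · simp only [Pi.smul_apply, smul_eq_mul]
        field_simp
      · simp only [Pi.smul_apply, smul_eq_mul]
        field_simp
        linear_combination h
    · refine ⟨u 1 / v 1, funext (Fin.forall_fin_two.2 ⟨?_, ?_⟩)⟩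
      · simp only [Pi.smul_apply, smul_eq_mul]
        field_simp
        linear_combination -h
      · simp only [Pi.smul_apply, smul_eq_mul]
        field_simp

def e1 : Fin 2 → F := ![1, 0]

def e2 : Fin 2 → F := ![0, 1]

def e12 : Fin 2 → F := ![1, 1]

theorem e1_ne : (e1 : Fin 2 → F) ≠ 0 := fun h => one_ne_zero (congrFun h 0)

theorem e2_ne : (e2 : Fin 2 → F) ≠ 0 := fun h => one_ne_zero (congrFun h 1)

theorem e12_ne : (e12 : Fin 2 → F) ≠ 0 := fun h => one_ne_zero (congrFun h 0)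

def pInf : Projectivization F (Fin 2 → F) := Projectivization.mk F e1 e1_ne

def pZero : Projectivization F (Fin 2 → F) := Projectivization.mk F e2 e2_ne

def pOne : Projectivization F (Fin 2 → F) := Projectivization.mk F e12 e12_ne

theorem exists_gl (u v w : Fin 2 → F) (huv : dt u v ≠ 0) (hwv : dt w v ≠ 0) (huw : dt u w ≠ 0) :
    ∃ g : GL (Fin 2) F, (g : Matrix (Fin 2) (Fin 2) F) *ᵥ e1 = dt w v • u ∧
      (g : Matrix (Fin 2) (Fin 2) F) *ᵥ e2 = dt u w • v ∧
      (g : Matrix (Fin 2) (Fin 2) F) *ᵥ e12 = dt u v • w := by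
  have hdet : (!![dt w v * u 0, dt u w * v 0; dt w v * u 1, dt u w * v 1] :
      Matrix (Fin 2) (Fin 2) F).det ≠ 0 := by
    rw [Matrix.det_fin_two_of]
    have : dt w v * u 0 * (dt u w * v 1) - dt u w * v 0 * (dt w v * u 1) =
        dt w v * dt u w * dt u v := by
      simp only [dt]
      ring
    rw [this]
    exact mul_ne_zero (mul_ne_zero hwv huw) huv
  refine ⟨Matrix.GeneralLinearGroup.mkOfDetNeZero _ hdet, ?_, ?_, ?_⟩
  · change !![dt w v * u 0, dt u w * v 0; dt w v * u 1, dt u w * v 1] *ᵥ e1 = _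
    refine funext (Fin.forall_fin_two.2 ⟨?_, ?_⟩)
    · simp [Matrix.mulVec, dotProduct, Fin.sum_univ_two, e1]
    · simp [Matrix.mulVec, dotProduct, Fin.sum_univ_two, e1]
  · change !![dt w v * u 0, dt u w * v 0; dt w v * u 1, dt u w * v 1] *ᵥ e2 = _
    refine funext (Fin.forall_fin_two.2 ⟨?_, ?_⟩)
    · simp [Matrix.mulVec, dotProduct, Fin.sum_univ_two, e2]
    · simp [Matrix.mulVec, dotProduct, Fin.sum_univ_two, e2]
  · change !![dt w v * u 0, dt u w * v 0; dt w v * u 1, dt u w * v 1] *ᵥ e12 = _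
    refine funext (Fin.forall_fin_two.2 ⟨?_, ?_⟩)
    · simp [Matrix.mulVec, dotProduct, Fin.sum_univ_two, e12, dt]
      ring
    · simp [Matrix.mulVec, dotProduct, Fin.sum_univ_two, e12, dt]
      ring

theorem exists_pgl (a b c : Projectivization F (Fin 2 → F)) (hab : a ≠ b) (hac : a ≠ c)
    (hbc : b ≠ c) :
    ∃ g : Matrix.ProjGenLinGroup (Fin 2) F, g • pInf = a ∧ g • pZero = b ∧ g • pOne = c := by
  induction a using Projectivization.ind with | _ u hu =>
  induction b using Projectivization.ind with | _ v hv =>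
  induction c using Projectivization.ind with | _ w hw =>
  have huv : dt u v ≠ 0 := fun h => hab ((mk_eq_iff u v hu hv).2 h)
  have huw : dt u w ≠ 0 := fun h => hac ((mk_eq_iff u w hu hw).2 h)
  have hwv : dt w v ≠ 0 := fun h => hbc ((mk_eq_iff w v hw hv).2 h).symm
  obtain ⟨g, h1, h2, h3⟩ := exists_gl u v w huv hwv huw
  refine ⟨Matrix.ProjGenLinGroup.mk g, ?_, ?_, ?_⟩
  · rw [pInf, Projectivization.PGL.mk_smul_mk, Projectivization.mk_eq_mk_iff']
    exact ⟨dt w v, h1.symm⟩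
  · rw [pZero, Projectivization.PGL.mk_smul_mk, Projectivization.mk_eq_mk_iff']
    exact ⟨dt u w, h2.symm⟩
  · rw [pOne, Projectivization.PGL.mk_smul_mk, Projectivization.mk_eq_mk_iff']
    exact ⟨dt u v, h3.symm⟩

theorem fix_std (g : Matrix.ProjGenLinGroup (Fin 2) F) (h1 : g • pInf = (pInf : Projectivization F (Fin 2 → F)))
    (h2 : g • pZero = (pZero : Projectivization F (Fin 2 → F)))
    (h3 : g • pOne = (pOne : Projectivization F (Fin 2 → F))) : g = 1 := by
  induction g using Matrix.ProjGenLinGroup.induction_on with | _ M =>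
  rw [pInf, Projectivization.PGL.mk_smul_mk, mk_eq_iff] at h1
  rw [pZero, Projectivization.PGL.mk_smul_mk, mk_eq_iff] at h2
  rw [pOne, Projectivization.PGL.mk_smul_mk, mk_eq_iff] at h3
  have h10 : (M : Matrix (Fin 2) (Fin 2) F) 1 0 = 0 := by
    have : dt (M • (e1 : Fin 2 → F)) e1 = -(M : Matrix (Fin 2) (Fin 2) F) 1 0 := by
      change dt ((M : Matrix (Fin 2) (Fin 2) F) *ᵥ e1) e1 = _
      simp [dt, Matrix.mulVec, dotProduct, Fin.sum_univ_two, e1]
    rw [this] at h1
    exact neg_eq_zero.1 h1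
  have h01 : (M : Matrix (Fin 2) (Fin 2) F) 0 1 = 0 := by
    have : dt (M • (e2 : Fin 2 → F)) e2 = (M : Matrix (Fin 2) (Fin 2) F) 0 1 := by
      change dt ((M : Matrix (Fin 2) (Fin 2) F) *ᵥ e2) e2 = _
      simp [dt, Matrix.mulVec, dotProduct, Fin.sum_univ_two, e2]
    rw [this] at h2
    exact h2
  have h00 : (M : Matrix (Fin 2) (Fin 2) F) 0 0 = (M : Matrix (Fin 2) (Fin 2) F) 1 1 := by
    have : dt (M • (e12 : Fin 2 → F)) e12 = (M : Matrix (Fin 2) (Fin 2) F) 0 0 -
        (M : Matrix (Fin 2) (Fin 2) F) 1 1 := by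
      change dt ((M : Matrix (Fin 2) (Fin 2) F) *ᵥ e12) e12 = _
      simp [dt, Matrix.mulVec, dotProduct, Fin.sum_univ_two, e12, h10, h01]
    rw [this] at h3
    exact sub_eq_zero.1 h3
  have hdet := (Matrix.isUnits_det_units M).ne_zero
  rw [Matrix.det_fin_two, h10, mul_zero, sub_zero] at hdet
  have hne : (M : Matrix (Fin 2) (Fin 2) F) 0 0 ≠ 0 := left_ne_zero_of_mul hdet
  have hM : M = Matrix.GeneralLinearGroup.scalar (Fin 2) (Units.mk0 _ hne) := by
    apply Units.ext
    rw [Matrix.GeneralLinearGroup.coe_scalar]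
    ext i j
    fin_cases i <;> fin_cases j <;> simp [h10, h01, ← h00]
  rw [hM, Matrix.ProjGenLinGroup.mk_scalar]

theorem pgl_sharp (g : Matrix.ProjGenLinGroup (Fin 2) F) (a b c : Projectivization F (Fin 2 → F))
    (hab : a ≠ b) (hac : a ≠ c) (hbc : b ≠ c) (ha : g • a = a) (hb : g • b = b) (hc : g • c = c) :
    g = 1 := by
  obtain ⟨k, ka, kb, kc⟩ := exists_pgl a b c hab hac hbc
  have hfix : k⁻¹ * g * k = 1 := by
    apply fix_std
    · rw [mul_smul, mul_smul, ka, ha, inv_smul_eq_iff, ka]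
    · rw [mul_smul, mul_smul, kb, hb, inv_smul_eq_iff, kb]
    · rw [mul_smul, mul_smul, kc, hc, inv_smul_eq_iff, kc]
  have e : g = k * (k⁻¹ * g * k) * k⁻¹ := by group
  rw [e, hfix]
  group

theorem pgl_three_trans :
    MulAction.IsMultiplyPretransitive (Matrix.ProjGenLinGroup (Fin 2) F)
      (Projectivization F (Fin 2 → F)) 3 := by
  refine ⟨fun x y => ?_⟩
  obtain ⟨gx, hx0, hx1, hx2⟩ := exists_pgl (x 0) (x 1) (x 2) (x.injective.ne (by decide))
    (x.injective.ne (by decide)) (x.injective.ne (by decide))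
  obtain ⟨gy, hy0, hy1, hy2⟩ := exists_pgl (y 0) (y 1) (y 2) (y.injective.ne (by decide))
    (y.injective.ne (by decide)) (y.injective.ne (by decide))
  refine ⟨gy * gx⁻¹, ?_⟩
  apply DFunLike.ext
  intro i
  rw [Function.Embedding.smul_apply]
  fin_cases i
  · change (gy * gx⁻¹) • x 0 = y 0
    rw [mul_smul, ← hx0, inv_smul_smul, hy0]
  · change (gy * gx⁻¹) • x 1 = y 1
    rw [mul_smul, ← hx1, inv_smul_smul, hy1]
  · change (gy * gx⁻¹) • x 2 = y 2
    rw [mul_smul, ← hx2, inv_smul_smul, hy2]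

end Cfsg.Agent.Lib.Helper1.P1
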