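import Mathlib
import Cfsg.Agent.Lib.Helper1.P1

set_option autoImplicit false

namespace Cfsg.Agent.Lib.Helper1.P1

open Matrix

variable {F : Type*} [Field F]

theorem sl_smul_mk (s : SpecialLinearGroup (Fin 2) F) (v : Fin 2 → F) (hv : v ≠ 0) :
    s • Projectivization.mk F v hv =
      Projectivization.mk F ((s : Matrix (Fin 2) (Fin 2) F) *ᵥ v)
        ((smul_ne_zero_iff_ne s).mpr hv) := rfl

theorem exists_sl_of_square (M : GL (Fin 2) F)
    (hsq : IsSquare (M : Matrix (Fin 2) (Fin 2) F).det) :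
    ∃ s : SpecialLinearGroup (Fin 2) F, ∀ p : Projectivization F (Fin 2 → F),
      s • p = Matrix.ProjGenLinGroup.mk M • p := by
  obtain ⟨e, he⟩ := hsq
  have hdet := (Matrix.isUnits_det_units M).ne_zero
  have he0 : e ≠ 0 := by
    rintro rfl
    rw [mul_zero] at he
    exact hdet he
  have hs : (e⁻¹ • (M : Matrix (Fin 2) (Fin 2) F)).det = 1 := by
    rw [Matrix.det_smul, Fintype.card_fin, he]
    field_simp
  obtain ⟨s, hsv⟩ : ∃ s : SpecialLinearGroup (Fin 2) F,
      (s : Matrix (Fin 2) (Fin 2) F) = e⁻¹ • (M : Matrix (Fin 2) (Fin 2) F) := ⟨⟨_, hs⟩, rfl⟩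
  refine ⟨s, ?_⟩
  intro p
  induction p using Projectivization.ind with | _ v hv =>
  rw [sl_smul_mk, Projectivization.PGL.mk_smul_mk, Projectivization.mk_eq_mk_iff']
  refine ⟨e⁻¹, ?_⟩
  change e⁻¹ • ((M : Matrix (Fin 2) (Fin 2) F) *ᵥ v) = (s : Matrix (Fin 2) (Fin 2) F) *ᵥ v
  rw [hsv, Matrix.smul_mulVec]

theorem emb3_inj {α : Type*} (a b c : α) (hab : a ≠ b) (hac : a ≠ c) (hbc : b ≠ c) :
    Function.Injective ![a, b, c] := by
  intro i j h
  fin_cases i <;> fin_cases j
  · rfl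
  · exact absurd h hab
  · exact absurd h hac
  · exact absurd h.symm hab
  · rfl
  · exact absurd h hbc
  · exact absurd h.symm hac
  · exact absurd h.symm hbc
  · rfl

def emb3 {α : Type*} (a b c : α) (hab : a ≠ b) (hac : a ≠ c) (hbc : b ≠ c) : Fin 3 ↪ α :=
  ⟨![a, b, c], emb3_inj a b c hab hac hbc⟩

theorem sl_three_trans_of_char_two [Finite F] (h2 : ringChar F = 2) :
    MulAction.IsMultiplyPretransitive (SpecialLinearGroup (Fin 2) F)
      (Projectivization F (Fin 2 → F)) 3 := by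
  refine ⟨fun x y => ?_⟩
  obtain ⟨g, hg⟩ := (pgl_three_trans (F := F)).exists_smul_eq x y
  induction g using Matrix.ProjGenLinGroup.induction_on with | _ M =>
  obtain ⟨s, hs⟩ := exists_sl_of_square M (FiniteField.isSquare_of_char_two h2 _)
  refine ⟨s, ?_⟩
  apply DFunLike.ext
  intro i
  rw [Function.Embedding.smul_apply, hs, ← Function.Embedding.smul_apply, hg]

theorem char_two_of_sl_three_trans [Finite F]
    (h : MulAction.IsMultiplyPretransitive (SpecialLinearGroup (Fin 2) F)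
      (Projectivization F (Fin 2 → F)) 3) : ringChar F = 2 := by
  by_contra hchar
  obtain ⟨n, hn⟩ := FiniteField.exists_nonsquare hchar
  have hn0 : n ≠ 0 := by
    rintro rfl
    exact hn ⟨0, by simp⟩
  have hvn : (![n, 1] : Fin 2 → F) ≠ 0 := fun h => one_ne_zero (congrFun h 1)
  have d12 : (pInf : Projectivization F (Fin 2 → F)) ≠ pZero := by
    rw [pInf, pZero, Ne, mk_eq_iff]
    simp [dt, e1, e2]
  have d13 : (pInf : Projectivization F (Fin 2 → F)) ≠ pOne := by
    rw [pInf, pOne, Ne, mk_eq_iff]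
    simp [dt, e1, e12]
  have d23 : (pZero : Projectivization F (Fin 2 → F)) ≠ pOne := by
    rw [pZero, pOne, Ne, mk_eq_iff]
    simp [dt, e2, e12]
  have d1n : (pInf : Projectivization F (Fin 2 → F)) ≠ Projectivization.mk F ![n, 1] hvn := by
    rw [pInf, Ne, mk_eq_iff]
    simp [dt, e1]
  have d2n : (pZero : Projectivization F (Fin 2 → F)) ≠ Projectivization.mk F ![n, 1] hvn := by
    rw [pZero, Ne, mk_eq_iff]
    simp [dt, e2, hn0]
  obtain ⟨s, hs⟩ := h.exists_smul_eq (emb3 pInf pZero pOne d12 d13 d23)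
    (emb3 pInf pZero (Projectivization.mk F ![n, 1] hvn) d12 d1n d2n)
  have h1 : s • (pInf : Projectivization F (Fin 2 → F)) = pInf := by
    have := congrArg (fun f : Fin 3 ↪ Projectivization F (Fin 2 → F) => f 0) hs
    exact this
  have h2 : s • (pZero : Projectivization F (Fin 2 → F)) = pZero := by
    have := congrArg (fun f : Fin 3 ↪ Projectivization F (Fin 2 → F) => f 1) hs
    exact this
  have h3 : s • (pOne : Projectivization F (Fin 2 → F)) = Projectivization.mk F ![n, 1] hvn := by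
    have := congrArg (fun f : Fin 3 ↪ Projectivization F (Fin 2 → F) => f 2) hs
    exact this
  rw [pInf, sl_smul_mk, mk_eq_iff] at h1
  rw [pZero, sl_smul_mk, mk_eq_iff] at h2
  rw [pOne, sl_smul_mk, mk_eq_iff] at h3
  have h10 : (s : Matrix (Fin 2) (Fin 2) F) 1 0 = 0 := by
    have : dt ((s : Matrix (Fin 2) (Fin 2) F) *ᵥ e1) e1 = -(s : Matrix (Fin 2) (Fin 2) F) 1 0 := by
      simp [dt, Matrix.mulVec, dotProduct, Fin.sum_univ_two, e1]
    rw [this] at h1
    exact neg_eq_zero.1 h1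
  have h01 : (s : Matrix (Fin 2) (Fin 2) F) 0 1 = 0 := by
    have : dt ((s : Matrix (Fin 2) (Fin 2) F) *ᵥ e2) e2 = (s : Matrix (Fin 2) (Fin 2) F) 0 1 := by
      simp [dt, Matrix.mulVec, dotProduct, Fin.sum_univ_two, e2]
    rw [this] at h2
    exact h2
  have h00 : (s : Matrix (Fin 2) (Fin 2) F) 0 0 = n * (s : Matrix (Fin 2) (Fin 2) F) 1 1 := by
    have : dt ((s : Matrix (Fin 2) (Fin 2) F) *ᵥ e12) ![n, 1] =
        (s : Matrix (Fin 2) (Fin 2) F) 0 0 - n * (s : Matrix (Fin 2) (Fin 2) F) 1 1 := by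
      simp [dt, Matrix.mulVec, dotProduct, Fin.sum_univ_two, e12, h10, h01]
      ring
    rw [this] at h3
    exact sub_eq_zero.1 h3
  have hdet := s.2
  rw [Matrix.det_fin_two, h10, mul_zero, sub_zero, h00] at hdet
  have h11 : (s : Matrix (Fin 2) (Fin 2) F) 1 1 ≠ 0 := by
    intro h0
    rw [h0, mul_zero] at hdet
    exact zero_ne_one hdet
  apply hn
  refine ⟨((s : Matrix (Fin 2) (Fin 2) F) 1 1)⁻¹, ?_⟩
  field_simp
  linear_combination hdet

end Cfsg.Agent.Lib.Helper1.P1
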