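import Mathlib
import Cfsg.Agent.Lib.Helper1.UniqP

namespace Cfsg.Agent.Lib.Helper1.PG

theorem exists_normal_step {P : Type*} [Group P] [Finite P] {p : ℕ} [Fact p.Prime]
    (hP : IsPGroup p P) (K A : Subgroup P) [K.Normal] [A.Normal] (hKA : K ≤ A) (hne : K ≠ A)
    (hAe : ∀ a ∈ A, a ^ p = 1) :
    ∃ K' : Subgroup P, K'.Normal ∧ K' ≤ A ∧ Nat.card K' = p * Nat.card K := by
  have hp : p.Prime := Fact.out
  haveI : Group.IsNilpotent P := hP.isNilpotent
  have hAK : ¬ A ≤ K := fun h => hne (le_antisymm hKA h)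
  obtain ⟨x, hxA, hxK, hx⟩ := Cfsg.Agent.Lib.Helper1.UniqP.nil_step K A hAK
  set π := QuotientGroup.mk' K with hπ
  have hπ1 : ∀ z : P, π z = 1 ↔ z ∈ K := fun z => QuotientGroup.eq_one_iff z
  have hcent : ∀ z : P ⧸ K, π x * z = z * π x := by
    intro z
    obtain ⟨g, rfl⟩ := QuotientGroup.mk'_surjective K z
    have h1 := (hπ1 _).2 (hx g)
    rw [map_mul, map_mul, map_mul, map_inv, map_inv] at h1
    have h2 := mul_inv_eq_one.1 h1
    exact mul_inv_eq_iff_eq_mul.1 h2
  let K' : Subgroup P := (Subgroup.zpowers (π x)).comap π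
  have hK'n : K'.Normal := by
    haveI : (Subgroup.zpowers (π x)).Normal := by
      constructor
      intro z hz g
      obtain ⟨i, rfl⟩ := Subgroup.mem_zpowers_iff.1 hz
      have hc : Commute g (π x) := (hcent g).symm
      have := (hc.zpow_right i).eq
      rw [this, mul_inv_cancel_right]
      exact Subgroup.zpow_mem_zpowers _ i
    exact Subgroup.Normal.comap inferInstance π
  have hK'A : K' ≤ A := by
    intro b hb
    obtain ⟨i, hi⟩ := Subgroup.mem_zpowers_iff.1 (Subgroup.mem_comap.1 hb)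
    have h1 : (x ^ i)⁻¹ * b ∈ K := by
      rw [← hπ1, map_mul, map_inv, map_zpow, hi, inv_mul_cancel]
    have h2 : b = x ^ i * ((x ^ i)⁻¹ * b) := by group
    rw [h2]
    exact A.mul_mem (A.zpow_mem hxA i) (hKA h1)
  have hord : orderOf (π x) = p := by
    apply orderOf_eq_prime
    · rw [← map_pow, hAe x hxA, map_one]
    · intro h; exact hxK ((hπ1 x).1 h)
  have hcard : Nat.card K' = p * Nat.card K := by
    have h1 := K'.card_mul_index
    have h2 : K'.index = (Subgroup.zpowers (π x)).index :=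
      Subgroup.index_comap_of_surjective _ (QuotientGroup.mk'_surjective K)
    have h3 := (Subgroup.zpowers (π x)).card_mul_index
    have h4 : Nat.card (Subgroup.zpowers (π x)) = p := by rw [Nat.card_zpowers, hord]
    have h5 : Nat.card P = Nat.card (P ⧸ K) * Nat.card K :=
      Subgroup.card_eq_card_quotient_mul_card_subgroup K
    have hpos : 0 < (Subgroup.zpowers (π x)).index :=
      Nat.pos_of_ne_zero Subgroup.index_ne_zero_of_finite
    rw [h2] at h1
    rw [h4] at h3
    have : Nat.card K' * (Subgroup.zpowers (π x)).index =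
        (p * Nat.card K) * (Subgroup.zpowers (π x)).index := by
      rw [h1, h5, ← h3]; ring
    exact Nat.eq_of_mul_eq_mul_right hpos this
  exact ⟨K', hK'n, hK'A, hcard⟩

theorem exists_normal_card {P : Type*} [Group P] [Finite P] {p : ℕ} [Fact p.Prime]
    (hP : IsPGroup p P) (A : Subgroup P) [A.Normal] (hAe : ∀ a ∈ A, a ^ p = 1) :
    ∀ k : ℕ, p ^ k ≤ Nat.card A → ∃ K : Subgroup P, K.Normal ∧ K ≤ A ∧ Nat.card K = p ^ k := by
  have hp : p.Prime := Fact.out
  intro k
  induction k with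
  | zero => intro _; exact ⟨⊥, inferInstance, bot_le, by simp⟩
  | succ k ih =>
    intro hk
    have hlt : p ^ k < p ^ (k + 1) := Nat.pow_lt_pow_right hp.one_lt (Nat.lt_succ_self k)
    obtain ⟨K, hKn, hKA, hKc⟩ := ih (le_trans hlt.le hk)
    haveI := hKn
    have hne : K ≠ A := by rintro rfl; omega
    obtain ⟨K', hK'n, hK'A, hK'c⟩ := exists_normal_step hP K A hKA hne hAe
    exact ⟨K', hK'n, hK'A, by rw [hK'c, hKc, pow_succ]; ring⟩

end Cfsg.Agent.Lib.Helper1.PG
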