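import Mathlib
import Cfsg.Agent.Lib.Helper1.PSLpL4

set_option autoImplicit false

namespace Cfsg.Agent.Lib.Helper1.PSLp

open MulAction

theorem burn7 {G Ω : Type*} [Group G] [Finite G] [IsSimpleGroup G] [MulAction G Ω]
    (hG : Nat.card G = 168) {inf o : Ω} {u m g : G} {j : ℕ}
    (Z : IsZData 7 3 2 inf o u m g j)
    (g' : G) (h1 : g' • inf = o) (h2 : g' • o = inf) (h3 : g' * m = m * g') : False := by
  haveI : Fact (Nat.Prime 3) := ⟨by norm_num⟩
  have hm3 : m ^ 3 = 1 := Z.hmh
  have hm1 : m ≠ 1 := by
    intro h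
    have h4 := Z.hm 1
    rw [h, one_smul] at h4
    have := Z.hu_inj 1 (2 * 1) (by norm_num) (by norm_num) h4
    omega
  have hord : orderOf m = 3 := orderOf_eq_prime hm3 hm1
  have hcard : Nat.card (Subgroup.zpowers m) = 3 := by rw [Nat.card_zpowers, hord]
  have hP : IsPGroup 3 (Subgroup.zpowers m) := IsPGroup.of_card (n := 1) (by rw [hcard, pow_one])
  have hidx : (Subgroup.zpowers m).index = 56 := by
    have := Subgroup.index_mul_card (Subgroup.zpowers m)
    rw [hcard, hG] at this
    omega
  have hPcoe : ((hP.toSylow (by rw [hidx]; norm_num) : Sylow 3 G) : Subgroup G)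
      = Subgroup.zpowers m := IsPGroup.toSylow_coe _ _
  have hmo : m • o = o := by
    have := Z.hm 0
    simpa using this
  have hfix : ∀ x : Ω, m • x = x → x = inf ∨ x = o := by
    intro x hx
    by_cases hxi : x = inf
    · exact Or.inl hxi
    · right
      obtain ⟨k, hk, rfl⟩ := Z.hu_surj x hxi
      rw [Z.hm k, pow_eq_pow_mod (2 * k) Z.hup] at hx
      have := Z.hu_inj _ _ (Nat.mod_lt _ (by norm_num)) hk hx
      have hk0 : k = 0 := by omega
      rw [hk0]
      simp
  have hcommD : ∀ x : G, Commute x m → ∀ y ∈ Subgroup.zpowers m, y * x = x * y := by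
    intro x hx y hy
    obtain ⟨z, rfl⟩ := Subgroup.mem_zpowers_iff.mp hy
    exact ((hx.zpow_right z).eq).symm
  have hNC : Subgroup.normalizer (Subgroup.zpowers m : Set G) ≤ Subgroup.centralizer (Subgroup.zpowers m : Set G) := by
    intro x hx
    have hx' : x⁻¹ ∈ Subgroup.normalizer (Subgroup.zpowers m : Set G) := Subgroup.inv_mem _ hx
    have hxm : x⁻¹ * m * x⁻¹⁻¹ ∈ Subgroup.zpowers m :=
      (Subgroup.mem_normalizer_iff.mp hx' m).mp (Subgroup.mem_zpowers m)
    rw [inv_inv] at hxm
    obtain ⟨z, hz⟩ := Subgroup.mem_zpowers_iff.mp hxm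
    have hfixz : ∀ w : Ω, m • w = w → (m ^ z) • w = w := by
      intro w hw
      have : m ∈ stabilizer G w := hw
      exact (stabilizer G w).zpow_mem this z
    have hxi : m • (x • inf) = x • inf := by
      have h5 := hfixz inf Z.hm_inf
      rw [hz, mul_smul, mul_smul, inv_smul_eq_iff] at h5
      exact h5
    have hxo : m • (x • o) = x • o := by
      have h5 := hfixz o hmo
      rw [hz, mul_smul, mul_smul, inv_smul_eq_iff] at h5
      exact h5
    have hne : x • inf ≠ x • o := fun h => Z.ho (MulAction.injective x h).symm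
    have hcomm : Commute x m := by
      rcases hfix _ hxi with e1 | e1 <;> rcases hfix _ hxo with e2 | e2
      · exact absurd (e1.trans e2.symm) hne
      · obtain ⟨i, hi⟩ := Z.hD x e1 e2
        rw [hi]
        exact (Commute.refl m).pow_left i
      · obtain ⟨i, hi⟩ := Z.hD (g'⁻¹ * x)
          (by rw [mul_smul, e1, inv_smul_eq_iff, h1])
          (by rw [mul_smul, e2, inv_smul_eq_iff, h2])
        have hx2 : x = g' * m ^ i := by
          rw [← hi]
          group
        rw [hx2]
        have c1 : Commute g' m := h3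
        exact c1.mul_left ((Commute.refl m).pow_left i)
      · exact absurd (e1.trans e2.symm) hne
    rw [Subgroup.mem_centralizer_iff]
    intro y hy
    exact hcommD x hcomm y hy
  have hNC' : Subgroup.normalizer
      (((hP.toSylow (by rw [hidx]; norm_num) : Sylow 3 G) : Subgroup G) : Set G)
      ≤ Subgroup.centralizer
        (((hP.toSylow (by rw [hidx]; norm_num) : Sylow 3 G) : Subgroup G) : Set G) := by
    rw [hPcoe]
    exact hNC
  have hcomp := MonoidHom.ker_transferSylow_isComplement' _ hNC'
  have hc := hcomp.card_mul_card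
  have hPc : Nat.card ((hP.toSylow (by rw [hidx]; norm_num) : Sylow 3 G) : Subgroup G) = 3 := by
    rw [hPcoe]
    exact hcard
  rw [hPc, hG] at hc
  rcases (inferInstance : (MonoidHom.transferSylow
      (hP.toSylow (by rw [hidx]; norm_num) : Sylow 3 G) hNC').ker.Normal).eq_bot_or_eq_top
    with h5 | h5
  · rw [h5, Subgroup.card_bot] at hc
    omega
  · rw [h5, Subgroup.card_top, hG] at hc
    omega

end Cfsg.Agent.Lib.Helper1.PSLp
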