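import Mathlib
import Cfsg.Agent.Lib.Helper1.PSLpA

set_option autoImplicit false

namespace Cfsg.Agent.Lib.Helper1.PSLp

def dl7 (k : ℕ) : ℕ := ([0, 0, 1, 2, 2, 1, 0] : List ℕ).getD k 0

def sq7 (k : ℕ) : Bool := ([true, true, true, false, true, false, false] : List Bool).getD k true

def certTab7 : List (List ℕ) :=
  [[1, 1, 2], [1, 1, 2], [1, 1, 2], [1, 1, 2], [1, 1, 2], [1, 1, 2],
   [1, 1, 2], [1, 1, 2], [1, 1, 2], [1, 1, 2], [1, 1, 2], [1, 1, 2],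
   [1, 1, 2], [1, 1, 2], [1, 3, 5], [1, 1, 6], [1, 1, 3], [2, 1, 4, 10, 6, 10, 1, 10],
   [1, 1, 5], [2, 1, 2, 10, 6, 10, 1, 10], [2, 2, 1, 10, 6, 10, 1, 10], [1, 3, 5], [2, 2, 1, 10, 1, 10, 1, 10], [3],
   [1, 1, 5], [3], [1, 1, 3], [1, 1, 6], [1, 3, 5], [1, 1, 6],
   [1, 1, 5], [2, 1, 4, 10, 6, 10, 1, 10], [1, 1, 3], [2, 1, 2, 10, 6, 10, 1, 10], [2, 1, 1, 10, 6, 10, 1, 10], [1, 3, 5],
   [0], [2, 2, 1, 10, 1, 10, 1, 10], [1, 1, 3], [2, 2, 1, 10, 1, 10, 1, 10], [1, 1, 5], [1, 1, 6]]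

def cert7 (j : ℕ) (b : Bool) (c2 : ℕ) : List ℕ :=
  certTab7.getD ((j * 2 + (if b then 0 else 1)) * 7 + c2) []

theorem hdl7 : ∀ k < 7, 0 < k → k = ((2 ^ dl7 k * (if sq7 k then 1 else 6)) % 7) := by
  decide

theorem hchk7 : ∀ j < 3, ∀ c2 < 7,
    Chk 7 3 2 6 dl7 sq7 2 false 1 true (cert7 j true c2) j true c2 ∧
    Chk 7 3 2 6 dl7 sq7 2 false 1 true (cert7 j false c2) j false c2 := by
  decide +kernel

end Cfsg.Agent.Lib.Helper1.PSLp
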