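import Mathlib
import Cfsg.Agent.Lib.Helper1.PSLpD7
import Cfsg.Agent.Lib.Helper1.PSLpL4
import Cfsg.Agent.Lib.Helper1.PSLpB7
import Cfsg.Agent.Lib.Helper1.PermEmb

set_option autoImplicit false

namespace Cfsg.Agent.Lib.Helper1.PSLp

theorem uniq7 {G : Type*} [Group G] [Finite G] [IsSimpleGroup G] (hG : Nat.card G = 168) :
    Nonempty (G ≃* Tgrp 7 2 (Tc 7 2 dl7 sq7 2 (if false then 1 else 6) 1)) := by
  haveI : Fact (Nat.Prime 7) := ⟨by norm_num⟩
  have key : ∀ d < (7 + 1) * 3 + 1, d ∣ (7 + 1) * 3 → d % 7 = 1 → d = 1 ∨ d = 7 + 1 := by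
    decide +kernel
  have hdiv : ∀ d, d ∣ (7 + 1) * 3 → d % 7 = 1 → d = 1 ∨ d = 7 + 1 :=
    fun d hd hm => key d (Nat.lt_succ_of_le (Nat.le_of_dvd (by norm_num) hd)) hd hm
  have hA2 : ∀ e, 0 < e → e < 3 → 2 ^ e % 7 ≠ 1 :=
    fun e he0 he => (by decide : ∀ e < 3, 0 < e → 2 ^ e % 7 ≠ 1) e he he0
  exact uniq 7 3 2 6 dl7 sq7 2 false 1 true cert7 (by norm_num) (by norm_num)
    (by norm_num) (by norm_num) (by decide) hA2 hdl7 hchk7 hdiv (by rw [hG])
    (fun _ _ _ _ _ _ _ Z g' h1 h2 h3 => burn7 hG Z g' h1 h2 h3)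

theorem iso7 {G H : Type*} [Group G] [Finite G] [IsSimpleGroup G] [Group H] [Finite H]
    [IsSimpleGroup H] (hG : Nat.card G = 168) (hH : Nat.card H = 168) : Nonempty (G ≃* H) := by
  obtain ⟨e1⟩ := uniq7 hG
  obtain ⟨e2⟩ := uniq7 hH
  exact ⟨e1.trans e2.symm⟩

theorem card_psl7 {F : Type*} [Field F] [Fintype F] (hF : Fintype.card F = 7) :
    Nat.card (Matrix.ProjectiveSpecialLinearGroup (Fin 2) F) = 168 := by
  have hc := PermEmb.card_PSL2 hF
  have h2 : Nat.gcd 2 (7 - 1) = 2 := by decide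
  rw [h2] at hc
  norm_num at hc
  omega

theorem psl7 {G : Type*} [Group G] [Finite G] [IsSimpleGroup G] (hG : Nat.card G = 168)
    {F : Type*} [Field F] [Fintype F] (hF : Fintype.card F = 7) :
    Nonempty (G ≃* Matrix.ProjectiveSpecialLinearGroup (Fin 2) F) := by
  haveI := PermEmb.finite_PSL2 (F := F)
  haveI : IsSimpleGroup (Matrix.ProjectiveSpecialLinearGroup (Fin 2) F) :=
    Matrix.ProjectiveSpecialLinearGroup.rank_two_simple
      (by rw [Nat.card_eq_fintype_card, hF]; norm_num)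
  exact iso7 hG (card_psl7 hF)

end Cfsg.Agent.Lib.Helper1.PSLp
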