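import Mathlib
import Cfsg.Agent.Lib.Helper1.PSLpU7
import Cfsg.Agent.Lib.Helper1.SLn
import Cfsg.Agent.Lib.Helper1.GLn

set_option autoImplicit false

namespace Cfsg.Agent.Lib.Helper1.PSLp

theorem psl7_psl32 {F K : Type*} [Field F] [Fintype F] [Field K] [Fintype K]
    (hF : Fintype.card F = 7) (hK : Fintype.card K = 2) :
    Nonempty (Matrix.ProjectiveSpecialLinearGroup (Fin 2) F ≃*
      Matrix.ProjectiveSpecialLinearGroup (Fin 3) K) := by
  classical
  haveI := PermEmb.finite_PSL2 (F := F)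
  haveI : IsSimpleGroup (Matrix.ProjectiveSpecialLinearGroup (Fin 2) F) :=
    Matrix.ProjectiveSpecialLinearGroup.rank_two_simple
      (by rw [Nat.card_eq_fintype_card, hF]; norm_num)
  haveI : Finite (Matrix.ProjectiveSpecialLinearGroup (Fin 3) K) := by
    unfold Matrix.ProjectiveSpecialLinearGroup
    infer_instance
  haveI : IsSimpleGroup (Matrix.ProjectiveSpecialLinearGroup (Fin 3) K) :=
    SLn.isSimpleGroup_PSL (by simp)
  have hc := GLn.card_PSL_formula (F := K) 3 (by norm_num)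
  rw [hK] at hc
  have hN : Nat.card (Matrix.ProjectiveSpecialLinearGroup (Fin 3) K) = 168 := by
    obtain ⟨n, hn⟩ : ∃ n, Nat.card (Matrix.ProjectiveSpecialLinearGroup (Fin 3) K) = n :=
      ⟨_, rfl⟩
    rw [hn] at hc ⊢
    rw [Fin.prod_univ_three] at hc
    norm_num at hc
    omega
  exact iso7 (card_psl7 hF) hN

end Cfsg.Agent.Lib.Helper1.PSLp
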