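import Mathlib
import Cfsg.Agent.Lib.Helper1.PSLpD13
import Cfsg.Agent.Lib.Helper1.PSLpL4
import Cfsg.Agent.Lib.Helper1.PermEmb

set_option autoImplicit false

namespace Cfsg.Agent.Lib.Helper1.PSLp

theorem uniq13 {G : Type*} [Group G] [Finite G] [IsSimpleGroup G] (hG : Nat.card G = 1092) :
    Nonempty (G ≃* Tgrp 13 4 (Tc 13 4 dl13 sq13 5 (if true then 1 else 2) 7)) := by
  haveI : Fact (Nat.Prime 13) := ⟨by norm_num⟩
  have key : ∀ d < (13 + 1) * 6 + 1, d ∣ (13 + 1) * 6 → d % 13 = 1 → d = 1 ∨ d = 13 + 1 := by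
    decide +kernel
  have hdiv : ∀ d, d ∣ (13 + 1) * 6 → d % 13 = 1 → d = 1 ∨ d = 13 + 1 :=
    fun d hd hm => key d (Nat.lt_succ_of_le (Nat.le_of_dvd (by norm_num) hd)) hd hm
  have hA2 : ∀ e, 0 < e → e < 6 → 4 ^ e % 13 ≠ 1 :=
    fun e he0 he => (by decide : ∀ e < 6, 0 < e → 4 ^ e % 13 ≠ 1) e he he0
  exact uniq 13 6 4 2 dl13 sq13 5 true 7 false cert13 (by norm_num) (by norm_num)
    (by norm_num) (by norm_num) (by decide) hA2 hdl13 hchk13 hdiv (by rw [hG])
    (fun hb => by simp at hb)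

theorem iso13 {G H : Type*} [Group G] [Finite G] [IsSimpleGroup G] [Group H] [Finite H]
    [IsSimpleGroup H] (hG : Nat.card G = 1092) (hH : Nat.card H = 1092) : Nonempty (G ≃* H) := by
  obtain ⟨e1⟩ := uniq13 hG
  obtain ⟨e2⟩ := uniq13 hH
  exact ⟨e1.trans e2.symm⟩

theorem card_psl13 {F : Type*} [Field F] [Fintype F] (hF : Fintype.card F = 13) :
    Nat.card (Matrix.ProjectiveSpecialLinearGroup (Fin 2) F) = 1092 := by
  have hc := PermEmb.card_PSL2 hF
  have h2 : Nat.gcd 2 (13 - 1) = 2 := by decide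
  rw [h2] at hc
  norm_num at hc
  omega

theorem psl13 {G : Type*} [Group G] [Finite G] [IsSimpleGroup G] (hG : Nat.card G = 1092)
    {F : Type*} [Field F] [Fintype F] (hF : Fintype.card F = 13) :
    Nonempty (G ≃* Matrix.ProjectiveSpecialLinearGroup (Fin 2) F) := by
  haveI := PermEmb.finite_PSL2 (F := F)
  haveI : IsSimpleGroup (Matrix.ProjectiveSpecialLinearGroup (Fin 2) F) :=
    Matrix.ProjectiveSpecialLinearGroup.rank_two_simple
      (by rw [Nat.card_eq_fintype_card, hF]; norm_num)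
  exact iso13 hG (card_psl13 hF)

end Cfsg.Agent.Lib.Helper1.PSLp
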