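import Mathlib

namespace Cfsg.Agent.Lib.Helper1.PowC3

open scoped commutatorElement

variable {R : Type*} [Group R]

def EE : ℕ → ℕ
  | 0 => 0
  | (n+1) => EE n + n.choose 2 + (n + n.choose 2)

theorem two_choose (n : ℕ) : 2 * (n+1).choose 2 = (n+1) * n := by
  induction n with
  | zero => simp
  | succ n ih =>
    rw [Nat.choose_succ_succ, Nat.choose_one_right, mul_add, ih]
    ring

theorem six_EE (n : ℕ) : 6 * EE (n+1) = n * (n+1) * (2*n+1) := by
  induction n with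
  | zero => simp [EE]
  | succ n ih =>
    have h2 := two_choose n
    have : EE (n+1+1) = EE (n+1) + (n+1).choose 2 + (n + 1 + (n+1).choose 2) := rfl
    rw [this]
    have h3 : 6 * (EE (n+1) + (n+1).choose 2 + (n + 1 + (n+1).choose 2))
        = 6 * EE (n+1) + 6 * (2 * (n+1).choose 2) + 6 * (n+1) := by ring
    rw [h3, ih, h2]
    ring

theorem dvd_EE {p : ℕ} (hp : p.Prime) (h3 : 3 < p) : p ∣ EE p := by
  have hc : Nat.Coprime p 6 := by
    rw [hp.coprime_iff_not_dvd]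
    intro h
    have h6 := Nat.le_of_dvd (by norm_num) h
    interval_cases p <;> revert hp h <;> decide
  obtain ⟨n, rfl⟩ : ∃ n, p = n + 1 := ⟨p - 1, by have := hp.pos; omega⟩
  have h6 := six_EE n
  have h1 : (n+1) ∣ 6 * EE (n+1) := by
    rw [h6]; exact Dvd.dvd.mul_right (Dvd.intro_left _ rfl) _
  exact hc.dvd_of_dvd_mul_left h1

theorem mul_pow_right {c y e : R} (he : ∀ g, Commute e g) (h : c * y = y * c * e) (n : ℕ) :
    c * y ^ n = y ^ n * c * e ^ n := by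
  induction n with
  | zero => simp
  | succ n ih =>
    calc c * y ^ (n+1) = (c * y ^ n) * y := by rw [pow_succ, mul_assoc]
      _ = y ^ n * c * e ^ n * y := by rw [ih]
      _ = y ^ n * (c * y) * e ^ n := by
          rw [mul_assoc (y^n * c), ((he y).pow_left n).eq]; simp only [mul_assoc]
      _ = y ^ n * (y * c * e) * e ^ n := by rw [h]
      _ = y ^ (n+1) * c * e ^ (n+1) := by
          rw [pow_succ, pow_succ' e]; simp only [mul_assoc]

theorem pow_mul_left {c x d : R} (hd : ∀ g, Commute d g) (h : c * x = x * c * d) (a : ℕ) :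
    c ^ a * x = x * c ^ a * d ^ a := by
  induction a with
  | zero => simp
  | succ a ih =>
    calc c ^ (a+1) * x = c * (c ^ a * x) := by rw [pow_succ', mul_assoc]
      _ = c * (x * c ^ a * d ^ a) := by rw [ih]
      _ = (c * x) * c ^ a * d ^ a := by simp only [mul_assoc]
      _ = x * c * d * c ^ a * d ^ a := by rw [h]
      _ = x * c * (d * c ^ a) * d ^ a := by simp only [mul_assoc]
      _ = x * c * (c ^ a * d) * d ^ a := by rw [(hd (c ^ a)).eq]
      _ = x * c ^ (a+1) * d ^ (a+1) := by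
          rw [pow_succ', pow_succ' d]; simp only [mul_assoc]

theorem pow_mul_comm {x y c e : R} (he : ∀ g, Commute e g) (hyx : y * x = x * y * c)
    (hcy : c * y = y * c * e) (n : ℕ) :
    y ^ n * x = x * y ^ n * c ^ n * e ^ (n.choose 2) := by
  induction n with
  | zero => simp
  | succ n ih =>
    have hch : (n+1).choose 2 = n + n.choose 2 := by
      rw [Nat.choose_succ_succ, Nat.choose_one_right]
    calc y ^ (n+1) * x = y * (y ^ n * x) := by rw [pow_succ', mul_assoc]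
      _ = y * (x * y ^ n * c ^ n * e ^ (n.choose 2)) := by rw [ih]
      _ = (y * x) * y ^ n * c ^ n * e ^ (n.choose 2) := by simp only [mul_assoc]
      _ = x * y * (c * y ^ n) * c ^ n * e ^ (n.choose 2) := by rw [hyx]; simp only [mul_assoc]
      _ = x * y * (y ^ n * c * e ^ n) * c ^ n * e ^ (n.choose 2) := by
          rw [mul_pow_right he hcy]
      _ = x * y * y ^ n * c * (e ^ n * c ^ n) * e ^ (n.choose 2) := by simp only [mul_assoc]
      _ = x * y * y ^ n * c * (c ^ n * e ^ n) * e ^ (n.choose 2) := by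
          rw [((he (c ^ n)).pow_left n).eq]
      _ = x * y ^ (n+1) * c ^ (n+1) * e ^ ((n+1).choose 2) := by
          rw [hch, pow_succ' y, pow_succ' c, pow_add]; simp only [mul_assoc]

theorem main {x y c d e : R} (hd : ∀ g, Commute d g) (he : ∀ g, Commute e g)
    (hyx : y * x = x * y * c) (hcx : c * x = x * c * d) (hcy : c * y = y * c * e) (n : ℕ) :
    (x * y) ^ n = x ^ n * y ^ n * c ^ (n.choose 2) * d ^ (n.choose 3) * e ^ (EE n) := by
  induction n with
  | zero => simp [EE]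
  | succ n ih =>
    have hch2 : (n+1).choose 2 = n + n.choose 2 := by
      rw [Nat.choose_succ_succ, Nat.choose_one_right]
    have hch3 : (n+1).choose 3 = n.choose 2 + n.choose 3 := by
      rw [Nat.choose_succ_succ]
    have hE : EE (n+1) = EE n + n.choose 2 + (n + n.choose 2) := rfl
    set A := n.choose 2 with hA
    set B := n.choose 3 with hB
    set S := EE n with hS
    calc (x * y) ^ (n+1) = (x * y) ^ n * (x * y) := by rw [pow_succ]
      _ = x ^ n * y ^ n * c ^ A * d ^ B * e ^ S * (x * y) := by rw [ih]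
      _ = x ^ n * y ^ n * c ^ A * (d ^ B * (e ^ S * x)) * y := by simp only [mul_assoc]
      _ = x ^ n * y ^ n * c ^ A * (x * d ^ B * e ^ S) * y := by
          rw [((he x).pow_left S).eq, ← mul_assoc (d ^ B), ((hd x).pow_left B).eq]
      _ = x ^ n * y ^ n * (c ^ A * x) * d ^ B * e ^ S * y := by simp only [mul_assoc]
      _ = x ^ n * y ^ n * (x * c ^ A * d ^ A) * d ^ B * e ^ S * y := by
          rw [pow_mul_left hd hcx]
      _ = x ^ n * (y ^ n * x) * c ^ A * d ^ A * d ^ B * e ^ S * y := by simp only [mul_assoc]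
      _ = x ^ n * (x * y ^ n * c ^ n * e ^ A) * c ^ A * d ^ A * d ^ B * e ^ S * y := by
          rw [pow_mul_comm he hyx hcy]
      _ = x ^ n * x * y ^ n * c ^ n * (e ^ A * c ^ A) * d ^ A * d ^ B * e ^ S * y := by
          simp only [mul_assoc]
      _ = x ^ n * x * y ^ n * c ^ n * (c ^ A * e ^ A) * d ^ A * d ^ B * e ^ S * y := by
          rw [((he (c ^ A)).pow_left A).eq]
      _ = x ^ n * x * y ^ n * (c ^ n * c ^ A) * (e ^ A * d ^ A * d ^ B * e ^ S * y) := by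
          simp only [mul_assoc]
      _ = x ^ n * x * y ^ n * (c ^ (n + A)) * (y * (e ^ A * d ^ A * d ^ B * e ^ S)) := by
          rw [← pow_add]
          congr 1
          have h1 : Commute (e ^ A * d ^ A * d ^ B * e ^ S) y :=
            ((((he y).pow_left A).mul_left ((hd y).pow_left A)).mul_left
              ((hd y).pow_left B)).mul_left ((he y).pow_left S)
          exact h1.eq
      _ = x ^ n * x * y ^ n * (c ^ (n + A) * y) * (e ^ A * d ^ A * d ^ B * e ^ S) := by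
          simp only [mul_assoc]
      _ = x ^ n * x * y ^ n * (y * c ^ (n + A) * e ^ (n + A))
            * (e ^ A * d ^ A * d ^ B * e ^ S) := by
          rw [pow_mul_left he hcy]
      _ = x ^ (n+1) * y ^ (n+1) * c ^ (n + A) * (e ^ (n + A) * (e ^ A * (d ^ (A + B) * e ^ S))) := by
          rw [pow_succ x, pow_succ y, pow_add d]; simp only [mul_assoc]
      _ = x ^ (n+1) * y ^ (n+1) * c ^ (n + A) * (d ^ (A + B) * e ^ (S + A + (n + A))) := by
          congr 1
          rw [← mul_assoc (e ^ (n+A)), ← pow_add, ← mul_assoc, ((he (d ^ (A+B))).pow_left _).eq,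
            mul_assoc, ← pow_add]
          congr 2
          ring
      _ = x ^ (n+1) * y ^ (n+1) * c ^ ((n+1).choose 2) * d ^ ((n+1).choose 3) * e ^ (EE (n+1)) := by
          rw [hch2, hch3, hE]; simp only [mul_assoc]


def CenC (R : Type*) [Group R] : Prop :=
  ∀ a ∈ commutator R, ∀ g h : R, Commute ⁅a, g⁆ h

def ExpC (R : Type*) [Group R] (p : ℕ) : Prop :=
  (∀ a ∈ commutator R, ∀ g : R, ⁅a, g⁆ = 1) ∨ (p ∣ p.choose 3 ∧ p ∣ EE p)

theorem comm_mem (a b : R) : ⁅a, b⁆ ∈ commutator R := by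
  rw [commutator_def]
  exact Subgroup.commutator_mem_commutator (Subgroup.mem_top _) (Subgroup.mem_top _)

theorem formula (hcen : CenC R) (x y : R) (n : ℕ) :
    (x * y) ^ n = x ^ n * y ^ n * ⁅y⁻¹, x⁻¹⁆ ^ (n.choose 2)
      * ⁅⁅y⁻¹, x⁻¹⁆⁻¹, x⁻¹⁆ ^ (n.choose 3) * ⁅⁅y⁻¹, x⁻¹⁆⁻¹, y⁻¹⁆ ^ (EE n) := by
  have hc : ⁅y⁻¹, x⁻¹⁆⁻¹ ∈ commutator R := inv_mem (comm_mem _ _)
  refine main (hcen _ hc _) (hcen _ hc _) ?_ ?_ ?_ n
  · rw [commutatorElement_def]; group
  · rw [commutatorElement_def ⁅y⁻¹, x⁻¹⁆⁻¹]; group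
  · rw [commutatorElement_def ⁅y⁻¹, x⁻¹⁆⁻¹]; group

theorem pow_eq_one_of_dvd {g : R} {p k : ℕ} (hg : g ^ p = 1) (hk : p ∣ k) : g ^ k = 1 := by
  obtain ⟨m, rfl⟩ := hk
  rw [pow_mul, hg, one_pow]

theorem mul_pow_eq_one {p : ℕ} (hcen : CenC R) (hp2 : p ∣ p.choose 2) (hde : ExpC R p)
    {x y : R} (hx : x ^ p = 1) (hy : y ^ p = 1) : (x * y) ^ p = 1 := by
  have hc : ⁅y⁻¹, x⁻¹⁆⁻¹ ∈ commutator R := inv_mem (comm_mem _ _)
  have hyx : y * x = x * y * ⁅y⁻¹, x⁻¹⁆ := by rw [commutatorElement_def]; group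
  have hcx : ⁅y⁻¹, x⁻¹⁆ * x = x * ⁅y⁻¹, x⁻¹⁆ * ⁅⁅y⁻¹, x⁻¹⁆⁻¹, x⁻¹⁆ := by
    rw [commutatorElement_def ⁅y⁻¹, x⁻¹⁆⁻¹]; group
  have hcy : ⁅y⁻¹, x⁻¹⁆ * y = y * ⁅y⁻¹, x⁻¹⁆ * ⁅⁅y⁻¹, x⁻¹⁆⁻¹, y⁻¹⁆ := by
    rw [commutatorElement_def ⁅y⁻¹, x⁻¹⁆⁻¹]; group
  have hd := hcen _ hc x⁻¹
  have he := hcen _ hc y⁻¹
  have hdp : ⁅⁅y⁻¹, x⁻¹⁆⁻¹, x⁻¹⁆ ^ p = 1 := by
    have := mul_pow_right hd hcx p
    rw [hx, one_mul, mul_one] at this
    exact left_eq_mul.mp this
  have hep : ⁅⁅y⁻¹, x⁻¹⁆⁻¹, y⁻¹⁆ ^ p = 1 := by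
    have := mul_pow_right he hcy p
    rw [hy, one_mul, mul_one] at this
    exact left_eq_mul.mp this
  have hcp : ⁅y⁻¹, x⁻¹⁆ ^ p = 1 := by
    have := pow_mul_comm he hyx hcy p
    rw [hy, one_mul, mul_one, pow_eq_one_of_dvd hep hp2, mul_one] at this
    exact left_eq_mul.mp this
  rw [formula hcen x y p, hx, hy, pow_eq_one_of_dvd hcp hp2]
  rcases hde with h | ⟨h3, hE⟩
  · rw [h _ hc, h _ hc]; simp
  · rw [pow_eq_one_of_dvd hdp h3, pow_eq_one_of_dvd hep hE]; simp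

theorem pow_eq_one_of_mem {p : ℕ} (hcen : CenC R) (hp2 : p ∣ p.choose 2) (hde : ExpC R p)
    {g : R} (hg : g ∈ Subgroup.closure {x : R | x ^ p = 1}) : g ^ p = 1 := by
  induction hg using Subgroup.closure_induction with
  | mem x hx => exact hx
  | one => simp
  | mul x y _ _ hx hy => exact mul_pow_eq_one hcen hp2 hde hx hy
  | inv x _ hx => rw [inv_pow, hx, inv_one]

theorem mul_pow_of_le {p : ℕ} (hcen : CenC R) (hp2 : p ∣ p.choose 2) (hde : ExpC R p)
    (hder : commutator R ≤ Subgroup.closure {x : R | x ^ p = 1}) (x y : R) :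
    (x * y) ^ p = x ^ p * y ^ p := by
  have hc : ⁅y⁻¹, x⁻¹⁆⁻¹ ∈ commutator R := inv_mem (comm_mem _ _)
  have h1 : ∀ a ∈ commutator R, a ^ p = 1 := fun a ha =>
    pow_eq_one_of_mem hcen hp2 hde (hder ha)
  rw [formula hcen x y p, pow_eq_one_of_dvd (h1 _ (comm_mem _ _)) hp2]
  rcases hde with h | ⟨h3, hE⟩
  · rw [h _ hc, h _ hc]; simp
  · rw [pow_eq_one_of_dvd (h1 _ (comm_mem _ _)) h3, pow_eq_one_of_dvd (h1 _ (comm_mem _ _)) hE]
    simp

theorem cenC_of_two (h : ⁅commutator R, (⊤ : Subgroup R)⁆ = ⊥) : CenC R := by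
  intro a ha g k
  have : ⁅a, g⁆ ∈ ⁅commutator R, (⊤ : Subgroup R)⁆ :=
    Subgroup.commutator_mem_commutator ha (Subgroup.mem_top _)
  rw [h, Subgroup.mem_bot] at this
  rw [this]; exact Commute.one_left k

theorem expC_of_two (p : ℕ) (h : ⁅commutator R, (⊤ : Subgroup R)⁆ = ⊥) : ExpC R p := by
  left
  intro a ha g
  have : ⁅a, g⁆ ∈ ⁅commutator R, (⊤ : Subgroup R)⁆ :=
    Subgroup.commutator_mem_commutator ha (Subgroup.mem_top _)
  rwa [h, Subgroup.mem_bot] at this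

theorem cenC_of_three (h : ⁅⁅commutator R, (⊤ : Subgroup R)⁆, (⊤ : Subgroup R)⁆ = ⊥) :
    CenC R := by
  intro a ha g k
  have h1 : ⁅a, g⁆ ∈ ⁅commutator R, (⊤ : Subgroup R)⁆ :=
    Subgroup.commutator_mem_commutator ha (Subgroup.mem_top _)
  have h2 : ⁅⁅a, g⁆, k⁆ ∈ ⁅⁅commutator R, (⊤ : Subgroup R)⁆, (⊤ : Subgroup R)⁆ :=
    Subgroup.commutator_mem_commutator h1 (Subgroup.mem_top _)
  rw [h, Subgroup.mem_bot] at h2
  exact commutatorElement_eq_one_iff_commute.mp h2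

theorem expC_of_three {p : ℕ} (hp : p.Prime) (h3 : 3 < p) : ExpC R p :=
  Or.inr ⟨hp.dvd_choose_self (by norm_num) h3, dvd_EE hp h3⟩

end Cfsg.Agent.Lib.Helper1.PowC3
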