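import Mathlib

set_option autoImplicit false

namespace Cfsg.Agent.Lib.Helper1.QCount

open Finset

theorem fiber_card {F : Type*} [Field F] [Fintype F] [DecidableEq F] (m : ℕ) (x : Fin m → F)
    (hx : x ≠ 0) (c : F) :
    (univ.filter (fun y : Fin m → F => ∑ i, x i * y i = c)).card * Fintype.card F =
      Fintype.card F ^ m := by
  classical
  let φ : (Fin m → F) →+ F :=
    { toFun := fun y => ∑ i, x i * y i
      map_zero' := by simp
      map_add' := by
        intro a b
        simp [mul_add, Finset.sum_add_distrib] }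
  have hsurj : Function.Surjective φ := by
    obtain ⟨i, hi⟩ : ∃ i, x i ≠ 0 := by
      by_contra h
      simp only [not_exists, not_not] at h
      exact hx (funext h)
    intro d
    refine ⟨Pi.single i (d / x i), ?_⟩
    show ∑ j, x j * (Pi.single i (d / x i) : Fin m → F) j = d
    rw [Finset.sum_eq_single i]
    · rw [Pi.single_eq_same, mul_div_cancel₀ _ hi]
    · intro j _ hj
      rw [Pi.single_eq_of_ne hj, mul_zero]
    · intro h
      exact absurd (mem_univ i) h
  have heq : ∀ d : F, (univ.filter (fun y : Fin m → F => φ y = d)).card =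
      (univ.filter (fun y : Fin m → F => φ y = c)).card :=
    fun d => AddMonoidHom.card_fiber_eq_of_mem_range φ (hsurj d) (hsurj c)
  have hsum := Finset.card_eq_sum_card_fiberwise (f := φ) (s := univ) (t := univ)
    (fun y _ => mem_univ _)
  rw [Finset.sum_congr rfl (fun d _ => heq d), Finset.sum_const, card_univ, card_univ,
    smul_eq_mul, Fintype.card_fun, Fintype.card_fin] at hsum
  rw [mul_comm]
  exact hsum.symm

theorem fiber_card' {F : Type*} [Field F] [Fintype F] [DecidableEq F] (m : ℕ) (x : Fin m → F)
    (hx : x ≠ 0) (c : F) :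
    Fintype.card {y : Fin m → F // ∑ i, x i * y i = c} = Fintype.card F ^ (m - 1) := by
  have h := fiber_card m x hx c
  have hm : m ≠ 0 := by
    rintro rfl
    exact hx (Subsingleton.elim _ _)
  obtain ⟨k, rfl⟩ := Nat.exists_eq_succ_of_ne_zero hm
  rw [Fintype.card_subtype]
  have hq : 0 < Fintype.card F := Fintype.card_pos
  rw [pow_succ] at h
  simpa using Nat.eq_of_mul_eq_mul_right hq h

theorem pairs_card {F : Type*} [Field F] [Fintype F] [DecidableEq F] (m : ℕ) (c : F) :
    Fintype.card {p : (Fin m → F) × (Fin m → F) // ∑ i, p.1 i * p.2 i = c} =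
      (if c = 0 then Fintype.card F ^ m else 0) +
        (Fintype.card F ^ m - 1) * Fintype.card F ^ (m - 1) := by
  classical
  rw [Fintype.card_congr (Equiv.subtypeProdEquivSigmaSubtype
    (fun (x y : Fin m → F) => ∑ i, x i * y i = c)), Fintype.card_sigma,
    ← Finset.add_sum_erase univ _ (mem_univ (0 : Fin m → F))]
  congr 1
  · rw [Fintype.card_subtype]
    by_cases hc : c = 0
    · rw [if_pos hc, Finset.filter_true_of_mem, card_univ, Fintype.card_fun, Fintype.card_fin]
      intro y _
      simp [hc]
    · rw [if_neg hc, Finset.filter_false_of_mem, Finset.card_empty]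
      intro y _
      simp only [Pi.zero_apply, zero_mul, Finset.sum_const_zero]
      exact fun h => hc h.symm
  · rw [Finset.sum_congr rfl (fun x hx => fiber_card' m x (Finset.ne_of_mem_erase hx) c),
      Finset.sum_const, Finset.card_erase_of_mem (mem_univ _), card_univ, Fintype.card_fun,
      Fintype.card_fin, smul_eq_mul]

theorem sigma_count {F : Type*} [Field F] [Fintype F] [DecidableEq F] {A : Type*} [Fintype A]
    (g : A → F) (m : ℕ) :
    Fintype.card {v : A × ((Fin m → F) × (Fin m → F)) //
        g v.1 + ∑ i, v.2.1 i * v.2.2 i = 0} =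
      ∑ a : A, ((if g a = 0 then Fintype.card F ^ m else 0) +
        (Fintype.card F ^ m - 1) * Fintype.card F ^ (m - 1)) := by
  classical
  rw [Fintype.card_congr (Equiv.subtypeProdEquivSigmaSubtype
    (fun (a : A) (p : (Fin m → F) × (Fin m → F)) => g a + ∑ i, p.1 i * p.2 i = 0)),
    Fintype.card_sigma]
  apply Finset.sum_congr rfl
  intro a _
  have e : {p : (Fin m → F) × (Fin m → F) // g a + ∑ i, p.1 i * p.2 i = 0} ≃
      {p : (Fin m → F) × (Fin m → F) // ∑ i, p.1 i * p.2 i = -g a} :=
    Equiv.subtypeEquivRight (fun p => by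
      constructor
      · intro h
        linear_combination h
      · intro h
        linear_combination h)
  rw [Fintype.card_congr e, pairs_card]
  congr 1
  by_cases h : g a = 0
  · rw [if_pos h, if_pos (by rw [h, neg_zero])]
  · rw [if_neg h, if_neg (by rwa [neg_eq_zero])]

theorem pairs_card_nat {F : Type*} [Field F] [Fintype F] [DecidableEq F] (m : ℕ) (c : F) :
    Nat.card {p : (Fin m → F) × (Fin m → F) // ∑ i, p.1 i * p.2 i = c} =
      (if c = 0 then Fintype.card F ^ m else 0) +
        (Fintype.card F ^ m - 1) * Fintype.card F ^ (m - 1) := by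
  classical
  rw [Nat.card_eq_fintype_card, ← pairs_card m c]

theorem sigma_count_nat {F : Type*} [Field F] [Fintype F] [DecidableEq F] {A : Type*} [Fintype A]
    (g : A → F) (m : ℕ) :
    Nat.card {v : A × ((Fin m → F) × (Fin m → F)) //
        g v.1 + ∑ i, v.2.1 i * v.2.2 i = 0} =
      ∑ a : A, ((if g a = 0 then Fintype.card F ^ m else 0) +
        (Fintype.card F ^ m - 1) * Fintype.card F ^ (m - 1)) := by
  classical
  rw [Nat.card_eq_fintype_card, ← sigma_count g m]

end Cfsg.Agent.Lib.Helper1.QCount
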