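import Mathlib
import Cfsg.Prelude.Def_Classical
import Cfsg.Agent.Lib.Helper1.QCount

set_option autoImplicit false

namespace Cfsg.Agent.Lib.Helper1.QForms

open Finset
open Cfsg.Agent.Lib.Helper1.QCount

theorem plus_count {F : Type*} [Field F] [Fintype F] (m : ℕ) (hm : 1 ≤ m) :
    Nat.card {v : Fin m ⊕ Fin m → F // Cfsg.quadFormPlus m F v = 0} =
      Fintype.card F ^ (2 * m - 1) + Fintype.card F ^ m - Fintype.card F ^ (m - 1) := by
  classical
  rw [Nat.card_congr (Equiv.subtypeEquiv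
    (Equiv.sumArrowEquivProdArrow (Fin m) (Fin m) F)
    (p := fun v => Cfsg.quadFormPlus m F v = 0)
    (q := fun p : (Fin m → F) × (Fin m → F) => ∑ i, p.1 i * p.2 i = 0)
    (fun v => Iff.rfl)), pairs_card_nat, if_pos rfl]
  obtain ⟨k, rfl⟩ : ∃ k, m = k + 1 := ⟨m - 1, by omega⟩
  have hq : 1 ≤ Fintype.card F := Fintype.card_pos
  generalize Fintype.card F = q at hq
  have e1 : 2 * (k + 1) - 1 = k + k + 1 := by omega
  have e2 : k + 1 - 1 = k := by omega
  rw [e1, e2, pow_succ, pow_succ, pow_add]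
  have ha : 1 ≤ q ^ k := Nat.one_le_pow _ _ hq
  generalize q ^ k = a at ha
  have h1 : 1 ≤ a * q := Nat.one_le_iff_ne_zero.mpr (Nat.mul_ne_zero (by omega) (by omega))
  have h2 : a ≤ a * a * q + a * q := by nlinarith
  zify [h1, h2]
  ring

theorem odd_count {F : Type*} [Field F] [Fintype F] (m : ℕ) :
    Nat.card {v : Unit ⊕ (Fin m ⊕ Fin m) → F // Cfsg.quadFormOdd m F v = 0} =
      Fintype.card F ^ (2 * m) := by
  classical
  rw [Nat.card_congr (Equiv.subtypeEquiv
    ((Equiv.sumArrowEquivProdArrow Unit (Fin m ⊕ Fin m) F).trans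
      (Equiv.prodCongr (Equiv.funUnique Unit F) (Equiv.sumArrowEquivProdArrow (Fin m) (Fin m) F)))
    (p := fun v => Cfsg.quadFormOdd m F v = 0)
    (q := fun v : F × ((Fin m → F) × (Fin m → F)) =>
      (fun x : F => x ^ 2) v.1 + ∑ i, v.2.1 i * v.2.2 i = 0)
    (fun v => Iff.rfl)), sigma_count_nat (fun x : F => x ^ 2) m, Finset.sum_add_distrib, Finset.sum_const, card_univ,
    smul_eq_mul]
  have hs : ∑ x : F, (if x ^ 2 = 0 then Fintype.card F ^ m else 0) = Fintype.card F ^ m := by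
    have h1 : ∀ x : F, (if x ^ 2 = 0 then Fintype.card F ^ m else 0) =
        (if x = 0 then Fintype.card F ^ m else 0) := by
      intro x
      apply if_congr _ rfl rfl
      exact pow_eq_zero_iff (by norm_num)
    rw [Finset.sum_congr rfl (fun x _ => h1 x), Finset.sum_ite_eq' univ (0 : F)]
    simp
  rw [hs]
  have hq : 1 ≤ Fintype.card F := Fintype.card_pos
  generalize Fintype.card F = q at hq
  rcases Nat.eq_zero_or_pos m with rfl | hm
  · simp
  · obtain ⟨k, rfl⟩ : ∃ k, m = k + 1 := ⟨m - 1, by omega⟩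
    have e2 : k + 1 - 1 = k := by omega
    rw [e2, pow_succ, two_mul, pow_add, pow_succ]
    have ha : 1 ≤ q ^ k := Nat.one_le_pow _ _ hq
    generalize q ^ k = a at ha
    have h1 : 1 ≤ a * q := Nat.one_le_iff_ne_zero.mpr (Nat.mul_ne_zero (by omega) (by omega))
    zify [h1]
    ring

theorem minus_count {F : Type*} [Field F] [Fintype F] (k : ℕ) (a b : F)
    (hab : ∀ z₁ z₂ : F, z₁ ^ 2 + a * z₁ * z₂ + b * z₂ ^ 2 = 0 → z₁ = 0 ∧ z₂ = 0) :
    Nat.card {v : (Fin k ⊕ Fin k) ⊕ Fin 2 → F // Cfsg.quadFormMinus k F a b v = 0} =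
      Fintype.card F ^ (2 * (k + 1) - 1) + Fintype.card F ^ k - Fintype.card F ^ (k + 1) := by
  classical
  rw [Nat.card_congr (Equiv.subtypeEquiv
    ((Equiv.sumArrowEquivProdArrow (Fin k ⊕ Fin k) (Fin 2) F).trans
      ((Equiv.prodComm _ _).trans
        (Equiv.prodCongr (Equiv.refl _) (Equiv.sumArrowEquivProdArrow (Fin k) (Fin k) F))))
    (p := fun v => Cfsg.quadFormMinus k F a b v = 0)
    (q := fun v : (Fin 2 → F) × ((Fin k → F) × (Fin k → F)) =>
      (fun z : Fin 2 → F => z 0 ^ 2 + a * z 0 * z 1 + b * z 1 ^ 2) v.1 +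
        ∑ i, v.2.1 i * v.2.2 i = 0)
    (fun v => by
      unfold Cfsg.quadFormMinus
      rw [add_comm]
      rfl)), sigma_count_nat (fun z : Fin 2 → F => z 0 ^ 2 + a * z 0 * z 1 + b * z 1 ^ 2) k,
    Finset.sum_add_distrib, Finset.sum_const, card_univ, smul_eq_mul,
    Fintype.card_fun, Fintype.card_fin]
  have hs : ∑ z : Fin 2 → F, (if z 0 ^ 2 + a * z 0 * z 1 + b * z 1 ^ 2 = 0
      then Fintype.card F ^ k else 0) = Fintype.card F ^ k := by
    have h1 : ∀ z : Fin 2 → F, (if z 0 ^ 2 + a * z 0 * z 1 + b * z 1 ^ 2 = 0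
        then Fintype.card F ^ k else 0) = (if z = 0 then Fintype.card F ^ k else 0) := by
      intro z
      apply if_congr _ rfl rfl
      constructor
      · intro h
        obtain ⟨h0, h1⟩ := hab _ _ h
        funext i
        fin_cases i
        · exact h0
        · exact h1
      · rintro rfl
        simp
    rw [Finset.sum_congr rfl (fun x _ => h1 x), Finset.sum_ite_eq' univ (0 : Fin 2 → F)]
    simp
  rw [hs]
  have hq : 1 ≤ Fintype.card F := Fintype.card_pos
  generalize Fintype.card F = q at hq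
  rcases Nat.eq_zero_or_pos k with rfl | hk
  · simp
  · obtain ⟨j, rfl⟩ : ∃ j, k = j + 1 := ⟨k - 1, by omega⟩
    have e1 : 2 * (j + 1 + 1) - 1 = j + j + 1 + 1 + 1 := by omega
    have e2 : j + 1 - 1 = j := by omega
    rw [e1, e2]
    simp only [pow_succ, pow_add]
    have ha : 1 ≤ q ^ j := Nat.one_le_pow _ _ hq
    generalize q ^ j = c at ha
    have h1 : 1 ≤ c * q := Nat.one_le_iff_ne_zero.mpr (Nat.mul_ne_zero (by omega) (by omega))
    have h2 : c * q * q ≤ c * c * q * q * q + c * q := by nlinarith [Nat.mul_le_mul h1 (le_refl (c * q * q))]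
    zify [h1, h2]
    ring

end Cfsg.Agent.Lib.Helper1.QForms
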