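import Cfsg.Prelude.Def_PLocal

set_option autoImplicit false

namespace Cfsg.Agent.Lib.Helper1.QdTwo

open Cfsg

/-- first coordinate of the points of the affine plane over the field with two elements -/
def px (i : Fin 4) : ZMod 2 := if i = 1 ∨ i = 3 then 1 else 0

/-- second coordinate -/
def py (i : Fin 4) : ZMod 2 := if i = 2 ∨ i = 3 then 1 else 0

/-- the matrix of the affine map inducing a permutation of the four points -/
def mat (σ : Equiv.Perm (Fin 4)) : Matrix (Fin 3) (Fin 3) (ZMod 2) :=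
  !![px (σ 1) + px (σ 0), px (σ 2) + px (σ 0), px (σ 0);
     py (σ 1) + py (σ 0), py (σ 2) + py (σ 0), py (σ 0);
     0, 0, 1]

theorem mat_det0 : ∀ σ : Equiv.Perm (Fin 4),
    mat σ 0 0 * mat σ 1 1 * mat σ 2 2 - mat σ 0 0 * mat σ 1 2 * mat σ 2 1
      - mat σ 0 1 * mat σ 1 0 * mat σ 2 2 + mat σ 0 1 * mat σ 1 2 * mat σ 2 0
      + mat σ 0 2 * mat σ 1 0 * mat σ 2 1 - mat σ 0 2 * mat σ 1 1 * mat σ 2 0 = 1 := by
  decide +kernel

theorem mat_det (σ : Equiv.Perm (Fin 4)) : (mat σ).det = 1 := by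
  rw [Matrix.det_fin_three]
  exact mat_det0 σ

theorem mat_mul : ∀ σ τ : Equiv.Perm (Fin 4), mat (σ * τ) = mat σ * mat τ := by decide +kernel

theorem mat_one : mat 1 = 1 := by decide +kernel

theorem mat_inj : ∀ σ : Equiv.Perm (Fin 4), mat σ = 1 → σ = 1 := by decide +kernel

/-- the matrix with given first two rows -/
def mk6 (p q : ZMod 2 × ZMod 2 × ZMod 2) : Matrix (Fin 3) (Fin 3) (ZMod 2) :=
  !![p.1, p.2.1, p.2.2; q.1, q.2.1, q.2.2; 0, 0, 1]

theorem surj_aux : ∀ p q : ZMod 2 × ZMod 2 × ZMod 2, p.1 * q.2.1 - p.2.1 * q.1 = 1 →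
    ∃ σ : Equiv.Perm (Fin 4), mat σ = mk6 p q := by
  decide +kernel

/-- the homomorphism -/
def hom : Equiv.Perm (Fin 4) →* Matrix.SpecialLinearGroup (Fin 3) (ZMod 2) where
  toFun σ := ⟨mat σ, mat_det σ⟩
  map_one' := Subtype.ext mat_one
  map_mul' σ τ := Subtype.ext (mat_mul σ τ)

theorem hom_inj : Function.Injective hom := by
  rw [injective_iff_map_eq_one]
  intro σ h
  exact mat_inj σ (congrArg Subtype.val h)

theorem range_eq : hom.range = Cfsg.qd 2 := by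
  apply le_antisymm
  · rintro _ ⟨σ, rfl⟩
    apply Subgroup.subset_closure
    exact ⟨rfl, rfl, rfl⟩
  · unfold Cfsg.qd
    rw [Subgroup.closure_le]
    rintro M ⟨h0, h1, h2⟩
    have hd := M.2
    rw [Matrix.det_fin_three, h0, h1, h2] at hd
    have hd' : (M : Matrix (Fin 3) (Fin 3) (ZMod 2)) 0 0 * (M : Matrix (Fin 3) (Fin 3) (ZMod 2)) 1 1
        - (M : Matrix (Fin 3) (Fin 3) (ZMod 2)) 0 1 * (M : Matrix (Fin 3) (Fin 3) (ZMod 2)) 1 0 = 1 := by
      linear_combination hd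
    obtain ⟨σ, hσ⟩ := surj_aux
      ((M : Matrix (Fin 3) (Fin 3) (ZMod 2)) 0 0, (M : Matrix (Fin 3) (Fin 3) (ZMod 2)) 0 1,
        (M : Matrix (Fin 3) (Fin 3) (ZMod 2)) 0 2)
      ((M : Matrix (Fin 3) (Fin 3) (ZMod 2)) 1 0, (M : Matrix (Fin 3) (Fin 3) (ZMod 2)) 1 1,
        (M : Matrix (Fin 3) (Fin 3) (ZMod 2)) 1 2) hd'
    refine ⟨σ, Subtype.ext ?_⟩
    show mat σ = (M : Matrix (Fin 3) (Fin 3) (ZMod 2))
    rw [hσ]
    ext i j
    fin_cases i <;> fin_cases j <;> simp [mk6, h0, h1, h2]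

theorem main : Nonempty (↥(Cfsg.qd 2) ≃* Equiv.Perm (Fin 4)) := by
  have e1 : Equiv.Perm (Fin 4) ≃* hom.range := MonoidHom.ofInjective hom_inj
  have e2 : ↥hom.range ≃* ↥(Cfsg.qd 2) := MulEquiv.subgroupCongr range_eq
  exact ⟨(e1.trans e2).symm⟩

end Cfsg.Agent.Lib.Helper1.QdTwo
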