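import Mathlib
import Cfsg.Prelude.Def_Sporadic_a

set_option autoImplicit false

namespace Cfsg.Agent.Lib.Helper1

open Finset

variable {α : Type*} [Fintype α] [DecidableEq α]

theorem card_between (J b : Finset α) (hJb : J ⊆ b) (t : ℕ) (hJ : J.card ≤ t) :
    #{s ∈ powersetCard t b | J ⊆ s} = (b.card - J.card).choose (t - J.card) := by
  rw [← Finset.card_sdiff_of_subset hJb, ← Finset.card_powersetCard]
  apply Finset.card_bij' (fun s _ => s \ J) (fun u _ => u ∪ J)
  · intro s hs
    rw [mem_filter, mem_powersetCard] at hs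
    rw [mem_powersetCard]
    refine ⟨Finset.sdiff_subset_sdiff hs.1.1 (le_refl J), ?_⟩
    rw [Finset.card_sdiff_of_subset hs.2, hs.1.2]
  · intro u hu
    rw [mem_powersetCard] at hu
    have hdisj : Disjoint u J := by
      have := Finset.sdiff_disjoint (s := J) (t := b)
      exact Finset.disjoint_of_subset_left hu.1 this
    rw [mem_filter, mem_powersetCard]
    refine ⟨⟨Finset.union_subset (hu.1.trans Finset.sdiff_subset) hJb, ?_⟩, Finset.subset_union_right⟩
    rw [Finset.card_union_of_disjoint hdisj, hu.2]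
    omega
  · intro s hs
    rw [mem_filter, mem_powersetCard] at hs
    exact Finset.sdiff_union_of_subset hs.2
  · intro u hu
    rw [mem_powersetCard] at hu
    have hdisj : Disjoint u J := by
      have := Finset.sdiff_disjoint (s := J) (t := b)
      exact Finset.disjoint_of_subset_left hu.1 this
    exact Finset.union_sdiff_cancel_right hdisj

noncomputable def blocks (B : Set (Finset α)) : Finset (Finset α) :=
  haveI := Classical.decPred (· ∈ B)
  Finset.univ.filter (· ∈ B)

theorem mem_blocks {B : Set (Finset α)} {c : Finset α} : c ∈ blocks B ↔ c ∈ B := by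
  simp [blocks]

theorem coe_blocks (B : Set (Finset α)) : (blocks B : Set (Finset α)) = B := by
  ext c
  simp [mem_blocks]

theorem ncard_eq_card_blocks (B : Set (Finset α)) : B.ncard = (blocks B).card := by
  rw [← Set.ncard_coe_finset, coe_blocks]

theorem steiner_lambda {t k : ℕ} {B : Set (Finset α)} (hB : Cfsg.IsSteinerSystem t k B)
    (J : Finset α) (hJ : J.card ≤ t) :
    #{c ∈ blocks B | J ⊆ c} * (k - J.card).choose (t - J.card)
      = (Fintype.card α - J.card).choose (t - J.card) := by
  have h := Finset.sum_card_bipartiteAbove_eq_sum_card_bipartiteBelow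
    (s := {s ∈ powersetCard t (univ : Finset α) | J ⊆ s}) (t := {c ∈ blocks B | J ⊆ c})
    (r := fun s c => s ⊆ c)
  have hL : ∀ s ∈ {s ∈ powersetCard t (univ : Finset α) | J ⊆ s},
      #(Finset.bipartiteAbove (fun s c => s ⊆ c) {c ∈ blocks B | J ⊆ c} s) = 1 := by
    intro s hs
    rw [mem_filter, mem_powersetCard] at hs
    obtain ⟨b, ⟨hbB, hsb⟩, huniq⟩ := hB.2 s hs.1.2
    rw [Finset.card_eq_one]
    refine ⟨b, ?_⟩
    ext c
    simp only [Finset.bipartiteAbove, mem_filter, mem_blocks, mem_singleton]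
    constructor
    · rintro ⟨⟨hcB, -⟩, hsc⟩
      exact huniq c ⟨hcB, hsc⟩
    · rintro rfl
      exact ⟨⟨hbB, hs.2.trans hsb⟩, hsb⟩
  have hR : ∀ c ∈ {c ∈ blocks B | J ⊆ c},
      #(Finset.bipartiteBelow (fun s c => s ⊆ c)
        {s ∈ powersetCard t (univ : Finset α) | J ⊆ s} c) = (k - J.card).choose (t - J.card) := by
    intro c hc
    rw [mem_filter, mem_blocks] at hc
    have hck := hB.1 c hc.1
    rw [← hck, ← card_between J c hc.2 t hJ]
    congr 1
    ext s
    simp only [Finset.bipartiteBelow, mem_filter, mem_powersetCard, subset_univ, true_and]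
    tauto
  rw [Finset.sum_congr rfl hL, Finset.sum_congr rfl hR] at h
  rw [Finset.sum_const, Finset.sum_const, smul_eq_mul, smul_eq_mul, mul_one] at h
  rw [← h, card_between J univ (subset_univ J) t hJ, Finset.card_univ]

theorem steiner_moment {B : Set (Finset α)} (b : Finset α) (j : ℕ) :
    ∑ c ∈ blocks B, (b ∩ c).card.choose j
      = ∑ J ∈ powersetCard j b, #{c ∈ blocks B | J ⊆ c} := by
  have h := Finset.sum_card_bipartiteAbove_eq_sum_card_bipartiteBelow
    (s := powersetCard j b) (t := blocks B) (r := fun J c => J ⊆ c)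
  have h2 : (∑ J ∈ powersetCard j b, #{c ∈ blocks B | J ⊆ c})
      = ∑ J ∈ powersetCard j b, #(Finset.bipartiteAbove (fun J c => J ⊆ c) (blocks B) J) := rfl
  rw [h2, h]
  apply Finset.sum_congr rfl
  intro c _
  rw [← Finset.card_powersetCard]
  congr 1
  ext J
  simp only [Finset.bipartiteBelow, mem_filter, mem_powersetCard, subset_inter_iff]
  tauto

theorem steiner_moment_mul {t k : ℕ} {B : Set (Finset α)} (hB : Cfsg.IsSteinerSystem t k B)
    (b : Finset α) (j : ℕ) (hj : j ≤ t) :
    (∑ c ∈ blocks B, (b ∩ c).card.choose j) * (k - j).choose (t - j)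
      = b.card.choose j * (Fintype.card α - j).choose (t - j) := by
  rw [steiner_moment, Finset.sum_mul]
  rw [← Finset.card_powersetCard j b, ← smul_eq_mul (#(powersetCard j b)), ← Finset.sum_const]
  apply Finset.sum_congr rfl
  intro J hJ
  rw [mem_powersetCard] at hJ
  have := steiner_lambda hB J (by rw [hJ.2]; exact hj)
  rw [hJ.2] at this
  exact this

theorem steiner_inter_lt {t k : ℕ} {B : Set (Finset α)} (hB : Cfsg.IsSteinerSystem t k B)
    {b c : Finset α} (hb : b ∈ B) (hc : c ∈ B) (hbc : b ≠ c) : (b ∩ c).card < t := by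
  by_contra hlt
  rw [not_lt] at hlt
  obtain ⟨s, hs, hst⟩ := Finset.exists_subset_card_eq hlt
  obtain ⟨d, -, huniq⟩ := hB.2 s hst
  have h1 := huniq b ⟨hb, hs.trans Finset.inter_subset_left⟩
  have h2 := huniq c ⟨hc, hs.trans Finset.inter_subset_right⟩
  exact hbc (h1.trans h2.symm)

theorem steiner_moment_erase {t k : ℕ} {B : Set (Finset α)} (hB : Cfsg.IsSteinerSystem t k B)
    {b : Finset α} (hb : b ∈ B) (j : ℕ) (hj : j ≤ t) :
    (∑ c ∈ (blocks B).erase b, (b ∩ c).card.choose j + k.choose j) * (k - j).choose (t - j)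
      = k.choose j * (Fintype.card α - j).choose (t - j) := by
  have h := steiner_moment_mul hB b j hj
  rw [hB.1 b hb] at h
  rw [← h, ← Finset.sum_erase_add _ _ (mem_blocks.mpr hb), Finset.inter_self, hB.1 b hb]

end Cfsg.Agent.Lib.Helper1
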