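import Mathlib
import Cfsg.Agent.Lib.Helper1.Steiner
import Cfsg.Agent.S0356

set_option autoImplicit false

namespace Cfsg.Agent.Lib.Helper1.S22

open Finset Cfsg.Agent.Lib.Helper1

variable {α : Type*} [Fintype α] [DecidableEq α] {B : Set (Finset α)}

theorem card_blocks (hα : Fintype.card α = 22) (hB : Cfsg.IsSteinerSystem 3 6 B) :
    (blocks B).card = 77 := by
  have h := steiner_lambda hB ∅ (by simp)
  rw [hα] at h
  have c1 : Nat.choose (6 - (∅ : Finset α).card) (3 - (∅ : Finset α).card) = 20 := by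
    rw [Finset.card_empty]; decide
  have c2 : Nat.choose (22 - (∅ : Finset α).card) (3 - (∅ : Finset α).card) = 1540 := by
    rw [Finset.card_empty]; decide
  rw [c1, c2] at h
  have h3 : #{c ∈ blocks B | (∅ : Finset α) ⊆ c} = (blocks B).card := by
    congr 1
    ext c
    simp
  rw [h3] at h
  omega

theorem lam1 (hα : Fintype.card α = 22) (hB : Cfsg.IsSteinerSystem 3 6 B) (x : α) :
    #{d ∈ blocks B | x ∈ d} = 21 := by
  have h := steiner_lambda hB {x} (by simp)
  rw [hα] at h
  have c1 : Nat.choose (6 - ({x} : Finset α).card) (3 - ({x} : Finset α).card) = 10 := by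
    rw [Finset.card_singleton]; decide
  have c2 : Nat.choose (22 - ({x} : Finset α).card) (3 - ({x} : Finset α).card) = 210 := by
    rw [Finset.card_singleton]; decide
  rw [c1, c2] at h
  have h3 : #{c ∈ blocks B | ({x} : Finset α) ⊆ c} = #{d ∈ blocks B | x ∈ d} := by
    congr 1
    ext c
    simp
  rw [h3] at h
  omega

theorem lam2 (hα : Fintype.card α = 22) (hB : Cfsg.IsSteinerSystem 3 6 B) {x y : α}
    (hxy : x ≠ y) : #{d ∈ blocks B | x ∈ d ∧ y ∈ d} = 5 := by
  have hc : ({x, y} : Finset α).card = 2 := Finset.card_pair hxy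
  have h := steiner_lambda hB {x, y} (by rw [hc]; norm_num)
  rw [hα] at h
  have c1 : Nat.choose (6 - ({x, y} : Finset α).card) (3 - ({x, y} : Finset α).card) = 4 := by
    rw [hc]; decide
  have c2 : Nat.choose (22 - ({x, y} : Finset α).card) (3 - ({x, y} : Finset α).card) = 20 := by
    rw [hc]; decide
  rw [c1, c2] at h
  have h3 : #{c ∈ blocks B | ({x, y} : Finset α) ⊆ c} = #{d ∈ blocks B | x ∈ d ∧ y ∈ d} := by
    congr 1
    ext c
    simp [Finset.insert_subset_iff]
  rw [h3] at h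
  omega

theorem inter_cases (hα : Fintype.card α = 22) (hB : Cfsg.IsSteinerSystem 3 6 B)
    {b c : Finset α} (hb : b ∈ B) (hc : c ∈ B) (hbc : b ≠ c) :
    (b ∩ c).card = 0 ∨ (b ∩ c).card = 2 :=
  Cfsg.Agent.S0356.result hα hB hb hc hbc

theorem disj_iff (b c : Finset α) : Disjoint b c ↔ (b ∩ c).card = 0 := by
  rw [Finset.card_eq_zero, Finset.disjoint_iff_inter_eq_empty]

theorem not_disj_self (hB : Cfsg.IsSteinerSystem 3 6 B) {b : Finset α} (hb : b ∈ B) :
    ¬ Disjoint b b := by
  rw [disj_iff, Finset.inter_self, hB.1 b hb]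
  norm_num

theorem sum_inter (hα : Fintype.card α = 22) (hB : Cfsg.IsSteinerSystem 3 6 B)
    {b : Finset α} (hb : b ∈ B) : ∑ c ∈ (blocks B).erase b, (b ∩ c).card = 120 := by
  have m1 := steiner_moment_erase hB hb 1 (by norm_num)
  rw [hα] at m1
  have c1 : Nat.choose 6 1 = 6 := by decide
  have c2 : Nat.choose (6 - 1) (3 - 1) = 10 := by decide
  have c3 : Nat.choose (22 - 1) (3 - 1) = 210 := by decide
  rw [c1, c2, c3] at m1
  simp only [Nat.choose_one_right] at m1
  omega

theorem bimoment_gen (B : Set (Finset α)) (b c : Finset α) :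
    ∑ d ∈ blocks B, (b ∩ d).card * (c ∩ d).card
      = ∑ x ∈ b, ∑ y ∈ c, #{d ∈ blocks B | x ∈ d ∧ y ∈ d} := by
  have h1 : ∀ d : Finset α, (b ∩ d).card * (c ∩ d).card
      = ∑ x ∈ b, ∑ y ∈ c, if x ∈ d ∧ y ∈ d then 1 else 0 := by
    intro d
    rw [← Finset.filter_mem_eq_inter, ← Finset.filter_mem_eq_inter, Finset.card_filter,
      Finset.card_filter, Finset.sum_mul_sum]
    refine Finset.sum_congr rfl fun x _ => Finset.sum_congr rfl fun y _ => ?_
    by_cases hx : x ∈ d <;> by_cases hy : y ∈ d <;> simp [hx, hy]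
  simp_rw [h1]
  rw [Finset.sum_comm]
  refine Finset.sum_congr rfl fun x _ => ?_
  rw [Finset.sum_comm]
  refine Finset.sum_congr rfl fun y _ => ?_
  rw [Finset.card_filter]

theorem bimoment (hα : Fintype.card α = 22) (hB : Cfsg.IsSteinerSystem 3 6 B)
    {b c : Finset α} (hb : b ∈ B) (hc : c ∈ B) :
    ∑ d ∈ blocks B, (b ∩ d).card * (c ∩ d).card = 180 + 16 * (b ∩ c).card := by
  rw [bimoment_gen]
  have h1 : ∀ x ∈ b, ∀ y ∈ c, #{d ∈ blocks B | x ∈ d ∧ y ∈ d} = 5 + if x = y then 16 else 0 := by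
    intro x _ y _
    by_cases hxy : x = y
    · subst hxy
      rw [if_pos rfl]
      have := lam1 hα hB x
      simp only [and_self]
      exact this
    · rw [if_neg hxy, lam2 hα hB hxy]
  rw [Finset.sum_congr rfl fun x hx => Finset.sum_congr rfl fun y hy => h1 x hx y hy]
  simp_rw [Finset.sum_add_distrib, Finset.sum_const, smul_eq_mul]
  rw [hB.1 b hb, hB.1 c hc]
  have h2 : ∑ x ∈ b, ∑ y ∈ c, (if x = y then 16 else 0) = 16 * (b ∩ c).card := by
    rw [← Finset.filter_mem_eq_inter, Finset.card_filter, Finset.mul_sum]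
    refine Finset.sum_congr rfl fun x _ => ?_
    rw [Finset.sum_ite_eq]
    split_ifs <;> rfl
  rw [h2]

theorem card_disj (hα : Fintype.card α = 22) (hB : Cfsg.IsSteinerSystem 3 6 B)
    {b : Finset α} (hb : b ∈ B) : #{c ∈ blocks B | Disjoint b c} = 16 := by
  have h0 : #{c ∈ blocks B | Disjoint b c} = #{c ∈ (blocks B).erase b | Disjoint b c} := by
    congr 1
    ext c
    simp only [mem_filter, mem_erase]
    constructor
    · rintro ⟨h1, h2⟩
      refine ⟨⟨?_, h1⟩, h2⟩
      rintro rfl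
      exact not_disj_self hB hb h2
    · rintro ⟨⟨-, h1⟩, h2⟩
      exact ⟨h1, h2⟩
  rw [h0]
  have hS : ((blocks B).erase b).card = 76 := by
    rw [Finset.card_erase_of_mem (mem_blocks.mpr hb), card_blocks hα hB]
  have h1 : ∑ c ∈ (blocks B).erase b, (2 * (if Disjoint b c then 1 else 0) + (b ∩ c).card)
      = ∑ c ∈ (blocks B).erase b, 2 := by
    refine Finset.sum_congr rfl fun c hc => ?_
    rw [mem_erase] at hc
    have := inter_cases hα hB hb (mem_blocks.mp hc.2) (Ne.symm hc.1)
    rcases this with h | h <;> simp [disj_iff, h]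
  rw [Finset.sum_add_distrib, ← Finset.mul_sum, ← Finset.card_filter, sum_inter hα hB hb,
    Finset.sum_const, hS] at h1
  simp only [smul_eq_mul] at h1
  omega

theorem card_disj2 (hα : Fintype.card α = 22) (hB : Cfsg.IsSteinerSystem 3 6 B)
    {b c : Finset α} (hb : b ∈ B) (hc : c ∈ B) (hbc : b ≠ c) :
    #{d ∈ blocks B | Disjoint b d ∧ Disjoint c d} = 2 * (b ∩ c).card := by
  obtain ⟨S, hSdef⟩ : ∃ S, S = ((blocks B).erase b).erase c := ⟨_, rfl⟩
  have hcm : c ∈ (blocks B).erase b := mem_erase.mpr ⟨Ne.symm hbc, mem_blocks.mpr hc⟩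
  have hbm : b ∈ (blocks B).erase c := mem_erase.mpr ⟨hbc, mem_blocks.mpr hb⟩
  have hS' : S = ((blocks B).erase c).erase b := by rw [hSdef, Finset.erase_right_comm]
  have h0 : #{d ∈ blocks B | Disjoint b d ∧ Disjoint c d} = #{d ∈ S | Disjoint b d ∧ Disjoint c d} := by
    congr 1
    ext d
    simp only [hSdef, mem_filter, mem_erase]
    constructor
    · rintro ⟨h1, h2, h3⟩
      refine ⟨⟨?_, ?_, h1⟩, h2, h3⟩
      · rintro rfl
        exact not_disj_self hB hc h3
      · rintro rfl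
        exact not_disj_self hB hb h2
    · rintro ⟨⟨-, -, h1⟩, h2⟩
      exact ⟨h1, h2⟩
  rw [h0]
  have hS : S.card = 75 := by
    rw [hSdef, Finset.card_erase_of_mem hcm, Finset.card_erase_of_mem (mem_blocks.mpr hb),
      card_blocks hα hB]
  have e1 : ∑ d ∈ S, (b ∩ d).card + (b ∩ c).card = 120 := by
    rw [hSdef, Finset.sum_erase_add _ _ hcm, sum_inter hα hB hb]
  have e2 : ∑ d ∈ S, (c ∩ d).card + (b ∩ c).card = 120 := by
    rw [hS', Finset.inter_comm b c, Finset.sum_erase_add _ _ hbm, sum_inter hα hB hc]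
  have e3 : ∑ d ∈ S, (b ∩ d).card * (c ∩ d).card + 6 * (b ∩ c).card + 6 * (b ∩ c).card
      = 180 + 16 * (b ∩ c).card := by
    rw [← bimoment hα hB hb hc, ← Finset.sum_erase_add _ _ (mem_blocks.mpr hb),
      ← Finset.sum_erase_add _ _ hcm, ← hSdef, Finset.inter_self, Finset.inter_self,
      hB.1 b hb, hB.1 c hc, Finset.inter_comm c b]
    ring
  have h1 : ∑ d ∈ S, (4 * (if Disjoint b d ∧ Disjoint c d then 1 else 0) + 2 * (b ∩ d).card
        + 2 * (c ∩ d).card)
      = ∑ d ∈ S, (4 + (b ∩ d).card * (c ∩ d).card) := by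
    refine Finset.sum_congr rfl fun d hd => ?_
    rw [hSdef, mem_erase, mem_erase] at hd
    have hdB := mem_blocks.mp hd.2.2
    have i1 := inter_cases hα hB hb hdB (Ne.symm hd.2.1)
    have i2 := inter_cases hα hB hc hdB (Ne.symm hd.1)
    rcases i1 with h | h <;> rcases i2 with h' | h' <;> simp [disj_iff, h, h']
  rw [Finset.sum_add_distrib, Finset.sum_add_distrib, Finset.sum_add_distrib, ← Finset.mul_sum,
    ← Finset.mul_sum, ← Finset.mul_sum, ← Finset.card_filter, Finset.sum_const, hS] at h1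
  simp only [smul_eq_mul] at h1
  omega

theorem card_through_disj (hα : Fintype.card α = 22) (hB : Cfsg.IsSteinerSystem 3 6 B)
    {b : Finset α} (hb : b ∈ B) {a : α} (ha : a ∉ b) :
    #{d ∈ blocks B | a ∈ d ∧ Disjoint b d} = 6 := by
  obtain ⟨T, hT⟩ : ∃ T, T = {d ∈ blocks B | a ∈ d} := ⟨_, rfl⟩
  have h0 : #{d ∈ blocks B | a ∈ d ∧ Disjoint b d} = #{d ∈ T | Disjoint b d} := by
    rw [hT, Finset.filter_filter]
  rw [h0]
  have hTc : T.card = 21 := by rw [hT, lam1 hα hB a]
  have e1 : ∑ d ∈ T, (b ∩ d).card = 30 := by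
    have h1 : ∀ d : Finset α, (b ∩ d).card = ∑ x ∈ b, if x ∈ d then 1 else 0 := by
      intro d
      rw [← Finset.filter_mem_eq_inter, Finset.card_filter]
    simp_rw [h1]
    rw [Finset.sum_comm]
    have h2 : ∀ x ∈ b, ∑ d ∈ T, (if x ∈ d then 1 else 0) = 5 := by
      intro x hx
      rw [← Finset.card_filter, hT, Finset.filter_filter]
      exact lam2 hα hB (fun h => ha (h ▸ hx))
    rw [Finset.sum_congr rfl h2, Finset.sum_const, hB.1 b hb]
    rfl
  have h1 : ∑ d ∈ T, (2 * (if Disjoint b d then 1 else 0) + (b ∩ d).card) = ∑ d ∈ T, 2 := by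
    refine Finset.sum_congr rfl fun d hd => ?_
    rw [hT, mem_filter] at hd
    have hne : b ≠ d := fun h => ha (h ▸ hd.2)
    have := inter_cases hα hB hb (mem_blocks.mp hd.1) hne
    rcases this with h | h <;> simp [disj_iff, h]
  rw [Finset.sum_add_distrib, ← Finset.mul_sum, ← Finset.card_filter, e1, Finset.sum_const,
    hTc] at h1
  simp only [smul_eq_mul] at h1
  omega

theorem ncard_sub (B : Set (Finset α)) (P : Finset α → Prop) [DecidablePred P] :
    Set.ncard {c : B | P c.1} = #{c ∈ blocks B | P c} := by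
  rw [← Set.ncard_image_of_injective _ Subtype.val_injective, ← Set.ncard_coe_finset]
  congr 1
  ext c
  simp only [Set.mem_image, Set.mem_setOf_eq, Subtype.exists, exists_and_right, exists_eq_right,
    coe_filter, mem_blocks]
  constructor
  · rintro ⟨h1, h2⟩
    exact ⟨h1, h2⟩
  · rintro ⟨h1, h2⟩
    exact ⟨h1, h2⟩

theorem ncard_opt_sum {β γ : Type*} [Finite β] [Finite γ] (S : Set (Option (β ⊕ γ)))
    [Decidable (none ∈ S)] :
    S.ncard = (if none ∈ S then 1 else 0) + Set.ncard {a : β | some (Sum.inl a) ∈ S}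
      + Set.ncard {c : γ | some (Sum.inr c) ∈ S} := by
  have hS : S = (S ∩ {none}) ∪ ((fun a : β => (some (Sum.inl a) : Option (β ⊕ γ))) ''
      {a : β | some (Sum.inl a) ∈ S}
      ∪ (fun c : γ => (some (Sum.inr c) : Option (β ⊕ γ))) '' {c : γ | some (Sum.inr c) ∈ S}) := by
    ext v
    rcases v with _ | a | c <;> simp
  have i1 : Function.Injective (fun a : β => (some (Sum.inl a) : Option (β ⊕ γ))) :=
    fun a a' h => Sum.inl_injective (Option.some_injective _ h)
  have i2 : Function.Injective (fun c : γ => (some (Sum.inr c) : Option (β ⊕ γ))) :=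
    fun a a' h => Sum.inr_injective (Option.some_injective _ h)
  have d1 : Disjoint ((fun a : β => (some (Sum.inl a) : Option (β ⊕ γ))) ''
      {a : β | some (Sum.inl a) ∈ S})
      ((fun c : γ => (some (Sum.inr c) : Option (β ⊕ γ))) '' {c : γ | some (Sum.inr c) ∈ S}) := by
    rw [Set.disjoint_left]
    rintro v ⟨a, -, rfl⟩ ⟨c, -, hc⟩
    simp at hc
  have d2 : Disjoint (S ∩ {none}) ((fun a : β => (some (Sum.inl a) : Option (β ⊕ γ))) ''
      {a : β | some (Sum.inl a) ∈ S}
      ∪ (fun c : γ => (some (Sum.inr c) : Option (β ⊕ γ))) '' {c : γ | some (Sum.inr c) ∈ S}) := by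
    rw [Set.disjoint_left]
    rintro v ⟨-, hv⟩ (⟨a, -, ha⟩ | ⟨c, -, hc⟩)
    · rw [Set.mem_singleton_iff] at hv
      rw [hv] at ha
      simp at ha
    · rw [Set.mem_singleton_iff] at hv
      rw [hv] at hc
      simp at hc
  have h0 : (S ∩ {none}).ncard = if none ∈ S then 1 else 0 := by
    by_cases h : none ∈ S
    · rw [if_pos h, Set.inter_eq_self_of_subset_right (Set.singleton_subset_iff.mpr h),
        Set.ncard_singleton]
    · rw [if_neg h, Set.inter_singleton_eq_empty.mpr h, Set.ncard_empty]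
  conv_lhs => rw [hS]
  rw [Set.ncard_union_eq d2 (Set.toFinite _) (Set.toFinite _),
    Set.ncard_union_eq d1 (Set.toFinite _) (Set.toFinite _),
    Set.ncard_image_of_injective _ i1, Set.ncard_image_of_injective _ i2, h0, add_assoc]

end Cfsg.Agent.Lib.Helper1.S22
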