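import Mathlib

set_option autoImplicit false

namespace Cfsg.Agent.Lib.Helper1.S6Idx

open Equiv

set_option maxRecDepth 100000 in
theorem comm_ne : ∀ σ : Perm (Fin 6), σ ≠ 1 → ∃ τ : Perm (Fin 6), τ * σ * τ⁻¹ * σ⁻¹ ≠ 1 := by
  decide +kernel

/-- normal subgroups of small order are trivial -/
theorem normal_small (N : Subgroup (Perm (Fin 6))) [hn : N.Normal] (hN : Nat.card N < 360) :
    N = ⊥ := by
  haveI : IsSimpleGroup ↥(alternatingGroup (Fin 6)) := alternatingGroup.isSimpleGroup (by simp)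
  have hnorm : (N.subgroupOf (alternatingGroup (Fin 6))).Normal := inferInstance
  rcases hnorm.eq_bot_or_eq_top with h | h
  · rw [Subgroup.subgroupOf_eq_bot] at h
    rw [eq_bot_iff]
    intro σ hσ
    rw [Subgroup.mem_bot]
    by_contra hne
    obtain ⟨τ, hτ⟩ := comm_ne σ hne
    apply hτ
    have h1 : τ * σ * τ⁻¹ * σ⁻¹ ∈ N := N.mul_mem (hn.conj_mem σ hσ τ) (N.inv_mem hσ)
    have h2 : τ * σ * τ⁻¹ * σ⁻¹ ∈ alternatingGroup (Fin 6) := by
      have hu : ∀ s t : ℤˣ, t * s * t⁻¹ * s⁻¹ = 1 := by decide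
      rw [Equiv.Perm.mem_alternatingGroup, map_mul, map_mul, map_mul, map_inv, map_inv]
      exact hu _ _
    have h3 : τ * σ * τ⁻¹ * σ⁻¹ ∈ (⊥ : Subgroup (Perm (Fin 6))) := h.le_bot ⟨h1, h2⟩
    exact Subgroup.mem_bot.mp h3
  · exfalso
    rw [Subgroup.subgroupOf_eq_top] at h
    have h1 := Subgroup.card_le_of_le h
    rw [nat_card_alternatingGroup, Nat.card_eq_fintype_card, Fintype.card_fin] at h1
    have h2 : Nat.factorial 6 / 2 = 360 := by decide
    omega

theorem card_perm6 : Nat.card (Perm (Fin 6)) = 720 := by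
  rw [Nat.card_eq_fintype_card, Fintype.card_perm, Fintype.card_fin]
  decide

theorem card_of_index (H : Subgroup (Perm (Fin 6))) (hH : H.index = 6) : Nat.card H = 120 := by
  have h1 := H.index_mul_card
  rw [hH, card_perm6] at h1
  omega

theorem index_of_card (H : Subgroup (Perm (Fin 6))) (hH : Nat.card H = 120) : H.index = 6 := by
  have h1 := H.index_mul_card
  rw [hH, card_perm6] at h1
  omega

theorem iso_S5 (H : Subgroup (Perm (Fin 6))) (hH : H.index = 6) :
    Nonempty (H ≃* Perm (Fin 5)) := by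
  classical
  have hcardH := card_of_index H hH
  have hker : (MulAction.toPermHom (Perm (Fin 6)) (Perm (Fin 6) ⧸ H)).ker = ⊥ := by
    rw [← Subgroup.normalCore_eq_ker]
    apply normal_small
    have h1 := Subgroup.card_le_of_le (Subgroup.normalCore_le H)
    omega
  have hinj : Function.Injective (MulAction.toPermHom (Perm (Fin 6)) (Perm (Fin 6) ⧸ H)) :=
    (MonoidHom.ker_eq_bot_iff _).mp hker
  haveI : Fintype (Perm (Fin 6) ⧸ H) := Fintype.ofFinite _
  have hcardQ : Fintype.card (Perm (Fin 6) ⧸ H) = 6 := by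
    rw [← Nat.card_eq_fintype_card]
    exact hH
  have hbij : Function.Bijective (MulAction.toPermHom (Perm (Fin 6)) (Perm (Fin 6) ⧸ H)) := by
    rw [Fintype.bijective_iff_injective_and_card]
    refine ⟨hinj, ?_⟩
    rw [Fintype.card_perm, Fintype.card_perm, hcardQ, Fintype.card_fin]
  obtain ⟨x, hx⟩ : ∃ x : Perm (Fin 6) ⧸ H, x = ((1 : Perm (Fin 6)) : Perm (Fin 6) ⧸ H) :=
    ⟨_, rfl⟩
  have hstab : MulAction.stabilizer (Perm (Fin 6)) x = H := by
    rw [hx]
    exact MulAction.stabilizer_quotient H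
  have hmap : H.map (MulAction.toPermHom (Perm (Fin 6)) (Perm (Fin 6) ⧸ H))
      = MulAction.stabilizer (Perm (Perm (Fin 6) ⧸ H)) x := by
    ext π
    constructor
    · rintro ⟨σ, hσ, rfl⟩
      rw [MulAction.mem_stabilizer_iff]
      have h1 : σ ∈ MulAction.stabilizer (Perm (Fin 6)) x := by
        rw [hstab]
        exact hσ
      exact h1
    · intro hπ
      obtain ⟨σ, rfl⟩ := hbij.2 π
      refine ⟨σ, ?_, rfl⟩
      have h1 : σ ∈ MulAction.stabilizer (Perm (Fin 6)) x := hπ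
      rw [hstab] at h1
      exact h1
  have e1 : H ≃* H.map (MulAction.toPermHom (Perm (Fin 6)) (Perm (Fin 6) ⧸ H)) :=
    H.equivMapOfInjective _ hinj
  have e2 : ↥(H.map (MulAction.toPermHom (Perm (Fin 6)) (Perm (Fin 6) ⧸ H)))
      ≃* ↥(MulAction.stabilizer (Perm (Perm (Fin 6) ⧸ H)) x) := MulEquiv.subgroupCongr hmap
  have hrange : (Equiv.Perm.ofSubtype :
      Perm {y : Perm (Fin 6) ⧸ H // y ≠ x} →* Perm (Perm (Fin 6) ⧸ H)).range
      = MulAction.stabilizer (Perm (Perm (Fin 6) ⧸ H)) x := by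
    ext π
    constructor
    · rintro ⟨f, rfl⟩
      rw [MulAction.mem_stabilizer_iff]
      exact Equiv.Perm.ofSubtype_apply_of_not_mem f (by simp)
    · intro hπ
      rw [MulAction.mem_stabilizer_iff] at hπ
      have hπ' : π x = x := hπ
      have h1 : ∀ y, (π y ≠ x) ↔ (y ≠ x) := by
        intro y
        rw [not_iff_not]
        constructor
        · intro h
          apply π.injective
          rw [h, hπ']
        · intro h
          rw [h, hπ']
      refine ⟨Equiv.Perm.subtypePerm π h1, Equiv.Perm.ofSubtype_subtypePerm h1 ?_⟩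
      intro y hy h
      rw [h] at hy
      exact hy hπ'
  have e3 : Perm {y : Perm (Fin 6) ⧸ H // y ≠ x} ≃* (Equiv.Perm.ofSubtype :
      Perm {y : Perm (Fin 6) ⧸ H // y ≠ x} →* Perm (Perm (Fin 6) ⧸ H)).range :=
    MonoidHom.ofInjective Equiv.Perm.ofSubtype_injective
  have e4 := MulEquiv.subgroupCongr hrange
  have hc5 : Fintype.card {y : Perm (Fin 6) ⧸ H // y ≠ x} = 5 := by
    rw [Fintype.card_subtype_compl (fun y => y = x), Fintype.card_subtype_eq, hcardQ]
  have e5 : {y : Perm (Fin 6) ⧸ H // y ≠ x} ≃ Fin 5 := Fintype.equivFinOfCardEq hc5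
  exact ⟨e1.trans (e2.trans (e4.symm.trans (e3.symm.trans e5.permCongrHom)))⟩

end Cfsg.Agent.Lib.Helper1.S6Idx
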