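import Cfsg.Agent.Lib.Helper1.S6IdxB

set_option autoImplicit false

namespace Cfsg.Agent.Lib.Helper1.S6Idx

open Equiv

set_option maxRecDepth 100000 in
theorem c5_3_0 : ∀ c : Perm (Fin 6), (decide (c 0 = 3) && (decide (c 1 = 0) && relC c)) = true →
    ∀ t : Perm (Fin 6), relT t = true → (!relX t c || concl t c) = true := by
  decide +kernel


set_option maxRecDepth 100000 in
theorem c5_3_1 : ∀ c : Perm (Fin 6), (decide (c 0 = 3) && (decide (c 1 = 1) && relC c)) = true →
    ∀ t : Perm (Fin 6), relT t = true → (!relX t c || concl t c) = true := by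
  decide +kernel


set_option maxRecDepth 100000 in
theorem c5_3_2 : ∀ c : Perm (Fin 6), (decide (c 0 = 3) && (decide (c 1 = 2) && relC c)) = true →
    ∀ t : Perm (Fin 6), relT t = true → (!relX t c || concl t c) = true := by
  decide +kernel


set_option maxRecDepth 100000 in
theorem c5_3_4 : ∀ c : Perm (Fin 6), (decide (c 0 = 3) && (decide (c 1 = 4) && relC c)) = true →
    ∀ t : Perm (Fin 6), relT t = true → (!relX t c || concl t c) = true := by
  decide +kernel


set_option maxRecDepth 100000 in
theorem c5_3_5 : ∀ c : Perm (Fin 6), (decide (c 0 = 3) && (decide (c 1 = 5) && relC c)) = true →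
    ∀ t : Perm (Fin 6), relT t = true → (!relX t c || concl t c) = true := by
  decide +kernel


set_option maxRecDepth 100000 in
theorem c5_4_0 : ∀ c : Perm (Fin 6), (decide (c 0 = 4) && (decide (c 1 = 0) && relC c)) = true →
    ∀ t : Perm (Fin 6), relT t = true → (!relX t c || concl t c) = true := by
  decide +kernel


set_option maxRecDepth 100000 in
theorem c5_4_1 : ∀ c : Perm (Fin 6), (decide (c 0 = 4) && (decide (c 1 = 1) && relC c)) = true →
    ∀ t : Perm (Fin 6), relT t = true → (!relX t c || concl t c) = true := by
  decide +kernel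


set_option maxRecDepth 100000 in
theorem c5_4_2 : ∀ c : Perm (Fin 6), (decide (c 0 = 4) && (decide (c 1 = 2) && relC c)) = true →
    ∀ t : Perm (Fin 6), relT t = true → (!relX t c || concl t c) = true := by
  decide +kernel


set_option maxRecDepth 100000 in
theorem c5_4_3 : ∀ c : Perm (Fin 6), (decide (c 0 = 4) && (decide (c 1 = 3) && relC c)) = true →
    ∀ t : Perm (Fin 6), relT t = true → (!relX t c || concl t c) = true := by
  decide +kernel


set_option maxRecDepth 100000 in
theorem c5_4_5 : ∀ c : Perm (Fin 6), (decide (c 0 = 4) && (decide (c 1 = 5) && relC c)) = true →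
    ∀ t : Perm (Fin 6), relT t = true → (!relX t c || concl t c) = true := by
  decide +kernel


set_option maxRecDepth 100000 in
theorem c5_5_0 : ∀ c : Perm (Fin 6), (decide (c 0 = 5) && (decide (c 1 = 0) && relC c)) = true →
    ∀ t : Perm (Fin 6), relT t = true → (!relX t c || concl t c) = true := by
  decide +kernel


set_option maxRecDepth 100000 in
theorem c5_5_1 : ∀ c : Perm (Fin 6), (decide (c 0 = 5) && (decide (c 1 = 1) && relC c)) = true →
    ∀ t : Perm (Fin 6), relT t = true → (!relX t c || concl t c) = true := by
  decide +kernel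


set_option maxRecDepth 100000 in
theorem c5_5_2 : ∀ c : Perm (Fin 6), (decide (c 0 = 5) && (decide (c 1 = 2) && relC c)) = true →
    ∀ t : Perm (Fin 6), relT t = true → (!relX t c || concl t c) = true := by
  decide +kernel


set_option maxRecDepth 100000 in
theorem c5_5_3 : ∀ c : Perm (Fin 6), (decide (c 0 = 5) && (decide (c 1 = 3) && relC c)) = true →
    ∀ t : Perm (Fin 6), relT t = true → (!relX t c || concl t c) = true := by
  decide +kernel


set_option maxRecDepth 100000 in
theorem c5_5_4 : ∀ c : Perm (Fin 6), (decide (c 0 = 5) && (decide (c 1 = 4) && relC c)) = true →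
    ∀ t : Perm (Fin 6), relT t = true → (!relX t c || concl t c) = true := by
  decide +kernel

end Cfsg.Agent.Lib.Helper1.S6Idx
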