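import Cfsg.Agent.Lib.Helper1.S6IdxC1
import Cfsg.Agent.Lib.Helper1.S6IdxC2

set_option autoImplicit false

namespace Cfsg.Agent.Lib.Helper1.S6Idx

open Equiv

theorem c5 (c : Perm (Fin 6)) (hc : relC c = true) (t : Perm (Fin 6)) (ht : relT t = true) :
    (!relX t c || concl t c) = true := by
  obtain ⟨a, ha⟩ : ∃ a : Fin 6, c 0 = a := ⟨_, rfl⟩
  obtain ⟨b, hb⟩ : ∃ b : Fin 6, c 1 = b := ⟨_, rfl⟩
  fin_cases a <;> fin_cases b
  · exact absurd (c.injective (ha.trans hb.symm)) (by decide)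
  · exact c5_0_1 c (by rw [ha, hb, hc]; rfl) t ht
  · exact c5_0_2 c (by rw [ha, hb, hc]; rfl) t ht
  · exact c5_0_3 c (by rw [ha, hb, hc]; rfl) t ht
  · exact c5_0_4 c (by rw [ha, hb, hc]; rfl) t ht
  · exact c5_0_5 c (by rw [ha, hb, hc]; rfl) t ht
  · exact c5_1_0 c (by rw [ha, hb, hc]; rfl) t ht
  · exact absurd (c.injective (ha.trans hb.symm)) (by decide)
  · exact c5_1_2 c (by rw [ha, hb, hc]; rfl) t ht
  · exact c5_1_3 c (by rw [ha, hb, hc]; rfl) t ht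
  · exact c5_1_4 c (by rw [ha, hb, hc]; rfl) t ht
  · exact c5_1_5 c (by rw [ha, hb, hc]; rfl) t ht
  · exact c5_2_0 c (by rw [ha, hb, hc]; rfl) t ht
  · exact c5_2_1 c (by rw [ha, hb, hc]; rfl) t ht
  · exact absurd (c.injective (ha.trans hb.symm)) (by decide)
  · exact c5_2_3 c (by rw [ha, hb, hc]; rfl) t ht
  · exact c5_2_4 c (by rw [ha, hb, hc]; rfl) t ht
  · exact c5_2_5 c (by rw [ha, hb, hc]; rfl) t ht
  · exact c5_3_0 c (by rw [ha, hb, hc]; rfl) t ht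
  · exact c5_3_1 c (by rw [ha, hb, hc]; rfl) t ht
  · exact c5_3_2 c (by rw [ha, hb, hc]; rfl) t ht
  · exact absurd (c.injective (ha.trans hb.symm)) (by decide)
  · exact c5_3_4 c (by rw [ha, hb, hc]; rfl) t ht
  · exact c5_3_5 c (by rw [ha, hb, hc]; rfl) t ht
  · exact c5_4_0 c (by rw [ha, hb, hc]; rfl) t ht
  · exact c5_4_1 c (by rw [ha, hb, hc]; rfl) t ht
  · exact c5_4_2 c (by rw [ha, hb, hc]; rfl) t ht
  · exact c5_4_3 c (by rw [ha, hb, hc]; rfl) t ht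
  · exact absurd (c.injective (ha.trans hb.symm)) (by decide)
  · exact c5_4_5 c (by rw [ha, hb, hc]; rfl) t ht
  · exact c5_5_0 c (by rw [ha, hb, hc]; rfl) t ht
  · exact c5_5_1 c (by rw [ha, hb, hc]; rfl) t ht
  · exact c5_5_2 c (by rw [ha, hb, hc]; rfl) t ht
  · exact c5_5_3 c (by rw [ha, hb, hc]; rfl) t ht
  · exact c5_5_4 c (by rw [ha, hb, hc]; rfl) t ht
  · exact absurd (c.injective (ha.trans hb.symm)) (by decide)

end Cfsg.Agent.Lib.Helper1.S6Idx
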