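import Cfsg.Agent.Lib.Helper1.S6Idx
import Cfsg.Agent.Lib.Helper1.S6IdxC

set_option autoImplicit false

namespace Cfsg.Agent.Lib.Helper1.S6Idx

open Equiv

theorem stabB_iff (i : Fin 6) (σ : Perm (Fin 6)) :
    stabB i σ = true ↔ ∀ s ∈ tot i, σ * s * σ⁻¹ ∈ tot i := by
  unfold stabB
  simp only [List.all_eq_true, List.contains_iff_mem]

theorem stabB_mul (i : Fin 6) (σ τ : Perm (Fin 6)) (hσ : stabB i σ = true)
    (hτ : stabB i τ = true) : stabB i (σ * τ) = true := by
  rw [stabB_iff] at hσ hτ ⊢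
  intro s hs
  have h1 := hσ _ (hτ s hs)
  have h2 : σ * τ * s * (σ * τ)⁻¹ = σ * (τ * s * τ⁻¹) * σ⁻¹ := by
    simp only [mul_inv_rev, mul_assoc]
  rw [h2]
  exact h1

theorem stabB_one (i : Fin 6) : stabB i 1 = true := by
  rw [stabB_iff]
  intro s hs
  rw [one_mul, inv_one, mul_one]
  exact hs

theorem stabB_pow (i : Fin 6) (σ : Perm (Fin 6)) (h : stabB i σ = true) (k : ℕ) :
    stabB i (σ ^ k) = true := by
  induction k with
  | zero =>
    rw [pow_zero]
    exact stabB_one i
  | succ k ih =>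
    rw [pow_succ]
    exact stabB_mul i _ _ ih h

theorem stabB_inv (i : Fin 6) (σ : Perm (Fin 6)) (h : stabB i σ = true) :
    stabB i σ⁻¹ = true := by
  have h1 : σ * σ ^ (orderOf σ - 1) = 1 := by
    rw [← pow_succ', Nat.sub_add_cancel (orderOf_pos σ), pow_orderOf_eq_one]
  have h2 : σ ^ (orderOf σ - 1) = σ⁻¹ := eq_inv_of_mul_eq_one_right h1
  rw [← h2]
  exact stabB_pow i σ h _

/-- the stabilizer of a total -/
def StabT (i : Fin 6) : Subgroup (Perm (Fin 6)) where
  carrier := {σ | stabB i σ = true}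
  mul_mem' := fun {a b} ha hb => stabB_mul i a b ha hb
  one_mem' := stabB_one i
  inv_mem' := fun {a} ha => stabB_inv i a ha

theorem mem_StabT (i : Fin 6) (σ : Perm (Fin 6)) : σ ∈ StabT i ↔ stabB i σ = true := Iff.rfl

theorem card_StabT (i : Fin 6) : Nat.card (StabT i) = 120 := by
  haveI : Fintype ↥(StabT i) := Fintype.ofFinite _
  rw [Nat.card_eq_fintype_card,
    Fintype.card_of_subtype (Finset.univ.filter (fun σ : Perm (Fin 6) => stabB i σ = true))]
  · fin_cases i
    · exact d1_0
    · exact d1_1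
    · exact d1_2
    · exact d1_3
    · exact d1_4
    · exact d1_5
  · intro σ
    rw [Finset.mem_filter, mem_StabT]
    simp

theorem card_stab (p : Fin 6) : Nat.card (MulAction.stabilizer (Perm (Fin 6)) p) = 120 := by
  apply card_of_index
  rw [MulAction.index_stabilizer_of_transitive, Nat.card_eq_fintype_card, Fintype.card_fin]

/-- the twelve subgroups -/
def fam : Fin 6 ⊕ Fin 6 → Subgroup (Perm (Fin 6)) :=
  Sum.elim (fun p => MulAction.stabilizer (Perm (Fin 6)) p) StabT

theorem fam_index (x : Fin 6 ⊕ Fin 6) : (fam x).index = 6 := by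
  apply index_of_card
  cases x with
  | inl p => exact card_stab p
  | inr i => exact card_StabT i

theorem fam_inj : Function.Injective fam := by
  intro x y h
  cases x with
  | inl p =>
    cases y with
    | inl q =>
      by_contra hpq
      have hne : p ≠ q := fun hh => hpq (by rw [hh])
      have h3 := d3a p q hne
      have h4 : swap q (if p = 0 ∨ q = 0 then (if p = 1 ∨ q = 1 then 2 else 1) else 0)
          ∈ MulAction.stabilizer (Perm (Fin 6)) p := MulAction.mem_stabilizer_iff.mpr h3.1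
      have h5 : fam (Sum.inl p) = MulAction.stabilizer (Perm (Fin 6)) p := rfl
      have h6 : fam (Sum.inl q) = MulAction.stabilizer (Perm (Fin 6)) q := rfl
      rw [← h5, h, h6] at h4
      exact h3.2 (MulAction.mem_stabilizer_iff.mp h4)
    | inr i =>
      exfalso
      have h4 : fpf i ∈ fam (Sum.inr i) := (d3c i).1
      rw [← h] at h4
      exact (d3c i).2 p (MulAction.mem_stabilizer_iff.mp h4)
  | inr i =>
    cases y with
    | inl q =>
      exfalso
      have h4 : fpf i ∈ fam (Sum.inr i) := (d3c i).1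
      rw [h] at h4
      exact (d3c i).2 q (MulAction.mem_stabilizer_iff.mp h4)
    | inr j =>
      by_contra hij
      have hne : i ≠ j := fun hh => hij (by rw [hh])
      have h3 := d3b i j hne
      have h4 : wit i j ∈ fam (Sum.inr i) := h3.1
      rw [h] at h4
      have h5 : stabB j (wit i j) = true := h4
      rw [h3.2] at h5
      exact Bool.false_ne_true h5

theorem fam_surj (H : Subgroup (Perm (Fin 6))) (hH : H.index = 6) : ∃ x, fam x = H := by
  obtain ⟨φ⟩ := iso_S5 H hH
  obtain ⟨ψ, hψ⟩ : ∃ ψ : Perm (Fin 5) →* Perm (Fin 6), ψ = H.subtype.comp φ.symm.toMonoidHom :=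
    ⟨_, rfl⟩
  have hψval : ∀ y, ψ y = ((φ.symm y : H) : Perm (Fin 6)) := by
    intro y
    rw [hψ]
    rfl
  have hψinj : Function.Injective ψ := by
    intro a b h
    rw [hψval, hψval] at h
    exact φ.symm.injective (Subtype.ext h)
  have hψsurj : ∀ h ∈ H, ∃ y, ψ y = h := by
    intro h hh
    refine ⟨φ ⟨h, hh⟩, ?_⟩
    rw [hψval, MulEquiv.symm_apply_apply]
  obtain ⟨⟨ht1, ht2⟩, ⟨hc1, hc2⟩, hx1, hx2, hx3⟩ := s5rel
  obtain ⟨t, ht⟩ : ∃ t, t = ψ (swap 0 1) := ⟨_, rfl⟩
  obtain ⟨c, hc⟩ : ∃ c, c = ψ (finRotate 5) := ⟨_, rfl⟩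
  have hrelT : relT t = true := by
    unfold relT
    simp only [Bool.and_eq_true, decide_eq_true_eq]
    refine ⟨fun h => ht1 (hψinj ((ht.symm.trans h).trans (map_one ψ).symm)), ?_⟩
    rw [ht, ← map_pow, ht2, map_one]
  have hrelC : relC c = true := by
    unfold relC
    simp only [Bool.and_eq_true, decide_eq_true_eq]
    refine ⟨fun h => hc1 (hψinj ((hc.symm.trans h).trans (map_one ψ).symm)), ?_⟩
    rw [hc, ← map_pow, hc2, map_one]
  have hrelX : relX t c = true := by
    unfold relX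
    simp only [Bool.and_eq_true, decide_eq_true_eq]
    refine ⟨?_, ?_, ?_⟩
    · rw [ht, hc, ← map_mul, ← map_pow, hx1, map_one]
    · rw [ht, hc, ← map_inv, ← map_mul, ← map_mul, ← map_mul, ← map_pow, hx2, map_one]
    · rw [ht, hc, ← map_pow ψ (finRotate 5) 2, ← map_inv, ← map_mul, ← map_mul, ← map_mul,
        ← map_pow, hx3, map_one]
  have hconcl := c5 c hrelC t hrelT
  rw [hrelX] at hconcl
  simp only [Bool.not_true, Bool.false_or] at hconcl
  have hgen : Subgroup.closure ({finRotate 5, swap (0 : Fin 5) 1} : Set (Perm (Fin 5))) = ⊤ :=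
    Equiv.Perm.closure_cycle_adjacent_swap (isCycle_finRotate (n := 3))
      (support_finRotate (n := 3)) (0 : Fin 5)
  have key : ∀ K : Subgroup (Perm (Fin 6)), t ∈ K → c ∈ K → Nat.card K = 120 → H = K := by
    intro K htK hcK hK
    have hle : H ≤ K := by
      intro h hh
      obtain ⟨y, rfl⟩ := hψsurj h hh
      have hy : y ∈ Subgroup.closure ({finRotate 5, swap (0 : Fin 5) 1} : Set (Perm (Fin 5))) := by
        rw [hgen]
        exact Subgroup.mem_top y
      have hcl : Subgroup.closure ({finRotate 5, swap (0 : Fin 5) 1} : Set (Perm (Fin 5)))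
          ≤ K.comap ψ := by
        rw [Subgroup.closure_le]
        rintro z (rfl | rfl)
        · show ψ (finRotate 5) ∈ K
          rw [← hc]
          exact hcK
        · show ψ (swap 0 1) ∈ K
          rw [← ht]
          exact htK
      exact hcl hy
    exact Subgroup.eq_of_le_of_card_ge hle (by rw [hK, card_of_index H hH])
  unfold concl at hconcl
  rw [Bool.or_eq_true] at hconcl
  rcases hconcl with h | h
  · rw [List.any_eq_true] at h
    obtain ⟨p, _, hp⟩ := h
    simp only [Bool.and_eq_true, decide_eq_true_eq] at hp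
    exact ⟨Sum.inl p, (key _ (MulAction.mem_stabilizer_iff.mpr hp.1)
      (MulAction.mem_stabilizer_iff.mpr hp.2) (card_stab p)).symm⟩
  · rw [List.any_eq_true] at h
    obtain ⟨i, _, hi⟩ := h
    simp only [Bool.and_eq_true] at hi
    exact ⟨Sum.inr i, (key (StabT i) hi.1 hi.2 (card_StabT i)).symm⟩

theorem main : Nat.card {H : Subgroup (Perm (Fin 6)) // H.index = 6} = 12 ∧
    (∀ H : Subgroup (Perm (Fin 6)), H.index = 6 → Nonempty (H ≃* Perm (Fin 5))) ∧
    ∃ H : Subgroup (Perm (Fin 6)), H.index = 6 ∧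
      ∀ a : Fin 6, H ≠ MulAction.stabilizer (Perm (Fin 6)) a := by
  refine ⟨?_, iso_S5, StabT 0, fam_index (Sum.inr 0), ?_⟩
  · have e : (Fin 6 ⊕ Fin 6) ≃ {H : Subgroup (Perm (Fin 6)) // H.index = 6} :=
      Equiv.ofBijective (fun x => ⟨fam x, fam_index x⟩)
        ⟨fun x y h => fam_inj (congrArg Subtype.val h), fun ⟨H, hH⟩ => by
          obtain ⟨x, hx⟩ := fam_surj H hH
          exact ⟨x, Subtype.ext hx⟩⟩
    rw [← Nat.card_congr e, Nat.card_eq_fintype_card]
    rfl
  · intro a h
    have h1 : fpf 0 ∈ StabT 0 := (d3c 0).1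
    rw [h] at h1
    exact (d3c 0).2 a (MulAction.mem_stabilizer_iff.mp h1)

end Cfsg.Agent.Lib.Helper1.S6Idx
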