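import Mathlib
import Cfsg.Agent.Lib.Helper1.SympO

namespace Cfsg.Agent.Lib.Helper1.S6Sp

open Matrix

def Bm : Matrix (Fin 6) (Fin 2 ⊕ Fin 2) (ZMod 2) := fun i =>
  Sum.elim ((![![1, 0], ![1, 0], ![0, 0], ![0, 1], ![0, 1], ![0, 0]] : Fin 6 → Fin 2 → ZMod 2) i)
    ((![![0, 0], ![1, 0], ![1, 0], ![0, 0], ![0, 1], ![0, 1]] : Fin 6 → Fin 2 → ZMod 2) i)

def Cm : Matrix (Fin 2 ⊕ Fin 2) (Fin 6) (ZMod 2) := J (Fin 2) (ZMod 2) * Bmᵀ

def one6 : Matrix (Fin 6) Unit (ZMod 2) := fun _ _ => 1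

def onesRow : Matrix Unit (Fin 6) (ZMod 2) := fun _ _ => 1

def urow : Matrix Unit (Fin 6) (ZMod 2) := fun _ j => (![1, 1, 1, 0, 0, 0] : Fin 6 → ZMod 2) j

def tcol : Matrix (Fin 6) Unit (ZMod 2) := fun i _ => (![0, 0, 0, 1, 1, 1] : Fin 6 → ZMod 2) i

theorem hCB : Cm * Bm = 1 := by decide

theorem hBC : Bm * Cm = 1 + one6 * urow + tcol * onesRow := by decide

theorem hC1 : Cm * one6 = 0 := by decide

theorem h1B : onesRow * Bm = 0 := by decide

theorem hCt : Cmᵀ = Bm * J (Fin 2) (ZMod 2) := by decide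


def Pm (σ : Equiv.Perm (Fin 6)) : Matrix (Fin 6) (Fin 6) (ZMod 2) :=
  fun i j => if σ j = i then 1 else 0

theorem Pm_mul (σ τ : Equiv.Perm (Fin 6)) : Pm (σ * τ) = Pm σ * Pm τ := by
  ext i j
  simp only [Pm, Matrix.mul_apply, Equiv.Perm.mul_apply]
  rw [Finset.sum_eq_single (τ j)]
  · rw [if_pos rfl, mul_one]; rfl
  · intro k _ hk
    have : ¬ τ j = k := fun h => hk h.symm
    simp [this]
  · intro h; exact absurd (Finset.mem_univ _) h

theorem Pm_one : Pm 1 = 1 := by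
  ext i j
  simp [Pm, Matrix.one_apply, eq_comm]

theorem Pm_transpose (σ : Equiv.Perm (Fin 6)) : (Pm σ)ᵀ = Pm σ⁻¹ := by
  ext i j
  simp only [Pm, Matrix.transpose_apply]
  have : σ i = j ↔ σ⁻¹ j = i := by
    constructor
    · intro h; rw [← h]; simp
    · intro h; rw [← h]; simp
  simp [this]

theorem Pm_mul_transpose (σ : Equiv.Perm (Fin 6)) : Pm σ * (Pm σ)ᵀ = 1 := by
  rw [Pm_transpose, ← Pm_mul, mul_inv_cancel, Pm_one]

theorem Pm_one6 (σ : Equiv.Perm (Fin 6)) : Pm σ * one6 = one6 := by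
  ext i u
  simp only [Pm, one6, Matrix.mul_apply, mul_one]
  rw [Finset.sum_eq_single (σ⁻¹ i)]
  · simp
  · intro k _ hk
    have : ¬ σ k = i := fun h => hk (by rw [← h]; simp)
    simp [this]
  · intro h; exact absurd (Finset.mem_univ _) h

theorem onesRow_Pm (σ : Equiv.Perm (Fin 6)) : onesRow * Pm σ = onesRow := by
  ext u j
  simp only [Pm, onesRow, Matrix.mul_apply, one_mul]
  rw [Finset.sum_eq_single (σ j)]
  · simp
  · intro k _ hk
    have : ¬ σ j = k := fun h => hk h.symm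
    simp [this]
  · intro h; exact absurd (Finset.mem_univ _) h

def Mm (σ : Equiv.Perm (Fin 6)) : Matrix (Fin 2 ⊕ Fin 2) (Fin 2 ⊕ Fin 2) (ZMod 2) :=
  Cm * Pm σ * Bm

theorem sandwich (X : Matrix (Fin 2 ⊕ Fin 2) (Fin 6) (ZMod 2))
    (Y : Matrix (Fin 6) (Fin 2 ⊕ Fin 2) (ZMod 2)) (σ τ : Equiv.Perm (Fin 6))
    (hX : X = Cm) (hY : onesRow * Y = 0) :
    X * Pm σ * (Bm * Cm) * (Pm τ * Y) = X * Pm σ * (Pm τ * Y) := by
  rw [hBC, Matrix.mul_add, Matrix.mul_add, Matrix.add_mul, Matrix.add_mul, Matrix.mul_one]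
  have h1 : X * Pm σ * (one6 * urow) * (Pm τ * Y) = 0 := by
    have : X * Pm σ * (one6 * urow) = X * (Pm σ * one6) * urow := by
      simp only [Matrix.mul_assoc]
    rw [this, Pm_one6, hX, hC1, Matrix.zero_mul, Matrix.zero_mul]
  have h2 : X * Pm σ * (tcol * onesRow) * (Pm τ * Y) = 0 := by
    have : X * Pm σ * (tcol * onesRow) * (Pm τ * Y)
        = X * Pm σ * tcol * ((onesRow * Pm τ) * Y) := by
      simp only [Matrix.mul_assoc]
    rw [this, onesRow_Pm, hY, Matrix.mul_zero]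
  rw [h1, h2, add_zero, add_zero]

theorem Mm_mul (σ τ : Equiv.Perm (Fin 6)) : Mm (σ * τ) = Mm σ * Mm τ := by
  unfold Mm
  have h := sandwich Cm Bm σ τ rfl h1B
  calc Cm * Pm (σ * τ) * Bm = Cm * Pm σ * (Pm τ * Bm) := by
        rw [Pm_mul]; simp only [Matrix.mul_assoc]
    _ = Cm * Pm σ * (Bm * Cm) * (Pm τ * Bm) := h.symm
    _ = Cm * Pm σ * Bm * (Cm * Pm τ * Bm) := by simp only [Matrix.mul_assoc]

theorem Mm_one : Mm 1 = 1 := by
  unfold Mm
  rw [Pm_one, Matrix.mul_one, hCB]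

theorem Mm_mem (σ : Equiv.Perm (Fin 6)) : Mm σ ∈ symplecticGroup (Fin 2) (ZMod 2) := by
  rw [SymplecticGroup.mem_iff]
  unfold Mm
  rw [Matrix.transpose_mul, Matrix.transpose_mul, hCt]
  have hY : onesRow * (Bm * J (Fin 2) (ZMod 2)) = 0 := by
    rw [← Matrix.mul_assoc, h1B, Matrix.zero_mul]
  have hJ : J (Fin 2) (ZMod 2) = Cm * (Bm * J (Fin 2) (ZMod 2)) := by
    rw [← Matrix.mul_assoc, hCB, Matrix.one_mul]
  have h := sandwich Cm (Bm * J (Fin 2) (ZMod 2)) σ σ⁻¹ rfl hY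
  have hBJ : Bm * J (Fin 2) (ZMod 2) * Bmᵀ = Bm * Cm := by
    rw [Cm, Matrix.mul_assoc]
  calc Cm * Pm σ * Bm * J (Fin 2) (ZMod 2) * (Bmᵀ * ((Pm σ)ᵀ * (Bm * J (Fin 2) (ZMod 2))))
      = Cm * Pm σ * (Bm * J (Fin 2) (ZMod 2) * Bmᵀ) * (Pm σ⁻¹ * (Bm * J (Fin 2) (ZMod 2))) := by
        rw [Pm_transpose]; simp only [Matrix.mul_assoc]
    _ = Cm * Pm σ * (Pm σ⁻¹ * (Bm * J (Fin 2) (ZMod 2))) := by rw [hBJ, h]
    _ = Cm * (Pm σ * Pm σ⁻¹) * (Bm * J (Fin 2) (ZMod 2)) := by simp only [Matrix.mul_assoc]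
    _ = J (Fin 2) (ZMod 2) := by
        rw [← Pm_mul, mul_inv_cancel, Pm_one, Matrix.mul_one, ← hJ]

def Phi : Equiv.Perm (Fin 6) →* symplecticGroup (Fin 2) (ZMod 2) where
  toFun σ := ⟨Mm σ, Mm_mem σ⟩
  map_one' := Subtype.ext Mm_one
  map_mul' σ τ := Subtype.ext (Mm_mul σ τ)

theorem Mm_c3 : Mm (Equiv.swap 0 1 * Equiv.swap 1 2) ≠ 1 := by decide

theorem Phi_injective : Function.Injective Phi := by
  rw [← MonoidHom.ker_eq_bot_iff]
  by_contra hne
  haveI : Nontrivial Phi.ker := (Subgroup.nontrivial_iff_ne_bot _).2 hne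
  have h1 := Equiv.Perm.alternatingGroup_le_of_normal (α := Fin 6) (by simp) (N := Phi.ker)
    inferInstance
  have h2 : (Equiv.swap (0 : Fin 6) 1 * Equiv.swap 1 2) ∈ alternatingGroup (Fin 6) := by
    rw [Equiv.Perm.mem_alternatingGroup]
    decide
  have h3 := h1 h2
  rw [MonoidHom.mem_ker] at h3
  exact Mm_c3 (congrArg Subtype.val h3)

theorem Phi_bijective : Function.Bijective Phi := by
  apply Phi_injective.bijective_of_nat_card_le
  rw [Symp.card_sp 2, Nat.card_perm]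
  simp [Finset.prod_range_succ]
  decide


section transfer

variable {R S : Type*} [CommRing R] [CommRing S] {l : Type*} [Fintype l] [DecidableEq l]

theorem map_J (f : R →+* S) : (J l R).map f = J l S := by
  rw [J, J, Matrix.fromBlocks_map]
  simp [Matrix.map_zero, Matrix.map_one, Matrix.map_neg]

theorem map_mem (f : R →+* S) {A : Matrix (l ⊕ l) (l ⊕ l) R} (hA : A ∈ symplecticGroup l R) :
    A.map f ∈ symplecticGroup l S := by
  rw [SymplecticGroup.mem_iff] at hA ⊢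
  rw [← map_J f, ← Matrix.transpose_map, ← Matrix.map_mul, ← Matrix.map_mul, hA]

def spCongr (e : R ≃+* S) : symplecticGroup l R ≃* symplecticGroup l S where
  toFun g := ⟨g.1.map e, map_mem e.toRingHom g.2⟩
  invFun g := ⟨g.1.map e.symm, map_mem e.symm.toRingHom g.2⟩
  left_inv g := Subtype.ext (by ext i j; simp)
  right_inv g := Subtype.ext (by ext i j; simp)
  map_mul' g h := Subtype.ext (by
    show (g.1 * h.1).map e = g.1.map e * h.1.map e
    exact Matrix.map_mul)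

end transfer

theorem sp4_2_iso {F : Type*} [Field F] [Fintype F] (hF : Fintype.card F = 2) :
    Nonempty (symplecticGroup (Fin 2) F ≃* Equiv.Perm (Fin 6)) := by
  have e := ZMod.ringEquivOfPrime F Nat.prime_two hF
  exact ⟨((spCongr e).symm).trans (MulEquiv.ofBijective Phi Phi_bijective).symm⟩

end Cfsg.Agent.Lib.Helper1.S6Sp
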