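import Mathlib
import Cfsg.Agent.Lib.Helper1.UniqP

namespace Cfsg.Agent.Lib.Helper1.SL2R

open Matrix

variable {K : Type*} [Field K]

theorem ch2 (Z : Matrix (Fin 2) (Fin 2) K) :
    Z * Z = (Z 0 0 + Z 1 1) • Z - Z.det • (1 : Matrix (Fin 2) (Fin 2) K) := by
  rw [Matrix.det_fin_two]
  ext i j
  fin_cases i <;> fin_cases j <;>
    simp [Matrix.mul_apply, Fin.sum_univ_two] <;> ring

theorem trace_of_fix (Z : Matrix (Fin 2) (Fin 2) K) (hdet : Z.det = 1) (v : Fin 2 → K)
    (hv : v ≠ 0) (hZv : Z *ᵥ v = v) : Z 0 0 + Z 1 1 = 2 := by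
  have h0 : (Z - 1).det = 0 := by
    rw [← Matrix.exists_mulVec_eq_zero_iff]
    exact ⟨v, hv, by rw [Matrix.sub_mulVec, hZv, Matrix.one_mulVec, sub_self]⟩
  rw [Matrix.det_fin_two] at h0 hdet
  simp only [Matrix.sub_apply, Matrix.one_apply_eq, ne_eq, zero_ne_one, not_false_eq_true,
    Matrix.one_apply_ne, one_ne_zero, sub_zero] at h0
  linear_combination hdet - h0

theorem pow_unip (Z : Matrix (Fin 2) (Fin 2) K) (hdet : Z.det = 1) (htr : Z 0 0 + Z 1 1 = 2)
    (n : ℕ) : Z ^ n = 1 + (n : K) • (Z - 1) := by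
  have hch := ch2 Z
  rw [hdet, htr] at hch
  induction n with
  | zero => simp
  | succ n ih =>
    rw [pow_succ, ih, add_mul, one_mul, smul_mul_assoc, sub_mul, one_mul, hch]
    push_cast
    module

theorem eq_one_of_fix (Z : Matrix (Fin 2) (Fin 2) K) (hdet : Z.det = 1) (v : Fin 2 → K)
    (hv : v ≠ 0) (hZv : Z *ᵥ v = v) (r : ℕ) (hr : (r : K) ≠ 0) (hZr : Z ^ r = 1) : Z = 1 := by
  have h := pow_unip Z hdet (trace_of_fix Z hdet v hv hZv) r
  rw [hZr] at h
  have h2 : (r : K) • (Z - 1) = 0 := by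
    have h3 : (1 : Matrix (Fin 2) (Fin 2) K) + (r : K) • (Z - 1) = 1 + 0 := by
      rw [← h, add_zero]
    exact add_left_cancel h3
  rcases smul_eq_zero.1 h2 with h3 | h3
  · exact absurd h3 hr
  · exact sub_eq_zero.1 h3

theorem exists_eigen [IsAlgClosed K] (X : Matrix (Fin 2) (Fin 2) K) :
    ∃ (l : K) (v : Fin 2 → K), v ≠ 0 ∧ X *ᵥ v = l • v := by
  obtain ⟨l, hl⟩ := Module.End.exists_eigenvalue (Matrix.toLin' X)
  obtain ⟨v, hv⟩ := hl.exists_hasEigenvector
  exact ⟨l, v, hv.2, by rw [← Matrix.toLin'_apply]; exact hv.apply_eq_smul⟩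

theorem pow_mulVec (X : Matrix (Fin 2) (Fin 2) K) (l : K) (v : Fin 2 → K)
    (h : X *ᵥ v = l • v) (n : ℕ) : (X ^ n) *ᵥ v = l ^ n • v := by
  induction n with
  | zero => simp
  | succ n ih =>
    rw [pow_succ, ← Matrix.mulVec_mulVec, h, Matrix.mulVec_smul, ih, smul_smul]
    congr 1
    ring

theorem eigen_pow_eq_one (X : Matrix (Fin 2) (Fin 2) K) (l : K) (v : Fin 2 → K) (hv : v ≠ 0)
    (h : X *ᵥ v = l • v) (n : ℕ) (hX : X ^ n = 1) : l ^ n = 1 := by
  have h1 := pow_mulVec X l v h n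
  rw [hX, Matrix.one_mulVec] at h1
  by_contra hne
  apply hv
  have h2 : (l ^ n - 1) • v = 0 := by rw [sub_smul, one_smul, ← h1, sub_self]
  exact (smul_eq_zero.1 h2).resolve_left (sub_ne_zero.2 hne)

theorem eigen_dim (X : Matrix (Fin 2) (Fin 2) K) (l : K) (hX : X ≠ l • 1) (v w : Fin 2 → K)
    (hv : v ≠ 0) (hXv : X *ᵥ v = l • v) (hXw : X *ᵥ w = l • w) : ∃ m : K, w = m • v := by
  have hdet : v 0 * w 1 - w 0 * v 1 = 0 := by
    by_contra hne
    apply hX
    have e1 := congrFun hXv 0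
    have e2 := congrFun hXv 1
    have e3 := congrFun hXw 0
    have e4 := congrFun hXw 1
    simp only [Matrix.mulVec, dotProduct, Fin.sum_univ_two, Pi.smul_apply, smul_eq_mul]
      at e1 e2 e3 e4
    have a1 : (X 0 0 - l) * (v 0 * w 1 - w 0 * v 1) = 0 := by
      linear_combination w 1 * e1 - v 1 * e3
    have a2 : X 0 1 * (v 0 * w 1 - w 0 * v 1) = 0 := by
      linear_combination v 0 * e3 - w 0 * e1
    have a3 : X 1 0 * (v 0 * w 1 - w 0 * v 1) = 0 := by
      linear_combination w 1 * e2 - v 1 * e4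
    have a4 : (X 1 1 - l) * (v 0 * w 1 - w 0 * v 1) = 0 := by
      linear_combination v 0 * e4 - w 0 * e2
    have b1 := sub_eq_zero.1 ((mul_eq_zero.1 a1).resolve_right hne)
    have b2 := (mul_eq_zero.1 a2).resolve_right hne
    have b3 := (mul_eq_zero.1 a3).resolve_right hne
    have b4 := sub_eq_zero.1 ((mul_eq_zero.1 a4).resolve_right hne)
    ext i j
    fin_cases i <;> fin_cases j <;> simp [b1, b2, b3, b4]
  have hv' : v 0 ≠ 0 ∨ v 1 ≠ 0 := by
    by_contra hcon
    simp only [not_or, not_not] at hcon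
    apply hv
    ext i
    fin_cases i
    · exact hcon.1
    · exact hcon.2
  rcases hv' with h0 | h1
  · refine ⟨w 0 / v 0, ?_⟩
    ext i
    fin_cases i
    · simp only [Fin.zero_eta, Pi.smul_apply, smul_eq_mul]
      field_simp
    · simp only [Fin.mk_one, Pi.smul_apply, smul_eq_mul]
      field_simp
      linear_combination hdet
  · refine ⟨w 1 / v 1, ?_⟩
    ext i
    fin_cases i
    · simp only [Fin.zero_eta, Pi.smul_apply, smul_eq_mul]
      field_simp
      linear_combination -hdet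
    · simp only [Fin.mk_one, Pi.smul_apply, smul_eq_mul]
      field_simp

theorem main_closed [IsAlgClosed K] (X Y : Matrix (Fin 2) (Fin 2) K) (hX : X.det = 1)
    (hY : Y.det = 1) (hXY : X * Y = Y * X) (r : ℕ) (hr : r.Prime) (hr2 : r ≠ 2)
    (hrK : (r : K) ≠ 0) (hXr : X ^ r = 1) (hYr : Y ^ r = 1) (hX1 : X ≠ 1) :
    ∃ i : ℕ, Y = X ^ i := by
  haveI : Fact r.Prime := ⟨hr⟩
  obtain ⟨l, v, hv, hXv⟩ := exists_eigen X
  have hlr : l ^ r = 1 := eigen_pow_eq_one X l v hv hXv r hXr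
  have hl1 : l ≠ 1 := by
    intro h
    apply hX1
    exact eq_one_of_fix X hX v hv (by rw [hXv, h, one_smul]) r hrK hXr
  have hXl : X ≠ l • 1 := by
    intro h
    have hd : l ^ 2 = 1 := by
      rw [h] at hX
      simpa [Matrix.det_smul] using hX
    apply hl1
    obtain ⟨k, hk⟩ := hr.odd_of_ne_two hr2
    rw [hk, pow_succ, pow_mul, hd, one_pow, one_mul] at hlr
    exact hlr
  obtain ⟨m, hm⟩ := eigen_dim X l hXl v (Y *ᵥ v) hv hXv (by
    rw [Matrix.mulVec_mulVec, hXY, ← Matrix.mulVec_mulVec, hXv, Matrix.mulVec_smul])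
  have hmr : m ^ r = 1 := eigen_pow_eq_one Y m v hv hm r hYr
  have hprim : IsPrimitiveRoot l r := by
    have h := orderOf_eq_prime hlr hl1
    rw [← h]
    exact IsPrimitiveRoot.orderOf l
  haveI : NeZero r := ⟨hr.ne_zero⟩
  obtain ⟨i, -, hi⟩ := hprim.eq_pow_of_pow_eq_one hmr
  have hri : (r - 1) * i + i = r * i := by
    have := hr.pos
    obtain ⟨s, rfl⟩ : ∃ s, r = s + 1 := ⟨r - 1, by omega⟩
    simp only [Nat.add_sub_cancel]
    ring
  have hcomm : Commute Y (X ^ ((r - 1) * i)) :=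
    Commute.pow_right (show Commute Y X from hXY.symm) _
  have hZ : Y * X ^ ((r - 1) * i) = 1 := by
    apply eq_one_of_fix (Y * X ^ ((r - 1) * i)) _ v hv _ r hrK
    · rw [hcomm.mul_pow, hYr, ← pow_mul, mul_comm _ r, pow_mul, hXr, one_pow, one_mul]
    · rw [Matrix.det_mul, Matrix.det_pow, hX, hY, one_pow, one_mul]
    · rw [← Matrix.mulVec_mulVec, pow_mulVec X l v hXv, Matrix.mulVec_smul, hm, smul_smul, ← hi,
        ← pow_add, hri, pow_mul, hlr, one_pow, one_smul]
  refine ⟨i, ?_⟩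
  calc Y = Y * (X ^ ((r - 1) * i) * X ^ i) := by
        rw [← pow_add, hri, pow_mul, hXr, one_pow, mul_one]
    _ = X ^ i := by rw [← mul_assoc, hZ, one_mul]

theorem main_field {F : Type*} [Field F] (x y : SpecialLinearGroup (Fin 2) F)
    (hxy : x * y = y * x) (r : ℕ) (hr : r.Prime) (hr2 : r ≠ 2) (hrF : (r : F) ≠ 0)
    (hxr : x ^ r = 1) (hyr : y ^ r = 1) (hx1 : x ≠ 1) : y ∈ Subgroup.zpowers x := by
  have hinj : Function.Injective (algebraMap F (AlgebraicClosure F)) :=
    (algebraMap F (AlgebraicClosure F)).injective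
  have hφ : Function.Injective ((algebraMap F (AlgebraicClosure F)).mapMatrix :
      Matrix (Fin 2) (Fin 2) F →+* Matrix (Fin 2) (Fin 2) (AlgebraicClosure F)) := by
    intro A B hAB
    exact Matrix.map_injective hinj hAB
  have hdet : ∀ M : Matrix (Fin 2) (Fin 2) F,
      ((algebraMap F (AlgebraicClosure F)).mapMatrix M).det =
        algebraMap F (AlgebraicClosure F) M.det := fun M => (RingHom.map_det _ M).symm
  have hxr' : (x : Matrix (Fin 2) (Fin 2) F) ^ r = 1 := by
    have := congrArg Subtype.val hxr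
    simpa using this
  have hyr' : (y : Matrix (Fin 2) (Fin 2) F) ^ r = 1 := by
    have := congrArg Subtype.val hyr
    simpa using this
  have hxy' : (x : Matrix (Fin 2) (Fin 2) F) * (y : Matrix (Fin 2) (Fin 2) F) =
      (y : Matrix (Fin 2) (Fin 2) F) * (x : Matrix (Fin 2) (Fin 2) F) := by
    have := congrArg Subtype.val hxy
    simpa using this
  obtain ⟨i, hi⟩ := main_closed ((algebraMap F (AlgebraicClosure F)).mapMatrix x.1)
    ((algebraMap F (AlgebraicClosure F)).mapMatrix y.1)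
    (by rw [hdet, x.2, map_one]) (by rw [hdet, y.2, map_one])
    (by rw [← map_mul, ← map_mul, hxy']) r hr hr2
    (by
      rw [← map_natCast (algebraMap F (AlgebraicClosure F))]
      intro h
      exact hrF (hinj (h.trans (map_zero _).symm)))
    (by rw [← map_pow, hxr', map_one])
    (by rw [← map_pow, hyr', map_one])
    (by
      intro h
      apply hx1
      have h1 : (x : Matrix (Fin 2) (Fin 2) F) = 1 := by
        apply hφ
        rw [h, map_one]
      exact Subtype.ext h1)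
  have h1 : (y : Matrix (Fin 2) (Fin 2) F) = (x : Matrix (Fin 2) (Fin 2) F) ^ i := by
    apply hφ
    rw [hi, map_pow]
  rw [Subgroup.mem_zpowers_iff]
  refine ⟨(i : ℤ), ?_⟩
  rw [zpow_natCast]
  apply Subtype.ext
  rw [h1]
  simp

end Cfsg.Agent.Lib.Helper1.SL2R
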