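import Mathlib
import Cfsg.Agent.Lib.Helper1.HermSU
import Cfsg.Agent.Lib.Helper1.O4b

set_option autoImplicit false

namespace Cfsg.Agent.Lib.Helper1.SU2

open Matrix

variable {F : Type*} [Field F]

theorem form_P {q : ℕ} (σ : F →+* F) (hσ : ∀ x, σ x = x ^ q) (l m s t : F)
    (r1 : 1 + l * σ l = 0) (r2 : 1 + m * σ m = 0) (r3 : σ s * (1 + l * σ m) = t)
    (r4 : s * (1 + m * σ l) = -t) (a b : Fin 2 → F) :
    Cfsg.hermForm 2 F q (!![1, s; l, s * m] *ᵥ a) (!![1, s; l, s * m] *ᵥ b)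
      = t * (a 0 * σ (b 1) - a 1 * σ (b 0)) := by
  unfold Cfsg.hermForm
  rw [Fin.sum_univ_two]
  simp only [← hσ]
  simp [Matrix.mulVec, dotProduct, Fin.sum_univ_two]
  linear_combination (a 0 * σ (b 0)) * r1 + (a 0 * σ (b 1)) * r3 + (a 1 * σ (b 0)) * r4
    + (a 1 * σ (b 1) * s * σ s) * r2

theorem form_X (σ : F →+* F) (t : F) (X : Matrix (Fin 2) (Fin 2) F)
    (hX : ∀ i j, σ (X i j) = X i j) (hdet : X.det = 1) (a b : Fin 2 → F) :
    t * ((X *ᵥ a) 0 * σ ((X *ᵥ b) 1) - (X *ᵥ a) 1 * σ ((X *ᵥ b) 0))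
      = t * (a 0 * σ (b 1) - a 1 * σ (b 0)) := by
  rw [Matrix.det_fin_two] at hdet
  simp [Matrix.mulVec, dotProduct, Fin.sum_univ_two, hX]
  refine Or.inl ?_
  linear_combination (a 0 * σ (b 1) - a 1 * σ (b 0)) * hdet

def cjHom (g : GL (Fin 2) F) :
    SpecialLinearGroup (Fin 2) F →* SpecialLinearGroup (Fin 2) F where
  toFun := O4.cj g
  map_one' := by
    apply Subtype.ext
    show g.1 * (1 : Matrix (Fin 2) (Fin 2) F) * g⁻¹.1 = 1
    rw [mul_one, Units.mul_inv]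
  map_mul' x y := by
    apply Subtype.ext
    show g.1 * (x.1 * y.1) * g⁻¹.1 = (g.1 * x.1 * g⁻¹.1) * (g.1 * y.1 * g⁻¹.1)
    rw [mul_assoc (g.1 * x.1) g⁻¹.1, ← mul_assoc g⁻¹.1, ← mul_assoc g⁻¹.1, Units.inv_mul, one_mul]
    simp only [mul_assoc]

theorem cjHom_apply (g : GL (Fin 2) F) (x : SpecialLinearGroup (Fin 2) F) :
    (cjHom g x).1 = g.1 * x.1 * g⁻¹.1 := rfl

theorem cjHom_injective (g : GL (Fin 2) F) : Function.Injective (cjHom g) := by
  intro x y h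
  have h1 : g.1 * x.1 * g⁻¹.1 = g.1 * y.1 * g⁻¹.1 := congrArg Subtype.val h
  apply Subtype.ext
  have h2 : g⁻¹.1 * (g.1 * x.1 * g⁻¹.1) * g.1 = g⁻¹.1 * (g.1 * y.1 * g⁻¹.1) * g.1 := by rw [h1]
  simpa [mul_assoc] using h2

theorem conj_mem {q : ℕ} (σ : F →+* F) (hσ : ∀ x, σ x = x ^ q) (l m s t : F)
    (r1 : 1 + l * σ l = 0) (r2 : 1 + m * σ m = 0) (r3 : σ s * (1 + l * σ m) = t)
    (r4 : s * (1 + m * σ l) = -t) (Pu : GL (Fin 2) F) (hP : Pu.1 = !![1, s; l, s * m])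
    (X : SpecialLinearGroup (Fin 2) F) (hX : ∀ i j, σ (X.1 i j) = X.1 i j) :
    cjHom Pu X ∈ Cfsg.SU 2 F q := by
  intro u v
  show Cfsg.hermForm 2 F q ((Pu.1 * X.1 * Pu⁻¹.1) *ᵥ u) ((Pu.1 * X.1 * Pu⁻¹.1) *ᵥ v)
    = Cfsg.hermForm 2 F q u v
  have hu : ∀ w : Fin 2 → F, Pu.1 *ᵥ (Pu⁻¹.1 *ᵥ w) = w := fun w => by
    rw [Matrix.mulVec_mulVec, Units.mul_inv, Matrix.one_mulVec]
  have hM : ∀ w : Fin 2 → F, (Pu.1 * X.1 * Pu⁻¹.1) *ᵥ w = Pu.1 *ᵥ (X.1 *ᵥ (Pu⁻¹.1 *ᵥ w)) :=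
    fun w => by rw [Matrix.mulVec_mulVec, Matrix.mulVec_mulVec]
  rw [hM, hM]
  conv_rhs => rw [← hu u, ← hu v]
  rw [hP, form_P σ hσ l m s t r1 r2 r3 r4, form_P σ hσ l m s t r1 r2 r3 r4,
    form_X σ t X.1 hX X.2]

variable [Fintype F] {q : ℕ}

theorem card_fixed (hF : Fintype.card F = q ^ 2) : Nat.card {c : F // c ^ q = c} = q := by
  have hq := Herm.two_le_q hF
  have h := Herm.card_fix hF
  rw [show Nat.card {c : F // c ≠ 0 ∧ c ^ q = c} = Nat.card ↥{c : F | c ≠ 0 ∧ c ^ q = c} from rfl,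
    Nat.card_coe_set_eq] at h
  rw [show Nat.card {c : F // c ^ q = c} = Nat.card ↥{c : F | c ^ q = c} from rfl,
    Nat.card_coe_set_eq]
  have e : {c : F | c ^ q = c} = insert 0 {c : F | c ≠ 0 ∧ c ^ q = c} := by
    ext c
    simp only [Set.mem_ofPred_eq, Set.mem_insert_iff]
    constructor
    · intro hc
      by_cases h0 : c = 0
      · exact Or.inl h0
      · exact Or.inr ⟨h0, hc⟩
    · rintro (rfl | ⟨-, hc⟩)
      · exact zero_pow (by omega)
      · exact hc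
  rw [e, Set.ncard_insert_of_notMem (by simp) (Set.toFinite _), h]
  omega

theorem exists_embed {K : Type*} [Field K] [Fintype K] (hF : Fintype.card F = q ^ 2)
    (hK : Fintype.card K = q) : ∃ ι : K →+* F, ∀ x, (ι x) ^ q = ι x := by
  obtain ⟨σ, hσ⟩ := Herm.exists_frob hF
  let F0 := σ.eqLocusField (RingHom.id F)
  haveI : Fintype F0 := Fintype.ofFinite _
  have hc : Fintype.card F0 = q := by
    rw [← Nat.card_eq_fintype_card, ← card_fixed hF]
    apply Nat.card_congr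
    exact Equiv.subtypeEquivRight (fun c => by
      show σ c = (RingHom.id F) c ↔ c ^ q = c
      rw [hσ]; rfl)
  let e := FiniteField.ringEquivOfCardEq (K := K) (K' := F0) (by rw [hK, hc])
  refine ⟨F0.subtype.comp e.toRingHom, fun x => ?_⟩
  have h1 : σ (e x).1 = (e x).1 := (e x).2
  rw [← hσ]
  exact h1

theorem main {K : Type*} [Field K] [Fintype K] (hF : Fintype.card F = q ^ 2)
    (hK : Fintype.card K = q) :
    Nonempty (Cfsg.SU 2 F q ≃* SpecialLinearGroup (Fin 2) K) := by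
  have hq := Herm.two_le_q hF
  obtain ⟨σ, hσ⟩ := Herm.exists_frob hF
  have hσ2 : ∀ x, σ (σ x) = x := fun x => by rw [hσ, hσ, Herm.pow_q_pow_q hF]
  obtain ⟨ι, hι⟩ := exists_embed hF hK
  obtain ⟨l, hl0, hl⟩ := Herm.norm_surj hF (-1) (neg_ne_zero.2 one_ne_zero)
    (by rw [← hσ, map_neg, map_one])
  obtain ⟨z, hz, hz1⟩ := Herm.exists_norm_one_ne_one hF
  have r1 : 1 + l * σ l = 0 := by
    rw [hσ, ← pow_succ', hl]; ring
  have hml : l * z ≠ l := by
    intro h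
    apply hz1
    have : l * z = l * 1 := by rw [h, mul_one]
    exact mul_left_cancel₀ hl0 this
  have r2 : 1 + (l * z) * σ (l * z) = 0 := by
    rw [hσ, ← pow_succ', mul_pow, hl, hz]; ring
  have hth : 1 + l * σ (l * z) ≠ 0 := by
    intro h
    apply hml
    have h1 : l * σ (l * z) = l * σ l := by linear_combination h - r1
    exact σ.injective (mul_left_cancel₀ hl0 h1)
  obtain ⟨x0, hx0⟩ : ∃ x0 : F, σ x0 ≠ x0 := by
    by_contra hall
    push Not at hall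
    have h1 := card_fixed hF
    have h2 : Nat.card {c : F // c ^ q = c} = Nat.card F := by
      apply Nat.card_congr
      exact Equiv.subtypeUnivEquiv (fun c => by rw [← hσ]; exact hall c)
    rw [h1, Nat.card_eq_fintype_card, hF] at h2
    nlinarith
  have ht0 : x0 - σ x0 ≠ 0 := sub_ne_zero.mpr (Ne.symm hx0)
  have htσ : σ (x0 - σ x0) = -(x0 - σ x0) := by
    rw [map_sub, hσ2]; ring
  have r3 : σ (σ ((x0 - σ x0) / (1 + l * σ (l * z)))) * (1 + l * σ (l * z)) = x0 - σ x0 := by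
    rw [hσ2, div_mul_cancel₀ _ hth]
  have r4 : σ ((x0 - σ x0) / (1 + l * σ (l * z))) * (1 + (l * z) * σ l) = -(x0 - σ x0) := by
    have : 1 + (l * z) * σ l = σ (1 + l * σ (l * z)) := by
      rw [map_add, map_one, map_mul, hσ2]; ring
    rw [this, ← map_mul, div_mul_cancel₀ _ hth, htσ]
  have hs0 : σ ((x0 - σ x0) / (1 + l * σ (l * z))) ≠ 0 :=
    (map_ne_zero σ).mpr (div_ne_zero ht0 hth)
  have hdet : (!![1, σ ((x0 - σ x0) / (1 + l * σ (l * z))); l,
      σ ((x0 - σ x0) / (1 + l * σ (l * z))) * (l * z)] : Matrix (Fin 2) (Fin 2) F).det ≠ 0 := by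
    rw [Matrix.det_fin_two]
    simp only [Matrix.of_apply, Matrix.cons_val', Matrix.cons_val_zero, Matrix.cons_val_one,
      Matrix.cons_val_fin_one]
    have : (1 : F) * (σ ((x0 - σ x0) / (1 + l * σ (l * z))) * (l * z))
        - σ ((x0 - σ x0) / (1 + l * σ (l * z))) * l
        = σ ((x0 - σ x0) / (1 + l * σ (l * z))) * (l * z - l) := by ring
    rw [this]
    exact mul_ne_zero hs0 (sub_ne_zero.mpr hml)
  let Pu : GL (Fin 2) F := Matrix.GeneralLinearGroup.mkOfDetNeZero _ hdet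
  have hP : Pu.1 = !![1, σ ((x0 - σ x0) / (1 + l * σ (l * z))); l,
      σ ((x0 - σ x0) / (1 + l * σ (l * z))) * (l * z)] := rfl
  let Φ0 : SpecialLinearGroup (Fin 2) K →* SpecialLinearGroup (Fin 2) F :=
    (cjHom Pu).comp (SpecialLinearGroup.map ι)
  have hmem : ∀ x, Φ0 x ∈ Cfsg.SU 2 F q := by
    intro x
    refine conj_mem σ hσ l (l * z) _ (x0 - σ x0) r1 r2 r3 r4 Pu hP _ ?_
    intro i j
    show σ (ι (x.1 i j)) = ι (x.1 i j)
    rw [hσ, hι]
  let Φ : SpecialLinearGroup (Fin 2) K →* Cfsg.SU 2 F q := Φ0.codRestrict _ hmem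
  have hinj : Function.Injective Φ := by
    intro x y h
    have h1 : Φ0 x = Φ0 y := congrArg Subtype.val h
    have h2 : SpecialLinearGroup.map ι x = SpecialLinearGroup.map ι y := cjHom_injective Pu h1
    apply Subtype.ext
    ext i j
    have h3 : ι (x.1 i j) = ι (y.1 i j) := congrFun (congrFun (congrArg Subtype.val h2) i) j
    exact ι.injective h3
  have hcard : Nat.card (Cfsg.SU 2 F q) ≤ Nat.card (SpecialLinearGroup (Fin 2) K) := by
    have h1 := Herm.card_SU hF 2 (by norm_num)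
    rw [Herm.card_GU hF 2] at h1
    rw [O3.card_SL2, hK]
    simp [Finset.prod_range_succ] at h1
    have h2 : (q + 1) * Nat.card (Cfsg.SU 2 F q) = (q + 1) * (q * (q ^ 2 - 1)) := by
      rw [h1]; ring
    exact le_of_eq (Nat.eq_of_mul_eq_mul_left (by omega) h2)
  haveI : Finite (Cfsg.SU 2 F q) := inferInstance
  have hbij : Function.Bijective Φ := hinj.bijective_of_nat_card_le hcard
  exact ⟨(MulEquiv.ofBijective Φ hbij).symm⟩

end Cfsg.Agent.Lib.Helper1.SU2
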