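import Mathlib
import Cfsg.Agent.Lib.Helper1.Steiner
import Cfsg.Agent.S0352

namespace Cfsg.Agent.Lib.Helper1.Sext

open Finset

variable {α : Type*} [Fintype α] [DecidableEq α]

theorem card_four {a b c d : α} (hab : a ≠ b) (hac : a ≠ c) (had : a ≠ d) (hbc : b ≠ c)
    (hbd : b ≠ d) (hcd : c ≠ d) : ({a, b, c, d} : Finset α).card = 4 := by
  have h1 : c ∉ ({d} : Finset α) := by simp [hcd]
  have h2 : b ∉ ({c, d} : Finset α) := by simp [hbc, hbd]
  have h3 : a ∉ ({b, c, d} : Finset α) := by simp [hab, hac, had]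
  rw [Finset.card_insert_of_notMem h3, Finset.card_insert_of_notMem h2,
    Finset.card_insert_of_notMem h1, Finset.card_singleton]

theorem card_five {a b c d e : α} (hab : a ≠ b) (hac : a ≠ c) (had : a ≠ d) (hae : a ≠ e)
    (hbc : b ≠ c) (hbd : b ≠ d) (hbe : b ≠ e) (hcd : c ≠ d) (hce : c ≠ e) (hde : d ≠ e) :
    ({a, b, c, d, e} : Finset α).card = 5 := by
  have h1 : a ∉ ({b, c, d, e} : Finset α) := by simp [hab, hac, had, hae]
  rw [Finset.card_insert_of_notMem h1, card_four hbc hbd hbe hcd hce hde]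

theorem card_inter_cases (hα : Fintype.card α = 24) {B : Set (Finset α)}
    (hB : Cfsg.IsSteinerSystem 5 8 B) {b c : Finset α} (hb : b ∈ B) (hc : c ∈ B) (hbc : b ≠ c)
    (h3 : 3 ≤ (b ∩ c).card) : (b ∩ c).card = 4 := by
  rcases Cfsg.Agent.S0352.result hα hB hb hc hbc with h | h | h <;> omega

theorem exists_block (hα : Fintype.card α = 24) {B : Set (Finset α)}
    (hB : Cfsg.IsSteinerSystem 5 8 B) (s : Finset α) (hs : s.card ≤ 5) :
    ∃ f ∈ B, s ⊆ f := by
  obtain ⟨t, hst, htc⟩ := Finset.exists_superset_card_eq hs (by rw [hα]; norm_num)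
  obtain ⟨f, ⟨hf, htf⟩, -⟩ := hB.2 t htc
  exact ⟨f, hf, hst.trans htf⟩

theorem symmDiff_mem (hα : Fintype.card α = 24) {B : Set (Finset α)}
    (hB : Cfsg.IsSteinerSystem 5 8 B) {b c : Finset α} (hb : b ∈ B) (hc : c ∈ B)
    (h4 : (b ∩ c).card = 4) : symmDiff b c ∈ B := by
  have hbcard := hB.1 b hb
  have hccard := hB.1 c hc
  have hT1 : (b \ c).card = 4 := by
    have := Finset.card_sdiff_add_card_inter b c; omega
  have hT2 : (c \ b).card = 4 := by
    have := Finset.card_sdiff_add_card_inter c b; rw [Finset.inter_comm] at this; omega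
  obtain ⟨x, hx⟩ : (c \ b).Nonempty := Finset.card_pos.1 (by omega)
  have hxc : x ∈ c := (Finset.mem_sdiff.1 hx).1
  have hxb : x ∉ b := (Finset.mem_sdiff.1 hx).2
  obtain ⟨d, hd, hsd⟩ := exists_block hα hB (insert x (b \ c)) (by
    rw [Finset.card_insert_of_notMem (by simp [hxb])]; omega)
  have hxd : x ∈ d := hsd (Finset.mem_insert_self _ _)
  have hT1d : b \ c ⊆ d := (Finset.subset_insert _ _).trans hsd
  have hdb : d ≠ b := by rintro rfl; exact hxb hxd
  have hsub0 : b \ c ⊆ d ∩ b := fun u hu =>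
    Finset.mem_inter.2 ⟨hT1d hu, (Finset.mem_sdiff.1 hu).1⟩
  have hdb_inter : d ∩ b = b \ c := by
    symm
    apply Finset.eq_of_subset_of_card_le hsub0
    have h3 : 3 ≤ (d ∩ b).card := by
      have := Finset.card_le_card hsub0; omega
    rw [hT1, card_inter_cases hα hB hd hb hdb h3]
  have hdT0 : ∀ u ∈ d, u ∈ b → u ∉ c := by
    intro u hud hub
    have : u ∈ d ∩ b := Finset.mem_inter.2 ⟨hud, hub⟩
    rw [hdb_inter] at this
    exact (Finset.mem_sdiff.1 this).2
  have hdc : d ≠ c := by
    rintro rfl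
    obtain ⟨u, hu⟩ : (b \ d).Nonempty := Finset.card_pos.1 (by omega)
    exact (Finset.mem_sdiff.1 hu).2 (hT1d hu)
  have hdc_sub : d ∩ c ⊆ c \ b := by
    intro u hu
    rw [Finset.mem_inter] at hu
    exact Finset.mem_sdiff.2 ⟨hu.2, fun hub => hdT0 u hu.1 hub hu.2⟩
  have hxdc : x ∈ d ∩ c := Finset.mem_inter.2 ⟨hxd, hxc⟩
  have hcases := Cfsg.Agent.S0352.result hα hB hd hc hdc
  have hpos : 0 < (d ∩ c).card := Finset.card_pos.2 ⟨x, hxdc⟩
  rcases hcases with h0 | h2 | h4'
  · omega
  · exfalso
    obtain ⟨y, hy⟩ : ∃ y, (d ∩ c).erase x = {y} :=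
      Finset.card_eq_one.1 (by rw [Finset.card_erase_of_mem hxdc, h2])
    have hy' : y ∈ (d ∩ c).erase x := by rw [hy]; exact Finset.mem_singleton_self y
    have hyx : y ≠ x := (Finset.mem_erase.1 hy').1
    have hydc : y ∈ d ∩ c := (Finset.mem_erase.1 hy').2
    have hyd : y ∈ d := (Finset.mem_inter.1 hydc).1
    have hyc : y ∈ c := (Finset.mem_inter.1 hydc).2
    have hyb : y ∉ b := (Finset.mem_sdiff.1 (hdc_sub hydc)).2
    have hdc_elts : ∀ u ∈ d, u ∈ c → u = x ∨ u = y := by
      intro u hud huc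
      by_cases hux : u = x
      · exact Or.inl hux
      · right
        have : u ∈ (d ∩ c).erase x := Finset.mem_erase.2 ⟨hux, Finset.mem_inter.2 ⟨hud, huc⟩⟩
        rw [hy] at this; exact Finset.mem_singleton.1 this
    have hR : (d \ (b ∪ c)).card = 2 := by
      have h1 := Finset.card_sdiff_add_card_inter d (b ∪ c)
      have h2' : d ∩ (b ∪ c) = (d ∩ b) ∪ (d ∩ c) := Finset.inter_union_distrib_left _ _ _
      have h3 : Disjoint (d ∩ b) (d ∩ c) := by
        rw [Finset.disjoint_left]
        intro u hu1 hu2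
        rw [Finset.mem_inter] at hu1 hu2
        exact hdT0 u hu1.1 hu1.2 hu2.2
      rw [h2', Finset.card_union_of_disjoint h3, hdb_inter, hT1, h2, hB.1 d hd] at h1
      omega
    obtain ⟨z, w, hzw, hRzw⟩ := Finset.card_eq_two.1 hR
    have hzR : z ∈ d \ (b ∪ c) := by rw [hRzw]; simp
    have hwR : w ∈ d \ (b ∪ c) := by rw [hRzw]; simp
    have hzd : z ∈ d := (Finset.mem_sdiff.1 hzR).1
    have hzb : z ∉ b := fun h => (Finset.mem_sdiff.1 hzR).2 (Finset.mem_union_left _ h)
    have hzc : z ∉ c := fun h => (Finset.mem_sdiff.1 hzR).2 (Finset.mem_union_right _ h)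
    have hwd : w ∈ d := (Finset.mem_sdiff.1 hwR).1
    have hwb : w ∉ b := fun h => (Finset.mem_sdiff.1 hwR).2 (Finset.mem_union_left _ h)
    have hwc : w ∉ c := fun h => (Finset.mem_sdiff.1 hwR).2 (Finset.mem_union_right _ h)
    have hd_elts : ∀ u ∈ d, u ∈ b \ c ∨ u = x ∨ u = y ∨ u = z ∨ u = w := by
      intro u hud
      by_cases hub : u ∈ b
      · left; exact Finset.mem_sdiff.2 ⟨hub, hdT0 u hud hub⟩
      · by_cases huc : u ∈ c
        · rcases hdc_elts u hud huc with h | h
          · exact Or.inr (Or.inl h)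
          · exact Or.inr (Or.inr (Or.inl h))
        · have : u ∈ d \ (b ∪ c) := Finset.mem_sdiff.2 ⟨hud, by simp [hub, huc]⟩
          rw [hRzw] at this
          simp only [Finset.mem_insert, Finset.mem_singleton] at this
          rcases this with h | h
          · exact Or.inr (Or.inr (Or.inr (Or.inl h)))
          · exact Or.inr (Or.inr (Or.inr (Or.inr h)))
    have hxz : x ≠ z := fun h => hzc (h ▸ hxc)
    have hxw : x ≠ w := fun h => hwc (h ▸ hxc)
    have hyz : y ≠ z := fun h => hzc (h ▸ hyc)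
    have hyw : y ≠ w := fun h => hwc (h ▸ hyc)
    have hUcard : ({x, y, z, w} : Finset α).card = 4 :=
      card_four hyx.symm hxz hxw hyz hyw hzw
    have hS := Lib.Helper1.steiner_lambda hB ({x, y, z, w} : Finset α) (by rw [hUcard]; norm_num)
    rw [hUcard, hα] at hS
    have hS5 : #{c' ∈ Lib.Helper1.blocks B | ({x, y, z, w} : Finset α) ⊆ c'} = 5 := by
      norm_num at hS
      omega
    have key : ∀ P ∈ Finset.powersetCard 2 (b ∩ c),
        ∃ f ∈ {c' ∈ Lib.Helper1.blocks B | ({x, y, z, w} : Finset α) ⊆ c'},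
          f ∩ (b ∩ c) = P := by
      intro P hP
      rw [Finset.mem_powersetCard] at hP
      obtain ⟨t1, t2, ht12, rfl⟩ := Finset.card_eq_two.1 hP.2
      have ht1 : t1 ∈ b ∩ c := hP.1 (by simp)
      have ht2 : t2 ∈ b ∩ c := hP.1 (by simp)
      have ht1b := (Finset.mem_inter.1 ht1).1
      have ht1c := (Finset.mem_inter.1 ht1).2
      have ht2b := (Finset.mem_inter.1 ht2).1
      have ht2c := (Finset.mem_inter.1 ht2).2
      obtain ⟨f, hf, hsf⟩ := exists_block hα hB {x, y, z, t1, t2} Finset.card_le_five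
      have hxf : x ∈ f := hsf (by simp)
      have hyf : y ∈ f := hsf (by simp)
      have hzf : z ∈ f := hsf (by simp)
      have ht1f : t1 ∈ f := hsf (by simp)
      have ht2f : t2 ∈ f := hsf (by simp)
      have hfc : f ≠ c := by rintro rfl; exact hzc hzf
      have hfd : f ≠ d := by rintro rfl; exact hdT0 t1 ht1f ht1b ht1c
      have hfb : f ≠ b := by rintro rfl; exact hxb hxf
      have hsub1 : ({x, y, t1, t2} : Finset α) ⊆ f ∩ c := by
        intro u hu
        simp only [Finset.mem_insert, Finset.mem_singleton] at hu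
        rcases hu with rfl | rfl | rfl | rfl
        · exact Finset.mem_inter.2 ⟨hxf, hxc⟩
        · exact Finset.mem_inter.2 ⟨hyf, hyc⟩
        · exact Finset.mem_inter.2 ⟨ht1f, ht1c⟩
        · exact Finset.mem_inter.2 ⟨ht2f, ht2c⟩
      have hc1 : ({x, y, t1, t2} : Finset α).card = 4 :=
        card_four hyx.symm (fun h => hxb (h ▸ ht1b)) (fun h => hxb (h ▸ ht2b))
          (fun h => hyb (h ▸ ht1b)) (fun h => hyb (h ▸ ht2b)) ht12
      have h3fc : 3 ≤ (f ∩ c).card := by
        have := Finset.card_le_card hsub1; omega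
      have hfc_eq : f ∩ c = {x, y, t1, t2} :=
        (Finset.eq_of_subset_of_card_le hsub1
          (by rw [hc1, card_inter_cases hα hB hf hc hfc h3fc])).symm
      have hfT0 : f ∩ (b ∩ c) = {t1, t2} := by
        ext u
        simp only [Finset.mem_inter, Finset.mem_insert, Finset.mem_singleton]
        constructor
        · rintro ⟨huf, hub, huc⟩
          have : u ∈ f ∩ c := Finset.mem_inter.2 ⟨huf, huc⟩
          rw [hfc_eq] at this
          simp only [Finset.mem_insert, Finset.mem_singleton] at this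
          rcases this with h | h | h | h
          · exact absurd (h ▸ hub) hxb
          · exact absurd (h ▸ hub) hyb
          · exact Or.inl h
          · exact Or.inr h
        · rintro (rfl | rfl)
          · exact ⟨ht1f, ht1b, ht1c⟩
          · exact ⟨ht2f, ht2b, ht2c⟩
      have h3fd : 3 ≤ (f ∩ d).card := by
        have : 2 < (f ∩ d).card := Finset.two_lt_card_iff.2 ⟨x, y, z,
          Finset.mem_inter.2 ⟨hxf, hxd⟩, Finset.mem_inter.2 ⟨hyf, hyd⟩,
          Finset.mem_inter.2 ⟨hzf, hzd⟩, hyx.symm, hxz, hyz⟩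
        omega
      have h4fd := card_inter_cases hα hB hf hd hfd h3fd
      have hwf : w ∈ f := by
        by_contra hwf
        have hex : ∃ u ∈ f ∩ d, u ∉ ({x, y, z} : Finset α) := by
          by_contra hcon
          push_neg at hcon
          have h1 := Finset.card_le_card (show f ∩ d ⊆ {x, y, z} from hcon)
          have h3 : ({x, y, z} : Finset α).card ≤ 3 := Finset.card_le_three
          omega
        obtain ⟨u, hu, hun⟩ := hex
        simp only [Finset.mem_insert, Finset.mem_singleton, not_or] at hun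
        rw [Finset.mem_inter] at hu
        have huT1 : u ∈ b \ c := by
          rcases hd_elts u hu.2 with h | h | h | h | h
          · exact h
          · exact absurd h hun.1
          · exact absurd h hun.2.1
          · exact absurd h hun.2.2
          · exact absurd (h ▸ hu.1) hwf
        have hub := (Finset.mem_sdiff.1 huT1).1
        have huc := (Finset.mem_sdiff.1 huT1).2
        have h3fb : 3 ≤ (f ∩ b).card := by
          have : 2 < (f ∩ b).card := Finset.two_lt_card_iff.2 ⟨t1, t2, u,
            Finset.mem_inter.2 ⟨ht1f, ht1b⟩, Finset.mem_inter.2 ⟨ht2f, ht2b⟩,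
            Finset.mem_inter.2 ⟨hu.1, hub⟩, ht12, fun h => huc (h ▸ ht1c),
            fun h => huc (h ▸ ht2c)⟩
          omega
        have h4fb := card_inter_cases hα hB hf hb hfb h3fb
        obtain ⟨v, hv, hvn⟩ : ∃ v ∈ f ∩ b, v ∉ ({t1, t2, u} : Finset α) := by
          by_contra hcon
          push_neg at hcon
          have h1 := Finset.card_le_card (show f ∩ b ⊆ {t1, t2, u} from hcon)
          have h3 : ({t1, t2, u} : Finset α).card ≤ 3 := Finset.card_le_three
          omega
        simp only [Finset.mem_insert, Finset.mem_singleton, not_or] at hvn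
        rw [Finset.mem_inter] at hv
        have hvc : v ∉ c := by
          intro hvc
          have : v ∈ f ∩ (b ∩ c) := Finset.mem_inter.2 ⟨hv.1, Finset.mem_inter.2 ⟨hv.2, hvc⟩⟩
          rw [hfT0] at this
          simp only [Finset.mem_insert, Finset.mem_singleton] at this
          rcases this with h | h
          · exact hvn.1 h
          · exact hvn.2.1 h
        have hvd : v ∈ d := hT1d (Finset.mem_sdiff.2 ⟨hv.2, hvc⟩)
        have hsub5 : ({x, y, z, u, v} : Finset α) ⊆ f ∩ d := by
          intro t ht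
          simp only [Finset.mem_insert, Finset.mem_singleton] at ht
          rcases ht with rfl | rfl | rfl | rfl | rfl
          · exact Finset.mem_inter.2 ⟨hxf, hxd⟩
          · exact Finset.mem_inter.2 ⟨hyf, hyd⟩
          · exact Finset.mem_inter.2 ⟨hzf, hzd⟩
          · exact Finset.mem_inter.2 ⟨hu.1, hu.2⟩
          · exact Finset.mem_inter.2 ⟨hv.1, hvd⟩
        have hc5 : ({x, y, z, u, v} : Finset α).card = 5 :=
          card_five hyx.symm hxz (fun h => hxb (h ▸ hub)) (fun h => hxb (h ▸ hv.2))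
            hyz (fun h => hyb (h ▸ hub)) (fun h => hyb (h ▸ hv.2))
            (fun h => hzb (h ▸ hub)) (fun h => hzb (h ▸ hv.2)) (fun h => hvn.2.2 h.symm)
        have := Finset.card_le_card hsub5
        omega
      refine ⟨f, ?_, hfT0⟩
      rw [Finset.mem_filter, Lib.Helper1.mem_blocks]
      refine ⟨hf, ?_⟩
      intro t ht
      simp only [Finset.mem_insert, Finset.mem_singleton] at ht
      rcases ht with rfl | rfl | rfl | rfl
      · exact hxf
      · exact hyf
      · exact hzf
      · exact hwf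
    have hsub : Finset.powersetCard 2 (b ∩ c) ⊆
        ({c' ∈ Lib.Helper1.blocks B | ({x, y, z, w} : Finset α) ⊆ c'}).image
          (fun f => f ∩ (b ∩ c)) := by
      intro P hP
      obtain ⟨f, hf, hfP⟩ := key P hP
      exact Finset.mem_image.2 ⟨f, hf, hfP⟩
    have h6 := Finset.card_le_card hsub
    rw [Finset.card_powersetCard, h4] at h6
    have h5 := Finset.card_image_le
      (s := {c' ∈ Lib.Helper1.blocks B | ({x, y, z, w} : Finset α) ⊆ c'})
      (f := fun f => f ∩ (b ∩ c))
    rw [hS5] at h5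
    have h42 : Nat.choose 4 2 = 6 := by decide
    omega
  · have hdc_eq : d ∩ c = c \ b :=
      Finset.eq_of_subset_of_card_le hdc_sub (by rw [hT2, h4'])
    have hsub : symmDiff b c ⊆ d := by
      intro u hu
      rw [Finset.mem_symmDiff] at hu
      rcases hu with ⟨h1, h2⟩ | ⟨h1, h2⟩
      · exact hT1d (Finset.mem_sdiff.2 ⟨h1, h2⟩)
      · have : u ∈ d ∩ c := by rw [hdc_eq]; exact Finset.mem_sdiff.2 ⟨h1, h2⟩
        exact (Finset.mem_inter.1 this).1
    have hcard : (symmDiff b c).card = 8 := by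
      have : symmDiff b c = (b \ c) ∪ (c \ b) := rfl
      rw [this, Finset.card_union_of_disjoint disjoint_sdiff_sdiff, hT1, hT2]
    have : symmDiff b c = d :=
      Finset.eq_of_subset_of_card_le hsub (by rw [hcard, hB.1 d hd])
    rw [this]; exact hd

end Cfsg.Agent.Lib.Helper1.Sext
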