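import Mathlib

set_option autoImplicit false

namespace Cfsg.Agent.Lib.Helper1.Sp2n

open Matrix

section perm

variable {α : Type*} [Fintype α] [DecidableEq α]

def Pm (σ : Equiv.Perm α) : Matrix α α (ZMod 2) := fun i j => if σ j = i then 1 else 0

def oneC (α : Type*) : Matrix α Unit (ZMod 2) := fun _ _ => 1

def oneR (α : Type*) : Matrix Unit α (ZMod 2) := fun _ _ => 1

theorem Pm_mul (σ τ : Equiv.Perm α) : Pm (σ * τ) = Pm σ * Pm τ := by
  ext i j
  simp only [Pm, Matrix.mul_apply, Equiv.Perm.mul_apply]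
  rw [Finset.sum_eq_single (τ j)]
  · rw [if_pos rfl, mul_one]
    rfl
  · intro k _ hk
    have : ¬ τ j = k := fun h => hk h.symm
    simp [this]
  · intro h; exact absurd (Finset.mem_univ _) h

theorem Pm_one : Pm (1 : Equiv.Perm α) = 1 := by
  ext i j
  simp [Pm, Matrix.one_apply, eq_comm]

theorem Pm_oneC (σ : Equiv.Perm α) : Pm σ * oneC α = oneC α := by
  ext i u
  simp only [Pm, oneC, Matrix.mul_apply, mul_one]
  rw [Finset.sum_eq_single (σ⁻¹ i)]
  · simp
  · intro k _ hk
    have : ¬ σ k = i := fun h => hk (by rw [← h]; simp)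
    simp [this]
  · intro h; exact absurd (Finset.mem_univ _) h

theorem oneR_Pm (σ : Equiv.Perm α) : oneR α * Pm σ = oneR α := by
  ext u j
  simp only [Pm, oneR, Matrix.mul_apply, one_mul]
  rw [Finset.sum_eq_single (σ j)]
  · simp
  · intro k _ hk
    have : ¬ σ j = k := fun h => hk h.symm
    simp [this]
  · intro h; exact absurd (Finset.mem_univ _) h

theorem Pm_transpose (σ : Equiv.Perm α) : (Pm σ)ᵀ = Pm σ⁻¹ := by
  ext i j
  simp only [Pm, Matrix.transpose_apply]
  by_cases h : σ i = j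
  · rw [if_pos h, if_pos (by rw [← h]; simp)]
  · rw [if_neg h, if_neg (fun h2 => h (by rw [← h2]; simp))]

theorem Pm_mul_transpose (σ : Equiv.Perm α) : Pm σ * (Pm σ)ᵀ = 1 := by
  rw [Pm_transpose, ← Pm_mul, mul_inv_cancel, Pm_one]

theorem Pm_mul_apply {κ : Type*} (σ : Equiv.Perm α) (B : Matrix α κ (ZMod 2)) (i : α) (c : κ) :
    (Pm σ * B) i c = B (σ⁻¹ i) c := by
  simp only [Pm, Matrix.mul_apply]
  rw [Finset.sum_eq_single (σ⁻¹ i)]
  · simp
  · intro k _ hk
    have : ¬ σ k = i := fun h => hk (by rw [← h]; simp)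
    simp [this]
  · intro h; exact absurd (Finset.mem_univ _) h

end perm

def xv (i k : ℕ) : ZMod 2 := if k = 2 * i + 1 ∨ k = 2 * i + 2 then 1 else 0

def yv (i k : ℕ) : ZMod 2 := if k < 2 * i + 2 then 1 else 0

theorem xv_eq (i k : ℕ) :
    xv i k = (if k = 2 * i + 1 then 1 else 0) + (if k = 2 * i + 2 then 1 else 0) := by
  unfold xv
  by_cases h1 : k = 2 * i + 1
  · have h2 : ¬ k = 2 * i + 2 := by omega
    rw [if_pos (Or.inl h1), if_pos h1, if_neg h2, add_zero]
  · by_cases h2 : k = 2 * i + 2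
    · rw [if_pos (Or.inr h2), if_neg h1, if_pos h2, zero_add]
    · rw [if_neg (by tauto), if_neg h1, if_neg h2, add_zero]

theorem sum_xv (N i : ℕ) (hi : 2 * i + 2 < N) (f : ℕ → ZMod 2) :
    ∑ k : Fin N, xv i k * f k = f (2 * i + 1) + f (2 * i + 2) := by
  rw [Fin.sum_univ_eq_sum_range (fun k => xv i k * f k) N]
  simp only [xv_eq, add_mul, Finset.sum_add_distrib, ite_mul, one_mul, zero_mul]
  rw [Finset.sum_ite_eq', Finset.sum_ite_eq']
  rw [if_pos (Finset.mem_range.mpr (by omega)), if_pos (Finset.mem_range.mpr hi)]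

theorem sum_yv (N i : ℕ) (hi : 2 * i + 2 ≤ N) (f : ℕ → ZMod 2) :
    ∑ k : Fin N, yv i k * f k = ∑ k ∈ Finset.range (2 * i + 2), f k := by
  rw [Fin.sum_univ_eq_sum_range (fun k => yv i k * f k) N]
  unfold yv
  simp only [ite_mul, one_mul, zero_mul]
  rw [← Finset.sum_filter]
  congr 1
  ext k
  simp only [Finset.mem_filter, Finset.mem_range]
  omega

theorem two_mul_cast (m : ℕ) : ((2 * m : ℕ) : ZMod 2) = 0 := by
  rw [Nat.cast_mul]
  have : ((2 : ℕ) : ZMod 2) = 0 := by decide
  rw [this, zero_mul]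

theorem gram_xx (N i j : ℕ) (hi : 2 * i + 2 < N) :
    ∑ k : Fin N, xv i k * xv j k = 0 := by
  rw [sum_xv N i hi]
  unfold xv
  by_cases h : i = j
  · subst h
    simp
    decide
  · rw [if_neg (by omega), if_neg (by omega), add_zero]

theorem gram_xy (N i j : ℕ) (hi : 2 * i + 2 < N) :
    ∑ k : Fin N, xv i k * yv j k = if i = j then 1 else 0 := by
  rw [sum_xv N i hi]
  unfold yv
  rcases lt_trichotomy i j with h | h | h
  · rw [if_pos (by omega), if_pos (by omega), if_neg (by omega)]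
    decide
  · rw [if_pos (by omega), if_neg (by omega), if_pos h, add_zero]
  · rw [if_neg (by omega), if_neg (by omega), if_neg (by omega), add_zero]

theorem gram_yx (N i j : ℕ) (hj : 2 * j + 2 < N) :
    ∑ k : Fin N, yv i k * xv j k = if i = j then 1 else 0 := by
  have : ∑ k : Fin N, yv i k * xv j k = ∑ k : Fin N, xv j k * yv i k :=
    Finset.sum_congr rfl (fun k _ => mul_comm _ _)
  rw [this, gram_xy N j i hj]
  by_cases h : i = j
  · rw [if_pos h, if_pos h.symm]
  · rw [if_neg h, if_neg (fun h2 => h h2.symm)]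

theorem gram_yy (N i j : ℕ) (hi : 2 * i + 2 ≤ N) :
    ∑ k : Fin N, yv i k * yv j k = 0 := by
  rw [sum_yv N i hi]
  unfold yv
  rw [Finset.sum_boole]
  have : (Finset.range (2 * i + 2)).filter (fun k => k < 2 * j + 2)
      = Finset.range (2 * (min i j + 1)) := by
    ext k
    simp only [Finset.mem_filter, Finset.mem_range]
    omega
  rw [this, Finset.card_range]
  exact two_mul_cast _

theorem sum_xv_one (N i : ℕ) (hi : 2 * i + 2 < N) : ∑ k : Fin N, xv i k = 0 := by
  have := sum_xv N i hi (fun _ => 1)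
  simp only [mul_one] at this
  rw [this]
  decide

theorem sum_yv_one (N i : ℕ) (hi : 2 * i + 2 ≤ N) : ∑ k : Fin N, yv i k = 0 := by
  have := sum_yv N i hi (fun _ => 1)
  simp only [mul_one] at this
  rw [this]
  simp only [Finset.sum_const, Finset.card_range, nsmul_eq_mul, mul_one]
  have : 2 * i + 2 = 2 * (i + 1) := by ring
  rw [this]
  exact two_mul_cast _

def Bm (n : ℕ) : Matrix (Fin (2 * n)) (Fin (n - 1) ⊕ Fin (n - 1)) (ZMod 2) :=
  fun k c => Sum.elim (fun i : Fin (n - 1) => xv i k) (fun i : Fin (n - 1) => yv i k) c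

def Cm (n : ℕ) : Matrix (Fin (n - 1) ⊕ Fin (n - 1)) (Fin (2 * n)) (ZMod 2) :=
  fun c k => Sum.elim (fun i : Fin (n - 1) => yv i k) (fun i : Fin (n - 1) => xv i k) c

theorem hCB (n : ℕ) : Cm n * Bm n = 1 := by
  ext c c'
  rcases c with i | i <;> rcases c' with j | j
  · simp only [Matrix.mul_apply, Cm, Bm, Sum.elim_inl, Matrix.one_apply, Sum.inl.injEq]
    rw [gram_yx (2 * n) i j (by have := j.2; omega)]
    simp [Fin.ext_iff]
  · simp only [Matrix.mul_apply, Cm, Bm, Sum.elim_inl, Sum.elim_inr, Matrix.one_apply]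
    rw [gram_yy (2 * n) i j (by have := i.2; omega)]
    simp
  · simp only [Matrix.mul_apply, Cm, Bm, Sum.elim_inl, Sum.elim_inr, Matrix.one_apply]
    rw [gram_xx (2 * n) i j (by have := i.2; omega)]
    simp
  · simp only [Matrix.mul_apply, Cm, Bm, Sum.elim_inr, Matrix.one_apply, Sum.inr.injEq]
    rw [gram_xy (2 * n) i j (by have := i.2; omega)]
    simp [Fin.ext_iff]

theorem hC1 (n : ℕ) : Cm n * oneC (Fin (2 * n)) = 0 := by
  ext c u
  rcases c with i | i
  · simp only [Matrix.mul_apply, Cm, oneC, Sum.elim_inl, mul_one, Matrix.zero_apply]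
    exact sum_yv_one (2 * n) i (by have := i.2; omega)
  · simp only [Matrix.mul_apply, Cm, oneC, Sum.elim_inr, mul_one, Matrix.zero_apply]
    exact sum_xv_one (2 * n) i (by have := i.2; omega)

theorem h1B (n : ℕ) : oneR (Fin (2 * n)) * Bm n = 0 := by
  ext u c
  rcases c with i | i
  · simp only [Matrix.mul_apply, Bm, oneR, Sum.elim_inl, one_mul, Matrix.zero_apply]
    exact sum_xv_one (2 * n) i (by have := i.2; omega)
  · simp only [Matrix.mul_apply, Bm, oneR, Sum.elim_inr, one_mul, Matrix.zero_apply]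
    exact sum_yv_one (2 * n) i (by have := i.2; omega)

theorem hJB (n : ℕ) : J (Fin (n - 1)) (ZMod 2) * (Bm n)ᵀ = Cm n := by
  ext c k
  rcases c with i | i
  · simp [Matrix.mul_apply, J, Bm, Cm, Matrix.fromBlocks, Matrix.one_apply, Matrix.neg_apply]
  · simp [Matrix.mul_apply, J, Bm, Cm, Matrix.fromBlocks, Matrix.one_apply]

end Cfsg.Agent.Lib.Helper1.Sp2n
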