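import Mathlib
import Cfsg.Agent.Lib.Helper1.Sp2na

set_option autoImplicit false

namespace Cfsg.Agent.Lib.Helper1.Sp2n

open Matrix

theorem sum_xv_fin (N i : ℕ) (hi : 2 * i + 2 < N) (g : Fin N → ZMod 2) :
    ∑ k : Fin N, xv i k * g k = g ⟨2 * i + 1, by omega⟩ + g ⟨2 * i + 2, hi⟩ := by
  have := sum_xv N i hi (fun k => if h : k < N then g ⟨k, h⟩ else 0)
  simp only [Fin.is_lt, dite_true, Fin.eta] at this
  rw [this, dif_pos (by omega), dif_pos hi]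

theorem const_of_ker (n : ℕ) (d : Fin (2 * n) → ZMod 2) (h1 : Cm n *ᵥ d = 0)
    (h2 : ∑ k, d k = 0) : ∃ c : ZMod 2, d = fun _ => c := by
  obtain ⟨D, hDdef⟩ : ∃ D : ℕ → ZMod 2, D = fun k => if h : k < 2 * n then d ⟨k, h⟩ else 0 :=
    ⟨_, rfl⟩
  have hD : ∀ k : Fin (2 * n), d k = D k := by
    intro k
    rw [hDdef]
    simp [k.2]
  have hx : ∀ i, i < n - 1 → D (2 * i + 1) + D (2 * i + 2) = 0 := by
    intro i hi
    have h3 := congrFun h1 (Sum.inr ⟨i, hi⟩)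
    simp only [Matrix.mulVec, dotProduct, Cm, Sum.elim_inr, Pi.zero_apply] at h3
    rw [Finset.sum_congr rfl (fun k _ => by rw [hD k])] at h3
    rwa [sum_xv (2 * n) i (by omega) D] at h3
  have hy : ∀ i, i < n - 1 → ∑ k ∈ Finset.range (2 * i + 2), D k = 0 := by
    intro i hi
    have h3 := congrFun h1 (Sum.inl ⟨i, hi⟩)
    simp only [Matrix.mulVec, dotProduct, Cm, Sum.elim_inl, Pi.zero_apply] at h3
    rw [Finset.sum_congr rfl (fun k _ => by rw [hD k])] at h3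
    rwa [sum_yv (2 * n) i (by omega) D] at h3
  have htot : ∑ k ∈ Finset.range (2 * n), D k = 0 := by
    rw [← Fin.sum_univ_eq_sum_range D (2 * n), ← h2]
    exact Finset.sum_congr rfl (fun k _ => (hD k).symm)
  have hP : ∀ j, j ≤ n → ∑ k ∈ Finset.range (2 * j), D k = 0 := by
    intro j hj
    rcases Nat.eq_zero_or_pos j with rfl | hj0
    · simp
    · by_cases hjn : j = n
      · rw [hjn]
        exact htot
      · have h3 := hy (j - 1) (by omega)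
        have e : 2 * (j - 1) + 2 = 2 * j := by omega
        rwa [e] at h3
  have hpair : ∀ j, j < n → D (2 * j) + D (2 * j + 1) = 0 := by
    intro j hj
    have a := hP j (by omega)
    have b := hP (j + 1) (by omega)
    have e : 2 * (j + 1) = 2 * j + 1 + 1 := by ring
    rw [e, Finset.sum_range_succ, Finset.sum_range_succ, a, zero_add] at b
    exact b
  have hstep : ∀ k, k + 1 < 2 * n → D (k + 1) = D k := by
    intro k hk
    rcases Nat.even_or_odd' k with ⟨j, rfl | rfl⟩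
    · have h3 := hpair j (by omega)
      exact (CharTwo.add_eq_zero.mp h3).symm
    · have h3 := hx j (by omega)
      exact (CharTwo.add_eq_zero.mp h3).symm
  have hall : ∀ k, k < 2 * n → D k = D 0 := by
    intro k
    induction k with
    | zero => intro _; rfl
    | succ k ih =>
      intro hk
      rw [hstep k hk, ih (by omega)]
  exact ⟨D 0, funext fun k => by rw [hD k, hall k k.2]⟩

theorem BC_mul (n : ℕ) {κ : Type*} [Fintype κ] (W : Matrix (Fin (2 * n)) κ (ZMod 2))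
    (hW : oneR (Fin (2 * n)) * W = 0) :
    ∃ r : Matrix Unit κ (ZMod 2), Bm n * Cm n * W = W + oneC (Fin (2 * n)) * r := by
  obtain ⟨M, hM⟩ : ∃ M, M = Bm n * Cm n * W := ⟨_, rfl⟩
  rw [← hM]
  have hCM : Cm n * M = Cm n * W := by
    rw [hM, ← Matrix.mul_assoc, ← Matrix.mul_assoc, hCB, Matrix.one_mul]
  have h1M : oneR (Fin (2 * n)) * M = 0 := by
    rw [hM, ← Matrix.mul_assoc, ← Matrix.mul_assoc, h1B, Matrix.zero_mul, Matrix.zero_mul]
  have key : ∀ c : κ, ∃ c0 : ZMod 2, (fun k => M k c - W k c) = fun _ => c0 := by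
    intro c
    apply const_of_ker
    · funext a
      simp only [Matrix.mulVec, dotProduct, Pi.zero_apply]
      have e1 : ∑ k, Cm n a k * (M k c - W k c) = (Cm n * M) a c - (Cm n * W) a c := by
        simp only [Matrix.mul_apply, mul_sub, Finset.sum_sub_distrib]
      rw [e1, hCM, sub_self]
    · have e2 : ∑ k, (M k c - W k c)
          = (oneR (Fin (2 * n)) * M) () c - (oneR (Fin (2 * n)) * W) () c := by
        simp only [Matrix.mul_apply, oneR, one_mul, Finset.sum_sub_distrib]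
      rw [e2, h1M, hW]
      simp
  choose r hr using key
  obtain ⟨R, hR⟩ : ∃ R : Matrix Unit κ (ZMod 2), ∀ u c, R u c = r c :=
    ⟨fun _ c => r c, fun _ _ => rfl⟩
  refine ⟨R, ?_⟩
  ext k c
  have h3 := congrFun (hr c) k
  have h4 : (oneC (Fin (2 * n)) * R) k c = r c := by
    simp [Matrix.mul_apply, oneC, hR]
  rw [Matrix.add_apply, h4]
  linear_combination h3

def Mm (n : ℕ) (σ : Equiv.Perm (Fin (2 * n))) :
    Matrix (Fin (n - 1) ⊕ Fin (n - 1)) (Fin (n - 1) ⊕ Fin (n - 1)) (ZMod 2) :=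
  Cm n * Pm σ * Bm n

theorem CP1 (n : ℕ) (σ : Equiv.Perm (Fin (2 * n))) : Cm n * Pm σ * oneC (Fin (2 * n)) = 0 := by
  rw [Matrix.mul_assoc, Pm_oneC, hC1]

theorem Mm_mul (n : ℕ) (σ τ : Equiv.Perm (Fin (2 * n))) : Mm n (σ * τ) = Mm n σ * Mm n τ := by
  unfold Mm
  obtain ⟨r, hr⟩ := BC_mul n (Pm τ * Bm n) (by rw [← Matrix.mul_assoc, oneR_Pm, h1B])
  calc Cm n * Pm (σ * τ) * Bm n = Cm n * Pm σ * (Pm τ * Bm n) := by
        rw [Pm_mul]
        simp only [Matrix.mul_assoc]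
    _ = Cm n * Pm σ * (Bm n * Cm n * (Pm τ * Bm n)) := by
        rw [hr, Matrix.mul_add, ← Matrix.mul_assoc (Cm n * Pm σ) (oneC _) r, CP1,
          Matrix.zero_mul, add_zero]
    _ = Cm n * Pm σ * Bm n * (Cm n * Pm τ * Bm n) := by simp only [Matrix.mul_assoc]

theorem Mm_one (n : ℕ) : Mm n 1 = 1 := by
  unfold Mm
  rw [Pm_one, Matrix.mul_one, hCB]

theorem neg_J (n : ℕ) : -J (Fin (n - 1)) (ZMod 2) = J (Fin (n - 1)) (ZMod 2) :=
  Matrix.ext fun a b => by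
    rw [Matrix.neg_apply]
    exact CharTwo.neg_eq _

theorem Mm_symp (n : ℕ) (σ : Equiv.Perm (Fin (2 * n))) :
    Mm n σ ∈ symplecticGroup (Fin (n - 1)) (ZMod 2) := by
  rw [SymplecticGroup.mem_iff]
  unfold Mm
  have e1 : (Cm n * Pm σ * Bm n)ᵀ = (Bm n)ᵀ * ((Pm σ)ᵀ * (Cm n)ᵀ) := by
    simp only [Matrix.transpose_mul, Matrix.mul_assoc]
  rw [e1]
  have e2 : Cm n * Pm σ * Bm n * J (Fin (n - 1)) (ZMod 2) * ((Bm n)ᵀ * ((Pm σ)ᵀ * (Cm n)ᵀ))
      = Cm n * Pm σ * (Bm n * (J (Fin (n - 1)) (ZMod 2) * (Bm n)ᵀ) * ((Pm σ)ᵀ * (Cm n)ᵀ)) := by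
    simp only [Matrix.mul_assoc]
  rw [e2, hJB]
  have hW : oneR (Fin (2 * n)) * ((Pm σ)ᵀ * (Cm n)ᵀ) = 0 := by
    have h3 : oneR (Fin (2 * n)) * ((Pm σ)ᵀ * (Cm n)ᵀ)
        = (Cm n * Pm σ * oneC (Fin (2 * n)))ᵀ := by
      rw [Matrix.transpose_mul, Matrix.transpose_mul]
      rfl
    rw [h3, CP1, Matrix.transpose_zero]
  obtain ⟨r, hr⟩ := BC_mul n _ hW
  rw [hr, Matrix.mul_add, ← Matrix.mul_assoc (Cm n * Pm σ) (oneC _) r, CP1, Matrix.zero_mul,
    add_zero, Matrix.mul_assoc, ← Matrix.mul_assoc (Pm σ), Pm_mul_transpose, Matrix.one_mul]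
  have h5 : (Cm n)ᵀ = Bm n * J (Fin (n - 1)) (ZMod 2) := by
    rw [← hJB, Matrix.transpose_mul, Matrix.transpose_transpose, Matrix.J_transpose, neg_J]
  rw [h5, ← Matrix.mul_assoc, hCB, Matrix.one_mul]

def Phi (n : ℕ) : Equiv.Perm (Fin (2 * n)) →* symplecticGroup (Fin (n - 1)) (ZMod 2) where
  toFun σ := ⟨Mm n σ, Mm_symp n σ⟩
  map_one' := Subtype.ext (Mm_one n)
  map_mul' σ τ := Subtype.ext (Mm_mul n σ τ)

theorem Phi_injective (n : ℕ) (hn : 3 ≤ n) : Function.Injective (Phi n) := by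
  rw [← MonoidHom.ker_eq_bot_iff]
  by_contra hne
  haveI : Nontrivial (Phi n).ker := (Subgroup.nontrivial_iff_ne_bot _).2 hne
  have h1 := Equiv.Perm.alternatingGroup_le_of_normal (α := Fin (2 * n))
    (by simp; omega) (N := (Phi n).ker) inferInstance
  have h01 : (⟨0, by omega⟩ : Fin (2 * n)) ≠ ⟨1, by omega⟩ := by simp [Fin.ext_iff]
  have h12 : (⟨1, by omega⟩ : Fin (2 * n)) ≠ ⟨2, by omega⟩ := by simp [Fin.ext_iff]
  have h02 : (⟨0, by omega⟩ : Fin (2 * n)) ≠ ⟨2, by omega⟩ := by simp [Fin.ext_iff]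
  have h2 : Equiv.swap (⟨0, by omega⟩ : Fin (2 * n)) ⟨1, by omega⟩
      * Equiv.swap (⟨1, by omega⟩ : Fin (2 * n)) ⟨2, by omega⟩ ∈ alternatingGroup (Fin (2 * n)) := by
    rw [Equiv.Perm.mem_alternatingGroup, Equiv.Perm.sign_mul, Equiv.Perm.sign_swap h01,
      Equiv.Perm.sign_swap h12]
    rfl
  have h3 := h1 h2
  rw [MonoidHom.mem_ker] at h3
  have h4 : Mm n (Equiv.swap (⟨0, by omega⟩ : Fin (2 * n)) ⟨1, by omega⟩
      * Equiv.swap (⟨1, by omega⟩ : Fin (2 * n)) ⟨2, by omega⟩) = 1 := congrArg Subtype.val h3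
  have h5 := congrFun (congrFun h4 (Sum.inr ⟨0, by omega⟩)) (Sum.inl ⟨0, by omega⟩)
  rw [Matrix.one_apply_ne (by simp)] at h5
  unfold Mm at h5
  rw [Matrix.mul_assoc, Matrix.mul_apply] at h5
  simp only [Pm_mul_apply, Cm, Bm, Sum.elim_inr, Sum.elim_inl] at h5
  rw [sum_xv_fin (2 * n) 0 (by omega)] at h5
  have e1 : (Equiv.swap (⟨0, by omega⟩ : Fin (2 * n)) ⟨1, by omega⟩
      * Equiv.swap (⟨1, by omega⟩ : Fin (2 * n)) ⟨2, by omega⟩)⁻¹ ⟨2 * 0 + 1, by omega⟩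
      = ⟨0, by omega⟩ := by
    rw [Equiv.Perm.inv_eq_iff_eq, Equiv.Perm.mul_apply,
      Equiv.swap_apply_of_ne_of_ne h01 h02, Equiv.swap_apply_left]
  have e2 : (Equiv.swap (⟨0, by omega⟩ : Fin (2 * n)) ⟨1, by omega⟩
      * Equiv.swap (⟨1, by omega⟩ : Fin (2 * n)) ⟨2, by omega⟩)⁻¹ ⟨2 * 0 + 2, by omega⟩
      = ⟨1, by omega⟩ := by
    rw [Equiv.Perm.inv_eq_iff_eq, Equiv.Perm.mul_apply, Equiv.swap_apply_left,
      Equiv.swap_apply_of_ne_of_ne h02.symm h12.symm]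
  rw [e1, e2] at h5
  revert h5
  simp [xv]

theorem main (n : ℕ) (hn : 3 ≤ n) :
    ∃ f : Equiv.Perm (Fin (2 * n)) →* symplecticGroup (Fin (n - 1)) (ZMod 2),
      Function.Injective f :=
  ⟨Phi n, Phi_injective n hn⟩

end Cfsg.Agent.Lib.Helper1.Sp2n
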