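import Cfsg.Agent.Lib.Helper1.Steiner

set_option autoImplicit false

namespace Cfsg.Agent.Lib.Helper1.St12

open Finset Cfsg.Agent.Lib.Helper1

variable {α : Type*} [Fintype α] [DecidableEq α]

/-- number of blocks meeting `b` exactly in `s` -/
noncomputable def mm (B : Set (Finset α)) (b s : Finset α) : ℕ := #{c ∈ blocks B | b ∩ c = s}

def Mv : ℕ → ℕ
  | 1 => 0
  | 2 => 3
  | 3 => 2
  | 4 => 3
  | 5 => 0
  | 6 => 1
  | _ => 0

theorem decomp (B : Set (Finset α)) (b s : Finset α) (hs : s ⊆ b) :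
    #{c ∈ blocks B | s ⊆ c} = ∑ s' ∈ b.powerset.filter (fun s' => s ⊆ s'), mm B b s' := by
  rw [Finset.card_eq_sum_card_fiberwise (f := fun c => b ∩ c)
    (t := b.powerset.filter (fun s' => s ⊆ s'))]
  · apply Finset.sum_congr rfl
    intro s' hs'
    rw [mem_filter, mem_powerset] at hs'
    unfold mm
    congr 1
    ext c
    simp only [mem_filter]
    constructor
    · rintro ⟨⟨h1, -⟩, h3⟩
      exact ⟨h1, h3⟩
    · rintro ⟨h1, h3⟩
      refine ⟨⟨h1, ?_⟩, h3⟩
      exact hs'.2.trans (h3 ▸ Finset.inter_subset_right)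
  · intro c hc
    rw [Finset.mem_coe, mem_filter] at hc
    rw [Finset.mem_coe, mem_filter, mem_powerset]
    exact ⟨Finset.inter_subset_left, Finset.subset_inter hs hc.2⟩

theorem step (B : Set (Finset α)) (b s : Finset α) (hb : b.card = 6) (hs : s ⊆ b) (i : ℕ)
    (hi : s.card = i)
    (hM : ∀ j ∈ Finset.Ioc i 6, ∀ s' ⊆ b, s'.card = j → mm B b s' = Mv j) :
    #{c ∈ blocks B | s ⊆ c} = mm B b s + ∑ j ∈ Finset.Ioc i 6, (6 - i).choose (j - i) * Mv j := by
  rw [decomp B b s hs]
  have hmem : s ∈ b.powerset.filter (fun s' => s ⊆ s') := by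
    rw [mem_filter, mem_powerset]
    exact ⟨hs, subset_rfl⟩
  rw [← Finset.add_sum_erase _ _ hmem]
  congr 1
  rw [← Finset.sum_fiberwise_of_maps_to (g := Finset.card) (t := Finset.Ioc i 6)]
  · apply Finset.sum_congr rfl
    intro j hj
    have hj' := Finset.mem_Ioc.mp hj
    have hset : ((b.powerset.filter (fun s' => s ⊆ s')).erase s).filter (fun s' => s'.card = j)
        = {s' ∈ powersetCard j b | s ⊆ s'} := by
      ext s'
      simp only [mem_filter, mem_erase, mem_powerset, mem_powersetCard]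
      constructor
      · rintro ⟨⟨-, h2, h3⟩, h4⟩
        exact ⟨⟨h2, h4⟩, h3⟩
      · rintro ⟨⟨h2, h4⟩, h3⟩
        refine ⟨⟨?_, h2, h3⟩, h4⟩
        rintro rfl
        omega
    rw [hset]
    rw [Finset.sum_congr rfl (g := fun _ => Mv j)]
    · rw [Finset.sum_const, smul_eq_mul, card_between s b hs j (by omega), hb, hi]
    · intro s' hs'
      rw [mem_filter, mem_powersetCard] at hs'
      exact hM j hj s' hs'.1.1 hs'.1.2
  · intro s' hs'
    rw [mem_erase, mem_filter, mem_powerset] at hs'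
    rw [Finset.mem_Ioc]
    have h1 : s ⊂ s' := lt_of_le_of_ne hs'.2.2 (Ne.symm hs'.1)
    have h2 := Finset.card_lt_card h1
    have h3 := Finset.card_le_card hs'.2.1
    omega

variable (hα : Fintype.card α = 12) {B : Set (Finset α)} (hB : Cfsg.IsSteinerSystem 5 6 B)
  (b : Finset α) (hb : b ∈ B)

include hα hB hb

theorem m6 : ∀ s ⊆ b, s.card = 6 → mm B b s = Mv 6 := by
  intro s hs hc
  have hbc := hB.1 b hb
  have hsb : s = b := Finset.eq_of_subset_of_card_le hs (by omega)
  subst hsb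
  unfold mm
  show _ = 1
  rw [Finset.card_eq_one]
  refine ⟨s, ?_⟩
  ext c
  simp only [mem_filter, mem_blocks, mem_singleton]
  constructor
  · rintro ⟨hcB, hsc⟩
    have h1 : s ⊆ c := Finset.inter_eq_left.mp hsc
    exact (Finset.eq_of_subset_of_card_le h1 (by rw [hB.1 c hcB, hbc])).symm
  · rintro rfl
    exact ⟨hb, Finset.inter_self _⟩

theorem m5 : ∀ s ⊆ b, s.card = 5 → mm B b s = Mv 5 := by
  intro s hs hc
  unfold mm
  show _ = 0
  rw [Finset.card_eq_zero, Finset.filter_eq_empty_iff]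
  intro c hcB hsc
  rw [mem_blocks] at hcB
  by_cases hbc : b = c
  · subst hbc
    rw [Finset.inter_self] at hsc
    rw [← hsc, hB.1 b hb] at hc
    omega
  · have := steiner_inter_lt hB hb hcB hbc
    rw [hsc, hc] at this
    omega

theorem lam (s : Finset α) (i : ℕ) (hi : s.card = i) (hi5 : i ≤ 5) :
    #{c ∈ blocks B | s ⊆ c} * (6 - i).choose (5 - i) = (12 - i).choose (5 - i) := by
  have h := steiner_lambda hB s (by omega)
  rw [hα, hi] at h
  exact h

theorem m4 : ∀ s ⊆ b, s.card = 4 → mm B b s = Mv 4 := by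
  intro s hs hc
  have h1 := step B b s (hB.1 b hb) hs 4 hc (by
    intro j hj
    have : j = 5 ∨ j = 6 := by rw [Finset.mem_Ioc] at hj; omega
    rcases this with rfl | rfl
    · exact m5 hα hB b hb
    · exact m6 hα hB b hb)
  have h2 := lam hα hB b hb s 4 hc (by norm_num)
  have h3 : ∑ j ∈ Finset.Ioc 4 6, (6 - 4).choose (j - 4) * Mv j = 1 := by decide
  have h4 : (6 - 4).choose (5 - 4) = 2 := by decide
  have h5 : (12 - 4).choose (5 - 4) = 8 := by decide
  rw [h3] at h1
  rw [h4, h5] at h2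
  show _ = 3
  omega

theorem m3 : ∀ s ⊆ b, s.card = 3 → mm B b s = Mv 3 := by
  intro s hs hc
  have h1 := step B b s (hB.1 b hb) hs 3 hc (by
    intro j hj
    have : j = 4 ∨ j = 5 ∨ j = 6 := by rw [Finset.mem_Ioc] at hj; omega
    rcases this with rfl | rfl | rfl
    · exact m4 hα hB b hb
    · exact m5 hα hB b hb
    · exact m6 hα hB b hb)
  have h2 := lam hα hB b hb s 3 hc (by norm_num)
  have h3 : ∑ j ∈ Finset.Ioc 3 6, (6 - 3).choose (j - 3) * Mv j = 10 := by decide
  have h4 : (6 - 3).choose (5 - 3) = 3 := by decide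
  have h5 : (12 - 3).choose (5 - 3) = 36 := by decide
  rw [h3] at h1
  rw [h4, h5] at h2
  show _ = 2
  omega

theorem m2 : ∀ s ⊆ b, s.card = 2 → mm B b s = Mv 2 := by
  intro s hs hc
  have h1 := step B b s (hB.1 b hb) hs 2 hc (by
    intro j hj
    have : j = 3 ∨ j = 4 ∨ j = 5 ∨ j = 6 := by rw [Finset.mem_Ioc] at hj; omega
    rcases this with rfl | rfl | rfl | rfl
    · exact m3 hα hB b hb
    · exact m4 hα hB b hb
    · exact m5 hα hB b hb
    · exact m6 hα hB b hb)
  have h2 := lam hα hB b hb s 2 hc (by norm_num)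
  have h3 : ∑ j ∈ Finset.Ioc 2 6, (6 - 2).choose (j - 2) * Mv j = 27 := by decide
  have h4 : (6 - 2).choose (5 - 2) = 4 := by decide
  have h5 : (12 - 2).choose (5 - 2) = 120 := by decide
  rw [h3] at h1
  rw [h4, h5] at h2
  show _ = 3
  omega

theorem m1 : ∀ s ⊆ b, s.card = 1 → mm B b s = Mv 1 := by
  intro s hs hc
  have h1 := step B b s (hB.1 b hb) hs 1 hc (by
    intro j hj
    have : j = 2 ∨ j = 3 ∨ j = 4 ∨ j = 5 ∨ j = 6 := by rw [Finset.mem_Ioc] at hj; omega
    rcases this with rfl | rfl | rfl | rfl | rfl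
    · exact m2 hα hB b hb
    · exact m3 hα hB b hb
    · exact m4 hα hB b hb
    · exact m5 hα hB b hb
    · exact m6 hα hB b hb)
  have h2 := lam hα hB b hb s 1 hc (by norm_num)
  have h3 : ∑ j ∈ Finset.Ioc 1 6, (6 - 1).choose (j - 1) * Mv j = 66 := by decide
  have h4 : (6 - 1).choose (5 - 1) = 5 := by decide
  have h5 : (12 - 1).choose (5 - 1) = 330 := by decide
  rw [h3] at h1
  rw [h4, h5] at h2
  show _ = 0
  omega

omit hα hB hb in
theorem ncard_mm (B : Set (Finset α)) (b s : Finset α) :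
    {c : Finset α | c ∈ B ∧ b ∩ c = s}.ncard = mm B b s := by
  unfold mm
  rw [← Set.ncard_coe_finset]
  congr 1
  ext c
  simp [mem_blocks]

end Cfsg.Agent.Lib.Helper1.St12
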