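import Mathlib
import Cfsg.Agent.Lib.Helper1.Symp

set_option autoImplicit false

namespace Cfsg.Agent.Lib.Helper1.Symp

open Matrix

section center

variable {F : Type*} [Field F] {l : Type} [Fintype l] [DecidableEq l]

theorem center_eigen (z : symplecticGroup l F) (hz : z ∈ Subgroup.center (symplecticGroup l F))
    (u : l ⊕ l → F) (hu : u ≠ 0) :
    ∃ c : F, (z : Matrix (l ⊕ l) (l ⊕ l) F) *ᵥ u = c • u := by
  obtain ⟨e, he⟩ := exists_nondeg u hu
  have h1 := Subgroup.mem_center_iff.1 hz ⟨tv u 1, (mem_sp_iff _).2 (tv_isSp u 1)⟩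
  have h2 : tv u 1 * (z : Matrix (l ⊕ l) (l ⊕ l) F) = (z : Matrix (l ⊕ l) (l ⊕ l) F) * tv u 1 :=
    congrArg Subtype.val h1
  have h3 : (tv u 1 * (z : Matrix (l ⊕ l) (l ⊕ l) F)) *ᵥ e =
      ((z : Matrix (l ⊕ l) (l ⊕ l) F) * tv u 1) *ᵥ e := by rw [h2]
  rw [← Matrix.mulVec_mulVec, ← Matrix.mulVec_mulVec, tv_mulVec, tv_mulVec, Matrix.mulVec_add,
    Matrix.mulVec_smul, one_mul, one_mul] at h3
  have h4 : om u ((z : Matrix (l ⊕ l) (l ⊕ l) F) *ᵥ e) • u =
      om u e • ((z : Matrix (l ⊕ l) (l ⊕ l) F) *ᵥ u) := add_left_cancel h3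
  refine ⟨(om u e)⁻¹ * om u ((z : Matrix (l ⊕ l) (l ⊕ l) F) *ᵥ e), ?_⟩
  rw [mul_smul, h4, smul_smul, inv_mul_cancel₀ he, one_smul]

theorem single_ne (j : l ⊕ l) : (Pi.single j (1 : F) : l ⊕ l → F) ≠ 0 := by
  intro h
  have h1 := congrFun h j
  rw [Pi.single_eq_same] at h1
  exact one_ne_zero h1

theorem center_offdiag (z : symplecticGroup l F) (hz : z ∈ Subgroup.center (symplecticGroup l F))
    (i j : l ⊕ l) (hij : i ≠ j) : (z : Matrix (l ⊕ l) (l ⊕ l) F) i j = 0 := by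
  obtain ⟨c, hc⟩ := center_eigen z hz (Pi.single j 1) (single_ne j)
  have h1 := congrFun hc i
  rw [Matrix.mulVec_single_one, Matrix.col_apply, Pi.smul_apply, Pi.single_eq_of_ne hij,
    smul_zero] at h1
  exact h1

theorem center_diag (z : symplecticGroup l F) (hz : z ∈ Subgroup.center (symplecticGroup l F))
    (i j : l ⊕ l) (hij : i ≠ j) :
    (z : Matrix (l ⊕ l) (l ⊕ l) F) i i = (z : Matrix (l ⊕ l) (l ⊕ l) F) j j := by
  have hne : (Pi.single i (1 : F) + Pi.single j 1 : l ⊕ l → F) ≠ 0 := by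
    intro h
    have h1 := congrFun h i
    rw [Pi.add_apply, Pi.single_eq_same, Pi.single_eq_of_ne hij, add_zero] at h1
    exact one_ne_zero h1
  obtain ⟨c, hc⟩ := center_eigen z hz _ hne
  have hi := congrFun hc i
  have hj := congrFun hc j
  rw [Matrix.mulVec_add, Matrix.mulVec_single_one, Matrix.mulVec_single_one, Pi.add_apply,
    Matrix.col_apply, Matrix.col_apply, Pi.smul_apply, Pi.add_apply, Pi.single_eq_same,
    Pi.single_eq_of_ne hij, center_offdiag z hz i j hij, add_zero, add_zero, smul_eq_mul,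
    mul_one] at hi
  rw [Matrix.mulVec_add, Matrix.mulVec_single_one, Matrix.mulVec_single_one, Pi.add_apply,
    Matrix.col_apply, Matrix.col_apply, Pi.smul_apply, Pi.add_apply, Pi.single_eq_same,
    Pi.single_eq_of_ne hij.symm, center_offdiag z hz j i hij.symm, zero_add, zero_add, smul_eq_mul,
    mul_one] at hj
  rw [hi, hj]

theorem center_scalar (z : symplecticGroup l F) (hz : z ∈ Subgroup.center (symplecticGroup l F))
    (k0 : l ⊕ l) :
    (z : Matrix (l ⊕ l) (l ⊕ l) F) =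
      ((z : Matrix (l ⊕ l) (l ⊕ l) F) k0 k0) • (1 : Matrix (l ⊕ l) (l ⊕ l) F) := by
  ext a b
  rw [Matrix.smul_apply, Matrix.one_apply, smul_eq_mul]
  by_cases hab : a = b
  · rw [if_pos hab, mul_one, ← hab]
    by_cases ha : a = k0
    · rw [ha]
    · exact center_diag z hz a k0 ha
  · rw [if_neg hab, mul_zero]
    exact center_offdiag z hz a b hab

theorem smul_isSp (c : F) (hc : c ^ 2 = 1) : IsSp (c • (1 : Matrix (l ⊕ l) (l ⊕ l) F)) := by
  intro x y
  rw [Matrix.smul_mulVec, Matrix.smul_mulVec, Matrix.one_mulVec, Matrix.one_mulVec, om_smul_left,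
    om_smul_right, ← mul_assoc, ← sq, hc, one_mul]

theorem card_center [Fintype F] [Nonempty l] :
    Nat.card (Subgroup.center (symplecticGroup l F)) = Nat.gcd 2 (Fintype.card F - 1) := by
  obtain ⟨i0⟩ := ‹Nonempty l›
  have hcard : Nat.card (powMonoidHom 2 : Fˣ →* Fˣ).ker = Nat.gcd 2 (Fintype.card F - 1) := by
    rw [IsCyclic.card_powMonoidHom_ker, Nat.card_units, Nat.card_eq_fintype_card, Nat.gcd_comm]
  rw [← hcard]
  symm
  have hpow : ∀ c : (powMonoidHom 2 : Fˣ →* Fˣ).ker, ((c : Fˣ) : F) ^ 2 = 1 := by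
    intro c
    have h1 := c.2
    rw [MonoidHom.mem_ker, powMonoidHom_apply] at h1
    have h2 := congrArg Units.val h1
    rwa [Units.val_pow_eq_pow_val, Units.val_one] at h2
  refine Nat.card_eq_of_bijective (fun c => ⟨⟨((c : Fˣ) : F) • (1 : Matrix (l ⊕ l) (l ⊕ l) F),
    (mem_sp_iff _).2 (smul_isSp _ (hpow c))⟩, ?_⟩) ⟨?_, ?_⟩
  · rw [Subgroup.mem_center_iff]
    intro g
    apply Subtype.ext
    change (g : Matrix (l ⊕ l) (l ⊕ l) F) * (((c : Fˣ) : F) • (1 : Matrix (l ⊕ l) (l ⊕ l) F)) =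
      (((c : Fˣ) : F) • (1 : Matrix (l ⊕ l) (l ⊕ l) F)) * (g : Matrix (l ⊕ l) (l ⊕ l) F)
    rw [Matrix.mul_smul, Matrix.smul_mul, mul_one, one_mul]
  · intro c c' hcc
    have h1 := congrArg (fun s : Subgroup.center (symplecticGroup l F) =>
      ((s : symplecticGroup l F) : Matrix (l ⊕ l) (l ⊕ l) F) (Sum.inl i0) (Sum.inl i0)) hcc
    change (((c : Fˣ) : F) • (1 : Matrix (l ⊕ l) (l ⊕ l) F)) (Sum.inl i0) (Sum.inl i0) =
      (((c' : Fˣ) : F) • (1 : Matrix (l ⊕ l) (l ⊕ l) F)) (Sum.inl i0) (Sum.inl i0) at h1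
    rw [Matrix.smul_apply, Matrix.smul_apply, Matrix.one_apply_eq, smul_eq_mul, smul_eq_mul,
      mul_one, mul_one] at h1
    exact Subtype.ext (Units.ext h1)
  · intro z
    have hs := center_scalar z.1 z.2 (Sum.inl i0)
    have hiz : IsSp ((z.1 : symplecticGroup l F) : Matrix (l ⊕ l) (l ⊕ l) F) :=
      (mem_sp_iff _).1 z.1.2
    obtain ⟨e, he⟩ := exists_nondeg (Pi.single (Sum.inl i0) (1 : F)) (single_ne _)
    have h1 := hiz (Pi.single (Sum.inl i0) 1) e
    rw [hs, Matrix.smul_mulVec, Matrix.smul_mulVec, Matrix.one_mulVec, Matrix.one_mulVec,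
      om_smul_left, om_smul_right, ← mul_assoc, ← sq] at h1
    have hc2 : (((z.1 : symplecticGroup l F) : Matrix (l ⊕ l) (l ⊕ l) F) (Sum.inl i0)
        (Sum.inl i0)) ^ 2 = 1 := by
      have h2 : ((((z.1 : symplecticGroup l F) : Matrix (l ⊕ l) (l ⊕ l) F) (Sum.inl i0)
          (Sum.inl i0)) ^ 2 - 1) * om (Pi.single (Sum.inl i0) 1) e = 0 := by
        linear_combination h1
      rcases mul_eq_zero.1 h2 with h3 | h3
      · exact sub_eq_zero.1 h3
      · exact absurd h3 he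
    have hc0 : ((z.1 : symplecticGroup l F) : Matrix (l ⊕ l) (l ⊕ l) F) (Sum.inl i0)
        (Sum.inl i0) ≠ 0 := by
      intro h0
      rw [h0] at hc2
      norm_num at hc2
    have hmem : Units.mk0 _ hc0 ∈ (powMonoidHom 2 : Fˣ →* Fˣ).ker := by
      rw [MonoidHom.mem_ker, powMonoidHom_apply]
      apply Units.ext
      rw [Units.val_pow_eq_pow_val, Units.val_mk0, Units.val_one]
      exact hc2
    refine ⟨⟨Units.mk0 _ hc0, hmem⟩, ?_⟩
    apply Subtype.ext
    apply Subtype.ext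
    exact hs.symm

end center

end Cfsg.Agent.Lib.Helper1.Symp
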