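import Cfsg.Agent.S1591

set_option autoImplicit false

namespace Cfsg.Agent.Lib.Helper1.TG

open Cfsg

/-- parameter type: (s, x00, x10, x11, x20, x21) -/
abbrev T := ZMod 3 × ZMod 3 × ZMod 3 × ZMod 3 × ZMod 3 × ZMod 3

/-- the codeword with given parameters -/
def P (v : T) : ArrayPt → ZMod 3 := fun p =>
  match v with
  | (s, a, b, c, d, e) =>
    let x00 := a
    let x10 := b
    let x11 := c
    let x20 := d
    let x21 := e
    let x30 := s - a - b - d
    let x31 := s - a - c - e
    let x01 := 4 * s - 2 * a - 2 * b - c - d - 2 * e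
    if p.1 = 0 then (if p.2 = 0 then x00 else if p.2 = 1 then x01 else -s - x00 - x01)
    else if p.1 = 1 then (if p.2 = 0 then x10 else if p.2 = 1 then x11 else -s - x10 - x11)
    else if p.1 = 2 then (if p.2 = 0 then x20 else if p.2 = 1 then x21 else -s - x20 - x21)
    else (if p.2 = 0 then x30 else if p.2 = 1 then x31 else -s - x30 - x31)

/-- parameter extraction -/
def Q (x : ArrayPt → ZMod 3) : T :=
  (-(x (0, 0) + x (0, 1) + x (0, 2)), x (0, 0), x (1, 0), x (1, 1), x (2, 0), x (2, 1))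

theorem Q_P : ∀ v : T, Q (P v) = v := by decide +kernel

theorem col_sum : ∀ v : T, ∀ i : Fin 4, ∑ r : ZMod 3, P v (i, r) = -v.1 := by decide +kernel

theorem tet_sum : ∀ v : T, ∀ α β : ZMod 3,
    ∑ i : Fin 4, P v (i, (α • ![0, 1, 1, 1] + β • ![1, 0, 1, 2] : Fin 4 → ZMod 3) i) = v.1 := by
  decide +kernel

theorem P_mem (v : T) : P v ∈ ternaryGolayCode := by
  refine ⟨v.1, col_sum v, ?_⟩
  intro t ht
  unfold tetracode at ht
  rw [Submodule.mem_span_pair] at ht
  obtain ⟨α, β, rfl⟩ := ht
  exact tet_sum v α β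

theorem mem_iff (x : ArrayPt → ZMod 3) : x ∈ ternaryGolayCode ↔ ∃ v : T, x = P v := by
  constructor
  · intro hx
    obtain ⟨s, e30, e31, e01, e2⟩ := Cfsg.Agent.S1591.word_eqs x hx
    refine ⟨(s, x (0, 0), x (1, 0), x (1, 1), x (2, 0), x (2, 1)), ?_⟩
    funext ⟨i, r⟩
    fin_cases i <;> fin_cases r
    · rfl
    · exact e01
    · show x (0, 2) = _
      rw [e2 0, e01]
      rfl
    · rfl
    · rfl
    · show x (1, 2) = _
      rw [e2 1]
      rfl
    · rfl
    · rfl
    · show x (2, 2) = _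
      rw [e2 2]
      rfl
    · exact e30
    · exact e31
    · show x (3, 2) = _
      rw [e2 3, e30, e31]
      rfl
  · rintro ⟨v, rfl⟩
    exact P_mem v

theorem P_inj : Function.Injective P := by
  intro v v' h
  rw [← Q_P v, ← Q_P v', h]

/-- weight of the codeword with given parameters -/
def W (v : T) : ℕ := (ternarySupport (P v)).card

theorem W_vals : ∀ v : T, v = 0 ∨ W v = 6 ∨ W v = 9 ∨ W v = 12 := by decide +kernel

theorem W_counts : (Finset.univ.filter (fun v : T => W v = 6)).card = 264 ∧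
    (Finset.univ.filter (fun v : T => W v = 9)).card = 440 ∧
    (Finset.univ.filter (fun v : T => W v = 12)).card = 24 := by decide +kernel

theorem P_zero : P 0 = 0 := by decide +kernel

theorem card_code : Nat.card ternaryGolayCode = 729 := by
  have e : T ≃ ternaryGolayCode :=
    Equiv.ofBijective (fun v => ⟨P v, P_mem v⟩) ⟨fun v v' h => P_inj (congrArg Subtype.val h),
      fun ⟨x, hx⟩ => by
        obtain ⟨v, rfl⟩ := (mem_iff x).mp hx
        exact ⟨v, rfl⟩⟩
  rw [← Nat.card_congr e, Nat.card_eq_fintype_card]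
  simp [ZMod.card]

theorem wt_ncard (k : ℕ) : {x : ArrayPt → ZMod 3 | x ∈ ternaryGolayCode ∧
    (ternarySupport x).card = k}.ncard = (Finset.univ.filter (fun v : T => W v = k)).card := by
  have h : {x : ArrayPt → ZMod 3 | x ∈ ternaryGolayCode ∧ (ternarySupport x).card = k}
      = ↑((Finset.univ.filter (fun v : T => W v = k)).image P) := by
    ext x
    rw [Finset.coe_image]
    constructor
    · rintro ⟨hx, hk⟩
      obtain ⟨v, rfl⟩ := (mem_iff x).mp hx
      refine ⟨v, ?_, rfl⟩
      rw [Finset.mem_coe, Finset.mem_filter]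
      exact ⟨Finset.mem_univ _, hk⟩
    · rintro ⟨v, hv, rfl⟩
      rw [Finset.mem_coe, Finset.mem_filter] at hv
      exact ⟨P_mem v, hv.2⟩
  rw [h, Set.ncard_coe_finset, Finset.card_image_of_injective _ P_inj]

end Cfsg.Agent.Lib.Helper1.TG
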