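import Cfsg.Agent.Lib.Helper1.TGolay

set_option autoImplicit false

namespace Cfsg.Agent.Lib.Helper1.TG

open Cfsg

/-- sign change on a set of positions -/
def sg (m : Finset ArrayPt) (x : ArrayPt → ZMod 3) : ArrayPt → ZMod 3 :=
  fun p => if p ∈ m then -x p else x p

/-- six generators (unit parameter vectors) -/
def gen (j : Fin 6) : T :=
  if j = 0 then (1, 0, 0, 0, 0, 0) else if j = 1 then (0, 1, 0, 0, 0, 0)
  else if j = 2 then (0, 0, 1, 0, 0, 0) else if j = 3 then (0, 0, 0, 1, 0, 0)
  else if j = 4 then (0, 0, 0, 0, 1, 0) else (0, 0, 0, 0, 0, 1)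

set_option maxRecDepth 100000 in
theorem sg_kernel : ∀ m : Finset ArrayPt,
    (∀ j : Fin 6, sg m (P (gen j)) = P (Q (sg m (P (gen j))))) → m = ∅ ∨ m = Finset.univ := by
  decide +kernel

theorem units3 : ∀ u : (ZMod 3)ˣ, u = 1 ∨ u = -1 := by decide

theorem diag_kernel (c : ArrayPt → (ZMod 3)ˣ)
    (h : ∀ x ∈ ternaryGolayCode, monomialMap 1 c x ∈ ternaryGolayCode) :
    (∀ p, c p = 1) ∨ (∀ p, c p = -1) := by
  obtain ⟨M, hM⟩ : ∃ M : Finset ArrayPt, ∀ p, p ∈ M ↔ c p = -1 :=
    ⟨Finset.univ.filter (fun p => c p = -1), fun p => by simp⟩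
  have hm := sg_kernel M (by
    intro j
    have h1 := h (P (gen j)) (P_mem _)
    have h2 : monomialMap 1 c (P (gen j)) = sg M (P (gen j)) := by
      funext p
      unfold monomialMap sg
      show (c p : ZMod 3) * P (gen j) p = _
      by_cases hp : c p = -1
      · rw [if_pos ((hM p).mpr hp), hp]
        simp
      · rw [if_neg (fun hh => hp ((hM p).mp hh))]
        rcases units3 (c p) with h3 | h3
        · rw [h3]
          simp
        · exact absurd h3 hp
    rw [h2] at h1
    obtain ⟨v, hv⟩ := (mem_iff _).mp h1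
    rw [hv, Q_P])
  rcases hm with hm | hm
  · left
    intro p
    have hp : p ∉ M := by
      rw [hm]
      exact Finset.notMem_empty p
    rcases units3 (c p) with h3 | h3
    · exact h3
    · exact absurd ((hM p).mpr h3) hp
  · right
    intro p
    have hp : p ∈ M := by
      rw [hm]
      exact Finset.mem_univ p
    exact (hM p).mp hp

end Cfsg.Agent.Lib.Helper1.TG
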