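import Cfsg.Agent.Lib.Helper1.TGolay

set_option autoImplicit false

namespace Cfsg.Agent.Lib.Helper1.TG

open Cfsg Finset

theorem steiner_of_count {α : Type*} [Fintype α] [DecidableEq α] (H : Finset (Finset α))
    (t k : ℕ) (hk : ∀ h ∈ H, h.card = k)
    (hpair : ∀ h ∈ H, ∀ h' ∈ H, h ≠ h' → (h ∩ h').card < t)
    (hcount : H.card * k.choose t = (Fintype.card α).choose t) :
    IsSteinerSystem t k (↑H : Set (Finset α)) := by
  refine ⟨fun b hb => hk b (Finset.mem_coe.mp hb), ?_⟩
  have key := Finset.sum_card_bipartiteAbove_eq_sum_card_bipartiteBelow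
    (s := powersetCard t (univ : Finset α)) (t := H) (r := fun s h => s ⊆ h)
  have hR : ∀ h ∈ H, #(Finset.bipartiteBelow (fun s h => s ⊆ h)
      (powersetCard t (univ : Finset α)) h) = k.choose t := by
    intro h hh
    rw [← hk h hh, ← Finset.card_powersetCard]
    congr 1
    ext s
    simp only [Finset.bipartiteBelow, mem_filter, mem_powersetCard, subset_univ, true_and]
    tauto
  rw [Finset.sum_congr rfl hR, Finset.sum_const, smul_eq_mul, hcount] at key
  have hle : ∀ s ∈ powersetCard t (univ : Finset α),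
      #(Finset.bipartiteAbove (fun s h => s ⊆ h) H s) ≤ 1 := by
    intro s hs
    rw [mem_powersetCard] at hs
    rw [Finset.card_le_one]
    intro a ha b hb
    simp only [Finset.bipartiteAbove, mem_filter] at ha hb
    by_contra hab
    have h1 := hpair a ha.1 b hb.1 hab
    have h2 := Finset.card_le_card (Finset.subset_inter ha.2 hb.2)
    omega
  have hall : ∀ s ∈ powersetCard t (univ : Finset α),
      #(Finset.bipartiteAbove (fun s h => s ⊆ h) H s) = 1 := by
    intro s₀ hs₀
    by_contra hne
    have h0 : #(Finset.bipartiteAbove (fun s h => s ⊆ h) H s₀) = 0 := by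
      have := hle s₀ hs₀
      omega
    have herase := Finset.add_sum_erase (powersetCard t (univ : Finset α))
      (fun s => #(Finset.bipartiteAbove (fun s h => s ⊆ h) H s)) hs₀
    have hbound : ∑ s ∈ (powersetCard t (univ : Finset α)).erase s₀,
        #(Finset.bipartiteAbove (fun s h => s ⊆ h) H s)
          ≤ ((powersetCard t (univ : Finset α)).erase s₀).card • 1 := by
      apply Finset.sum_le_card_nsmul
      intro s hs
      exact hle s (Finset.mem_of_mem_erase hs)
    rw [Finset.card_erase_of_mem hs₀, Finset.card_powersetCard, Finset.card_univ, smul_eq_mul,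
      mul_one] at hbound
    have hpos : 0 < (Fintype.card α).choose t := by
      rw [← Finset.card_univ, ← Finset.card_powersetCard]
      exact Finset.card_pos.mpr ⟨s₀, hs₀⟩
    rw [h0] at herase
    omega
  intro s hs
  have h1 := hall s (mem_powersetCard.mpr ⟨subset_univ _, hs⟩)
  rw [Finset.card_eq_one] at h1
  obtain ⟨b, hb⟩ := h1
  have hb' : b ∈ Finset.bipartiteAbove (fun s h => s ⊆ h) H s := by
    rw [hb]
    exact Finset.mem_singleton_self b
  simp only [Finset.bipartiteAbove, mem_filter] at hb'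
  refine ⟨b, ⟨Finset.mem_coe.mpr hb'.1, hb'.2⟩, ?_⟩
  rintro c ⟨hc, hsc⟩
  have hc' : c ∈ Finset.bipartiteAbove (fun s h => s ⊆ h) H s := by
    simp only [Finset.bipartiteAbove, mem_filter]
    exact ⟨Finset.mem_coe.mp hc, hsc⟩
  rw [hb] at hc'
  exact Finset.mem_singleton.mp hc'

theorem mem_ts (x : ArrayPt → ZMod 3) (p : ArrayPt) : p ∈ ternarySupport x ↔ x p ≠ 0 := by
  simp [ternarySupport]

theorem min_wt (z : ArrayPt → ZMod 3) (hz : z ∈ ternaryGolayCode) (h0 : z ≠ 0) :
    6 ≤ (ternarySupport z).card := by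
  obtain ⟨v, rfl⟩ := (mem_iff z).mp hz
  rcases W_vals v with h | h | h | h
  · exact absurd (h ▸ P_zero) h0
  all_goals (unfold W at h; omega)

theorem z3_add : ∀ a b : ZMod 3, a ≠ 0 → b ≠ 0 → a ≠ b → a + b = 0 := by decide

/-- two weight-6 words that are not equal or opposite meet in at most 4 points -/
theorem inter_le (x y : ArrayPt → ZMod 3) (hx : x ∈ ternaryGolayCode) (hy : y ∈ ternaryGolayCode)
    (hx6 : (ternarySupport x).card = 6) (hy6 : (ternarySupport y).card = 6)
    (hne : x ≠ y) (hne' : x ≠ -y) : (ternarySupport x ∩ ternarySupport y).card ≤ 4 := by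
  have hU := Finset.card_union_add_card_inter (ternarySupport x) (ternarySupport y)
  have hAB := Finset.card_filter_add_card_filter_not
    (s := ternarySupport x ∩ ternarySupport y) (fun i => x i = y i)
  have h1 : ternarySupport (x - y) ⊆ (ternarySupport x ∪ ternarySupport y) \
      (ternarySupport x ∩ ternarySupport y).filter (fun i => x i = y i) := by
    intro i hi
    rw [mem_ts, Pi.sub_apply] at hi
    rw [Finset.mem_sdiff, Finset.mem_union, mem_ts, mem_ts, Finset.mem_filter]
    refine ⟨?_, fun h => hi (sub_eq_zero.mpr h.2)⟩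
    by_contra hh
    push Not at hh
    rw [hh.1, hh.2] at hi
    exact hi (sub_zero 0)
  have h2 : ternarySupport (x + y) ⊆ (ternarySupport x ∪ ternarySupport y) \
      (ternarySupport x ∩ ternarySupport y).filter (fun i => ¬ x i = y i) := by
    intro i hi
    rw [mem_ts, Pi.add_apply] at hi
    rw [Finset.mem_sdiff, Finset.mem_union, mem_ts, mem_ts, Finset.mem_filter, Finset.mem_inter,
      mem_ts, mem_ts]
    refine ⟨?_, fun h => hi (z3_add _ _ h.1.1 h.1.2 h.2)⟩
    by_contra hh
    push Not at hh
    rw [hh.1, hh.2] at hi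
    exact hi (add_zero 0)
  have hsubA : (ternarySupport x ∩ ternarySupport y).filter (fun i => x i = y i)
      ⊆ ternarySupport x ∪ ternarySupport y :=
    (Finset.filter_subset _ _).trans (Finset.inter_subset_left.trans Finset.subset_union_left)
  have hsubB : (ternarySupport x ∩ ternarySupport y).filter (fun i => ¬ x i = y i)
      ⊆ ternarySupport x ∪ ternarySupport y :=
    (Finset.filter_subset _ _).trans (Finset.inter_subset_left.trans Finset.subset_union_left)
  have h3 := Finset.card_le_card h1
  have h4 := Finset.card_le_card h2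
  rw [Finset.card_sdiff_of_subset hsubA] at h3
  rw [Finset.card_sdiff_of_subset hsubB] at h4
  have h5 := min_wt (x - y) (ternaryGolayCode.sub_mem hx hy) (sub_ne_zero.mpr hne)
  have h6 := min_wt (x + y) (ternaryGolayCode.add_mem hx hy)
    (fun h => hne' (eq_neg_of_add_eq_zero_left h))
  have hA := Finset.card_le_card hsubA
  have hB := Finset.card_le_card hsubB
  omega

theorem ts_neg (x : ArrayPt → ZMod 3) : ternarySupport (-x) = ternarySupport x := by
  ext p
  rw [mem_ts, mem_ts, Pi.neg_apply, neg_ne_zero]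

/-- the hexads as a set -/
def HS : Set (Finset ArrayPt) :=
  {h | ∃ x ∈ ternaryGolayCode, ternarySupport x = h ∧ h.card = 6}

/-- weight-6 words as a finset -/
noncomputable def X6 : Finset (ArrayPt → ZMod 3) :=
  (Finset.univ.filter (fun v : T => W v = 6)).image P

theorem mem_X6 (x : ArrayPt → ZMod 3) :
    x ∈ X6 ↔ x ∈ ternaryGolayCode ∧ (ternarySupport x).card = 6 := by
  unfold X6
  rw [Finset.mem_image]
  constructor
  · rintro ⟨v, hv, rfl⟩
    rw [Finset.mem_filter] at hv
    exact ⟨P_mem v, hv.2⟩
  · rintro ⟨hx, h6⟩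
    obtain ⟨v, rfl⟩ := (mem_iff x).mp hx
    exact ⟨v, Finset.mem_filter.mpr ⟨Finset.mem_univ _, h6⟩, rfl⟩

theorem card_X6 : X6.card = 264 := by
  unfold X6
  rw [Finset.card_image_of_injective _ P_inj]
  exact W_counts.1

theorem HS_eq : HS = ↑(X6.image ternarySupport) := by
  ext h
  rw [Finset.coe_image]
  constructor
  · rintro ⟨x, hx, rfl, h6⟩
    exact ⟨x, Finset.mem_coe.mpr ((mem_X6 x).mpr ⟨hx, h6⟩), rfl⟩
  · rintro ⟨x, hx, rfl⟩
    have := (mem_X6 x).mp (Finset.mem_coe.mp hx)
    exact ⟨x, this.1, rfl, this.2⟩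

theorem neg_ne_self (x : ArrayPt → ZMod 3) (h6 : (ternarySupport x).card = 6) : x ≠ -x := by
  intro h
  have hp : (ternarySupport x).Nonempty := Finset.card_pos.mp (by omega)
  obtain ⟨p, hp⟩ := hp
  rw [mem_ts] at hp
  have h1 := congrFun h p
  rw [Pi.neg_apply] at h1
  revert hp h1
  generalize x p = a
  revert a
  decide

theorem card_hex : (X6.image ternarySupport).card = 132 := by
  have h1 := Finset.card_eq_sum_card_image ternarySupport X6
  have h2 : ∀ h ∈ X6.image ternarySupport, #{x ∈ X6 | ternarySupport x = h} = 2 := by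
    intro h hh
    rw [Finset.mem_image] at hh
    obtain ⟨x, hx, rfl⟩ := hh
    have hx' := (mem_X6 x).mp hx
    have hnx : -x ∈ X6 := by
      rw [mem_X6, ts_neg]
      exact ⟨ternaryGolayCode.neg_mem hx'.1, hx'.2⟩
    have hset : {y ∈ X6 | ternarySupport y = ternarySupport x} = {x, -x} := by
      ext y
      rw [Finset.mem_filter, Finset.mem_insert, Finset.mem_singleton]
      constructor
      · rintro ⟨hy, hys⟩
        have hy' := (mem_X6 y).mp hy
        by_contra hcon
        push Not at hcon
        have h3 := inter_le y x hy'.1 hx'.1 hy'.2 hx'.2 hcon.1 hcon.2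
        rw [hys, Finset.inter_self, hx'.2] at h3
        omega
      · rintro (rfl | rfl)
        · exact ⟨hx, rfl⟩
        · exact ⟨hnx, ts_neg x⟩
    rw [hset, Finset.card_pair (neg_ne_self x hx'.2)]
  rw [Finset.sum_congr rfl h2, Finset.sum_const, smul_eq_mul, card_X6] at h1
  omega

theorem HS_ncard : HS.ncard = 132 := by
  rw [HS_eq, Set.ncard_coe_finset, card_hex]

theorem HS_steiner : IsSteinerSystem 5 6 HS := by
  rw [HS_eq]
  apply steiner_of_count
  · intro h hh
    rw [Finset.mem_image] at hh
    obtain ⟨x, hx, rfl⟩ := hh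
    exact ((mem_X6 x).mp hx).2
  · intro h hh h' hh' hne
    rw [Finset.mem_image] at hh hh'
    obtain ⟨x, hx, rfl⟩ := hh
    obtain ⟨y, hy, rfl⟩ := hh'
    have hx' := (mem_X6 x).mp hx
    have hy' := (mem_X6 y).mp hy
    have h3 := inter_le x y hx'.1 hy'.1 hx'.2 hy'.2 (fun h => hne (by rw [h]))
      (fun h => hne (by rw [h, ts_neg]))
    omega
  · rw [card_hex]
    simp [ZMod.card]
    decide

end Cfsg.Agent.Lib.Helper1.TG
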