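import Mathlib
import Cfsg.Agent.Lib.Helper1.SympP
import Cfsg.Prelude.Def_SporadicB

namespace Cfsg.Agent.Lib.Helper1.Tr3

open Matrix Symp

variable {n : ℕ}

theorem z2_cases (c : ZMod 2) : c = 0 ∨ c = 1 := by
  revert c; decide

theorem rank_tv (u : Fin n ⊕ Fin n → ZMod 2) (hu : u ≠ 0) :
    (tv u (1 : ZMod 2) - 1).rank = 1 := by
  have h1 : tv u (1 : ZMod 2) - 1 = Matrix.vecMulVec u (jl u) := by
    ext i j; simp [tv, Matrix.vecMulVec_apply]
  apply le_antisymm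
  · rw [h1]; exact Matrix.rank_vecMulVec_le _ _
  · rw [Nat.one_le_iff_ne_zero]
    intro h0
    unfold Matrix.rank at h0
    rw [Submodule.finrank_eq_zero, LinearMap.range_eq_bot] at h0
    obtain ⟨e, he⟩ := exists_nondeg u hu
    have h2 := congrArg (fun f => f e) h0
    simp only [Matrix.mulVecLin_apply, LinearMap.zero_apply] at h2
    rw [Matrix.sub_mulVec, Matrix.one_mulVec, tv_mulVec, one_mul, add_sub_cancel_left] at h2
    rcases smul_eq_zero.1 h2 with h | h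
    · exact he h
    · exact hu h

theorem exists_tv_of_rank (g : symplecticGroup (Fin n) (ZMod 2))
    (h : (g.1 - 1).rank = 1) : ∃ u : Fin n ⊕ Fin n → ZMod 2, u ≠ 0 ∧ g = tvS u 1 := by
  obtain ⟨M, hM⟩ : ∃ M : Matrix (Fin n ⊕ Fin n) (Fin n ⊕ Fin n) (ZMod 2), M = g.1 - 1 := ⟨_, rfl⟩
  rw [← hM] at h
  have hg := sp_isSp g
  have hx0 : ∃ x0, M *ᵥ x0 ≠ 0 := by
    by_contra hcon
    push_neg at hcon
    have h0 : LinearMap.range M.mulVecLin = ⊥ := by
      rw [LinearMap.range_eq_bot]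
      apply LinearMap.ext
      intro x
      simp [hcon x]
    unfold Matrix.rank at h
    rw [h0, finrank_bot] at h
    exact zero_ne_one h
  obtain ⟨x0, hx0⟩ := hx0
  obtain ⟨u, hu⟩ : ∃ u, u = M *ᵥ x0 := ⟨_, rfl⟩
  rw [← hu] at hx0
  have hrange : ∀ x, M *ᵥ x = 0 ∨ M *ᵥ x = u := by
    intro x
    unfold Matrix.rank at h
    have hv : (⟨u, ⟨x0, hu.symm⟩⟩ : LinearMap.range M.mulVecLin) ≠ 0 := by
      intro h0; apply hx0; exact congrArg Subtype.val h0
    obtain ⟨c, hc⟩ := (finrank_eq_one_iff_of_nonzero' _ hv).1 h ⟨M *ᵥ x, ⟨x, rfl⟩⟩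
    have hc' : c • u = M *ᵥ x := congrArg Subtype.val hc
    rcases z2_cases c with rfl | rfl
    · left; rw [← hc', zero_smul]
    · right; rw [← hc', one_smul]
  have hgx : ∀ x, g.1 *ᵥ x = x + M *ᵥ x := by
    intro x; rw [hM, Matrix.sub_mulVec, Matrix.one_mulVec]; abel
  have huu : om u u = 0 := om_self u
  have hE : ∀ y, om u y = om (M *ᵥ y) x0 := by
    intro y
    have h3 := hg x0 y
    rw [hgx, hgx, ← hu, om_add_left, om_add_right, om_add_right] at h3
    have h4 : om u (M *ᵥ y) = 0 := by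
      rcases hrange y with h' | h'
      · rw [h', om_swap, om_zero_left, neg_zero]
      · rw [h', huu]
    rw [h4, add_zero] at h3
    rw [om_swap (M *ᵥ y) x0]
    linear_combination h3
  obtain ⟨y0, hy0⟩ := exists_nondeg u hx0
  have hux0 : om u x0 = 1 := by
    rcases z2_cases (om u x0) with h' | h'
    · exfalso; apply hy0
      rw [hE y0]
      rcases hrange y0 with h'' | h''
      · rw [h'', om_zero_left]
      · rw [h'', h']
    · exact h'
  refine ⟨u, hx0, ?_⟩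
  apply Subtype.ext
  apply mulVec_ext
  intro y
  rw [tvS_val, tv_mulVec, hgx, one_mul]
  congr 1
  rcases hrange y with h' | h'
  · rw [h', hE y, h', om_zero_left, zero_smul]
  · rw [h', hE y, h', hux0, one_smul]

theorem three_transp (n : ℕ) (hn : 1 ≤ n) :
    Cfsg.IsThreeTranspositionClass {g : symplecticGroup (Fin n) (ZMod 2) |
      ((g : Matrix (Fin n ⊕ Fin n) (Fin n ⊕ Fin n) (ZMod 2)) - 1).rank = 1} := by
  have hD : ∀ g : symplecticGroup (Fin n) (ZMod 2),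
      g ∈ {g : symplecticGroup (Fin n) (ZMod 2) |
        ((g : Matrix (Fin n ⊕ Fin n) (Fin n ⊕ Fin n) (ZMod 2)) - 1).rank = 1}
        ↔ ∃ u : Fin n ⊕ Fin n → ZMod 2, u ≠ 0 ∧ g = tvS u 1 := by
    intro g; constructor
    · exact exists_tv_of_rank g
    · rintro ⟨u, hu, rfl⟩; exact rank_tv u hu
  have hsq : ∀ u : Fin n ⊕ Fin n → ZMod 2, tvS u (1 : ZMod 2) * tvS u 1 = 1 := by
    intro u
    rw [tvS_mul]
    have : (1 : ZMod 2) + 1 = 0 := by decide
    rw [this, tvS_zero]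
  have hinv : ∀ u : Fin n ⊕ Fin n → ZMod 2, (tvS u (1 : ZMod 2))⁻¹ = tvS u 1 :=
    fun u => inv_eq_of_mul_eq_one_left (hsq u)
  have hconj : ∀ u v : Fin n ⊕ Fin n → ZMod 2,
      tvS u (1 : ZMod 2) * tvS v 1 * tvS u 1 = tvS (v + (om u v) • u) 1 := by
    intro u v
    have h1 := tvS_conj (tvS u (1 : ZMod 2)) v 1
    rw [hinv, tvS_val, tv_mulVec, one_mul] at h1
    exact h1
  refine ⟨⟨?_, ?_⟩, ?_, ?_⟩
  · intro d hd
    obtain ⟨u, hu, rfl⟩ := (hD d).1 hd
    apply orderOf_eq_prime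
    · rw [pow_two]; exact hsq u
    · intro h1
      have h2 : ((tvS u (1 : ZMod 2) : Matrix (Fin n ⊕ Fin n) (Fin n ⊕ Fin n) (ZMod 2)) - 1).rank
          = 1 := hd
      rw [h1] at h2
      simp at h2
  · intro d hd e he
    obtain ⟨u, hu, rfl⟩ := (hD d).1 hd
    obtain ⟨v, hv, rfl⟩ := (hD e).1 he
    have hc1 := hconj u v
    have hc2 := hconj v u
    rcases z2_cases (om u v) with h0 | h1
    · left
      rw [h0, zero_smul, add_zero] at hc1
      rw [pow_two]
      calc tvS u (1 : ZMod 2) * tvS v 1 * (tvS u 1 * tvS v 1)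
          = (tvS u 1 * tvS v 1 * tvS u 1) * tvS v 1 := by group
        _ = 1 := by rw [hc1, hsq]
    · right
      have h1' : om v u = 1 := by rw [om_swap, h1]; decide
      rw [h1, one_smul] at hc1
      rw [h1', one_smul, add_comm] at hc2
      calc (tvS u (1 : ZMod 2) * tvS v 1) ^ 3
          = (tvS u 1 * tvS v 1 * tvS u 1) * (tvS v 1 * tvS u 1 * tvS v 1) := by
            simp only [pow_succ, pow_zero, one_mul, mul_assoc]
        _ = 1 := by rw [hc1, hc2, hsq]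
  · have hu0 : (Pi.single (Sum.inl ⟨0, hn⟩) (1 : ZMod 2) : Fin n ⊕ Fin n → ZMod 2) ≠ 0 :=
      single_ne_zero' _
    refine ⟨tvS (Pi.single (Sum.inl ⟨0, hn⟩) 1) 1, (hD _).2 ⟨_, hu0, rfl⟩, ?_⟩
    ext d
    rw [hD]
    show _ ↔ IsConj _ d
    rw [isConj_iff]
    constructor
    · rintro ⟨u, hu, rfl⟩
      obtain ⟨g, hg⟩ := exists_sp _ u hu0 hu
      exact ⟨g, by rw [tvS_conj, hg]⟩
    · rintro ⟨g, rfl⟩
      rw [tvS_conj]
      exact ⟨_, isSp_injective (sp_isSp g) hu0, rfl⟩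
  · rw [eq_top_iff, ← closure_tv n]
    apply (Subgroup.closure_le _).2
    rintro x ⟨u, a, rfl⟩
    rcases z2_cases a with rfl | rfl
    · rw [tvS_zero]; exact one_mem _
    · by_cases hu : u = 0
      · rw [hu, tvS_zero_vec]; exact one_mem _
      · exact Subgroup.subset_closure ((hD _).2 ⟨u, hu, rfl⟩)

end Cfsg.Agent.Lib.Helper1.Tr3
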